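import Cfsg.Agent.H25.UGDefs

/-! Lower bounds for the number of orbits on vectors of a group of isometries. -/

set_option autoImplicit false

namespace Cfsg.Agent.H27.UgOrb

open Cfsg Module Cfsg.Agent.H31 Cfsg.Agent.H25.UG
open Cfsg.Agent.H53.Uw (St)

universe u

variable {E K : Type u} [Field E] [Field K] [Algebra E K] {σ : E →+* E}
  {B : K →ₛₗ[σ] K →ₗ[E] E} {G : Subgroup (K ≃ₗ[E] K)}

/-- Two vectors lie in one orbit. -/
def Rl (G : Subgroup (K ≃ₗ[E] K)) (u v : K) : Prop := ∃ g ∈ G, g u = v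

theorem Rl.rfl (u : K) : Rl G u u := ⟨1, one_mem _, by simp⟩

theorem Rl.symm {u v : K} (h : Rl G u v) : Rl G v u := by
  obtain ⟨g, hg, e⟩ := h
  exact ⟨g⁻¹, inv_mem hg, by rw [← e]; simp⟩

theorem Rl.trans {u v w : K} (h : Rl G u v) (h' : Rl G v w) : Rl G u w := by
  obtain ⟨g, hg, e⟩ := h
  obtain ⟨k, hk, e'⟩ := h'
  exact ⟨k * g, mul_mem hk hg, by rw [LinearEquiv.mul_apply, e, e']⟩

theorem Rl.smul {u v : K} (h : Rl G u v) (a : E) : Rl G (a • u) (a • v) := by
  obtain ⟨g, hg, e⟩ := h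
  exact ⟨g, hg, by rw [map_smul, e]⟩

theorem Rl.norm (hG : G ≤ isom B) {u v : K} (h : Rl G u v) : B u u = B v v := by
  obtain ⟨g, hg, e⟩ := h
  rw [← e, hG hg]

theorem Rl.zero {v : K} (h : Rl G 0 v) : v = 0 := by
  obtain ⟨g, -, e⟩ := h
  rw [← e, map_zero]

theorem iso_smul {w : K} (h : B w w = 0) (a : E) : B (a • w) (a • w) = 0 := by
  rw [smul_left, smul_right, h, mul_zero, mul_zero]

theorem card_le [Finite K] {ι : Type*} (w : ι → K) (h : ∀ i j, Rl G (w i) (w j) → i = j) :
    Nat.card ι ≤ nO G := by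
  refine Nat.card_le_card_of_injective
    (fun i => (Quotient.mk'' (w i) : MulAction.orbitRel.Quotient G K)) fun i j e => ?_
  obtain ⟨g, hg⟩ := MulAction.orbitRel_apply.1 (Quotient.exact' e)
  exact (h j i ⟨g.1, g.2, hg⟩).symm

variable [Fintype E] [Finite K] {q : ℕ}

theorem lb (S : St B q) (h7 : finrank E K = 7) (hG : G ≤ isom B) {ι : Type} [Finite ι] (w : ι → K)
    (h0 : ∀ i, w i ≠ 0) (h1 : ∀ i, B (w i) (w i) = 0) (h : ∀ i j, Rl G (w i) (w j) → i = j) :
    q + Nat.card ι ≤ nO G := by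
  have ex : ∀ r : {r : E // σ r = r}, ∃ x, B x x = r ∧ (r.1 = 0 → x = 0) := fun r => by
    by_cases hr : r.1 = 0
    · exact ⟨0, by rw [map_zero, hr], fun _ => rfl⟩
    · obtain ⟨v, -, hv⟩ := S.herm.toIsHermSymm.exists_norm_eq S.herm.nondegOn_top (fun e => by
        have := finrank_top E K
        rw [e, finrank_bot] at this
        omega) r.2
      exact ⟨v, hv, fun e => absurd e hr⟩
  choose x hx hx0 using ex
  have key : ∀ r i, ¬ Rl G (x r) (w i) := fun r i e => by
    have := e.norm hG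
    rw [hx, h1] at this
    rw [hx0 r this] at e
    exact h0 i e.zero
  rw [← card_fixed S.card S.pow, ← Nat.card_sum]
  refine card_le (Sum.elim x w) ?_
  rintro (r | i) (r' | j) e
  · have := e.norm hG
    simp only [Sum.elim_inl, hx] at this
    rw [Subtype.ext this]
  · exact absurd e (key r j)
  · exact absurd e.symm (key r' i)
  · rw [h i j e]

theorem two (S : St B q) (h7 : finrank E K = 7) (hG : G ≤ isom B) (hn : nO G ≤ q + 1) {a b : K}
    (a0 : a ≠ 0) (b0 : b ≠ 0) (ha : B a a = 0) (hb : B b b = 0) : Rl G a b := by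
  by_contra hc
  have := lb S h7 hG ![a, b] (fun i => by fin_cases i <;> assumption)
    (fun i => by fin_cases i <;> assumption) fun i j e => by
      fin_cases i <;> fin_cases j <;> first | rfl | exact absurd e hc | exact absurd e.symm hc
  rw [Nat.card_eq_fintype_card, Fintype.card_fin] at this
  omega

theorem three (S : St B q) (h7 : finrank E K = 7) (hG : G ≤ isom B) (hn : nO G ≤ q + 2)
    {a b c : K} (a0 : a ≠ 0) (b0 : b ≠ 0) (c0 : c ≠ 0) (ha : B a a = 0) (hb : B b b = 0)
    (hc : B c c = 0) : Rl G a b ∨ Rl G a c ∨ Rl G b c := by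
  by_contra hh
  push Not at hh
  obtain ⟨h1, h2, h3⟩ := hh
  have := lb S h7 hG ![a, b, c] (fun i => by fin_cases i <;> assumption)
    (fun i => by fin_cases i <;> assumption) fun i j e => by
      fin_cases i <;> fin_cases j <;>
        first | rfl | exact absurd e h1 | exact absurd e.symm h1 | exact absurd e h2
              | exact absurd e.symm h2 | exact absurd e h3 | exact absurd e.symm h3
  rw [Nat.card_eq_fintype_card, Fintype.card_fin] at this
  omega

theorem sq (S : St B q) (h7 : finrank E K = 7) (hG : G ≤ isom B) (hn : nO G ≤ q + 2) (w : K)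
    (hw : B w w = 0) (a : E) (ha : a ≠ 0) : Rl G w (a ^ 2 • w) := by
  by_cases w0 : w = 0
  · rw [w0, smul_zero]; exact Rl.rfl 0
  have k : Rl G w (a • w) → Rl G w (a ^ 2 • w) := fun e => by
    rw [pow_two, mul_smul]; exact e.trans (e.smul a)
  rcases three S h7 hG hn w0 (smul_ne_zero ha w0) (smul_ne_zero (pow_ne_zero 2 ha) w0) hw
    (iso_smul hw a) (iso_smul hw _) with e | e | e
  · exact k e
  · exact e
  · have := e.smul a⁻¹
    rw [inv_smul_smul₀ ha, pow_two, mul_smul, inv_smul_smul₀ ha] at this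
    exact k this

theorem orb1 : Orb1Stmt.{u} := by
  intro E K _ _ _ _ _ σ B q G S h7 hG hT
  simp only [Tr1, not_forall] at hT
  obtain ⟨u, v, huv, hu, hn⟩ := hT
  have ex : ∀ r : {r : E // σ r = r}, ∃ x y, B x x = r ∧ B y y = r ∧ ¬ Rl G x y := fun r => by
    by_cases hr : r.1 = 0
    · obtain ⟨w, -, w0, hw⟩ := S.herm.exists_isotropic S.herm.nondegOn_top
        (by rw [finrank_top]; omega)
      exact ⟨0, w, by rw [map_zero, hr], by rw [hw, hr], fun e => w0 e.zero⟩
    · obtain ⟨c, hc⟩ := S.herm.toIsHermSymm.exists_smul_norm_eq hu r.2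
      have c0 : c ≠ 0 := fun e => hr (by rw [← hc, e, zero_smul, map_zero])
      refine ⟨c • u, c • v, hc, by rw [← hc, smul_left, smul_right, smul_left, smul_right, huv],
        fun e => hn ?_⟩
      have := e.smul c⁻¹
      rwa [inv_smul_smul₀ c0, inv_smul_smul₀ c0] at this
  choose x y hx hy hxy using ex
  have hw : ∀ r (b : Bool), B (cond b (x r) (y r)) (cond b (x r) (y r)) = r := fun r b => by
    cases b
    · exact hy r
    · exact hx r
  have := card_le (G := G) (fun i : Bool × {r : E // σ r = r} => cond i.1 (x i.2) (y i.2)) (by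
    rintro ⟨b, r⟩ ⟨b', r'⟩ e
    have := e.norm hG
    simp only [hw] at this
    obtain rfl := Subtype.ext this
    cases b <;> cases b' <;> first | rfl | exact absurd e (hxy r) | exact absurd e.symm (hxy r))
  rwa [Nat.card_prod, card_fixed S.card S.pow, Nat.card_eq_fintype_card, Fintype.card_bool] at this

theorem orb2 : Orb2Stmt.{u} := by
  intro E K _ _ _ _ _ σ B q G S h7 hG
  refine ⟨fun hn => ⟨fun w w' w0 w0' hw hw' => ?_, sq S h7 hG (by omega)⟩, fun hn => ?_⟩
  · obtain ⟨g, hg, e⟩ := two S h7 hG hn w0 w0' hw hw'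
    exact ⟨g, hg, 1, by rw [e, one_smul]⟩
  · refine or_iff_not_imp_right.2 fun hS => ⟨fun w w' w0 w0' hw hw' => ?_, sq S h7 hG hn⟩
    simp only [Stab, not_forall] at hS
    obtain ⟨v, hv, a, ha, hr⟩ := hS
    have v0 : v ≠ 0 := fun e => hr (by rw [e, smul_zero]; exact Rl.rfl 0)
    have k : ∀ x, x ≠ 0 → B x x = 0 → ∃ c : E, c ≠ 0 ∧ Rl G (c • v) x := fun x x0 hx => by
      rcases three S h7 hG hn v0 (smul_ne_zero ha v0) x0 hv (iso_smul hv a) hx with e | e | e
      · exact absurd e hr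
      · exact ⟨1, one_ne_zero, by rwa [one_smul]⟩
      · exact ⟨a, ha, e⟩
    obtain ⟨c, -, e⟩ := k w w0 hw
    obtain ⟨c', c0, e'⟩ := k w' w0' hw'
    have e2 := e'.smul (c / c')
    rw [smul_smul, div_mul_cancel₀ _ c0] at e2
    obtain ⟨g, hg, e3⟩ := e.symm.trans e2
    exact ⟨g, hg, _, e3⟩

end Cfsg.Agent.H27.UgOrb
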