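import Cfsg.Agent.H27.AltDecomp

/-!
# The field extension subgroups `Sp_{n/r}(q^r).r` are maximal in `Sp_n(q)` for `r` prime

The proof takes, in an overgroup `X`, two distinct `X`-conjugates of `K`-lines whose intersection
has the largest possible dimension, and produces a transvection in `X`.
-/

set_option autoImplicit false

namespace Cfsg.Agent.H27

open Module

section Sym

variable {F V : Type*} [Field F] [AddCommGroup V] [Module F V]
variable {f : LinearMap.BilinForm F V}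

/-- The subgroup `X` contains the map `x ↦ x + f(δ,x) γ + f(γ,x) δ + ν f(δ,x) δ`. -/
def HasSym (X : Subgroup (isomGroup f)) (δ γ : V) (ν : F) : Prop :=
  ∃ g ∈ X, ∀ x, (g : V ≃ₗ[F] V) x = x + f δ x • γ + f γ x • δ + (ν * f δ x) • δ

theorem HasSym.conj {X : Subgroup (isomGroup f)} {δ γ : V} {ν : F} (h : HasSym X δ γ ν)
    {n : isomGroup f} (hn : n ∈ X) :
    HasSym X ((n : V ≃ₗ[F] V) δ) ((n : V ≃ₗ[F] V) γ) ν := by
  obtain ⟨g, hgX, hg⟩ := h
  refine ⟨n * g * n⁻¹, X.mul_mem (X.mul_mem hn hgX) (X.inv_mem hn), fun x => ?_⟩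
  obtain ⟨x, rfl⟩ := (n : V ≃ₗ[F] V).surjective x
  simp [hg, n.2 _ _]

theorem HasSym.smul {X : Subgroup (isomGroup f)} {δ γ : V} {ν : F} {μ : F}
    (h : HasSym X (μ • δ) γ ν) : HasSym X δ (μ • γ) (μ ^ 2 * ν) := by
  obtain ⟨g, hgX, hg⟩ := h
  refine ⟨g, hgX, fun x => ?_⟩
  rw [hg]
  simp only [map_smul, LinearMap.smul_apply, smul_eq_mul]
  module

theorem HasSym.symm {X : Subgroup (isomGroup f)} {δ γ : V} (h : HasSym X δ γ 0) :
    HasSym X γ δ 0 := by
  obtain ⟨g, hgX, hg⟩ := h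
  refine ⟨g, hgX, fun x => ?_⟩
  rw [hg]
  module

theorem HasSym.isoTv_mem (hA : f.IsAlt) {X : Subgroup (isomGroup f)} {δ γ : V} {ν ν' : F}
    (h : HasSym X δ γ ν) (h' : HasSym X δ γ ν') (hδγ : f γ δ = 0) : isoTv hA δ (ν' - ν) ∈ X := by
  obtain ⟨g, hgX, hg⟩ := h
  obtain ⟨g', hgX', hg'⟩ := h'
  have : g' * isoTv hA δ (ν' - ν) = g := Subtype.ext (LinearEquiv.ext fun x => by
    have h1 : f x δ = -f δ x := (hA.neg_eq δ x).symm
    simp only [Subgroup.coe_mul, LinearEquiv.mul_apply, coe_isoTv, altTv_apply, hg, hg', map_add,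
      map_smul, hA.self_eq_zero, hδγ, h1, smul_eq_mul]
    module)
  rw [← (X.mul_mem_cancel_left hgX'), this]
  exact hgX

/-- The commutator of an isometry acting on a totally isotropic subspace `U` as a transvection with
an element `1 + A` of the centre of the unipotent radical of the stabiliser of `U`. -/
theorem hasSym_of_comm (hf : f.Nondegenerate) {X : Subgroup (isomGroup f)}
    {U : Submodule F V} (hU : ∀ u ∈ U, ∀ w ∈ U, f u w = 0) {t τ : isomGroup f} (ht : t ∈ X)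
    (hτ : τ ∈ X) {A : V →ₗ[F] V} (hτA : ∀ x, (τ : V ≃ₗ[F] V) x = x + A x) (hAU : ∀ x, A x ∈ U)
    (hAs : ∀ x y, f (A x) y = f (A y) x) {δ e : V} (hδ : δ ∈ U)
    (htU : ∀ u ∈ U, (t : V ≃ₗ[F] V) u = u + f u e • δ) : HasSym X δ (A e) (f (A e) e) := by
  have hAu : ∀ u ∈ U, A u = 0 := fun u hu => hf.1 _ fun y => by rw [hAs, hU _ (hAU y) u hu]
  refine ⟨t * τ * t⁻¹ * τ⁻¹, X.mul_mem (X.mul_mem (X.mul_mem ht hτ) (X.inv_mem ht)) (X.inv_mem hτ),
    fun x => ?_⟩
  have h1 : ((τ⁻¹ : isomGroup f) : V ≃ₗ[F] V) x = x - A x := by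
    apply (τ : V ≃ₗ[F] V).injective
    rw [hτA (x - A x), map_sub, hAu _ (hAU x)]
    simp
  have h2 : ∀ z, A (((t⁻¹ : isomGroup f) : V ≃ₗ[F] V) z) = A z + f δ z • A e := fun z => by
    rw [← sub_eq_zero]
    refine hf.1 _ fun y => ?_
    rw [map_sub, LinearMap.sub_apply, hAs, ← t.2, htU _ (hAU y)]
    simp [hAs y z, hAs y e, mul_comm]
  have h3 : ∀ z, (t : V ≃ₗ[F] V) (((t⁻¹ : isomGroup f) : V ≃ₗ[F] V) z) = z := fun z => by simp
  simp only [Subgroup.coe_mul, LinearEquiv.mul_apply]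
  rw [h1, hτA, map_add, h3, h2, htU _ (U.add_mem (hAU _) (U.smul_mem _ (hAU _)))]
  simp only [map_sub, map_add, map_smul, hAu _ (hAU x), hU δ hδ _ (hAU x), sub_zero,
    LinearMap.add_apply, LinearMap.smul_apply, hAs x e, smul_eq_mul]
  module

end Sym

section Ext

variable {F K V : Type*} [Field F] [Field K] [Algebra F K] [AddCommGroup V] [Module F V]
  [Module K V] [IsScalarTower F K V]

/-- The `F`-bilinear form `f` is obtained from the non-degenerate alternating `K`-bilinear form `h`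
by a non-zero `F`-linear functional. -/
structure TraceForm (h : LinearMap.BilinForm K V) (lam : K →ₗ[F] F)
    (f : LinearMap.BilinForm F V) : Prop where
  nd : h.Nondegenerate
  alt : h.IsAlt
  ne : lam ≠ 0
  eq : ∀ u v, f u v = lam (h u v)

variable (K) in
/-- The `K`-semilinear isometries. -/
def semilin (f : LinearMap.BilinForm F V) : Subgroup (isomGroup f) where
  carrier := {g | ∃ σ : K ≃ K, ∀ (a : K) (v : V),
    (g : V ≃ₗ[F] V) (a • v) = σ a • (g : V ≃ₗ[F] V) v}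
  mul_mem' {a b} := by
    rintro ⟨σ, hσ⟩ ⟨τ, hτ⟩
    exact ⟨τ.trans σ, fun c v => by simp [hσ, hτ]⟩
  one_mem' := ⟨Equiv.refl K, fun _ _ => rfl⟩
  inv_mem' {a} := by
    rintro ⟨σ, hσ⟩
    refine ⟨σ.symm, fun c v => (a : V ≃ₗ[F] V).injective ?_⟩
    rw [hσ]
    simp

variable (F K) in
/-- The `K`-line through a vector, as an `F`-subspace. -/
def kline (v : V) : Submodule F V := (K ∙ v).restrictScalars F

theorem mem_kline {v x : V} : x ∈ kline F K v ↔ ∃ a : K, a • v = x :=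
  Submodule.mem_span_singleton

theorem smul_mem_kline (a : K) (v : V) : a • v ∈ kline F K v := mem_kline.2 ⟨a, rfl⟩

theorem self_mem_kline (v : V) : v ∈ kline F K v := mem_kline.2 ⟨1, one_smul K v⟩

theorem finrank_kline {v : V} (hv : v ≠ 0) : finrank F (kline F K v) = finrank F K :=
  ((LinearEquiv.toSpanNonzeroSingleton K V v hv).restrictScalars F).finrank_eq.symm

theorem exists_map_mul_ne_zero {lam : K →ₗ[F] F} (hlam : lam ≠ 0) {c : K} (hc : c ≠ 0) :
    ∃ a, lam (a * c) ≠ 0 := by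
  by_contra! H
  exact hlam (LinearMap.ext fun x => by simpa [hc] using H (x * c⁻¹))

theorem exists_map_mul_eq {lam : K →ₗ[F] F} (hlam : lam ≠ 0) {c : K} (hc : c ≠ 0) (η : F) :
    ∃ a, lam (a * c) = η := by
  obtain ⟨a, ha⟩ := exists_map_mul_ne_zero hlam hc
  exact ⟨(η / lam (a * c)) • a, by rw [smul_mul_assoc, map_smul, smul_eq_mul, div_mul_cancel₀ _ ha]⟩

/-- For an extension of prime degree, an element stabilising a proper non-zero `F`-subspace of `K`
lies in `F`. -/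
theorem exists_algebraMap_of_stabilizes (hr : (finrank F K).Prime) {D : Submodule F K}
    {a₀ : K} (ha₀ : a₀ ∈ D) (ha₀0 : a₀ ≠ 0) (hD : D ≠ ⊤) {e : K} (he : ∀ a ∈ D, e * a ∈ D) :
    ∃ η : F, algebraMap F K η = e := by
  let S : Subalgebra F K :=
    { carrier := {e | ∀ a ∈ D, e * a ∈ D}
      mul_mem' := fun {x y} hx hy a ha => by rw [mul_assoc]; exact hx _ (hy a ha)
      add_mem' := fun {x y} hx hy a ha => by rw [add_mul]; exact D.add_mem (hx a ha) (hy a ha)
      algebraMap_mem' := fun η a ha => by rw [← Algebra.smul_def]; exact D.smul_mem η ha }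
  rcases (Subalgebra.isSimpleOrder_of_finrank_prime F K hr).eq_bot_or_eq_top S with h | h
  · exact Algebra.mem_bot.1 (h ▸ he : e ∈ (⊥ : Subalgebra F K))
  · refine (hD (eq_top_iff.2 fun b _ => ?_)).elim
    simpa [ha₀0] using (h ▸ Algebra.mem_top : b * a₀⁻¹ ∈ S) a₀ ha₀

/-- An isometry mapping every `K`-line onto a `K`-line is semilinear. -/
theorem mem_semilin_of_forall [Finite K] {f : LinearMap.BilinForm F V}
    (hind : ∀ v : V, ∃ w, w ∉ kline F K v) {g : isomGroup f}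
    (hg : ∀ v : V, (kline F K v).map (g : V ≃ₗ[F] V).toLinearMap =
      kline F K ((g : V ≃ₗ[F] V) v)) : g ∈ semilin K f := by
  have hs : ∀ (v : V) (a : K), ∃ b : K, b • (g : V ≃ₗ[F] V) v = (g : V ≃ₗ[F] V) (a • v) :=
    fun v a => mem_kline.1 (hg v ▸ Submodule.mem_map_of_mem (smul_mem_kline a v))
  choose σ hσ using hs
  have key : ∀ v w : V, v ≠ 0 → w ∉ kline F K v → ∀ a, σ v a = σ w a := by
    intro v w hv hw a
    have h1 := hσ (v + w) a
    rw [smul_add, map_add, map_add, ← hσ v, ← hσ w, smul_add] at h1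
    have h2 : (σ (v + w) a - σ v a) • (g : V ≃ₗ[F] V) v =
        (σ w a - σ (v + w) a) • (g : V ≃ₗ[F] V) w := by
      rw [sub_smul, sub_smul, sub_eq_sub_iff_add_eq_add, h1, add_comm]
    have h3 : σ w a - σ (v + w) a = 0 := by
      by_contra h3
      have h4 : (g : V ≃ₗ[F] V) w ∈ kline F K ((g : V ≃ₗ[F] V) v) :=
        mem_kline.2 ⟨(σ w a - σ (v + w) a)⁻¹ * (σ (v + w) a - σ v a), by
          rw [mul_smul, h2, inv_smul_smul₀ h3]⟩
      rw [← hg] at h4
      obtain ⟨x, hx, hxw⟩ := h4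
      exact hw ((g : V ≃ₗ[F] V).injective hxw ▸ hx)
    rw [h3, zero_smul, smul_eq_zero, sub_eq_zero] at h2
    rw [← h2.resolve_right ((g : V ≃ₗ[F] V).map_ne_zero_iff.2 hv), sub_eq_zero.1 h3]
  obtain ⟨v₀, hv₀⟩ := hind 0
  have hv₀0 : v₀ ≠ 0 := fun h => hv₀ (by rw [h]; exact Submodule.zero_mem _)
  have h1 : ∀ v, v ≠ 0 → ∀ a, σ v a = σ v₀ a := fun v hv a => by
    by_cases h : v₀ ∈ kline F K v
    · obtain ⟨w, hw⟩ := hind v
      rw [key v w hv hw, key v₀ w hv₀0 fun h' => hw ?_]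
      obtain ⟨b, rfl⟩ := mem_kline.1 h
      obtain ⟨c, rfl⟩ := mem_kline.1 h'
      rw [smul_smul]
      exact smul_mem_kline _ _
    · exact key v v₀ hv h a
  have hinj : Function.Injective (σ v₀) := fun a b hab =>
    smul_left_injective K hv₀0 ((g : V ≃ₗ[F] V).injective (by
      change (g : V ≃ₗ[F] V) (a • v₀) = (g : V ≃ₗ[F] V) (b • v₀)
      rw [← hσ, ← hσ, hab]))
  refine ⟨Equiv.ofBijective _ (Finite.injective_iff_bijective.1 hinj), fun a v => ?_⟩
  by_cases hv : v = 0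
  · simp [hv]
  · rw [← hσ, h1 v hv]
    rfl

namespace TraceForm

variable {h : LinearMap.BilinForm K V} {lam : K →ₗ[F] F} {f : LinearMap.BilinForm F V}

omit [IsScalarTower F K V] in
theorem isAlt (H : TraceForm h lam f) : f.IsAlt := fun v => by
  rw [H.eq, H.alt.self_eq_zero, map_zero]

omit [IsScalarTower F K V] in
theorem nondegenerate (H : TraceForm h lam f) : f.Nondegenerate := by
  have : ∀ v, (∀ u, f u v = 0) → v = 0 := fun v hv => H.nd.2 v fun u => by
    by_contra h0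
    obtain ⟨a, ha⟩ := exists_map_mul_ne_zero H.ne h0
    exact ha (by simpa [H.eq] using hv (a • u))
  exact ⟨fun v hv => this v fun u => H.isAlt.isRefl _ _ (hv u), this⟩

/-- A `K`-linear isometry of `h` as an `F`-linear isometry of `f`. -/
def res (H : TraceForm h lam f) : isomGroup h →* isomGroup f where
  toFun n := ⟨(n : V ≃ₗ[K] V).restrictScalars F, fun u v => by
    rw [H.eq, H.eq]
    exact congrArg lam (n.2 u v)⟩
  map_one' := rfl
  map_mul' _ _ := rfl

theorem res_apply (H : TraceForm h lam f) (n : isomGroup h) (v : V) :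
    (H.res n : V ≃ₗ[F] V) v = (n : V ≃ₗ[K] V) v := rfl

theorem res_mem_semilin (H : TraceForm h lam f) (n : isomGroup h) : H.res n ∈ semilin K f :=
  ⟨Equiv.refl K, fun a v => (n : V ≃ₗ[K] V).map_smul a v⟩

theorem res_isoTv_apply (H : TraceForm h lam f) (v : V) (c : K) (x : V) :
    (H.res (isoTv H.alt v c) : V ≃ₗ[F] V) x = x + (c * h x v) • v :=
  altTv_apply H.alt v c x

theorem kline_isotropic (H : TraceForm h lam f) (v : V) :
    ∀ x ∈ kline F K v, ∀ y ∈ kline F K v, f x y = 0 := by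
  intro x hx y hy
  obtain ⟨a, rfl⟩ := mem_kline.1 hx
  obtain ⟨b, rfl⟩ := mem_kline.1 hy
  simp [H.eq, H.alt.self_eq_zero]

theorem exists_not_mem_kline (H : TraceForm h lam f) [Nontrivial V] (v : V) :
    ∃ w, w ∉ kline F K v := by
  by_cases hv : v = 0
  · obtain ⟨w, hw⟩ := exists_ne (0 : V)
    exact ⟨w, fun h' => hw (by simpa [hv, mem_kline, eq_comm] using h')⟩
  · obtain ⟨w, hw⟩ : ∃ w, h w v ≠ 0 := by
      by_contra! H'
      exact hv (H.nd.2 v H')
    refine ⟨w, fun h' => hw ?_⟩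
    obtain ⟨a, rfl⟩ := mem_kline.1 h'
    simp [H.alt.self_eq_zero]

end TraceForm

variable (K) in
/-- The images of the `K`-lines under the elements of `X`. -/
def lineOrbit {f : LinearMap.BilinForm F V} (X : Subgroup (isomGroup f)) : Set (Submodule F V) :=
  {U | ∃ g ∈ X, ∃ v : V, v ≠ 0 ∧ U = (kline F K v).map (g : V ≃ₗ[F] V).toLinearMap}

theorem kline_mem_lineOrbit {f : LinearMap.BilinForm F V} (X : Subgroup (isomGroup f)) {v : V}
    (hv : v ≠ 0) : kline F K v ∈ lineOrbit K X :=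
  ⟨1, X.one_mem, v, hv, (Submodule.map_id _).symm⟩

theorem map_mem_lineOrbit {f : LinearMap.BilinForm F V} {X : Subgroup (isomGroup f)}
    {U : Submodule F V} (hU : U ∈ lineOrbit K X) {g : isomGroup f} (hg : g ∈ X) :
    U.map (g : V ≃ₗ[F] V).toLinearMap ∈ lineOrbit K X := by
  obtain ⟨g', hg', v, hv, rfl⟩ := hU
  exact ⟨g * g', X.mul_mem hg hg', v, hv, by rw [← Submodule.map_comp]; rfl⟩

theorem finrank_of_mem_lineOrbit {f : LinearMap.BilinForm F V} {X : Subgroup (isomGroup f)}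
    {U : Submodule F V} (hU : U ∈ lineOrbit K X) : finrank F U = finrank F K := by
  obtain ⟨g, -, v, hv, rfl⟩ := hU
  rw [LinearEquiv.finrank_map_eq, finrank_kline hv]

variable (K) in
/-- Two distinct members of `lineOrbit K X` whose intersection is non-zero and of largest
dimension. -/
structure IsExtremal {f : LinearMap.BilinForm F V} (X : Subgroup (isomGroup f))
    (U U' : Submodule F V) : Prop where
  left : U ∈ lineOrbit K X
  right : U' ∈ lineOrbit K X
  ne : U ≠ U'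
  pos : U ⊓ U' ≠ ⊥
  max : ∀ W ∈ lineOrbit K X, ∀ W' ∈ lineOrbit K X, W ≠ W' →
    finrank F ↥(W ⊓ W') ≤ finrank F ↥(U ⊓ U')

theorem IsExtremal.map {f : LinearMap.BilinForm F V} {X : Subgroup (isomGroup f)}
    {U U' : Submodule F V} (hE : IsExtremal K X U U') {g : isomGroup f} (hg : g ∈ X) :
    IsExtremal K X (U.map (g : V ≃ₗ[F] V).toLinearMap) (U'.map (g : V ≃ₗ[F] V).toLinearMap) := by
  have hinj : Function.Injective (g : V ≃ₗ[F] V).toLinearMap := (g : V ≃ₗ[F] V).injective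
  refine ⟨map_mem_lineOrbit hE.left hg, map_mem_lineOrbit hE.right hg,
    (Submodule.map_injective_of_injective hinj).ne hE.ne, ?_, ?_⟩
  · rw [← Submodule.map_inf _ hinj, ne_eq, Submodule.map_eq_bot_iff]
    exact hE.pos
  · rw [← Submodule.map_inf _ hinj, LinearEquiv.finrank_map_eq]
    exact hE.max

theorem IsExtremal.symm {f : LinearMap.BilinForm F V} {X : Subgroup (isomGroup f)}
    {U U' : Submodule F V} (hE : IsExtremal K X U U') : IsExtremal K X U' U :=
  ⟨hE.right, hE.left, hE.ne.symm, inf_comm U U' ▸ hE.pos, inf_comm U U' ▸ hE.max⟩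

theorem IsExtremal.exists_std {f : LinearMap.BilinForm F V} {X : Subgroup (isomGroup f)}
    {U U' : Submodule F V} (hE : IsExtremal K X U U') :
    ∃ g ∈ X, ∃ (v : V) (W : Submodule F V), v ≠ 0 ∧ IsExtremal K X (kline F K v) W ∧
      U = (kline F K v).map (g : V ≃ₗ[F] V).toLinearMap ∧
      U' = W.map (g : V ≃ₗ[F] V).toLinearMap := by
  obtain ⟨g, hg, v, hv, hU⟩ := hE.left
  have h1 : ∀ W : Submodule F V, (W.map ((g⁻¹ : isomGroup f) : V ≃ₗ[F] V).toLinearMap).map
      (g : V ≃ₗ[F] V).toLinearMap = W := fun W => by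
    rw [← Submodule.map_comp]
    convert Submodule.map_id _
    ext x
    simp
  have h2 : U.map ((g⁻¹ : isomGroup f) : V ≃ₗ[F] V).toLinearMap = kline F K v :=
    Submodule.map_injective_of_injective (f := (g : V ≃ₗ[F] V).toLinearMap)
      (g : V ≃ₗ[F] V).injective (by rw [h1, ← hU])
  exact ⟨g, hg, v, _, hv, h2 ▸ hE.map (X.inv_mem hg), hU, (h1 U').symm⟩

variable [FiniteDimensional F V]

theorem exists_isExtremal {f : LinearMap.BilinForm F V} {X : Subgroup (isomGroup f)}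
    {U U' : Submodule F V} (hU : U ∈ lineOrbit K X) (hU' : U' ∈ lineOrbit K X) (hne : U ≠ U')
    (hpos : U ⊓ U' ≠ ⊥) : ∃ W W', IsExtremal K X W W' := by
  classical
  let P : ℕ → Prop := fun n => ∃ W ∈ lineOrbit K X, ∃ W' ∈ lineOrbit K X, W ≠ W' ∧
    finrank F ↥(W ⊓ W') = n
  have hP : P (finrank F ↥(U ⊓ U')) := ⟨U, hU, U', hU', hne, rfl⟩
  obtain ⟨W, hW, W', hW', hWW', hd⟩ :=
    Nat.findGreatest_spec (P := P) (Submodule.finrank_le (U ⊓ U')) hP
  have hmax : ∀ W₁ ∈ lineOrbit K X, ∀ W₂ ∈ lineOrbit K X, W₁ ≠ W₂ →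
      finrank F ↥(W₁ ⊓ W₂) ≤ finrank F ↥(W ⊓ W') := fun W₁ h₁ W₂ h₂ h₁₂ =>
    hd ▸ Nat.le_findGreatest (Submodule.finrank_le _) ⟨W₁, h₁, W₂, h₂, h₁₂, rfl⟩
  refine ⟨W, W', hW, hW', hWW', fun h0 => hpos ?_, hmax⟩
  have := hmax U hU U' hU' hne
  rw [h0, finrank_bot, Nat.le_zero] at this
  exact Submodule.finrank_eq_zero.1 this

theorem IsExtremal.of_le {f : LinearMap.BilinForm F V} {X : Subgroup (isomGroup f)}
    {U U' W W' : Submodule F V} (hE : IsExtremal K X U U') (hW : W ∈ lineOrbit K X)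
    (hW' : W' ∈ lineOrbit K X) (hne : W ≠ W') (hle : U ⊓ U' ≤ W ⊓ W') : IsExtremal K X W W' :=
  ⟨hW, hW', hne, fun h => hE.pos (eq_bot_iff.2 (h ▸ hle)),
    fun W₁ h₁ W₂ h₂ h₁₂ => (hE.max W₁ h₁ W₂ h₂ h₁₂).trans (Submodule.finrank_mono hle)⟩

theorem IsExtremal.eq_of_lt {f : LinearMap.BilinForm F V} {X : Subgroup (isomGroup f)}
    {U U' W W' : Submodule F V} (hE : IsExtremal K X U U') (hW : W ∈ lineOrbit K X)
    (hW' : W' ∈ lineOrbit K X) (hlt : U ⊓ U' < W ⊓ W') : W = W' := by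
  by_contra hne
  exact absurd (hE.max W hW W' hW' hne) (not_le.2 (Submodule.finrank_lt_finrank_of_lt hlt))

theorem IsExtremal.not_le {f : LinearMap.BilinForm F V} {X : Subgroup (isomGroup f)}
    {U U' : Submodule F V} (hE : IsExtremal K X U U') : ¬ U ≤ U' := fun h =>
  hE.ne (Submodule.eq_of_le_of_finrank_eq h
    ((finrank_of_mem_lineOrbit hE.left).trans (finrank_of_mem_lineOrbit hE.right).symm))

namespace TraceForm

variable {h : LinearMap.BilinForm K V} {lam : K →ₗ[F] F} {f : LinearMap.BilinForm F V}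

theorem exists_res_apply_eq (H : TraceForm h lam f) {v w : V} (hv : v ≠ 0) (hw : w ≠ 0) :
    ∃ n : isomGroup h, (n : V ≃ₗ[K] V) v = w := by
  have : FiniteDimensional K V := Module.Finite.of_restrictScalars_finite F K V
  obtain ⟨n, hn, hnv⟩ := exists_isom_apply_eq H.nd H.alt hv hw
  exact ⟨⟨n, hn⟩, hnv⟩

theorem eq_top_of_mem_rootSet (H : TraceForm h lam f) {X : Subgroup (isomGroup f)}
    (hN : ∀ n, H.res n ∈ X) {δ : V} (hδ0 : δ ≠ 0) (hδ : δ ∈ rootSet H.isAlt X) : X = ⊤ := by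
  refine eq_top_of_rootSet H.nondegenerate (hA := H.isAlt) fun v => ?_
  by_cases hv : v = 0
  · exact hv ▸ zero_mem_rootSet _ _
  obtain ⟨n, hn⟩ := H.exists_res_apply_eq hδ0 hv
  have := apply_mem_rootSet hδ (hN n)
  rwa [H.res_apply, hn] at this

/-- There is an extremal pair that is not orthogonal. -/
theorem exists_isExtremal_not_orth (H : TraceForm h lam f) {X : Subgroup (isomGroup f)}
    (hN : ∀ n, H.res n ∈ X) {U U' : Submodule F V} (hE : IsExtremal K X U U') :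
    ∃ W W', IsExtremal K X W W' ∧ ∃ x ∈ W, ∃ y ∈ W', f x y ≠ 0 := by
  have : FiniteDimensional K V := Module.Finite.of_restrictScalars_finite F K V
  obtain ⟨-, -, v, W, hv, hE, -, -⟩ := hE.exists_std
  obtain ⟨x, hxW, hx⟩ := SetLike.not_le_iff_exists.1 hE.symm.not_le
  obtain ⟨z, hz, hxz⟩ := exists_orth_ne_zero H.nd H.alt.isRefl (K ∙ v) (x := x) hx
  have hvz : h v z = 0 := hz v (Submodule.mem_span_singleton_self v)
  have hzx : h z x ≠ 0 := fun h' => hxz (H.alt.isRefl _ _ h')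
  obtain ⟨c, hc⟩ := exists_map_mul_ne_zero H.ne (mul_ne_zero hxz hzx)
  have hne : f ((H.res (isoTv H.alt z c) : V ≃ₗ[F] V) x) x ≠ 0 := by
    rw [H.res_isoTv_apply, H.eq]
    simpa [H.alt.self_eq_zero, mul_assoc] using hc
  have hiso : ∀ y ∈ W, ∀ y' ∈ W, f y y' = 0 := by
    obtain ⟨g, -, w, -, rfl⟩ := hE.right
    rintro _ ⟨y, hy, rfl⟩ _ ⟨y', hy', rfl⟩
    exact (g.2 y y').trans (H.kline_isotropic w y hy y' hy')
  refine ⟨_, W, hE.of_le (map_mem_lineOrbit hE.right (hN (isoTv H.alt z c))) hE.right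
    (fun h' => hne (hiso _ (h' ▸ Submodule.mem_map_of_mem hxW) x hxW)) ?_,
    _, Submodule.mem_map_of_mem hxW, x, hxW, hne⟩
  rintro y ⟨hy1, hy2⟩
  refine ⟨⟨y, hy2, ?_⟩, hy2⟩
  obtain ⟨a, rfl⟩ := mem_kline.1 hy1
  change (H.res (isoTv H.alt z c) : V ≃ₗ[F] V) _ = _
  rw [H.res_isoTv_apply]
  simp [hvz]

/-- In a non-orthogonal extremal pair, `X` induces transvections on the members. -/
theorem exists_tv_of_isExtremal (H : TraceForm h lam f) (hr : (finrank F K).Prime)
    {X : Subgroup (isomGroup f)} (hN : ∀ n, H.res n ∈ X) {v : V} {U : Submodule F V}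
    (hE : IsExtremal K X (kline F K v) U) (hno : ∃ y ∈ kline F K v, ∃ x ∈ U, f y x ≠ 0) :
    ∃ δ ∈ U, δ ≠ 0 ∧ ∃ e : V, (∃ u ∈ U, f u e ≠ 0) ∧ f δ e = 0 ∧ ∀ μ : F, ∃ t ∈ X,
      ∀ u ∈ U, (t : V ≃ₗ[F] V) u = u + f u e • μ • δ := by
  obtain ⟨_, hy, x₀, hx₀, hyx⟩ := hno
  obtain ⟨b, rfl⟩ := mem_kline.1 hy
  have hy₀ : h x₀ v ≠ 0 := fun h' => hyx (by simp [H.eq, H.alt.isRefl _ _ h'])
  have hC : ∀ x ∈ U, h x v ≠ 0 → ∀ c : K, (c * h x v) • v ∈ U → ∀ x' ∈ U, (c * h x' v) • v ∈ U := by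
    intro x hx hxv c hc x' hx'
    have h1 := hE.eq_of_lt (map_mem_lineOrbit hE.right (hN (isoTv H.alt v c))) hE.right
      (SetLike.lt_iff_le_and_exists.2 ⟨?_, x + (c * h x v) • v, ⟨⟨x, hx, H.res_isoTv_apply v c x⟩, U.add_mem hx hc⟩,
        fun h' => ?_⟩)
    · have h2 : x' + (c * h x' v) • v ∈ U := h1 ▸ ⟨x', hx', H.res_isoTv_apply v c x'⟩
      simpa using U.sub_mem h2 hx'
    · rintro y ⟨hy1, hy2⟩
      refine ⟨⟨y, hy2, ?_⟩, hy2⟩
      obtain ⟨a, rfl⟩ := mem_kline.1 hy1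
      change (H.res (isoTv H.alt v c) : V ≃ₗ[F] V) _ = _
      rw [H.res_isoTv_apply]
      simp [H.alt.self_eq_zero]
    · obtain ⟨a, ha⟩ := mem_kline.1 h'.1
      have := congrArg (fun y => h y v) ha
      simp only [map_smul, LinearMap.smul_apply, H.alt.self_eq_zero, smul_zero, map_add,
        LinearMap.add_apply, add_zero] at this
      exact hxv this.symm
  let D : Submodule F K := U.comap ((LinearMap.toSpanSingleton K V v).restrictScalars F)
  have hD : ∀ a, a ∈ D ↔ a • v ∈ U := fun a => Iff.rfl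
  obtain ⟨δ, ⟨hδ1, hδ2⟩, hδ0⟩ := Submodule.exists_mem_ne_zero_of_ne_bot hE.pos
  obtain ⟨a₀, rfl⟩ := mem_kline.1 hδ1
  have ha₀ : a₀ ≠ 0 := left_ne_zero_of_smul hδ0
  have hDtop : D ≠ ⊤ := fun h' => hE.not_le fun y hy => by
    obtain ⟨a, rfl⟩ := mem_kline.1 hy
    exact (hD a).1 (h' ▸ Submodule.mem_top)
  have hη : ∀ x ∈ U, ∃ η : F, h x v = η • h x₀ v := fun x hx => by
    obtain ⟨η, hη⟩ := exists_algebraMap_of_stabilizes hr ((hD a₀).2 hδ2) ha₀ hDtop
      (e := h x v / h x₀ v) fun a ha => by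
        have := hC x₀ hx₀ hy₀ (a / h x₀ v) (by rwa [div_mul_cancel₀ _ hy₀]) x hx
        rw [hD]
        convert this using 2
        ring
    exact ⟨η, by rw [Algebra.smul_def, hη, div_mul_cancel₀ _ hy₀]⟩
  obtain ⟨a₁, ha₁⟩ := exists_map_mul_eq H.ne hy₀ 1
  have he : ∀ x ∈ U, h x v = f x (a₁ • v) • h x₀ v := fun x hx => by
    obtain ⟨η, hη⟩ := hη x hx
    rw [H.eq, map_smul, smul_eq_mul, hη, mul_smul_comm, map_smul, ha₁, smul_eq_mul, mul_one]
  refine ⟨_, hδ2, hδ0, a₁ • v, ⟨x₀, hx₀, fun h' => hy₀ (by rw [he x₀ hx₀, h', zero_smul])⟩,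
    H.kline_isotropic v _ hδ1 _ (smul_mem_kline _ _), fun μ =>
    ⟨_, hN (isoTv H.alt v (μ • a₀ / h x₀ v)), fun u hu => ?_⟩⟩
  rw [H.res_isoTv_apply, he u hu, mul_smul_comm, div_mul_cancel₀ _ hy₀, smul_assoc, smul_assoc]

/-- An overgroup of `Sp_K(V)` that is not semilinear has an extremal pair. -/
theorem exists_isExtremal_of_not_mem [Finite K] [Nontrivial V] (H : TraceForm h lam f)
    {X : Subgroup (isomGroup f)} {g : isomGroup f} (hgX : g ∈ X) (hg : g ∉ semilin K f) :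
    ∃ W W', IsExtremal K X W W' := by
  obtain ⟨v, hv⟩ : ∃ v : V, (kline F K v).map (g : V ≃ₗ[F] V).toLinearMap ≠
      kline F K ((g : V ≃ₗ[F] V) v) := by
    by_contra! H'
    exact hg (mem_semilin_of_forall H.exists_not_mem_kline H')
  have hv0 : v ≠ 0 := by
    rintro rfl
    exact hv (by simp [kline])
  have hgv : (g : V ≃ₗ[F] V) v ≠ 0 := (g : V ≃ₗ[F] V).map_ne_zero_iff.2 hv0
  refine exists_isExtremal (map_mem_lineOrbit (kline_mem_lineOrbit X hv0) hgX)
    (kline_mem_lineOrbit X hgv) hv fun h0 => hgv ?_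
  exact (Submodule.mem_bot F).1 (h0 ▸ ⟨Submodule.mem_map_of_mem (self_mem_kline v),
    self_mem_kline _⟩)

theorem exists_hasSym (H : TraceForm h lam f) (hr : (finrank F K).Prime)
    {X : Subgroup (isomGroup f)} (hN : ∀ n, H.res n ∈ X) {U U' : Submodule F V}
    (hE : IsExtremal K X U U') : ∃ (v : V) (δ₀ κ : K), v ≠ 0 ∧ δ₀ ≠ 0 ∧ κ ≠ 0 ∧ lam (δ₀ * κ) = 0 ∧
      ∀ (μ : F) (γ₀ : K), HasSym X (μ • δ₀ • v) (γ₀ • v) (lam (γ₀ * κ)) := by
  obtain ⟨W, W', hE, x, hx, y, hy, hxy⟩ := H.exists_isExtremal_not_orth hN hE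
  obtain ⟨g, hgX, v', W₁, -, hE₁, rfl, rfl⟩ := hE.exists_std
  obtain ⟨x, hx, rfl⟩ := hx
  obtain ⟨y, hy, rfl⟩ := hy
  obtain ⟨δ, hδ, hδ0, e, ⟨u, hu, hue⟩, hδe, ht⟩ :=
    H.exists_tv_of_isExtremal hr hN hE₁ ⟨x, hx, y, hy, fun h' => hxy ((g.2 x y).trans h')⟩
  obtain ⟨g', hg'X, v, hv, rfl⟩ := hE₁.right
  obtain ⟨δ, hδ, rfl⟩ := hδ
  obtain ⟨u, hu, rfl⟩ := hu
  obtain ⟨e, rfl⟩ := (g' : V ≃ₗ[F] V).surjective e
  obtain ⟨δ₀, rfl⟩ := mem_kline.1 hδ
  obtain ⟨u₀, rfl⟩ := mem_kline.1 hu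
  have hδe' : f (δ₀ • v) e = 0 := (g'.2 _ _).symm.trans hδe
  have hue' : f (u₀ • v) e ≠ 0 := fun h' => hue ((g'.2 _ _).trans h')
  have hκ : h v e ≠ 0 := fun h' => hue' (by simp [H.eq, h'])
  have hκ' : h e v ≠ 0 := fun h' => hκ (H.alt.isRefl _ _ h')
  refine ⟨v, δ₀, h v e, hv, fun h' => hδ0 (by simp [h']), hκ, by simpa [H.eq] using hδe',
    fun μ γ₀ => ?_⟩
  obtain ⟨t, htX, ht⟩ := ht μ
  let A : V →ₗ[F] V := ((LinearMap.toSpanSingleton K V v).comp
    ((γ₀ / h e v) • h.flip v)).restrictScalars F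
  have hA : ∀ x, A x = (γ₀ / h e v * h x v) • v := fun x => rfl
  have hAe : A e = γ₀ • v := by rw [hA, div_mul_cancel₀ _ hκ']
  have := hasSym_of_comm H.nondegenerate (H.kline_isotropic v)
    (X.mul_mem (X.mul_mem (X.inv_mem hg'X) htX) hg'X) (hN (isoTv H.alt v (γ₀ / h e v))) (A := A)
    (fun x => H.res_isoTv_apply v _ x) (fun x => smul_mem_kline _ _) (fun x y => by
      rw [H.eq, H.eq, hA, hA, map_smul, map_smul, LinearMap.smul_apply, LinearMap.smul_apply,
        ← H.alt.neg_eq y v, ← H.alt.neg_eq x v]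
      congr 1
      simp only [smul_eq_mul]
      ring)
    (δ := μ • δ₀ • v) (e := e) (Submodule.smul_mem _ _ hδ) (fun u hu => by
      apply (g' : V ≃ₗ[F] V).injective
      have h1 := ht _ (Submodule.mem_map_of_mem hu)
      simp only [LinearEquiv.coe_coe] at h1
      rw [g'.2] at h1
      simp [h1])
  rwa [hAe, H.eq, map_smul, LinearMap.smul_apply, smul_eq_mul] at this

theorem eq_top_of_card_ne_two (H : TraceForm h lam f) (hr : (finrank F K).Prime)
    {X : Subgroup (isomGroup f)} (hN : ∀ n, H.res n ∈ X) {U U' : Submodule F V}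
    (hE : IsExtremal K X U U') {μ : F} (hμ0 : μ ≠ 0) (hμ1 : μ ≠ 1) : X = ⊤ := by
  obtain ⟨v, δ₀, κ, hv, hδ₀, hκ, -, hS⟩ := H.exists_hasSym hr hN hE
  refine H.eq_top_of_mem_rootSet hN (smul_ne_zero hδ₀ hv) fun c => ?_
  have hμ : μ - μ ^ 2 ≠ 0 := by
    rw [sq, ← mul_one_sub]
    exact mul_ne_zero hμ0 (sub_ne_zero.2 hμ1.symm)
  obtain ⟨γ₀, hγ₀⟩ := exists_map_mul_eq H.ne hκ (c / (μ - μ ^ 2))
  have h1 := (hS μ γ₀).smul
  have h2 := hS 1 (μ • γ₀)
  rw [one_smul, smul_assoc, smul_mul_assoc, map_smul, smul_eq_mul] at h2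
  have := h1.isoTv_mem H.isAlt h2 (H.kline_isotropic v _
    (Submodule.smul_mem _ _ (smul_mem_kline _ _)) _ (smul_mem_kline _ _))
  rwa [← sub_mul, hγ₀, mul_div_cancel₀ _ hμ] at this

omit [FiniteDimensional F V] in
theorem exists_map_inv_eq_zero (hF : ∀ c : F, c = 0 ∨ c = 1) (h3 : 3 ≤ finrank F K)
    {lam : K →ₗ[F] F} (hlam : lam ≠ 0) {κ : K} (hκ : κ ≠ 0) :
    ∃ z : K, z ≠ 0 ∧ lam (κ * z) ≠ 0 ∧ lam (κ * z⁻¹) = 0 ∨ lam κ ≠ 0 := by
  by_contra! H
  have h2 : (2 : F) = 0 := by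
    rcases hF 2 with h | h
    · exact h
    · exact absurd (by linear_combination h) (one_ne_zero (α := F))
  have h2' : (2 : K) = 0 := by
    have := congrArg (algebraMap F K) h2
    rwa [map_ofNat, map_zero] at this
  let S : Submodule F K := LinearMap.ker (lam.comp (LinearMap.mulLeft F κ))
  have hS : ∀ z, z ∈ S ↔ lam (κ * z) = 0 := fun z => Iff.rfl
  have hinv : ∀ z ∈ S, z⁻¹ ∈ S := fun z hz => by
    by_cases hz0 : z = 0
    · simp [hz0]
    by_contra h'
    exact (H z⁻¹).1 (inv_ne_zero hz0) h' (by rwa [inv_inv])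
  have h1 : (1 : K) ∈ S := by rw [hS, mul_one]; exact (H 1).2
  have hua : ∀ a ∈ S, ∀ b ∈ S, a * a * b ∈ S := fun a ha b hb => by
    by_cases ha0 : a = 0
    · simp [ha0]
    by_cases hb0 : b = 0
    · simp [hb0]
    by_cases hab : 1 - a * b = 0
    · rwa [mul_assoc, ← sub_eq_zero.1 hab, mul_one]
    have := S.sub_mem ha (hinv _ (S.add_mem (hinv a ha) (hinv _ (S.sub_mem (hinv b hb) ha))))
    convert this using 1
    have e1 : b⁻¹ - a = (1 - a * b) / b := by field_simp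
    have e2 : a⁻¹ + b / (1 - a * b) = 1 / (a * (1 - a * b)) := by field_simp; ring
    rw [e1, inv_div, e2]
    field_simp
    ring
  obtain ⟨x₁, hx₁⟩ := exists_map_mul_eq hlam hκ 1
  rw [mul_comm] at hx₁
  have hone : ∀ a ∈ S, a ≠ 0 → a = 1 := fun a ha ha0 => by
    have e1 : lam (κ * (a * a * x₁)) = 1 := by
      refine (hF _).resolve_left fun h' => ?_
      have e2 := hua _ (hinv a ha) _ ((hS _).2 h')
      rw [hS, show a⁻¹ * a⁻¹ * (a * a * x₁) = x₁ by field_simp, hx₁] at e2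
      exact one_ne_zero e2
    have e2 : ∀ x, lam (x * (κ * (a * a - 1))) = 0 := fun x => by
      have e3 : x - lam (κ * x) • x₁ ∈ S := by
        rw [hS, mul_sub, mul_smul_comm, map_sub, map_smul, hx₁]
        simp
      have e4 := (hS _).1 (hua a ha _ e3)
      rw [mul_sub, mul_sub, mul_smul_comm, mul_smul_comm, map_sub, map_smul, e1] at e4
      rw [show x * (κ * (a * a - 1)) = κ * (a * a * x) - κ * x by ring, map_sub]
      simpa using e4
    have e3 : a * a - 1 = 0 := by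
      by_contra e3
      obtain ⟨x, hx⟩ := exists_map_mul_ne_zero hlam (mul_ne_zero hκ e3)
      exact hx (e2 x)
    have e4 : (a - 1) ^ 2 = 0 := by linear_combination e3 + (1 - a) * h2'
    exact sub_eq_zero.1 (pow_eq_zero_iff two_ne_zero |>.1 e4)
  have : FiniteDimensional F K := Module.finite_of_finrank_pos (by omega)
  have h4 : S ≤ F ∙ (1 : K) := fun a ha => by
    by_cases ha0 : a = 0
    · exact ha0 ▸ Submodule.zero_mem _
    · exact hone a ha ha0 ▸ Submodule.mem_span_singleton_self _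
  have h5 := Submodule.finrank_mono h4
  have h6 := LinearMap.finrank_range_add_finrank_ker (lam.comp (LinearMap.mulLeft F κ))
  have h7 := Submodule.finrank_le (LinearMap.range (lam.comp (LinearMap.mulLeft F κ)))
  rw [finrank_span_singleton one_ne_zero] at h5
  rw [finrank_self] at h7
  change _ + finrank F S = _ at h6
  omega

theorem eq_top_of_three_le (H : TraceForm h lam f) (hr : (finrank F K).Prime)
    {X : Subgroup (isomGroup f)} (hN : ∀ n, H.res n ∈ X) {U U' : Submodule F V}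
    (hE : IsExtremal K X U U') (hF : ∀ c : F, c = 0 ∨ c = 1) (h3 : 3 ≤ finrank F K) : X = ⊤ := by
  obtain ⟨v, δ₀, κ, hv, hδ₀, hκ, hδκ, hS⟩ := H.exists_hasSym hr hN hE
  obtain ⟨z, ⟨hz0, hz1, hz2⟩ | hz⟩ := exists_map_inv_eq_zero hF h3 H.ne (mul_ne_zero hδ₀ hκ)
  swap
  · exact (hz hδκ).elim
  have h1 := hS 1 (z * δ₀)
  have h2 := hS 1 (z⁻¹ * δ₀)
  obtain ⟨n, hn⟩ := H.exists_res_apply_eq hv (smul_ne_zero hz0 hv)
  have h4 := h2.conj (hN n)
  rw [one_smul] at h1 h4
  rw [H.res_apply, H.res_apply, map_smul, map_smul, hn, smul_smul, smul_smul,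
    show z⁻¹ * δ₀ * z = δ₀ by field_simp, show z⁻¹ * δ₀ * κ = δ₀ * κ * z⁻¹ by ring, hz2,
    mul_comm δ₀ z] at h4
  have h5 := h4.symm.isoTv_mem H.isAlt h1
    (H.kline_isotropic v _ (smul_mem_kline _ _) _ (smul_mem_kline _ _))
  rw [sub_zero, show z * δ₀ * κ = δ₀ * κ * z by ring, (hF _).resolve_left hz1] at h5
  refine H.eq_top_of_mem_rootSet hN (smul_ne_zero hδ₀ hv) fun c => ?_
  rcases hF c with rfl | rfl
  · rw [isoTv_zero]; exact X.one_mem
  · exact h5

omit [FiniteDimensional F V] in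
theorem isoTv_mul_isoTv_mem (H : TraceForm h lam f) {X : Subgroup (isomGroup f)}
    (hN : ∀ n, H.res n ∈ X) (hF : ∀ c : F, c = 0 ∨ c = 1) (h2 : finrank F K = 2) {v a b : V}
    (ha : a ∈ kline F K v) (ha0 : a ≠ 0) (hb : b ∈ kline F K v) (hb0 : b ≠ 0) :
    isoTv H.isAlt a 1 * isoTv H.isAlt b 1 ∈ X := by
  have h2F : (2 : F) = 0 := by
    rcases hF 2 with h | h
    · exact h
    · exact absurd (by linear_combination h) (one_ne_zero (α := F))
  have h2K : (2 : K) = 0 := by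
    have := congrArg (algebraMap F K) h2F
    rwa [map_ofNat, map_zero] at this
  obtain ⟨ω, rfl⟩ : ∃ ω : K, ω • a = b := by
    obtain ⟨α, rfl⟩ := mem_kline.1 ha
    obtain ⟨β, rfl⟩ := mem_kline.1 hb
    exact ⟨β / α, by rw [smul_smul, div_mul_cancel₀ _ (left_ne_zero_of_smul ha0)]⟩
  by_cases hω1 : ω = 1
  · rw [hω1, one_smul, isoTv_mul, one_add_one_eq_two, h2F, isoTv_zero]
    exact X.one_mem
  have hω0 : ω ≠ 0 := left_ne_zero_of_smul hb0
  have : FiniteDimensional F K := Module.finite_of_finrank_pos (by omega)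
  have hli : LinearIndependent F ![(1 : K), ω] := by
    rw [LinearIndependent.pair_iff]
    intro s t hst
    rcases hF s with rfl | rfl <;> rcases hF t with rfl | rfl
    · simp
    · simp [hω0] at hst
    · simp at hst
    · exact (hω1 (by simp only [one_smul] at hst; linear_combination hst - h2K)).elim
  have hspan : ∀ y : K, ∃ s t : F, s • (1 : K) + t • ω = y := fun y => by
    have h1 := hli.span_eq_top_of_card_eq_finrank' (by simp [h2])
    have h3 : Set.range ![(1 : K), ω] = {1, ω} := by simp [Set.pair_comm]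
    exact Submodule.mem_span_pair.1 (by rw [← h3, h1]; trivial)
  have hω : ω * ω = ω + 1 := by
    obtain ⟨s, t, hst⟩ := hspan (ω * ω)
    rcases hF s with rfl | rfl <;> rcases hF t with rfl | rfl
    · exact absurd (by simpa using hst.symm) hω0
    · exact (hω1 (mul_left_cancel₀ hω0 (by simpa using hst.symm))).elim
    · have e1 : (ω - 1) ^ 2 = 0 := by
        simp only [one_smul, zero_smul, add_zero] at hst
        linear_combination -hst + (1 - ω) * h2K
      exact (hω1 (sub_eq_zero.1 (pow_eq_zero_iff two_ne_zero |>.1 e1))).elim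
    · simp only [one_smul] at hst
      rw [← hst, add_comm]
  have key : ∀ y : K, lam y • (1 : K) + lam (ω * y) • ω = (lam 1 • (1 : K) + lam ω • ω) * y := by
    intro y
    obtain ⟨s, t, rfl⟩ := hspan y
    simp only [mul_add, mul_smul_comm, map_add, map_smul, mul_one, hω]
    simp only [Algebra.smul_def, map_mul, map_add, mul_one, Algebra.algebraMap_self,
      RingHom.id_apply]
    linear_combination (-algebraMap F K t * algebraMap F K (lam ω)) * hω
  convert hN (isoTv H.alt a (lam 1 • (1 : K) + lam ω • ω)) using 1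
  refine Subtype.ext (LinearEquiv.ext fun x => ?_)
  rw [H.res_isoTv_apply, ← key, Subgroup.coe_mul, LinearEquiv.mul_apply, coe_isoTv, coe_isoTv,
    altTv_apply, altTv_apply]
  simp only [one_mul, map_add, map_smul, LinearMap.add_apply, LinearMap.smul_apply,
    H.kline_isotropic v _ hb _ ha, mul_zero, add_zero, add_smul, smul_assoc, one_smul, H.eq,
    smul_eq_mul]
  abel

theorem eq_top_of_two (H : TraceForm h lam f) {X : Subgroup (isomGroup f)}
    (hN : ∀ n, H.res n ∈ X) {U U' : Submodule F V} (hE : IsExtremal K X U U')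
    (hF : ∀ c : F, c = 0 ∨ c = 1) (h2 : finrank F K = 2) (h3 : 3 ≤ finrank K V) : X = ⊤ := by
  have : FiniteDimensional K V := Module.Finite.of_restrictScalars_finite F K V
  have h2F : (2 : F) = 0 := by
    rcases hF 2 with h | h
    · exact h
    · exact absurd (by linear_combination h) (one_ne_zero (α := F))
  let R : V → V → Prop := fun a b => isoTv H.isAlt a 1 * isoTv H.isAlt b 1 ∈ X
  have hsq : ∀ a, isoTv H.isAlt a 1 * isoTv H.isAlt a 1 = 1 := fun a => by
    rw [isoTv_mul, one_add_one_eq_two, h2F, isoTv_zero]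
  have htrans : ∀ a b c, R a b → R b c → R a c := fun a b c hab hbc => by
    have := X.mul_mem hab hbc
    rwa [mul_assoc, ← mul_assoc (isoTv _ b 1), hsq, one_mul] at this
  have hconj : ∀ g ∈ X, ∀ a b, R a b → R ((g : V ≃ₗ[F] V) a) ((g : V ≃ₗ[F] V) b) := by
    intro g hg a b hab
    have := X.mul_mem (X.mul_mem hg hab) (X.inv_mem hg)
    simp only [R, ← isoTv_conj]
    convert this using 1
    group
  have hline : ∀ v : V, ∀ a ∈ kline F K v, a ≠ 0 → ∀ b ∈ kline F K v, b ≠ 0 → R a b :=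
    fun v a ha ha0 b hb hb0 => H.isoTv_mul_isoTv_mem hN hF h2 ha ha0 hb hb0
  obtain ⟨W, W', hE, x, hx, y, hy, hxy⟩ := H.exists_isExtremal_not_orth hN hE
  have horb : ∀ W ∈ lineOrbit K X, ∀ a ∈ W, a ≠ 0 → ∀ b ∈ W, b ≠ 0 → R a b := by
    rintro _ ⟨g, hg, v, -, rfl⟩ _ ⟨a, ha, rfl⟩ ha0 _ ⟨b, hb, rfl⟩ hb0
    exact hconj g hg a b (hline v a ha (fun h' => ha0 (by simp [h'])) b hb
      (fun h' => hb0 (by simp [h'])))
  have hx0 : x ≠ 0 := by rintro rfl; simp at hxy
  have hy0 : y ≠ 0 := by rintro rfl; simp at hxy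
  obtain ⟨δ, hδ, hδ0⟩ := Submodule.exists_mem_ne_zero_of_ne_bot hE.pos
  have hR : R x y := htrans _ δ _ (horb W hE.left x hx hx0 δ hδ.1 hδ0)
    (horb W' hE.right δ hδ.2 hδ0 y hy hy0)
  have hxy' : h x y ≠ 0 := fun h' => hxy (by rw [H.eq, h', map_zero])
  have hno : ∀ a b, h a b ≠ 0 → R a b := fun a b hab => by
    have hb0 : b ≠ 0 := by rintro rfl; simp at hab
    have hc : h x y / h a b ≠ 0 := div_ne_zero hxy' hab
    have e1 : h a ((h x y / h a b) • b) = h x y := by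
      rw [map_smul, smul_eq_mul, div_mul_cancel₀ _ hab]
    obtain ⟨n, hn, hn1, hn2⟩ := exists_isom_apply_pair H.nd H.alt
      (linearIndependent_pair_of_alt H.alt hxy') (linearIndependent_pair_of_alt H.alt
        (e1.symm ▸ hxy')) e1
    have e2 := hconj _ (hN ⟨n, hn⟩) x y hR
    rw [H.res_apply, H.res_apply] at e2
    simp only [hn1, hn2] at e2
    exact htrans _ _ _ e2 (hline b _ (smul_mem_kline _ _) (smul_ne_zero hc hb0) b
      (self_mem_kline b) hb0)
  have hall : ∀ a b, a ≠ 0 → b ≠ 0 → R a b := fun a b ha hb => by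
    have hex : ∀ a : V, a ≠ 0 → ∃ z ∈ (⊤ : Submodule K V), h a z ≠ 0 := fun a ha => by
      by_contra! H'
      exact ha (H.nd.1 a fun z => H' z trivial)
    obtain ⟨z, -, hz1, hz2⟩ := exists_mem_both_ne_zero ⊤ (h a) (h b) (hex a ha) (hex b hb)
    exact htrans _ z _ (hno a z hz1) (hno z b fun h' => hz2 (H.alt.isRefl _ _ h'))
  obtain ⟨w, hw, hwx⟩ : ∃ w ∈ h.orthogonal (K ∙ x), w ∉ K ∙ x := by
    refine SetLike.not_le_iff_exists.1 fun h' => ?_
    have h1 := Submodule.finrank_mono h'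
    rw [LinearMap.BilinForm.finrank_orthogonal H.nd, finrank_span_singleton hx0] at h1
    omega
  have hxw : h x w = 0 := hw x (Submodule.mem_span_singleton_self x)
  obtain ⟨u, hu, hux⟩ : ∃ u ∈ kline F K x, u ∉ F ∙ x := by
    refine SetLike.not_le_iff_exists.1 fun h' => ?_
    have h1 := Submodule.finrank_mono h'
    rw [finrank_kline hx0, finrank_span_singleton hx0] at h1
    omega
  have hne : ∀ y ∈ kline F K x, y + w ≠ 0 := fun y hy h' => hwx (by
    rw [eq_neg_of_add_eq_zero_right h']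
    exact (kline F K x).neg_mem hy)
  have hu0 : u ≠ 0 := fun h' => hux (h' ▸ Submodule.zero_mem _)
  have hw0 : w ≠ 0 := by simpa using hne 0 (Submodule.zero_mem _)
  have hux0 : u + x ≠ 0 := fun h' => hux (by
    rw [eq_neg_of_add_eq_zero_left h']
    exact Submodule.neg_mem _ (Submodule.mem_span_singleton_self x))
  have e1 : f u x = 0 := H.kline_isotropic x u hu x (self_mem_kline x)
  have e2 : f u w = 0 := by
    obtain ⟨a, rfl⟩ := mem_kline.1 hu
    simp [H.eq, hxw]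
  have e3 : f x w = 0 := by simp [H.eq, hxw]
  have e4 : f x u = 0 := H.isAlt.isRefl _ _ e1
  have e5 : f w u = 0 := H.isAlt.isRefl _ _ e2
  have e6 : f w x = 0 := H.isAlt.isRefl _ _ e3
  have key : isoTv H.isAlt u 1 * isoTv H.isAlt x 1 * (isoTv H.isAlt w 1 * isoTv H.isAlt (u + x + w) 1) =
      isoTv H.isAlt (u + x) 1 * isoTv H.isAlt (u + w) 1 * isoTv H.isAlt (x + w) 1 := by
    refine Subtype.ext (LinearEquiv.ext fun z => ?_)
    simp only [Subgroup.coe_mul, coe_isoTv, LinearEquiv.mul_apply, altTv_apply, map_add,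
      map_smul, H.isAlt.self_eq_zero, e1, e2, e3, e4, e5, e6]
    module
  have e7 := X.mul_mem (hall u x hu0 hx0)
    (hall w _ hw0 (hne _ ((kline F K x).add_mem hu (self_mem_kline x))))
  rw [key, X.mul_mem_cancel_left (hall _ _ hux0 (hne u hu))] at e7
  refine H.eq_top_of_mem_rootSet hN (hne x (self_mem_kline x)) fun c => ?_
  rcases hF c with rfl | rfl
  · rw [isoTv_zero]; exact X.one_mem
  · exact e7

/-- Every subgroup of `Sp_F(V)` containing `Sp_K(V)` and an element that is not `K`-semilinear is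
everything, for `K` of prime degree over the finite field `F` (`Sp_2(4) < Sp_4(2)` excluded). -/
theorem eq_top_of_not_mem [Finite K] [Nontrivial V] (H : TraceForm h lam f)
    (hr : (finrank F K).Prime)
    (hex : (∃ c : F, c ≠ 0 ∧ c ≠ 1) ∨ 3 ≤ finrank F K ∨ 3 ≤ finrank K V)
    {X : Subgroup (isomGroup f)} (hN : ∀ n, H.res n ∈ X) {g : isomGroup f} (hgX : g ∈ X)
    (hg : g ∉ semilin K f) : X = ⊤ := by
  obtain ⟨U, U', hE⟩ := H.exists_isExtremal_of_not_mem hgX hg
  by_cases hF : ∃ c : F, c ≠ 0 ∧ c ≠ 1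
  · obtain ⟨c, hc0, hc1⟩ := hF
    exact H.eq_top_of_card_ne_two hr hN hE hc0 hc1
  have hF' : ∀ c : F, c = 0 ∨ c = 1 := by
    push Not at hF
    exact fun c => or_iff_not_imp_left.2 (hF c)
  by_cases h3 : 3 ≤ finrank F K
  · exact H.eq_top_of_three_le hr hN hE hF' h3
  · exact H.eq_top_of_two hN hE hF' (by have := hr.two_le; omega)
      ((hex.resolve_left hF).resolve_left h3)

theorem semilin_ne_top [Nontrivial V] (H : TraceForm h lam f) (h2 : 2 ≤ finrank F K) :
    semilin K f ≠ ⊤ := fun h' => by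
  obtain ⟨v, hv⟩ := exists_ne (0 : V)
  obtain ⟨u, hu, huv⟩ : ∃ u ∈ kline F K v, u ∉ F ∙ v := by
    refine SetLike.not_le_iff_exists.1 fun h' => ?_
    have h1 := Submodule.finrank_mono h'
    rw [finrank_kline hv, finrank_span_singleton hv] at h1
    omega
  obtain ⟨w, hw, hwv⟩ : ∃ w ∈ f.orthogonal (F ∙ v), w ∉ kline F K v := by
    refine SetLike.not_le_iff_exists.1 fun h' => ?_
    obtain ⟨x, hx⟩ : ∃ x, h v x ≠ 0 := by
      by_contra! H'
      exact hv (H.nd.1 v H')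
    obtain ⟨a, ha⟩ : ∃ a : K, a ≠ 0 ∧ lam (a * h v x) = 0 := by
      by_contra! H'
      have e1 : Function.Injective (lam.comp (LinearMap.mulRight F (h v x))) := by
        rw [← LinearMap.ker_eq_bot, eq_bot_iff]
        intro a ha
        by_contra ha0
        exact H' a ha0 ha
      have : FiniteDimensional F K := Module.finite_of_finrank_pos (by omega)
      have := LinearMap.finrank_le_finrank_of_injective e1
      rw [finrank_self] at this
      omega
    have e2 : a • x ∈ kline F K v := h' fun y hy => by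
      obtain ⟨b, rfl⟩ := Submodule.mem_span_singleton.1 hy
      change f (b • v) (a • x) = 0
      rw [map_smul f, LinearMap.smul_apply, H.eq, map_smul, smul_eq_mul a, ha.2, smul_zero]
    obtain ⟨b, hb⟩ := mem_kline.1 e2
    have e3 := congrArg (h v) hb
    simp only [map_smul, H.alt.self_eq_zero, smul_eq_mul, mul_zero] at e3
    exact mul_ne_zero ha.1 hx e3.symm
  obtain ⟨g, hgI, hgv, hgu⟩ := exists_isom_fix_apply H.nondegenerate H.isAlt huv
    (w := w) (fun h'' => hwv (by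
      obtain ⟨a, rfl⟩ := Submodule.mem_span_singleton.1 h''
      exact Submodule.smul_mem _ _ (self_mem_kline v)))
    ((H.kline_isotropic v v (self_mem_kline v) u hu).trans
      (hw v (Submodule.mem_span_singleton_self v)).symm)
  obtain ⟨σ, hσ⟩ := (h' ▸ Subgroup.mem_top (⟨g, hgI⟩ : isomGroup f) : _ ∈ semilin K f)
  obtain ⟨a, rfl⟩ := mem_kline.1 hu
  have := hσ a v
  simp only [hgu, hgv] at this
  exact hwv (this ▸ smul_mem_kline _ _)

theorem isCoatom_semilin [Finite K] [Nontrivial V] (H : TraceForm h lam f)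
    (hr : (finrank F K).Prime)
    (hex : (∃ c : F, c ≠ 0 ∧ c ≠ 1) ∨ 3 ≤ finrank F K ∨ 3 ≤ finrank K V) :
    IsCoatom (semilin K f) :=
  isCoatom_of_forall (H.semilin_ne_top hr.two_le) fun _ hX ⟨_, hgX, hg⟩ =>
    H.eq_top_of_not_mem hr hex (fun n => hX (H.res_mem_semilin n)) hgX hg

end TraceForm

omit [FiniteDimensional F V] in
theorem eq_of_forall_map_mul_eq {lam : K →ₗ[F] F} (hlam : lam ≠ 0) {c c' : K}
    (h : ∀ a, lam (a * c) = lam (a * c')) : c = c' := by
  by_contra hne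
  obtain ⟨a, ha⟩ := exists_map_mul_ne_zero hlam (sub_ne_zero.2 hne)
  exact ha (by rw [mul_sub, map_sub, h, sub_self])

omit [FiniteDimensional F V] in
theorem exists_forall_map_mul_eq [FiniteDimensional F K] {lam : K →ₗ[F] F} (hlam : lam ≠ 0)
    (φ : K →ₗ[F] F) : ∃ c, ∀ a, lam (a * c) = φ a := by
  let Φ : K →ₗ[F] Module.Dual F K := ((LinearMap.mul F K).compr₂ lam).flip
  have hinj : Function.Injective Φ := fun c c' h =>
    eq_of_forall_map_mul_eq hlam fun a => LinearMap.congr_fun h a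
  obtain ⟨c, hc⟩ := (LinearMap.injective_iff_surjective_of_finrank_eq_finrank
    (Subspace.dual_finrank_eq (K := F) (V := K)).symm).1 hinj φ
  exact ⟨c, fun a => LinearMap.congr_fun hc a⟩

omit [FiniteDimensional F V] in
/-- A non-degenerate `F`-bilinear form for which the elements of `K` are self-adjoint and satisfy
`f(a v, v) = 0` comes from an alternating `K`-bilinear form. -/
theorem exists_traceForm [FiniteDimensional F K] {f : LinearMap.BilinForm F V}
    (hf : f.Nondegenerate) (hsa : ∀ (a : K) (u v : V), f (a • u) v = f u (a • v))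
    (halt : ∀ (a : K) (v : V), f (a • v) v = 0) :
    ∃ (h : LinearMap.BilinForm K V) (lam : K →ₗ[F] F), TraceForm h lam f := by
  obtain ⟨lam, hlam⟩ : ∃ lam : K →ₗ[F] F, lam ≠ 0 := by
    by_contra! H
    exact one_ne_zero ((Module.forall_dual_apply_eq_zero_iff F (1 : K)).1 fun φ => by simp [H φ])
  choose h hh using fun u v : V => exists_forall_map_mul_eq hlam
    ((f.flip v).comp ((LinearMap.toSpanSingleton K V u).restrictScalars F))
  replace hh : ∀ (u v : V) (a : K), lam (a * h u v) = f (a • u) v := hh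
  let h' : LinearMap.BilinForm K V := LinearMap.mk₂ K h
    (fun u u' v => eq_of_forall_map_mul_eq hlam fun a => by simp [mul_add, hh])
    (fun c u v => eq_of_forall_map_mul_eq hlam fun a => by
      rw [smul_eq_mul, ← mul_assoc, hh, hh, smul_smul])
    (fun u v v' => eq_of_forall_map_mul_eq hlam fun a => by simp [mul_add, hh])
    (fun c u v => eq_of_forall_map_mul_eq hlam fun a => by
      rw [smul_eq_mul, ← mul_assoc, hh, hh, ← hsa, smul_smul, mul_comm])
  have heq : ∀ u v, f u v = lam (h' u v) := fun u v => by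
    simpa [h'] using (hh u v 1).symm
  refine ⟨h', lam, ⟨fun u hu => hf.1 u fun v => ?_, fun v hv => hf.2 v fun u => ?_⟩,
    fun v => eq_of_forall_map_mul_eq hlam fun a => ?_, hlam, heq⟩
  · rw [heq, hu, map_zero]
  · rw [heq, hv, map_zero]
  · simp [h', hh, halt]

end Ext

section Geo

open Matrix

variable {ι : Type} [Fintype ι] [DecidableEq ι] {F : Type*} [Field F]

theorem isField_of_isFieldSubalgebra [Nonempty ι] {r : ℕ} {K : Subalgebra F (Matrix ι ι F)}
    (hK : Cfsg.Geo.IsFieldSubalgebra r K) : IsField K where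
  exists_pair_ne := exists_pair_ne _
  mul_comm x y := Subtype.ext (hK.comm x x.2 y y.2)
  mul_inv_cancel {x} hx := by
    obtain ⟨y, hy, h⟩ := hK.inv x x.2 fun h => hx (Subtype.ext h)
    exact ⟨⟨y, hy⟩, Subtype.ext h⟩

/-- Column vectors as a module over a ring mapped to matrices. -/
abbrev homModule {K : Type*} [Field K] [Algebra F K] (φ : K →ₐ[F] Matrix ι ι F) :
    Module K (ι → F) :=
  Module.compHom (ι → F) (Matrix.toLinAlgEquiv'.toAlgHom.comp φ).toRingHom

theorem homModule_smul {K : Type*} [Field K] [Algebra F K] (φ : K →ₐ[F] Matrix ι ι F) (a : K)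
    (v : ι → F) : letI := homModule φ; a • v = φ a *ᵥ v := rfl

theorem homModule_isScalarTower {K : Type*} [Field K] [Algebra F K] (φ : K →ₐ[F] Matrix ι ι F) :
    letI := homModule φ; IsScalarTower F K (ι → F) :=
  letI := homModule φ
  ⟨fun c a v => by rw [homModule_smul, homModule_smul, map_smul, Matrix.smul_mulVec]⟩

theorem comap_subalgebraNormalizer {K : Type*} [Field K] [Algebra F K]
    (φ : K →ₐ[F] Matrix ι ι F) [Nonempty ι] (B : LinearMap.BilinForm F (ι → F)) :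
    letI := homModule φ
    (Cfsg.Geo.subalgebraNormalizer φ.range).comap (isomToGL B) = semilin K B := by
  letI := homModule φ
  have hφ : Function.Injective φ := φ.toRingHom.injective
  ext g
  set G := isomToGL B g with hG
  have key : ∀ a b : K, (G : Matrix ι ι F) * φ a * ((G⁻¹ : GL ι F) : Matrix ι ι F) = φ b ↔
      ∀ v, (g : (ι → F) ≃ₗ[F] (ι → F)) (a • v) = b • (g : (ι → F) ≃ₗ[F] (ι → F)) v := by
    intro a b
    rw [Units.mul_inv_eq_iff_eq_mul, Matrix.ext_iff_mulVec]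
    simp only [← Matrix.mulVec_mulVec, hG, isomToGL_mulVec, homModule_smul]
  change (∀ k : Matrix ι ι F, k ∈ φ.range ↔
    (G : Matrix ι ι F) * k * ((G⁻¹ : GL ι F) : Matrix ι ι F) ∈ φ.range) ↔ _
  constructor
  · intro hg
    choose σ hσ using fun a => (hg (φ a)).1 ⟨a, rfl⟩
    have hbij : Function.Bijective σ := by
      constructor
      · intro a a' h
        have h1 := (hσ a).symm.trans ((congrArg φ h).trans (hσ a'))
        exact hφ ((Units.mul_right_inj G).1 ((Units.mul_left_inj G⁻¹).1 h1))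
      · intro b
        obtain ⟨a, ha⟩ := (hg (((G⁻¹ : GL ι F) : Matrix ι ι F) * φ b * G)).2
          ⟨b, by simp [mul_assoc]⟩
        refine ⟨a, hφ ((hσ a).trans ?_)⟩
        change _ * φ.toRingHom a * _ = _
        rw [ha]
        simp [mul_assoc]
    exact ⟨Equiv.ofBijective σ hbij, fun a => (key a (σ a)).1 (hσ a).symm⟩
  · rintro ⟨σ, hσ⟩ k
    constructor
    · rintro ⟨a, rfl⟩
      exact ⟨σ a, ((key a _).2 (hσ a)).symm⟩
    · rintro ⟨b, hb⟩
      have h1 := (key _ _).2 (hσ (σ.symm b))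
      rw [Equiv.apply_symm_apply] at h1
      exact ⟨σ.symm b, (Units.mul_right_inj G).1 ((Units.mul_left_inj G⁻¹).1 (h1.trans hb))⟩

/-- `Sp_{2m/r}(q^r).r` is maximal in `Sp_{2m}(q)` for `r` prime, except in `Sp_4(2)`. -/
theorem isMaximalIn_subalgebraNormalizer [Fintype F] (m : ℕ) (hm : 1 ≤ m)
    (hex : ¬ (m = 2 ∧ Fintype.card F = 2)) (r : ℕ) (hr : r.Prime)
    (K : Subalgebra F (Matrix (Fin m ⊕ Fin m) (Fin m ⊕ Fin m) F))
    (hK : Cfsg.Geo.IsFieldSubalgebra r K) (hsa : Cfsg.Geo.IsSelfAdjointFor (Cfsg.sympForm m F) K)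
    (halt : ∀ k ∈ K, ∀ v : (Fin m ⊕ Fin m → F), Cfsg.sympForm m F (Matrix.mulVec k v) v = 0) :
    Cfsg.Geo.IsMaximalIn (Cfsg.spGL m F) (Cfsg.Geo.subalgebraNormalizer K ⊓ Cfsg.spGL m F) := by
  have : Nonempty (Fin m ⊕ Fin m) := ⟨Sum.inl ⟨0, hm⟩⟩
  letI : Field K := (isField_of_isFieldSubalgebra hK).toField
  letI := homModule K.val
  have := homModule_isScalarTower K.val
  rw [sympForm_eq_fun] at hsa halt
  obtain ⟨h, lam, H⟩ := exists_traceForm (K := K) (jBilin_nondegenerate (l := Fin m) (F := F))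
    (fun a u v => hsa a a.2 u v) (fun a v => halt a a.2 v)
  refine isMaximalIn_of_isCoatom_comap _ (range_isomToGL_jBilin m) _ ?_
  have h1 := comap_subalgebraNormalizer K.val (jBilin (Fin m) F)
  rw [Subalgebra.range_val] at h1
  rw [h1]
  refine H.isCoatom_semilin (hK.finrank_eq ▸ hr) ?_
  by_cases hq : Fintype.card F = 2
  swap
  · exact Or.inl (exists_ne_zero_ne_one_of_card_ne_two hq)
  right
  have h2 := Module.finrank_mul_finrank F K (Fin m ⊕ Fin m → F)
  have : FiniteDimensional K (Fin m ⊕ Fin m → F) := Module.Finite.of_restrictScalars_finite F K _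
  obtain ⟨l, hl⟩ := even_finrank_of_alt H.nd H.alt
  have h3 := hr.two_le
  rw [hK.finrank_eq] at h2 ⊢
  rw [hl] at h2 ⊢
  simp only [finrank_fintype_fun_eq_card, Fintype.card_sum, Fintype.card_fin] at h2
  by_contra! H'
  have h4 : r = 2 := by omega
  subst h4
  exact hex ⟨by omega, hq⟩

end Geo

end Cfsg.Agent.H27
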