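import Cfsg.Agent.H27.TenTwo
import Cfsg.Agent.H27.GeoSymp
import Cfsg.Agent.H25.FormTensor

/-!
# Tensor decompositions of coordinate spaces; maximality of `Sp_a ⊗ O_b` in `Sp_ab`
-/

set_option autoImplicit false

namespace Cfsg.Agent.H27

open Module TensorProduct QuadraticMap Matrix Cfsg.Geo
open scoped Kronecker

section Frame

variable {F : Type*} [Field F] {ι : Type} [Fintype ι] [DecidableEq ι] {a b : ℕ}

variable (F a b) in
/-- Coordinates on the tensor product of two coordinate spaces. -/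
noncomputable def tenEquiv : (Fin a → F) ⊗[F] (Fin b → F) ≃ₗ[F] (Fin a × Fin b → F) :=
  ((Pi.basisFun F (Fin a)).tensorProduct (Pi.basisFun F (Fin b))).equivFun

theorem tenEquiv_tmul (x : Fin a → F) (y : Fin b → F) :
    tenEquiv F a b (x ⊗ₜ y) = H25.pure2 x y := by
  funext ⟨i, j⟩
  simp [tenEquiv, H25.pure2, mul_comm]

/-- The tensor decomposition of `ι → F` given by `e` and `P`. -/
noncomputable def tenFrame (e : ι ≃ Fin a × Fin b) (P : GL ι F) :
    (Fin a → F) ⊗[F] (Fin b → F) ≃ₗ[F] (ι → F) :=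
  (tenEquiv F a b).trans (H25.frameEquiv e P)

theorem kron_mulVec_tenEquiv (x : Matrix (Fin a) (Fin a) F) (y : Matrix (Fin b) (Fin b) F)
    (p : (Fin a → F) ⊗[F] (Fin b → F)) :
    (x ⊗ₖ y) *ᵥ tenEquiv F a b p =
      tenEquiv F a b (TensorProduct.map (Matrix.toLin' x) (Matrix.toLin' y) p) := by
  induction p using TensorProduct.induction_on with
  | zero => simp
  | add p q hp hq => simp only [map_add, Matrix.mulVec_add, hp, hq]
  | tmul u w => simp only [TensorProduct.map_tmul, tenEquiv_tmul, H25.kron_mulVec_pure2,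
      Matrix.toLin'_apply]

theorem mem_tensorProductSubgroup_iff [Nonempty ι] (e : ι ≃ Fin a × Fin b) (P g : GL ι F) :
    g ∈ tensorProductSubgroup a b e P ↔ ∃ (α : End F (Fin a → F)) (β : End F (Fin b → F)),
      ∀ p, (g : Matrix ι ι F) *ᵥ tenFrame e P p = tenFrame e P (TensorProduct.map α β p) := by
  rw [H25.mem_tensorProductSubgroup]
  constructor
  · rintro ⟨x, y, h⟩
    refine ⟨Matrix.toLin' x, Matrix.toLin' y, fun p => ?_⟩
    simp only [tenFrame, LinearEquiv.trans_apply]
    rw [h, H25.conjT_mulVec, kron_mulVec_tenEquiv]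
  · rintro ⟨α, β, h⟩
    have h1 : (g : Matrix ι ι F) = H25.conjT (H25.frameEquiv e P)
        (LinearMap.toMatrix' α ⊗ₖ LinearMap.toMatrix' β) := H25.eq_conjT fun x => by
      obtain ⟨p, rfl⟩ := (tenEquiv F a b).surjective x
      rw [kron_mulVec_tenEquiv, Matrix.toLin'_toMatrix', Matrix.toLin'_toMatrix']
      exact h p
    have h2 : IsUnit (LinearMap.toMatrix' α ⊗ₖ LinearMap.toMatrix' β) := by
      have := g.isUnit.map (H25.conjT (H25.frameEquiv e P)).symm
      rwa [h1, AlgEquiv.symm_apply_apply] at this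
    rw [Matrix.isUnit_iff_isUnit_det, Matrix.det_kronecker, IsUnit.mul_iff] at h2
    obtain ⟨i⟩ := ‹Nonempty ι›
    have ha : Fintype.card (Fin a) ≠ 0 := (Fintype.card_pos_iff.2 ⟨(e i).1⟩).ne'
    have hb : Fintype.card (Fin b) ≠ 0 := (Fintype.card_pos_iff.2 ⟨(e i).2⟩).ne'
    obtain ⟨x, hx⟩ := (Matrix.isUnit_iff_isUnit_det _).2 ((isUnit_pow_iff hb).1 h2.1)
    obtain ⟨y, hy⟩ := (Matrix.isUnit_iff_isUnit_det _).2 ((isUnit_pow_iff ha).1 h2.2)
    exact ⟨x, y, by rw [hx, hy, h1]⟩

theorem formOfGram_tenEquiv {f₁ : (Fin a → F) → (Fin a → F) → F}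
    {f₂ : (Fin b → F) → (Fin b → F) → F} (h₁ : IsBilinearForm f₁) (h₂ : IsBilinearForm f₂)
    (p q : (Fin a → F) ⊗[F] (Fin b → F)) :
    formOfGram id (gramMatrix f₁ ⊗ₖ gramMatrix f₂) (tenEquiv F a b p) (tenEquiv F a b q) =
      tB (geoBilin h₁) (geoBilin h₂) p q := by
  have key : ∀ {n : ℕ} {f : (Fin n → F) → (Fin n → F) → F} (h : IsBilinearForm f) (x y : Fin n → F),
      H25.form (RingEquiv.refl F) (gramMatrix f) x y = geoBilin h x y := fun {n f} h x y => by
    conv_rhs => rw [pi_eq_sum_univ' x, pi_eq_sum_univ' y]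
    simp only [H25.form, dotProduct, Matrix.mulVec, map_sum, map_smul, LinearMap.sum_apply,
      LinearMap.smul_apply, geoBilin_apply, gramMatrix, Finset.mul_sum, smul_eq_mul,
      Function.comp, RingEquiv.refl_apply]
    rw [Finset.sum_comm]
    exact Finset.sum_congr rfl fun i _ => Finset.sum_congr rfl fun j _ => by ring
  have h0 : ∀ G : Matrix (Fin a × Fin b) (Fin a × Fin b) F, ∀ x y, formOfGram id G x y =
      H25.form (RingEquiv.refl F) G x y := fun G x y => H25.formOfGram_eq (σ := RingEquiv.refl F) G x y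
  rw [h0]
  induction p using TensorProduct.induction_on with
  | zero => simp [H25.form]
  | add p p' hp hp' => simp only [map_add, LinearMap.add_apply, ← hp, ← hp', H25.form, add_dotProduct]
  | tmul u w =>
    induction q using TensorProduct.induction_on with
    | zero => simp [H25.form]
    | add q q' hq hq' =>
      simp only [map_add, ← hq, ← hq', H25.form, ← dotProduct_add, ← Matrix.mulVec_add]
      rfl
    | tmul u' w' => rw [tenEquiv_tmul, tenEquiv_tmul, H25.form_kron_pure2, key h₁, key h₂, tB_tmul]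

theorem exists_tenFrame_form {f : (ι → F) → (ι → F) → F} {f₁ : (Fin a → F) → (Fin a → F) → F}
    {f₂ : (Fin b → F) → (Fin b → F) → F} (h₁ : IsBilinearForm f₁) (h₂ : IsBilinearForm f₂)
    {e : ι ≃ Fin a × Fin b} {P : GL ι F} (hT : IsTensorFormStructure id f f₁ f₂ e P) :
    ∃ c : F, c ≠ 0 ∧ ∀ p q, f (tenFrame e P p) (tenFrame e P q) =
      tB (c • geoBilin h₁) (geoBilin h₂) p q := by
  obtain ⟨c, hc, h⟩ := hT
  refine ⟨c, hc, fun p q => ?_⟩
  have h1 : tB (c • geoBilin h₁) (geoBilin h₂) = c • tB (geoBilin h₁) (geoBilin h₂) :=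
    TensorProduct.ext' fun x w => TensorProduct.ext' fun y w' => by simp [mul_assoc]
  rw [h1, LinearMap.smul_apply, LinearMap.smul_apply, smul_eq_mul, ← formOfGram_tenEquiv, ← h]
  simp only [tenFrame, LinearEquiv.trans_apply, H25.frameEquiv_apply]

/-- The quadratic form whose polar form is a given symmetric form, in odd characteristic. -/
noncomputable def halfQ {V : Type*} [AddCommGroup V] [Module F V] (h : LinearMap.BilinForm F V) :
    QuadraticForm F V := (2 : F)⁻¹ • h.toQuadraticMap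

theorem polarBilin_halfQ {V : Type*} [AddCommGroup V] [Module F V] {h : LinearMap.BilinForm F V}
    (h2 : (2 : F) ≠ 0) (hs : ∀ x y, h x y = h y x) : polarBilin (halfQ h) = h := by
  ext x y
  simp only [halfQ, polarBilin_apply_apply, polar, _root_.smul_apply,
    LinearMap.BilinMap.toQuadraticMap_apply, map_add, LinearMap.add_apply, smul_eq_mul, hs y x]
  field_simp
  ring

end Frame

section Sp

variable {F U W : Type*} [Field F] [AddCommGroup U] [Module F U] [AddCommGroup W] [Module F W]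
variable {f : LinearMap.BilinForm F U} {Q : QuadraticForm F W}

theorem TS.exists_not_map [Finite F] [FiniteDimensional F W] (hS : TS f Q) :
    ∃ g : isomGroup (tB f (polarBilin Q)), ∀ (α : End F U) (β : End F W),
      g.1.toLinearMap ≠ TensorProduct.map α β := by
  have := hS.nt
  obtain ⟨u, hu⟩ := exists_ne (0 : U)
  obtain ⟨x, hx, hx'⟩ := hS.exists_pair hu
  obtain ⟨w, -, hw0, hw⟩ := H30.exists_singular_mem Q ⊤ (by rw [finrank_top]; exact hS.three)
  obtain ⟨y, hy⟩ := exists_apply_eq_one' hS.qnd hw0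
  refine ⟨isoTv hS.isAlt (u ⊗ₜ w) 1, fun α β h => ?_⟩
  have h1 := LinearMap.congr_fun h (x ⊗ₜ y)
  rw [LinearEquiv.coe_coe, coe_isoTv, altTv_apply, tB_tmul, hx, hy, TensorProduct.map_tmul] at h1
  have h2 := congrArg (cL f W u) h1
  have h3 := congrArg (cL f W x) h1
  simp only [map_add, cL_tmul, hx, hx', one_smul, mul_one, hS.alt.self_eq_zero, zero_smul,
    add_zero, zero_add] at h2 h3
  have h4 := congrArg (fun v => polarBilin Q v w) h2
  have h5 := congrArg (fun v => polarBilin Q v w) h3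
  have h6 : polarBilin Q w w = 0 := by simp [polar_self, hw]
  simp only [hy, map_smul, LinearMap.smul_apply, h6, smul_eq_mul, mul_zero] at h4 h5
  rw [(mul_eq_zero.1 h5.symm).resolve_right fun h => by simp [h] at h4, zero_smul] at h3
  exact hw0 (by simpa using h3)

/-- The stabiliser in `Sp_2m(q)`, `q` odd, of a tensor decomposition into a symplectic space and
an orthogonal space of dimension at least three is maximal, apart from `O_3(3)` and
`Sp_2 ⊗ O_4`. -/
theorem isMaximalIn_tensorProductSubgroup {F : Type*} [Field F] [Fintype F] (m : ℕ) (hm : 0 < m)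
    (hodd : Odd (Fintype.card F)) (n₁ n₂ : ℕ) (hn₂ : 3 ≤ n₂)
    (hex : ¬ (Fintype.card F = 3 ∧ n₂ = 3)) (h24 : ¬ (n₁ = 2 ∧ n₂ = 4))
    (e : (Fin m ⊕ Fin m) ≃ Fin n₁ × Fin n₂) (P : GL (Fin m ⊕ Fin m) F)
    (f₁ : (Fin n₁ → F) → (Fin n₁ → F) → F) (f₂ : (Fin n₂ → F) → (Fin n₂ → F) → F)
    (hf₁ : IsSymplecticForm f₁) (hf₂ : IsSymmetricForm f₂)
    (hT : IsTensorFormStructure id (Cfsg.sympForm m F) f₁ f₂ e P) :
    IsMaximalIn (Cfsg.spGL m F) (tensorProductSubgroup n₁ n₂ e P ⊓ Cfsg.spGL m F) := by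
  have hne : Nonempty (Fin m ⊕ Fin m) := ⟨Sum.inl ⟨0, hm⟩⟩
  have h2 : (2 : F) ≠ 0 := Ring.two_ne_zero fun h => by
    have := FiniteField.even_card_of_char_two h
    obtain ⟨k, hk⟩ := hodd
    omega
  obtain ⟨c, hc, h⟩ := exists_tenFrame_form hf₁.bilinear hf₂.bilinear hT
  have hQ := polarBilin_halfQ (h := geoBilin hf₂.bilinear) h2 hf₂.symm
  have hnd := geoBilin_nondegenerate hf₁.bilinear hf₁.nondegenerate
  have hS : TS (c • geoBilin hf₁.bilinear) (halfQ (geoBilin hf₂.bilinear)) :=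
    ⟨fun x => by simp [geoBilin_apply, hf₁.alternating],
      ⟨fun x hx => hnd.1 x fun y => by simpa [hc] using hx y,
        fun x hx => hnd.2 x fun y => by simpa [hc] using hx y⟩,
      hQ.symm ▸ geoBilin_nondegenerate hf₂.bilinear hf₂.nondegenerate, h2,
      by have : Nonempty (Fin n₁) := ⟨(e (Sum.inl ⟨0, hm⟩)).1⟩; infer_instance, by simpa⟩
  rw [← hQ] at h
  let ψ := isomGroupCongr (B' := jBilin (Fin m) F) (tenFrame e P)
    fun p q => (sympForm_eq_jBilin m _ _).symm.trans (h p q)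
  have hmem : ∀ g, g ∈ (tensorProductSubgroup n₁ n₂ e P).comap
      ((isomToGL (jBilin (Fin m) F)).comp ψ.toMonoidHom) ↔
      ∃ α β, g.1.toLinearMap = TensorProduct.map α β := fun g => by
    rw [Subgroup.mem_comap, mem_tensorProductSubgroup_iff]
    refine exists_congr fun α => exists_congr fun β => ?_
    rw [LinearMap.ext_iff]
    refine forall_congr' fun p => ?_
    rw [MonoidHom.comp_apply, isomToGL_mulVec, MulEquiv.coe_toMonoidHom, isomGroupCongr_apply,
      LinearEquiv.symm_apply_apply]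
    exact (tenFrame e P).injective.eq_iff
  refine isMaximalIn_of_isCoatom_comap ((isomToGL (jBilin (Fin m) F)).comp ψ.toMonoidHom)
    (by rw [MonoidHom.range_comp, MonoidHom.range_eq_top.2 ψ.surjective, ← MonoidHom.range_eq_map,
      range_isomToGL_jBilin]) _ (isCoatom_of_forall (fun htop => ?_) fun M hM ⟨g, hg, hg'⟩ => ?_)
  · obtain ⟨g, hg⟩ := hS.exists_not_map
    obtain ⟨α, β, h⟩ := (hmem g).1 (htop ▸ Subgroup.mem_top g)
    exact hg α β h
  · by_contra hne
    exact hg' ((hmem g).2 (hS.exists_eq_map (by simpa [Nat.card_eq_fintype_card] using hex)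
      (by simpa using h24) M (fun g α β h => hM ((hmem g).2 ⟨α, β, h⟩)) hne g hg))

end Sp

end Cfsg.Agent.H27
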