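import Cfsg.Agent.H27.QCls

/-!
# A matrix algebra acting on a space: matrix coefficients with values in the commutant
-/

set_option autoImplicit false

namespace Cfsg.Agent.H27

open Module H36

variable {F U : Type*} [Field F] [AddCommGroup U] [Module F U] {f : LinearMap.BilinForm F U}

theorem ro_mul_ro (x y x' y' : U) : ro f x y * ro f x' y' = f x' y • ro f x y' := by
  ext v
  simp [smul_smul, mul_comm]

theorem mul_ro (a : End F U) (x y : U) : a * ro f x y = ro f (a x) y := by
  ext v
  simp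

theorem ro_mul {a : End F U} {y y' : U} (h : ∀ v, f (a v) y = f v y') (x : U) :
    ro f x y * a = ro f x y' := by
  ext v
  simp [h]

theorem ro_add_left (x x' y : U) : ro f (x + x') y = ro f x y + ro f x' y := by
  ext v
  simp

theorem ro_add_right (x y y' : U) : ro f x (y + y') = ro f x y + ro f x y' := by
  ext v
  simp [add_smul]

theorem ro_smul_left (c : F) (x y : U) : ro f (c • x) y = c • ro f x y := by
  ext v
  simp [smul_smul, mul_comm]

theorem ro_smul_right (c : F) (x y : U) : ro f x (c • y) = c • ro f x y := by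
  ext v
  simp [smul_smul]

theorem ro_zero_left (y : U) : ro f 0 y = 0 := by
  ext v
  simp

theorem ro_zero_right (x : U) : ro f x 0 = 0 := by
  ext v
  simp

theorem ro_ne_zero (hf : f.Nondegenerate) {x y : U} (hx : x ≠ 0) (hy : y ≠ 0) : ro f x y ≠ 0 := by
  obtain ⟨v, hv⟩ := exists_apply_eq_one' hf hy
  intro h
  simpa [hv, hx] using LinearMap.congr_fun h v

variable {A : Type*} [Ring A] [Algebra F A]

/-- The images of the rank one operators. -/
def eE (f : LinearMap.BilinForm F U) (φ : End F U →ₐ[F] A) : U →ₗ[F] U →ₗ[F] A :=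
  LinearMap.mk₂ F (fun x y => φ (ro f x y)) (fun _ _ _ => by rw [ro_add_left, map_add])
    (fun _ _ _ => by rw [ro_smul_left, map_smul]) (fun _ _ _ => by rw [ro_add_right, map_add])
    (fun _ _ _ => by rw [ro_smul_right, map_smul])

variable {φ : End F U →ₐ[F] A}

theorem eE_apply (x y : U) : eE f φ x y = φ (ro f x y) := rfl

theorem eE_mul (x y x' y' : U) : eE f φ x y * eE f φ x' y' = f x' y • eE f φ x y' := by
  simp only [eE_apply, ← map_mul, ro_mul_ro, map_smul]

theorem eE_mul' (x y x' y' : U) (T : A) :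
    eE f φ x y * (eE f φ x' y' * T) = f x' y • (eE f φ x y' * T) := by
  rw [← mul_assoc, eE_mul, smul_mul_assoc]

theorem phi_mul_eE (a : End F U) (x y : U) : φ a * eE f φ x y = eE f φ (a x) y := by
  simp only [eE_apply, ← map_mul, mul_ro]

theorem eE_mul_phi {a : End F U} {y y' : U} (h : ∀ v, f (a v) y = f v y') (x : U) :
    eE f φ x y * φ a = eE f φ x y' := by
  simp only [eE_apply, ← map_mul, ro_mul h]

/-- `c` lies in the commutant of the image of `φ`. -/
def Cm (φ : End F U →ₐ[F] A) (c : A) : Prop := ∀ a, φ a * c = c * φ a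

theorem Cm.comm_eE {c : A} (h : Cm φ c) (x y : U) : eE f φ x y * c = c * eE f φ x y := h _

theorem cm_one : Cm φ 1 := fun a => by rw [mul_one, one_mul]

theorem cm_zero : Cm φ 0 := fun a => by rw [mul_zero, zero_mul]

theorem Cm.mul {c d : A} (h : Cm φ c) (h' : Cm φ d) : Cm φ (c * d) := fun a => by
  rw [← mul_assoc, h, mul_assoc, h', mul_assoc]

theorem Cm.add {c d : A} (h : Cm φ c) (h' : Cm φ d) : Cm φ (c + d) := fun a => by
  rw [mul_add, add_mul, h, h']

theorem Cm.sub {c d : A} (h : Cm φ c) (h' : Cm φ d) : Cm φ (c - d) := fun a => by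
  rw [mul_sub, sub_mul, h, h']

theorem Cm.neg {c : A} (h : Cm φ c) : Cm φ (-c) := fun a => by
  rw [mul_neg, neg_mul, h]

theorem Cm.smul {c : A} (h : Cm φ c) (r : F) : Cm φ (r • c) := fun a => by
  rw [mul_smul_comm, smul_mul_assoc, h]

theorem Cm.inv {c d : A} (h : Cm φ c) (h1 : c * d = 1) (h2 : d * c = 1) : Cm φ d := fun a => by
  calc φ a * d = d * (c * φ a) * d := by rw [← mul_assoc, h2, one_mul]
    _ = d * φ a := by rw [← h, mul_assoc, mul_assoc, h1, mul_one]

/-- An element of the commutant killed by a non-zero rank one operator vanishes. -/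
theorem Cm.eq_of_eE (hf : f.Nondegenerate) {x y : U} (hx : x ≠ 0) (hy : y ≠ 0) {c : A}
    (h : eE f φ x y * c = 0) (a b : U) (hc : Cm φ c) : eE f φ a b * c = 0 := by
  obtain ⟨x', hx'⟩ := exists_apply_eq_one hf hx
  obtain ⟨y', hy'⟩ := exists_apply_eq_one' hf hy
  have : eE f φ a x' * (eE f φ x y * c) * eE f φ y' b = eE f φ a b * c := by
    rw [eE_mul', hx', one_smul, mul_assoc, ← hc.comm_eE, eE_mul', hy', one_smul]
  rw [← this, h, mul_zero, zero_mul]

variable [FiniteDimensional F U]

/-- A basis of `U`. -/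
noncomputable def bas (F U : Type*) [Field F] [AddCommGroup U] [Module F U]
    [FiniteDimensional F U] (i : Fin (finrank F U)) : U := Module.finBasis F U i

/-- The dual basis. -/
noncomputable def dbas (hf : f.Nondegenerate) (i : Fin (finrank F U)) : U :=
  f.dualBasis hf (Module.finBasis F U) i

theorem sum_dbas (hf : f.Nondegenerate) (v : U) : ∑ i, f v (bas F U i) • dbas hf i = v := by
  conv_rhs => rw [← (f.dualBasis hf (Module.finBasis F U)).sum_repr v]
  simp only [LinearMap.BilinForm.dualBasis_repr_apply, bas, dbas]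

theorem sum_bas (hf : f.Nondegenerate) (v : U) : ∑ i, f (dbas hf i) v • bas F U i = v := by
  rw [← sub_eq_zero]
  refine hf.2 _ fun w => ?_
  have h := congrArg (fun z => f z v) (sum_dbas hf w)
  simp only [map_sum, map_smul, LinearMap.sum_apply, LinearMap.smul_apply, smul_eq_mul] at h
  simp only [map_sub, map_sum, map_smul, smul_eq_mul, ← h, mul_comm, sub_self]

theorem sum_ro (hf : f.Nondegenerate) : ∑ i, ro f (dbas hf i) (bas F U i) = 1 := by
  ext v
  simp [sum_dbas]

theorem sum_eE (hf : f.Nondegenerate) : ∑ i, eE f φ (dbas hf i) (bas F U i) = 1 := by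
  simp only [eE_apply, ← map_sum, sum_ro, map_one]

theorem ro_induction (hf : f.Nondegenerate) {P : End F U → Prop} (h0 : P 0)
    (hadd : ∀ a b, P a → P b → P (a + b)) (hro : ∀ x y, P (ro f x y)) (a : End F U) : P a := by
  rw [← mul_one a, ← sum_ro hf, Finset.mul_sum]
  exact Finset.sum_induction _ P hadd h0 fun i _ => by rw [mul_ro]; exact hro _ _

theorem cm_of_eE (hf : f.Nondegenerate) {c : A} (h : ∀ x y, eE f φ x y * c = c * eE f φ x y) :
    Cm φ c :=
  ro_induction hf (by simp) (fun a b ha hb => by rw [map_add, add_mul, mul_add, ha, hb]) h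

theorem cm_of_tv (hf : f.Nondegenerate) {c : A} (h : ∀ x, eE f φ x x * c = c * eE f φ x x) :
    Cm φ c := by
  let C : Submodule F (End F U) :=
    { carrier := {γ | φ γ * c = c * φ γ}
      add_mem' := fun {a b} ha hb => by
        simp only [Set.mem_ofPred_eq, map_add, mul_add, add_mul] at ha hb ⊢
        rw [ha, hb]
      zero_mem' := by simp
      smul_mem' := fun c a ha => by
        simp only [Set.mem_ofPred_eq, map_smul, mul_smul_comm, smul_mul_assoc] at ha ⊢
        rw [ha] }
  exact cm_of_eE hf (ro_mem_of_mul hf C (fun a ha b hb => by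
    change φ _ * _ = _ * φ _ at ha hb ⊢
    rw [map_mul, mul_assoc, hb, ← mul_assoc, ha, mul_assoc]) h)

theorem Cm.eq_zero (hf : f.Nondegenerate) {x y : U} (hx : x ≠ 0) (hy : y ≠ 0) {c : A}
    (hc : Cm φ c) (h : eE f φ x y * c = 0) : c = 0 := by
  rw [← one_mul c, ← sum_eE (φ := φ) hf, Finset.sum_mul]
  exact Finset.sum_eq_zero fun i _ => hc.eq_of_eE hf hx hy h _ _

theorem Cm.cancel (hf : f.Nondegenerate) {x y : U} (hx : x ≠ 0) (hy : y ≠ 0) {c d : A}
    (hc : Cm φ c) (hd : Cm φ d) (h : eE f φ x y * c = eE f φ x y * d) : c = d :=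
  sub_eq_zero.1 ((hc.sub hd).eq_zero hf hx hy (by rw [mul_sub, h, sub_self]))

/-- The matrix coefficient of `T` at `x`, `y`. -/
noncomputable def co (hf : f.Nondegenerate) (φ : End F U →ₐ[F] A) : U →ₗ[F] U →ₗ[F] A →ₗ[F] A :=
  LinearMap.mk₂ F (fun x y => ∑ i, LinearMap.mulLeftRight F
      (eE f φ (dbas hf i) x, eE f φ y (bas F U i)))
    (fun _ _ _ => by ext; simp [add_mul, Finset.sum_add_distrib])
    (fun _ _ _ => by ext; simp [Finset.smul_sum])
    (fun _ _ _ => by ext; simp [mul_add, Finset.sum_add_distrib])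
    (fun _ _ _ => by ext; simp [Finset.smul_sum])

variable {hf : f.Nondegenerate}

theorem co_apply (x y : U) (T : A) :
    co hf φ x y T = ∑ i, eE f φ (dbas hf i) x * T * eE f φ y (bas F U i) := by
  simp [co]

theorem eE_mul_co (a b x y : U) (T : A) :
    eE f φ a b * co hf φ x y T = eE f φ a x * T * eE f φ y b := by
  conv_rhs => rw [← sum_bas hf b]
  simp only [co_apply, Finset.mul_sum, ← mul_assoc, eE_mul, map_sum, map_smul, smul_mul_assoc,
    mul_smul_comm]

theorem co_mul_eE (a b x y : U) (T : A) :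
    co hf φ x y T * eE f φ a b = eE f φ a x * T * eE f φ y b := by
  conv_rhs => rw [← sum_dbas hf a]
  simp only [co_apply, Finset.sum_mul, mul_assoc, eE_mul, map_sum, map_smul, smul_mul_assoc,
    mul_smul_comm, LinearMap.sum_apply, LinearMap.smul_apply]

theorem cm_co (x y : U) (T : A) : Cm φ (co hf φ x y T) :=
  cm_of_eE hf fun a b => by rw [eE_mul_co, co_mul_eE]

theorem Cm.co_mul {c : A} (hc : Cm φ c) (x y : U) (T : A) :
    co hf φ x y (c * T) = c * co hf φ x y T := by
  simp only [co_apply, Finset.mul_sum, ← mul_assoc, hc.comm_eE]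

theorem Cm.co_mul' {c : A} (hc : Cm φ c) (x y : U) (T : A) :
    co hf φ x y (T * c) = co hf φ x y T * c := by
  simp only [co_apply, Finset.sum_mul, mul_assoc, hc.comm_eE]

theorem co_phi (x y : U) (a : End F U) : co hf φ x y (φ a) = f (a y) x • (1 : A) := by
  simp only [co_apply, mul_assoc, phi_mul_eE, eE_mul, ← Finset.smul_sum, sum_eE]

theorem co_eE (x y a b : U) : co hf φ x y (eE f φ a b) = (f y b * f a x) • (1 : A) := by
  rw [eE_apply, co_phi]
  simp

theorem Cm.co_self {c : A} (hc : Cm φ c) (x y : U) : co hf φ x y c = f y x • c := by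
  have := hc.co_mul' (hf := hf) x y (φ 1)
  rwa [co_phi, map_one, one_mul, smul_mul_assoc, one_mul] at this

theorem Cm.co_phi_mul {c : A} (hc : Cm φ c) (x y : U) (a : End F U) :
    co hf φ x y (φ a * c) = f (a y) x • c := by
  rw [hc.co_mul', co_phi, smul_mul_assoc, one_mul]

theorem Cm.co_eE_mul {c : A} (hc : Cm φ c) (x y a b : U) :
    co hf φ x y (eE f φ a b * c) = (f y b * f a x) • c := by
  rw [hc.co_mul', co_eE, smul_mul_assoc, one_mul]

theorem co_eE_left (x y a b : U) (T : A) :
    co hf φ x y (eE f φ a b * T) = f a x • co hf φ b y T := by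
  simp only [co_apply, ← mul_assoc, eE_mul, smul_mul_assoc, Finset.smul_sum]

theorem co_eE_right (x y a b : U) (T : A) :
    co hf φ x y (T * eE f φ a b) = f y b • co hf φ x a T := by
  simp only [co_apply, mul_assoc, eE_mul, mul_smul_comm, Finset.smul_sum]

theorem co_phi_right (x y : U) (a : End F U) (T : A) :
    co hf φ x y (T * φ a) = co hf φ x (a y) T := by
  simp only [co_apply, mul_assoc, phi_mul_eE]

theorem co_phi_left {a : End F U} {x x' : U} (h : ∀ v, f (a v) x = f v x') (y : U) (T : A) :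
    co hf φ x y (φ a * T) = co hf φ x' y T := by
  simp only [co_apply, ← mul_assoc, eE_mul_phi h]

theorem eq_sum_co (T : A) : T = ∑ i, ∑ j,
    eE f φ (dbas hf i) (bas F U j) * co hf φ (bas F U i) (dbas hf j) T := by
  simp only [eE_mul_co, ← Finset.mul_sum, sum_eE, mul_one, ← Finset.sum_mul, one_mul]

theorem eq_zero_of_co {T : A} (h : ∀ x y, co hf φ x y T = 0) : T = 0 := by
  rw [eq_sum_co (hf := hf) (φ := φ) T]
  simp [h]

theorem exists_phi_of_co {T : A} (h : ∀ x y, ∃ c : F, co hf φ x y T = c • (1 : A)) :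
    ∃ a, T = φ a := by
  choose c hc using h
  refine ⟨∑ i, ∑ j, c (bas F U i) (dbas hf j) • ro f (dbas hf i) (bas F U j), ?_⟩
  rw [eq_sum_co (hf := hf) (φ := φ) T]
  simp [hc, eE_apply]

theorem Cm.eq_zero_of_phi (hf : f.Nondegenerate) {a : End F U} (ha : a ≠ 0) {c : A} (hc : Cm φ c)
    (h : φ a * c = 0) : c = 0 := by
  obtain ⟨y, hy⟩ : ∃ y, a y ≠ 0 := by
    by_contra! H
    exact ha (LinearMap.ext H)
  obtain ⟨x, hx⟩ := exists_apply_eq_one hf hy
  have := hc.co_phi_mul (hf := hf) x y a
  rwa [h, map_zero, hx, one_smul, eq_comm] at this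

omit [FiniteDimensional F U] in
/-- A bilinear map vanishing on orthogonal pairs is a multiple of the form. -/
theorem bilin_eq_of_orth {M : Type*} [AddCommGroup M] [Module F M] (hf : f.Nondegenerate)
    (β : U →ₗ[F] U →ₗ[F] M) (h : ∀ x y, f y x = 0 → β x y = 0) (x y a b : U) :
    f a x • β b y = f y b • β x a := by
  have key : ∀ x y z, f y x • β x z = f z x • β x y := fun x y z => by
    have := h x (f y x • z - f z x • y) (by simp [mul_comm])
    simpa [sub_eq_zero] using this
  have key' : ∀ x x' z, f z x • β x' z = f z x' • β x z := fun x x' z => by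
    have := h (f z x • x' - f z x' • x) z (by simp [mul_comm])
    simpa [sub_eq_zero] using this
  by_cases hx : x = 0
  · simp [hx]
  by_cases hb : b = 0
  · simp [hb]
  obtain ⟨z, -, hz, hz'⟩ := exists_mem_both_ne_zero ⊤ (f.flip x) (f.flip b)
    (by obtain ⟨z, hz⟩ := exists_apply_eq_one' hf hx; exact ⟨z, trivial, by simp [hz]⟩)
    (by obtain ⟨z, hz⟩ := exists_apply_eq_one' hf hb; exact ⟨z, trivial, by simp [hz]⟩)
  change f z x ≠ 0 at hz
  change f z b ≠ 0 at hz'
  refine smul_right_injective M (mul_ne_zero hz hz') ?_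
  have h1 := key b y z
  have h2 := key x a z
  have h3 := key' x b z
  linear_combination (norm := module) (f z x * f a x) • h1.symm + (f z b * f y b) • h2 +
    (f a x * f y b) • h3

theorem cm_of_co {T : A} (h : ∀ x y, f y x = 0 → co hf φ x y T = 0) : Cm φ T := by
  refine cm_of_eE hf fun a b => sub_eq_zero.1 (eq_zero_of_co (hf := hf) (φ := φ) fun x y => ?_)
  rw [map_sub, co_eE_left, co_eE_right, sub_eq_zero]
  exact bilin_eq_of_orth hf (((co hf φ).compr₂ (LinearMap.applyₗ T))) h x y a b

end Cfsg.Agent.H27
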