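import Cfsg.Agent.H27.FacBasic
import Cfsg.Agent.H79.TenCore

/-!
# Invariant subspaces of an algebra under a symplectic group acting through a matrix subalgebra
-/

set_option autoImplicit false

namespace Cfsg.Agent.H27

open Module H36

variable {F U : Type*} [Field F] [AddCommGroup U] [Module F U] {f : LinearMap.BilinForm F U}

/-- The self-adjoint operator of rank two attached to a pair of vectors. -/
def dd (f : LinearMap.BilinForm F U) (v v' : U) : End F U := ro f v v' - ro f v' v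

theorem dd_eq_zero {v v' : U} (h : ¬ LinearIndependent F ![v, v']) : dd f v v' = 0 := by
  by_cases hv : v = 0
  · simp [dd, hv, ro_zero_left, ro_zero_right]
  rw [LinearIndependent.pair_iff' hv] at h
  push Not at h
  obtain ⟨a, rfl⟩ := h
  simp [dd, ro_smul_left, ro_smul_right]

theorem tv_iso (hA : f.IsAlt) (v : U) (c : F) (x y : U) :
    f ((1 + c • ro f v v) x) ((1 + c • ro f v v) y) = f x y := by
  simp only [LinearMap.add_apply, End.one_apply, LinearMap.smul_apply, ro_apply, map_add,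
    map_smul, hA.self_eq_zero, smul_eq_mul, ← hA.neg_eq y v]
  ring

theorem tv_mul_tv (hA : f.IsAlt) (v : U) : ro f v v * ro f v v = 0 := by
  rw [ro_mul_ro, hA.self_eq_zero, zero_smul]

theorem dd_mul_dd (hA : f.IsAlt) {v v' : U} (h : f v v' = 0) : dd f v v' * dd f v v' = 0 := by
  simp [dd, mul_sub, sub_mul, ro_mul_ro, hA.self_eq_zero, h, hA.isRefl _ _ h]

theorem iso_conj_ro {g g' : End F U} (hg : ∀ x y, f (g x) (g y) = f x y) (h : g * g' = 1) (x y : U) :
    g * ro f x y * g' = ro f (g x) (g y) := by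
  rw [mul_ro, ro_mul fun v => by rw [← hg, ← End.mul_apply, h, End.one_apply]]

theorem equiv_mul_symm (g : U ≃ₗ[F] U) : g.toLinearMap * g.symm.toLinearMap = 1 :=
  LinearMap.ext g.apply_symm_apply

theorem exists_sq_sub_sq [Finite F] (c : F) : ∃ a b : F, c = a * a - b * b := by
  by_cases h2 : (2 : F) = 0
  · obtain ⟨a, ha⟩ := FiniteField.isSquare_of_char_two
      (CharP.ringChar_of_prime_eq_zero Nat.prime_two (by exact_mod_cast h2)) c
    exact ⟨a, 0, by rw [ha]; ring⟩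
  · exact ⟨(c + 1) / 2, (c - 1) / 2, by field_simp; ring⟩

/-- The nilpotent parts of the transvections. -/
def tS (f : LinearMap.BilinForm F U) : Set (End F U) := {n | ∃ x, n = ro f x x}

/-- The operators `dd v v'` for orthogonal vectors. -/
def dS (f : LinearMap.BilinForm F U) : Set (End F U) := {n | ∃ v v', f v v' = 0 ∧ n = dd f v v'}

/-- The pairs of products. -/
def PG (θ θ' : Set (End F U)) (v₁ v₂ : Prop) : Set (End F U × End F U) :=
  {q | ∃ n ∈ θ, ∃ n' ∈ θ', q = (n * n', n' * n) ∧ (v₁ → n * n' * n = 0) ∧ (v₂ → n' * n * n' = 0)}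

theorem pr_tt (hf : f.Nondegenerate) (hA : f.IsAlt) {v₁ v₂ : Prop} (h₁ : ¬ v₁) (h₂ : ¬ v₂)
    (x y : U) : (ro f x y, -ro f y x) ∈ Submodule.span F (PG (tS f) (tS f) v₁ v₂) := by
  have key : ∀ y, f y x ≠ 0 →
      (ro f x y, -ro f y x) ∈ Submodule.span F (PG (tS f) (tS f) v₁ v₂) := fun y hy => by
    rw [← Submodule.smul_mem_iff _ hy]
    exact Submodule.subset_span ⟨_, ⟨x, rfl⟩, _, ⟨y, rfl⟩, by
      simp [ro_mul_ro, ← hA.neg_eq y x], fun h => (h₁ h).elim, fun h => (h₂ h).elim⟩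
  by_cases hx : x = 0
  · rw [hx, ro_zero_left, ro_zero_right, neg_zero]
    exact Submodule.zero_mem _
  by_cases hy : f y x = 0
  · obtain ⟨z, hz⟩ := exists_apply_eq_one' hf hx
    convert Submodule.sub_mem _ (key (y + z) (by simp [hy, hz])) (key z (by simp [hz])) using 1
    simp [ro_add_left, ro_add_right]
  · exact key y hy

theorem pg_left {θ : Set (End F U)} {n : End F U} (hn : n ∈ θ) (h : n * n = 0) (v₁ : Prop)
    {v₂ : Prop} (h₂ : ¬ v₂) : (n, n) ∈ PG θ {1} v₁ v₂ :=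
  ⟨n, hn, 1, rfl, by simp, fun _ => by simpa, fun h => (h₂ h).elim⟩

theorem pg_right {θ : Set (End F U)} {n : End F U} (hn : n ∈ θ) (h : n * n = 0) {v₁ : Prop}
    (h₁ : ¬ v₁) (v₂ : Prop) : (n, n) ∈ PG {1} θ v₁ v₂ :=
  ⟨1, rfl, n, hn, by simp, fun h => (h₁ h).elim, fun _ => by simpa⟩

theorem pg_one {v₁ v₂ : Prop} (h₁ : ¬ v₁) (h₂ : ¬ v₂) :
    ((1 : End F U), (1 : End F U)) ∈ PG {1} {1} v₁ v₂ :=
  ⟨1, rfl, 1, rfl, by simp, fun h => (h₁ h).elim, fun h => (h₂ h).elim⟩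

variable [FiniteDimensional F U]

theorem pr_tt_one (hf : f.Nondegenerate) (hA : f.IsAlt) {v₁ v₂ : Prop} (h₁ : ¬ v₁) (h₂ : ¬ v₂) :
    ((1 : End F U), (1 : End F U)) ∈ Submodule.span F (PG (tS f) (tS f) v₁ v₂) := by
  convert Submodule.sum_mem _ fun i (_ : i ∈ Finset.univ) =>
    pr_tt hf hA h₁ h₂ (dbas hf i) (bas F U i) using 1
  rw [Prod.ext_iff, Prod.fst_sum, Prod.snd_sum, sum_ro]
  refine ⟨rfl, LinearMap.ext fun v => ?_⟩
  conv_lhs => rw [End.one_apply, ← sum_bas hf v]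
  simp [← hA.neg_eq v]

theorem exists_orth_pair (hf : f.Nondegenerate) (hA : f.IsAlt) (h3 : 3 ≤ finrank F U) (u : U) :
    ∃ v v', f u v = 0 ∧ f u v' = 0 ∧ f v v' = 1 := by
  obtain ⟨v, h1, h2⟩ := exists_orth_not_mem f h3 u
  obtain ⟨v', h4, h5⟩ := H79.exists_orth_eq_one hf hA.isRefl h2
  exact ⟨v, v', h1, h5 u rfl, h4⟩

theorem exists_orth_pair₂ (hf : f.Nondegenerate) (hA : f.IsAlt) (h5 : 5 ≤ finrank F U) (a b : U) :
    ∃ v v', f a v = 0 ∧ f a v' = 0 ∧ f b v = 0 ∧ f b v' = 0 ∧ f v v' = 1 := by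
  obtain ⟨v, h1, h2, h3⟩ := H79.exists_orth_notMem f h5 a b a b
  obtain ⟨v', h4, h6⟩ := H79.exists_orth_eq_one hf hA.isRefl h3
  exact ⟨v, v', hA.isRefl _ _ h1, h6 a (by simp), hA.isRefl _ _ h2, h6 b (by simp), h4⟩

theorem pg_dd (hf : f.Nondegenerate) (hA : f.IsAlt) (h3 : 3 ≤ finrank F U) (v₁ v₂ : Prop) (u : U) :
    (ro f u u, -ro f u u) ∈ PG (dS f) (dS f) v₁ v₂ := by
  obtain ⟨v, v', h1, h2, h4⟩ := exists_orth_pair hf hA h3 u
  have h5 := hA.isRefl _ _ h1
  have h6 := hA.isRefl _ _ h2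
  have h7 : f v' v = -1 := by rw [← hA.neg_eq, h4]
  have e1 : dd f u v' * dd f v u = ro f u u := by
    simp [dd, mul_sub, sub_mul, ro_mul_ro, hA.self_eq_zero, h2, h4, h5]
  have e2 : dd f v u * dd f u v' = -ro f u u := by
    simp [dd, mul_sub, sub_mul, ro_mul_ro, hA.self_eq_zero, h1, h6, h7]
  exact ⟨_, ⟨u, v', h2, rfl⟩, _, ⟨v, u, h5, rfl⟩, by rw [e1, e2], fun _ => by
    rw [e1]; simp [dd, mul_sub, ro_mul_ro, hA.self_eq_zero, h6], fun _ => by
    rw [e2]; simp [dd, mul_sub, ro_mul_ro, hA.self_eq_zero, h5]⟩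

theorem pg_dd_five (hf : f.Nondegenerate) (hA : f.IsAlt) (h5 : 5 ≤ finrank F U) {v₁ v₂ : Prop}
    (h₁ : ¬ v₁) (h₂ : ¬ v₂) {a b : U} (h : f a b = 0) :
    (ro f a b, -ro f b a) ∈ PG (dS f) (dS f) v₁ v₂ := by
  obtain ⟨v, v', h1, h2, h3, h4, h6⟩ := exists_orth_pair₂ hf hA h5 a b
  refine ⟨_, ⟨a, v', h2, rfl⟩, _, ⟨v, b, hA.isRefl _ _ h3, rfl⟩, ?_, fun h => (h₁ h).elim,
    fun h => (h₂ h).elim⟩
  simp [dd, mul_sub, sub_mul, ro_mul_ro, h, h1, h4, h6, hA.isRefl _ _ h, hA.isRefl _ _ h1,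
    hA.isRefl _ _ h4, ← hA.neg_eq v v']

theorem three_le_of_orth (hf : f.Nondegenerate) (hA : f.IsAlt) {v v' : U}
    (h : LinearIndependent F ![v, v']) (h' : f v v' = 0) : 3 ≤ finrank F U := by
  obtain ⟨y, hy⟩ := exists_apply_eq_one hf (u := v) (h.ne_zero 0)
  have h5 : LinearIndependent F ![y, v, v'] := by
    rw [Fintype.linearIndependent_iff]
    intro g hg
    simp only [Fin.sum_univ_three, Matrix.cons_val] at hg
    have h6 : g 0 = 0 := by simpa [hy, h', hA.self_eq_zero] using congrArg (f v) hg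
    rw [h6, zero_smul, zero_add] at hg
    have := LinearIndependent.pair_iff.1 h _ _ hg
    intro i
    fin_cases i
    exacts [h6, this.1, this.2]
  simpa using h5.fintype_card_le_finrank

variable {A : Type*} [Ring A] [Algebra F A] {φ : End F U →ₐ[F] A}

/-- A subspace invariant under conjugation by the symplectic group. -/
def Inv (f : LinearMap.BilinForm F U) (φ : End F U →ₐ[F] A) (L : Submodule F A) : Prop :=
  ∀ g g' : End F U, (∀ x y, f (g x) (g y) = f x y) → g * g' = 1 → ∀ D ∈ L, φ g * D * φ g' ∈ L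

omit [FiniteDimensional F U] in
theorem Cm.conj_mul {a : A} (ha : Cm φ a) (g g' n : End F U) :
    φ g * (φ n * a) * φ g' = φ (g * n * g') * a := by
  rw [mul_assoc, mul_assoc, ← ha, map_mul, map_mul, mul_assoc, mul_assoc]

variable {L : Submodule F A} {D : A}

theorem Inv.key (hf : f.Nondegenerate) (hA : f.IsAlt) (hL : Inv f φ L) (hD : D ∈ L) {v v' : U}
    (h : f v v' = 0) : eE f φ v' v * co hf φ v' v D + eE f φ v v' * co hf φ v v' D ∈ L := by
  have ht : ∀ x, ∀ E ∈ L, (1 + eE f φ x x) * E * (1 - eE f φ x x) - E ∈ L := fun x E hE => by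
    have := hL (1 + (1 : F) • ro f x x) (1 - ro f x x) (tv_iso hA x 1)
      (by simp [mul_sub, add_mul, tv_mul_tv hA]) E hE
    rw [one_smul, map_add, map_sub, map_one] at this
    exact L.sub_mem this hE
  have h1 : ∀ T, eE f φ v' v' * (eE f φ v v * T) = 0 := fun T => by rw [eE_mul', h, zero_smul]
  have h2 : eE f φ v v * eE f φ v' v' = 0 := by rw [eE_mul, hA.isRefl _ _ h, zero_smul]
  convert L.neg_mem (ht v' _ (ht v D hD)) using 1
  simp only [eE_mul_co, mul_add, add_mul, mul_sub, sub_mul, mul_assoc, h1, h2, one_mul, mul_one,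
    mul_zero]
  abel

/-- An invariant subspace with an element outside the commutant contains `n ⊗ a` with `n` a
transvection or a self-adjoint operator of rank two. -/
theorem Inv.reduce (hf : f.Nondegenerate) (hA : f.IsAlt) (hL : Inv f φ L)
    (h2 : (2 : F) ≠ 0 ∨ 3 ≤ finrank F U) (hD : D ∈ L) (hD' : ¬ Cm φ D) :
    ∃ a, a ≠ 0 ∧ Cm φ a ∧
      ((∀ n ∈ tS f, φ n * a ∈ L) ∨ (3 ≤ finrank F U ∧ ∀ n ∈ dS f, φ n * a ∈ L)) := by
  have hT : ∀ x a, x ≠ 0 → Cm φ a → eE f φ x x * a ∈ L → ∀ n ∈ tS f, φ n * a ∈ L := by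
    rintro x a hx ha h _ ⟨y, rfl⟩
    by_cases hy : y = 0
    · simp [hy, ro_zero_left]
    obtain ⟨g, hg, rfl⟩ := exists_isom_apply_eq hf hA hx hy
    have := hL _ _ hg (equiv_mul_symm g) _ h
    rwa [eE_apply, ha.conj_mul, iso_conj_ro hg (equiv_mul_symm g)] at this
  have hP : ∀ v v', LinearIndependent F ![v', v] → f v v' = 0 → co hf φ v' v D ≠ 0 →
      ∃ a, a ≠ 0 ∧ Cm φ a ∧
        ((∀ n ∈ tS f, φ n * a ∈ L) ∨ (3 ≤ finrank F U ∧ ∀ n ∈ dS f, φ n * a ∈ L)) := by
    intro v v' hv h ha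
    have hk := hL.key hf hA hD h
    have h' := hA.isRefl _ _ h
    by_cases hab : co hf φ v' v D + co hf φ v v' D = 0
    · refine ⟨_, ha, cm_co _ _ _, Or.inr ⟨three_le_of_orth hf hA hv h', ?_⟩⟩
      rintro _ ⟨w, w', hw, rfl⟩
      by_cases hw' : LinearIndependent F ![w, w']
      · obtain ⟨g, hg, rfl, rfl⟩ := exists_isom_apply_pair hf hA hv hw' (hw.trans h'.symm)
        rw [eq_neg_of_add_eq_zero_right hab, mul_neg, ← sub_eq_add_neg, ← sub_mul, eE_apply,
          eE_apply, ← map_sub] at hk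
        have := hL _ _ hg (equiv_mul_symm g) _ hk
        rwa [(cm_co _ _ _).conj_mul, mul_sub, sub_mul, iso_conj_ro hg (equiv_mul_symm g),
          iso_conj_ro hg (equiv_mul_symm g)] at this
      · simp [dd_eq_zero hw']
    · have hv0 : v' ≠ 0 := hv.ne_zero 0
      obtain ⟨g, hg, h1, h3⟩ := exists_isom_apply_pair hf hA hv (u' := v') (v' := v + v')
        ((LinearIndependent.pair_iff' hv0).2 fun a e => (LinearIndependent.pair_iff' hv0).1 hv
          (a - 1) (by rw [sub_smul, e, one_smul, add_sub_cancel_right])) (by simp [hA.self_eq_zero])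
      have := hL _ _ hg (equiv_mul_symm g) _ hk
      simp only [mul_add, add_mul, eE_apply, (cm_co _ _ _).conj_mul, iso_conj_ro hg (equiv_mul_symm g),
        LinearEquiv.coe_coe, h1, h3, ro_add_left, ro_add_right, map_add] at this
      refine ⟨_, hab, (cm_co _ _ _).add (cm_co _ _ _), Or.inl (hT v' _ hv0
        ((cm_co _ _ _).add (cm_co _ _ _)) ?_)⟩
      convert L.sub_mem this hk using 1
      simp only [mul_add, eE_apply]
      abel
  obtain ⟨x, y, hxy, h⟩ : ∃ x y, f y x = 0 ∧ co hf φ x y D ≠ 0 := by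
    by_contra! H
    exact hD' (cm_of_co H)
  by_cases hi : LinearIndependent F ![x, y]
  · exact hP y x hi hxy h
  have hx : x ≠ 0 := by rintro rfl; simp at h
  rw [LinearIndependent.pair_iff' hx] at hi
  push Not at hi
  obtain ⟨c, rfl⟩ := hi
  have h0 : co hf φ x x D ≠ 0 := fun e => h (by simp [e])
  rcases h2 with h2 | h3
  · refine ⟨_, h0, cm_co _ _ _, Or.inl (hT x _ hx (cm_co _ _ _) ?_)⟩
    have := hL.key hf hA hD (hA.self_eq_zero x)
    rwa [← two_smul F, L.smul_mem_iff h2] at this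
  · obtain ⟨v, h4, h5⟩ := exists_orth_not_mem f h3 x
    have h6 := hA.isRefl _ _ h4
    by_cases h7 : co hf φ x v D = 0
    · exact hP (x + v) x ((LinearIndependent.pair_iff' hx).2 fun a e => h5
        (Submodule.mem_span_singleton.2 ⟨a - 1, by rw [sub_smul, e, one_smul, add_sub_cancel_left]⟩))
        (by simp [h6, hA.self_eq_zero]) (by simpa [h7] using h0)
    · exact hP v x ((LinearIndependent.pair_iff' hx).2 fun a e => h5
        (Submodule.mem_span_singleton.2 ⟨a, e⟩)) h6 h7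

end Cfsg.Agent.H27
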