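import Mathlib

/-!
# A class of involutions each fixing a unique coset
-/

set_option autoImplicit false

namespace Cfsg.Agent.H27

variable {G : Type*} [Group G] {D : G → Prop} {z d e : G}

theorem refl_mul_pow (hz : z * z = 1) (hd : d * d = 1) (j : ℕ) :
    d * (z * d) ^ j * d = ((z * d) ^ j)⁻¹ := by
  have h1 : d⁻¹ = d := inv_eq_of_mul_eq_one_right hd
  have h2 : z⁻¹ = z := inv_eq_of_mul_eq_one_right hz
  rw [← inv_pow, mul_inv_rev, h1, h2]
  nth_rewrite 3 [← h1]
  rw [← conj_pow, mul_assoc, mul_assoc, mul_inv_cancel, mul_one]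

theorem class_pow_mul (hinv : ∀ d, D d → d * d = 1) (hconj : ∀ d g, D d → D (g * d * g⁻¹))
    (hz : D z) (hd : D d) (j : ℕ) : D ((z * d) ^ j * d) := by
  have h := refl_mul_pow (hinv z hz) (hinv d hd)
  obtain ⟨i, rfl | rfl⟩ := j.even_or_odd'
  · convert hconj d ((z * d) ^ i) hd using 1
    rw [← h, two_mul, pow_add]
    simp only [← mul_assoc]
    rw [mul_assoc _ d d, hinv d hd, mul_one]
  · convert hconj z ((z * d) ^ i) hz using 1
    rw [← h, two_mul, add_right_comm, pow_add, pow_succ]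
    simp only [← mul_assoc]

theorem exists_odd_pow [Finite G] {r : G} (h : ∀ j, (r ^ j) ^ 4 = 1 → (r ^ j) ^ 2 = 1) :
    ∃ i, (r ^ (2 * i + 1)) ^ 2 = 1 := by
  obtain ⟨a, _, ⟨i, rfl⟩, e⟩ := Nat.exists_eq_two_pow_mul_odd (orderOf_pos r).ne'
  have h1 : r ^ (2 ^ (a + 1) * (2 * i + 1)) = 1 := by
    rw [pow_succ', mul_assoc, ← e, mul_comm, pow_mul, pow_orderOf_eq_one, one_pow]
  clear e
  induction a with
  | zero => exact ⟨i, by rw [← pow_mul, mul_comm]; simpa using h1⟩
  | succ a ih =>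
    refine ih ?_
    have := h (2 ^ a * (2 * i + 1)) (by rw [← pow_mul, ← h1]; congr 1; ring)
    rw [← this, ← pow_mul]
    congr 1
    ring

/-- A counting argument in the style of strongly embedded subgroups. -/
theorem eq_top_of_unique_fix [Finite G] (H : Subgroup G) (hinv : ∀ d, D d → d * d = 1)
    (hconj : ∀ d g, D d → D (g * d * g⁻¹)) (ha : ∀ d, D d → ∃ g, g * d * g⁻¹ ∈ H)
    (hF : ∀ d g, D d → d ∈ H → g * d * g⁻¹ ∈ H → g ∈ H)
    (hb : ∀ d e, D d → D e → d ∈ H → e ∈ H → e * d * e * d = d * (e * d * e) → e * d * e = d)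
    (hc : ∀ d e, D d → D e → e * d ∈ H → ∃ z, D z ∧ z ∈ H ∧ z * (e * d) = e * d * z)
    (hd : ∃ d e, D d ∧ D e ∧ d ∈ H ∧ e ∈ H ∧ ∀ c, c * (e * d) = e * d * c → c * d * c⁻¹ ∈ H) :
    H = ⊤ := by
  classical
  have hfix : ∀ d g : G, d • (g : G ⧸ H) = g ↔ g⁻¹ * d * g ∈ H := fun d g => by
    rw [MulAction.Quotient.smul_coe, eq_comm, QuotientGroup.eq, smul_eq_mul, mul_assoc]
  have hU : ∀ d (q q' : G ⧸ H), D d → d • q = q → d • q' = q' → q = q' := by
    intro d q q' h
    induction q using QuotientGroup.induction_on with | _ g => ?_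
    induction q' using QuotientGroup.induction_on with | _ g' => ?_
    rw [hfix, hfix, eq_comm, QuotientGroup.eq]
    exact fun h1 h2 => hF _ _ (by simpa using hconj d g⁻¹ h) h1 (by simpa [mul_assoc] using h2)
  have hC : ∀ d c (q : G ⧸ H), D d → c * d = d * c → d • q = q → c • q = q := fun d c q h h1 h2 =>
    hU d _ _ h (by rw [← mul_smul, ← h1, mul_smul, h2]) h2
  have hE : ∀ d, D d → ∃ g : G, d • (g : G ⧸ H) = g := fun d h => by
    obtain ⟨g, hg⟩ := ha d h
    exact ⟨g⁻¹, by rwa [hfix, inv_inv]⟩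
  have hB : ∀ d e, D d → D e → e * d * e * d = d * (e * d * e) → e * d * e = d := by
    intro d e h1 h2 h3
    obtain ⟨g, hg⟩ := hE d h1
    have h4 := congrArg (e • ·) (hC d _ _ h1 h3 hg)
    simp only [← mul_smul, ← mul_assoc, hinv e h2, one_mul] at h4
    have h5 := hU d _ _ h1 (by rw [← mul_smul, h4]) hg
    have := hb _ _ (by simpa using hconj d g⁻¹ h1) (by simpa using hconj e g⁻¹ h2)
      ((hfix d g).1 hg) ((hfix e g).1 h5) (by
        simpa [mul_assoc] using congrArg (· * g) h3)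
    exact mul_right_cancel (b := g) (by simpa [mul_assoc] using this)
  have hM : ∀ d e, D d → D e → e * d ∈ H → ∀ q : G ⧸ H, d • q = q → e • q = q := by
    intro d e h1 h2 h3 q hq
    obtain ⟨z, h4, -, h5⟩ := hc d e h1 h2 h3
    have h6 := refl_mul_pow (hinv z h4) (hinv d h1)
    have hdd : ∀ x, d * (d * x) = x := fun x => by rw [← mul_assoc, hinv d h1, one_mul]
    obtain ⟨i, hi⟩ := exists_odd_pow (r := z * d) fun j hj => by
      have h7 := h6 j
      have := hB d _ h1 (class_pow_mul hinv hconj h4 h1 j)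
      generalize (z * d) ^ j = r at *
      have h8 : ∀ x, d * (r * x) = r⁻¹ * (d * x) := fun x => by rw [← h7]; simp [mul_assoc, hdd]
      simp only [mul_assoc, hinv d h1, mul_one, h8] at this
      have h9 := this (by
        rw [eq_inv_mul_iff_mul_eq, eq_inv_iff_mul_eq_one, ← hj]
        simp [pow_succ, mul_assoc])
      rwa [← mul_assoc, mul_eq_right, ← sq] at h9
    have h7 : ∀ j, (z * d) ^ (2 * j + 1) * d * (e * d) = e * d * ((z * d) ^ (2 * j + 1) * d) := by
      have a1 : (e * d)⁻¹ = d * e := by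
        rw [mul_inv_rev, inv_eq_of_mul_eq_one_right (hinv d h1),
          inv_eq_of_mul_eq_one_right (hinv e h2)]
      have a2 : Commute z (e * d) := h5
      have a3 : Commute (d * z * d) (e * d) := by
        have := a2.inv_right.eq
        rw [a1] at this
        simp only [Commute, SemiconjBy, mul_assoc, hdd]
        simpa only [mul_assoc, hdd] using congrArg (fun t => d * (t * d)) this
      intro j
      have a4 := (((a2.mul_left a3).pow_left j).mul_left a2).eq
      convert a4 using 2 <;> simp [pow_succ, pow_mul, mul_assoc, hinv d h1]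
    have h8 : (z * d) ^ (2 * i + 1) * d * d = d * ((z * d) ^ (2 * i + 1) * d) := by
      rw [← mul_assoc, h6, mul_assoc, hinv d h1, mul_one, eq_inv_iff_mul_eq_one, ← sq, hi]
    refine hC _ e q (class_pow_mul hinv hconj h4 h1 (2 * i + 1)) ?_ (hC d _ q h1 h8 hq)
    apply mul_right_cancel (b := d)
    rw [mul_assoc, h8, mul_assoc _ e d, h7, mul_assoc]
  by_contra hne
  obtain ⟨x, hx⟩ : ∃ x, x ∉ H := by simpa [Subgroup.eq_top_iff'] using hne
  have := Fintype.ofFinite G
  have := Fintype.ofFinite (G ⧸ H)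
  choose! π hπ using hE
  have hA : ∀ q : G ⧸ H, ((Finset.univ.filter D).filter fun d => (π d : G ⧸ H) = q) =
      (Finset.univ.filter D).filter fun d => d • q = q := fun q =>
    Finset.filter_congr fun d hd => ⟨fun h => h ▸ hπ d (by simpa using hd), fun h =>
      hU d _ _ (by simpa using hd) (hπ d (by simpa using hd)) h⟩
  have hle : ∀ q q' : G ⧸ H, ((Finset.univ.filter D).filter fun d => d • q = q).card ≤
      ((Finset.univ.filter D).filter fun d => d • q' = q').card := fun q q' => by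
    obtain ⟨g, rfl⟩ := MulAction.exists_smul_eq G q q'
    refine Finset.card_le_card_of_injOn (fun d => g * d * g⁻¹) (fun d hd => ?_)
      fun _ _ _ _ h => by simpa using h
    simp only [Finset.coe_filter, Finset.mem_filter, Finset.mem_univ, true_and,
      Set.mem_ofPred_eq] at hd ⊢
    exact ⟨hconj d g hd.1, by simp [mul_smul, hd.2]⟩
  obtain ⟨d₁, e₁, a1, a2, a3, a4, a5⟩ := hd
  have hlt : ∀ β : G ⧸ H, β ≠ (1 : G) →
      ((Finset.univ.filter D).filter fun d => d • ((1 : G) : G ⧸ H) = β).card <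
      ((Finset.univ.filter D).filter fun d => d • β = β).card := fun β hβ => by
    rcases ((Finset.univ.filter D).filter fun d => d • ((1 : G) : G ⧸ H) = β).eq_empty_or_nonempty
      with h | ⟨d, h⟩
    · rw [h]
      exact lt_of_lt_of_le (Finset.card_pos.2 ⟨d₁, Finset.mem_filter.2
        ⟨by simpa using a1, (hfix _ _).2 (by simpa using a3)⟩⟩) (hle (1 : G) β)
    simp only [Finset.mem_filter, Finset.mem_univ, true_and] at h
    have key : ∀ d e, D e → d • ((1 : G) : G ⧸ H) = β → e • ((1 : G) : G ⧸ H) = β → e * d ∈ H :=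
      fun d e h1 h2 h3 => by
        simpa using (hfix (e * d) 1).1 (by
          rw [mul_smul, h2, ← h3, ← mul_smul, hinv e h1, one_smul])
    refine lt_of_lt_of_le (Finset.card_lt_card ⟨fun e he => ?_, fun hs => ?_⟩) (hle (π d) β)
    · simp only [Finset.mem_filter, Finset.mem_univ, true_and] at he ⊢
      exact ⟨he.1, hM d e h.1 he.1 (key d e he.1 h.2 he.2) _ (hπ d h.1)⟩
    have b1 : ∀ d₁, D d₁ → d₁ ∈ H → (π d * d₁ * (π d)⁻¹) • ((1 : G) : G ⧸ H) = β := fun d₁ h1 h2 =>
      (Finset.mem_filter.1 (hs (Finset.mem_filter.2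
        ⟨by simpa using hconj _ _ h1, (hfix _ _).2 (by simpa [mul_assoc] using h2)⟩))).2
    obtain ⟨z, b2, b3, b4⟩ := hc _ _ (hconj _ _ a1) (hconj _ _ a2)
      (key _ _ (hconj _ _ a2) (b1 _ a1 a3) (b1 _ a2 a4))
    have b5 := hF _ _ a1 a3 (a5 ((π d)⁻¹ * z * π d) (by
      apply mul_left_cancel (a := π d)
      apply mul_right_cancel (b := (π d)⁻¹)
      simpa [mul_assoc] using b4))
    have b6 := hU z _ ((1 : G) : G ⧸ H) b2 ((hfix _ _).2 b5) ((hfix _ _).2 (by simpa using b3))
    exact hβ (by rw [← h.2, ← b6, hπ d h.1])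
  have : ∑ β : G ⧸ H, ((Finset.univ.filter D).filter fun d => d • ((1 : G) : G ⧸ H) = β).card <
      ∑ β : G ⧸ H, ((Finset.univ.filter D).filter fun d => d • β = β).card := by
    refine Finset.sum_lt_sum (fun β _ => ?_) ⟨x, Finset.mem_univ _,
      hlt x fun e => hx (by simpa using QuotientGroup.eq.1 e.symm)⟩
    by_cases hβ : β = (1 : G)
    · rw [hβ]
    · exact (hlt β hβ).le
  simp only [← hA] at this
  rw [← Finset.card_eq_sum_card_fiberwise (by simp),
    ← Finset.card_eq_sum_card_fiberwise (by simp)] at this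
  exact this.false

end Cfsg.Agent.H27
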