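import Cfsg.Agent.H97.JmDefs

/-!
# An elementary abelian subgroup of order at least 64 on a given involution
-/

set_option autoImplicit false

namespace Cfsg.Agent.H97.JM

open Subgroup

universe u

namespace EA

variable {G : Type u} [Group G]

theorem comm {V : Subgroup G} (h : ∀ v ∈ V, v * v = 1) {a b : G} (ha : a ∈ V) (hb : b ∈ V) :
    a * b = b * a := by
  rw [← inv_eq_of_mul_eq_one_right (h _ (V.mul_mem ha hb)), mul_inv_rev,
    inv_eq_of_mul_eq_one_right (h a ha), inv_eq_of_mul_eq_one_right (h b hb)]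

theorem card_le_sq [Finite G] {V : Subgroup G} (h : ∀ v ∈ V, v * v = 1) {z : G} (hz : z * z = 1)
    (hn : ∀ v ∈ V, z * v * z⁻¹ ∈ V) :
    Nat.card V ≤ Nat.card ↥(V ⊓ centralizer {z}) * Nat.card ↥(V ⊓ centralizer {z}) := by
  have zi : z⁻¹ = z := inv_eq_of_mul_eq_one_right hz
  let φ : V →* G := MonoidHom.mk' (fun v => v * (z * v * z⁻¹)) fun a b => by
    have := comm h b.2 (hn _ a.2)
    calc (a : G) * b * (z * (a * b) * z⁻¹) = a * (b * (z * a * z⁻¹)) * (z * b * z⁻¹) := by group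
      _ = _ := by rw [this]; group
  have h1 : φ.range ≤ V ⊓ centralizer {z} := by
    rintro _ ⟨v, rfl⟩
    refine ⟨V.mul_mem v.2 (hn _ v.2), mem_centralizer_singleton_iff.2 ?_⟩
    change (v : G) * (z * v * z⁻¹) * z = z * (v * (z * v * z⁻¹))
    conv_rhs => rw [comm h v.2 (hn _ v.2), zi, ← mul_assoc, ← mul_assoc, ← mul_assoc, hz, one_mul]
    group
  have h2 : φ.ker.map V.subtype ≤ V ⊓ centralizer {z} := by
    rintro _ ⟨v, hv, rfl⟩
    refine ⟨v.2, mem_centralizer_singleton_iff.2 ?_⟩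
    have e : (v : G) * (z * v * z⁻¹) = v * v := hv.trans (h _ v.2).symm
    exact (mul_inv_eq_iff_eq_mul.1 (mul_left_cancel e)).symm
  rw [← φ.ker.card_mul_index, index_ker, ← card_map_of_injective V.subtype_injective]
  exact Nat.mul_le_mul (card_le_of_le h2) (card_le_of_le h1)

/-- adjoining a commuting involution -/
def adj (C : Subgroup G) {z : G} (hz : z * z = 1) (hc : ∀ c ∈ C, c * z = z * c) : Subgroup G where
  carrier := {b | b ∈ C ∨ ∃ c ∈ C, b = c * z}
  one_mem' := .inl C.one_mem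
  mul_mem' := by
    rintro a b (ha | ⟨a, ha, rfl⟩) (hb | ⟨b, hb, rfl⟩)
    · exact .inl (C.mul_mem ha hb)
    · exact .inr ⟨_, C.mul_mem ha hb, (mul_assoc _ _ _).symm⟩
    · exact .inr ⟨_, C.mul_mem ha hb, by rw [mul_assoc, ← hc b hb, mul_assoc]⟩
    · refine .inl ?_
      rw [hc b hb, mul_assoc, ← mul_assoc z, hz, one_mul]
      exact C.mul_mem ha hb
  inv_mem' := by
    rintro a (ha | ⟨a, ha, rfl⟩)
    · exact .inl (C.inv_mem ha)
    · exact .inr ⟨_, C.inv_mem ha, by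
        rw [hc a ha, mul_inv_rev, inv_eq_of_mul_eq_one_right hz]⟩

end EA

theorem pEA : EA.{u} := by
  intro G _ _ hG z H hz hzH hH
  have zz : z * z = 1 := by rw [← pow_two, ← hz, pow_orderOf_eq_one]
  obtain ⟨P, hP⟩ := (IsPGroup.of_card (G := zpowers (⟨z, hzH⟩ : H)) (p := 2) (n := 1) (by
    rw [Nat.card_zpowers, ← orderOf_coe, hz, pow_one])).exists_le_sylow
  obtain ⟨T, hT⟩ := (P.isPGroup'.map H.subtype).exists_le_sylow
  have zP : z ∈ (P : Subgroup H).map H.subtype := ⟨_, hP (mem_zpowers _), rfl⟩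
  have cP := P.pow_dvd_card_of_pow_dvd_card hH
  rw [← card_map_of_injective H.subtype_injective] at cP
  have PH := map_subtype_le (P : Subgroup H)
  generalize (P : Subgroup H).map H.subtype = S at hT zP cP PH
  obtain ⟨V, VT, TV, V2, cV⟩ := hG.ev T
  have cT : Nat.card (T : Subgroup G) ≤ 2 ^ 21 := by
    obtain ⟨k, hk⟩ := T.isPGroup'.exists_card_eq
    have := card_subgroup_dvd_card (T : Subgroup G)
    rw [hk, hG.card] at this
    rw [hk]
    by_contra hc
    exact absurd ((pow_dvd_pow 2 ((Nat.pow_lt_pow_iff_right one_lt_two).1 (not_le.1 hc))).trans this)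
      (by norm_num)
  have i1 : S.relIndex T ≤ 4 := by
    have e := (S.subgroupOf T).card_mul_index
    rw [Nat.card_congr (subgroupOfEquivOfLe hT).toEquiv] at e
    have := Nat.le_of_dvd Nat.card_pos cP
    change (S.subgroupOf T).index ≤ 4
    nlinarith
  have c0 : 512 ≤ Nat.card ↥(S ⊓ V) := by
    have e := (S.subgroupOf V).card_mul_index
    have := (relIndex_le_of_le_right VT FiniteIndex.index_ne_zero).trans i1
    rw [← inf_subgroupOf_right, Nat.card_congr (subgroupOfEquivOfLe inf_le_right).toEquiv,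
      inf_subgroupOf_right, cV] at e
    change (S.subgroupOf V).index ≤ 4 at this
    nlinarith
  have c1 := c0.trans (EA.card_le_sq (V := S ⊓ V) (fun v hv => V2 v hv.2) zz fun v hv =>
    ⟨S.mul_mem (S.mul_mem zP hv.1) (S.inv_mem zP), (mem_normalizer_iff.1 (TV (hT zP)) v).1 hv.2⟩)
  have hc : ∀ c ∈ S ⊓ V ⊓ centralizer {z}, c * z = z * c := fun c h =>
    mem_centralizer_singleton_iff.1 h.2
  have zB : z ∈ EA.adj _ zz hc := .inr ⟨1, one_mem _, (one_mul z).symm⟩
  have CB : S ⊓ V ⊓ centralizer {z} ≤ EA.adj _ zz hc := fun _ h => .inl h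
  have B2 : ∀ b ∈ EA.adj _ zz hc, b * b = 1 := by
    rintro b (hb | ⟨b, hb, rfl⟩)
    · exact V2 b hb.1.2
    · rw [mul_assoc, ← mul_assoc z, ← hc b hb, mul_assoc b, zz, mul_one, V2 b hb.1.2]
  refine ⟨EA.adj _ zz hc, ?_, zB, B2, ?_⟩
  · rintro b (hb | ⟨b, hb, rfl⟩)
    · exact ⟨PH hb.1.1, hb.2⟩
    · exact mul_mem ⟨PH hb.1.1, hb.2⟩ ⟨hzH, mem_centralizer_singleton_iff.2 rfl⟩
  have big : 2 ^ 5 < Nat.card (EA.adj _ zz hc) := by
    by_cases h : z ∈ V
    · have : S ⊓ V ≤ EA.adj _ zz hc := fun v hv =>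
        CB ⟨hv, mem_centralizer_singleton_iff.2 (EA.comm V2 hv.2 h)⟩
      have := card_le_of_le this
      omega
    · obtain ⟨m, hm⟩ := card_dvd_of_le CB
      have m0 : m ≠ 0 := fun x => Nat.card_pos.ne' (by rw [hm, x, mul_zero])
      have m1 : m ≠ 1 := fun x =>
        h ((eq_of_le_of_card_ge CB (by rw [hm, x, mul_one])).ge zB).1.2
      have : 23 ≤ Nat.card ↥(S ⊓ V ⊓ centralizer {z}) := by nlinarith
      have : 2 ≤ m := by omega
      nlinarith
  obtain ⟨k, hk⟩ := IsPGroup.exists_card_eq (p := 2) (G := EA.adj _ zz hc) fun b =>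
    ⟨1, Subtype.ext (by rw [pow_one, pow_two]; exact B2 _ b.2)⟩
  rw [hk] at big ⊢
  exact pow_dvd_pow 2 ((Nat.pow_lt_pow_iff_right one_lt_two).1 big)

end Cfsg.Agent.H97.JM
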