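import Cfsg.Agent.H17.LPDefs

/-! Coordinates on the extraspecial subgroup `Q` of the model group. -/

set_option autoImplicit false

namespace Cfsg.Agent.H27.LpQk

open Cfsg Subgroup Matrix Cfsg.Agent.H17.LP

abbrev V6 := Fin 6 → F

def am (c : F) (a : V6) : M5 :=
  !![0, c, a 0, a 1, a 2; c, 0, a 3, a 4, a 5; a 0, a 3, 0, 0, 0; a 1, a 4, 0, 0, 0; a 2, a 5, 0, 0, 0]

def gm (b : V6) : M5 :=
  !![1, 0, b 0, b 1, b 2; 0, 1, b 3, b 4, b 5; 0, 0, 1, 0, 0; 0, 0, 0, 1, 0; 0, 0, 0, 0, 1]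

theorem alt_am (c : F) (a : V6) : Alt (am c a) :=
  ⟨by ext i j; fin_cases i <;> fin_cases j <;> rfl, fun i => by fin_cases i <;> rfl⟩

theorem det_gm (b : V6) : (gm b).det = 1 := by
  rw [det_of_isUpperTriangular]
  · simp [gm, Fin.prod_univ_five]
  · intro i j h
    fin_cases i <;> fin_cases j <;> first | rfl | exact absurd h (by decide)

/-- The element with given coordinates. -/
def mk (c : F) (a b : V6) : N0 := ⟨am c a, ⟨gm b, det_gm b⟩, alt_am c a⟩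

def be (b a : V6) : F := b 0 * a 3 + b 1 * a 4 + b 2 * a 5 + b 3 * a 0 + b 4 * a 1 + b 5 * a 2

theorem mk_mem (c : F) (a b : V6) : mk c a b ∈ Q0 := mem_Pat.2
  ⟨fun i j h => by fin_cases i <;> fin_cases j <;> first | rfl | exact absurd h (by decide),
    fun i j h => by fin_cases i <;> fin_cases j <;> first | rfl | exact absurd h (by decide)⟩

theorem eq_mk {u : N0} (hu : u ∈ Q0) :
    u = mk (u.a 0 1) ![u.a 0 2, u.a 0 3, u.a 0 4, u.a 1 2, u.a 1 3, u.a 1 4]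
      ![u.g.1 0 2, u.g.1 0 3, u.g.1 0 4, u.g.1 1 2, u.g.1 1 3, u.g.1 1 4] := by
  obtain ⟨h1, h2⟩ := mem_Pat.1 hu
  refine N0.ext ?_ (Subtype.ext ?_) <;> ext i j <;> fin_cases i <;> fin_cases j <;>
    first | rfl | exact u.alt.2 _ | exact u.alt.symm _ _ | exact h1 _ _ (by decide)
          | exact h2 _ _ (by decide)

theorem ex_mk {u : N0} (hu : u ∈ Q0) : ∃ c a b, u = mk c a b := ⟨_, _, _, eq_mk hu⟩

theorem mk_congr {c c' : F} {a a' b b' : V6} (h1 : c = c') (h2 : a = a') (h3 : b = b') :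
    mk c a b = mk c' a' b' := by rw [h1, h2, h3]

theorem mk_inj {c c' : F} {a a' b b' : V6} (h : mk c a b = mk c' a' b') :
    c = c' ∧ a = a' ∧ b = b' := by
  have h1 : ∀ i j, am c a i j = am c' a' i j := fun i j => congrFun (congrFun (congrArg N0.a h) i) j
  have h2 : ∀ i j, gm b i j = gm b' i j := fun i j =>
    congrFun (congrFun (congrArg (fun n : N0 => n.g.1) h) i) j
  refine ⟨h1 0 1, funext fun i => ?_, funext fun i => ?_⟩ <;> fin_cases i
  exacts [h1 0 2, h1 0 3, h1 0 4, h1 1 2, h1 1 3, h1 1 4,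
    h2 0 2, h2 0 3, h2 0 4, h2 1 2, h2 1 3, h2 1 4]

theorem mk_mul (c c' : F) (a a' b b' : V6) :
    mk c a b * mk c' a' b' = mk (c + c' + be b a') (a + a') (b + b') := by
  rw [eq_mk (mul_mem (mk_mem c a b) (mk_mem c' a' b'))]
  refine mk_congr ?_ (funext fun i => ?_) (funext fun i => ?_)
  · show (am c a + gm b * am c' a' * (gm b)ᵀ) 0 1 = _
    simp only [Matrix.add_apply, mul_apply, transpose_apply, Fin.sum_univ_five]
    simp [am, gm, be]
    ring
  · have k : ∀ i j, (mk c a b * mk c' a' b').a i j = am c a i j +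
        ∑ k, (∑ l, gm b i l * am c' a' l k) * gm b j k := fun _ _ => rfl
    simp only [k, Fin.sum_univ_five]
    fin_cases i <;> simp [am, gm]
  · have k : ∀ i j, (mk c a b * mk c' a' b').g.1 i j = ∑ k, gm b i k * gm b' k j := fun _ _ => rfl
    simp only [k, Fin.sum_univ_five]
    fin_cases i <;> simp [gm, add_comm]

theorem z_eq : zz 1 2 = mk 1 0 0 := by decide
theorem one_eq : (1 : N0) = mk 0 0 0 := by decide

theorem be_zero_right (b : V6) : be b 0 = 0 := by simp [be]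
theorem be_zero_left (a : V6) : be 0 a = 0 := by simp [be]

theorem z_pow (n : ℕ) : zz 1 2 ^ n = mk n 0 0 := by
  induction n with
  | zero => rw [pow_zero, one_eq, Nat.cast_zero]
  | succ n ih => rw [pow_succ, ih, z_eq, mk_mul, be_zero_left, add_zero, add_zero, Nat.cast_succ]

def cd (a : V6) : ℕ := (a 0).val + 2 * (a 1).val + 4 * (a 2).val + 8 * (a 3).val + 16 * (a 4).val +
  32 * (a 5).val

theorem qc_mk (c : F) (a b : V6) : qc (mk c a b) = cd a + 64 * cd b := by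
  show (a 0).val + 2 * (a 1).val + 4 * (a 2).val + 8 * (a 3).val + 16 * (a 4).val +
    32 * (a 5).val + 64 * (b 0).val + 128 * (b 1).val + 256 * (b 2).val + 512 * (b 3).val +
    1024 * (b 4).val + 2048 * (b 5).val = _
  unfold cd
  ring

theorem eta (a : V6) : a = ![a 0, a 1, a 2, a 3, a 4, a 5] := funext fun i => by fin_cases i <;> rfl

theorem cd_lt (a : V6) : cd a < 64 := by
  have h := fun i => ZMod.val_lt (a i)
  have := h 0; have := h 1; have := h 2; have := h 3; have := h 4; have := h 5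
  unfold cd
  omega

theorem two12 : ∀ a0 a1 a2 a3 a4 a5 b0 b1 b2 b3 b4 b5 : F,
    cd ![a0 + b0, a1 + b1, a2 + b2, a3 + b3, a4 + b4, a5 + b5] =
      cd ![a0, a1, a2, a3, a4, a5] ^^^ cd ![b0, b1, b2, b3, b4, b5] ∧
    (qf (cd ![a0, a1, a2, a3, a4, a5] + 64 * cd ![b0, b1, b2, b3, b4, b5]) : F) =
      be ![b0, b1, b2, b3, b4, b5] ![a0, a1, a2, a3, a4, a5] := by decide +kernel

theorem cd_add (a b : V6) : cd (a + b) = cd a ^^^ cd b := (two12 _ _ _ _ _ _ _ _ _ _ _ _).1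

theorem qf_mk (c : F) (a b : V6) : (qf (qc (mk c a b)) : F) = be b a := by
  rw [qc_mk]; exact (two12 _ _ _ _ _ _ _ _ _ _ _ _).2

theorem cd_zero (a : V6) (h : cd a = 0) : a = 0 := by
  have k : ∀ x : F, x.val = 0 → x = 0 := by decide
  unfold cd at h
  funext i
  fin_cases i <;> exact k _ (by simp only [Fin.reduceFinMk, Fin.zero_eta, Fin.mk_one]; omega)

theorem cd_surj : ∀ n < 64, ∃ a0 a1 a2 a3 a4 a5 : F, cd ![a0, a1, a2, a3, a4, a5] = n := by
  decide +kernel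

theorem xor64 {x x' : ℕ} (y y' : ℕ) (h : x < 64) (h' : x' < 64) :
    (x + 64 * y) ^^^ (x' + 64 * y') = (x ^^^ x') + 64 * (y ^^^ y') := by
  have h1 := Nat.xor_mod_two_pow (a := x + 64 * y) (b := x' + 64 * y') (n := 6)
  have h2 := Nat.xor_div_two_pow (a := x + 64 * y) (b := x' + 64 * y') (n := 6)
  rw [show (x + 64 * y) % 2 ^ 6 = x by omega, show (x' + 64 * y') % 2 ^ 6 = x' by omega] at h1
  rw [show (x + 64 * y) / 2 ^ 6 = y by omega, show (x' + 64 * y') / 2 ^ 6 = y' by omega] at h2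
  omega

theorem qc_mul : ∀ u ∈ Q0, ∀ v ∈ Q0, qc (u * v) = qc u ^^^ qc v := fun u hu v hv => by
  obtain ⟨c, a, b, rfl⟩ := ex_mk hu
  obtain ⟨c', a', b', rfl⟩ := ex_mk hv
  rw [mk_mul, qc_mk, qc_mk, qc_mk, xor64 _ _ (cd_lt _) (cd_lt _), cd_add, cd_add]

theorem F_cases : ∀ c : F, c = 0 ∨ c = 1 := by decide

theorem mk00 (c : F) : mk c 0 0 = 1 ∨ mk c 0 0 = zz 1 2 := by
  rcases F_cases c with rfl | rfl
  exacts [Or.inl one_eq.symm, Or.inr z_eq.symm]

theorem add_self6 (a : V6) : a + a = 0 := funext fun _ => two_F _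

theorem comm : ∀ u ∈ Q0, ∀ v ∈ Q0,
    u * v = v * u * zz 1 2 ^ (qf (qc u) + qf (qc v) + qf (qc u ^^^ qc v)) := fun u hu v hv => by
  rw [← qc_mul u hu v hv]
  obtain ⟨c, a, b, rfl⟩ := ex_mk hu
  obtain ⟨c', a', b', rfl⟩ := ex_mk hv
  rw [z_pow, mk_mul, mk_mul, mk_mul, Nat.cast_add, Nat.cast_add, qf_mk, qf_mk, qf_mk]
  refine mk_congr ?_ (by rw [add_zero, add_comm]) (by rw [add_zero, add_comm])
  have two : (2 : F) = 0 := rfl
  simp only [be, Pi.add_apply, Pi.zero_apply]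
  linear_combination (-(b 0 * a 3 + b 1 * a 4 + b 2 * a 5 + b 3 * a 0 +
      b 4 * a 1 + b 5 * a 2 + (b' 0 * a' 3 + b' 1 * a' 4 + b' 2 * a' 5 + b' 3 * a' 0 + b' 4 * a' 1 +
      b' 5 * a' 2) + (b' 0 * a 3 + b' 1 * a 4 + b' 2 * a 5 + b' 3 * a 0 + b' 4 * a 1 +
      b' 5 * a 2))) * two

theorem mem_Z (u : N0) : u ∈ Z0 ↔ u = 1 ∨ u = zz 1 2 := by
  refine ⟨fun hu => ?_, by rintro (rfl | rfl) <;> unfold Z0 <;> decide⟩
  obtain ⟨h1, h2⟩ := mem_Pat.1 hu
  have : u = mk (u.a 0 1) 0 0 := by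
    refine N0.ext ?_ (Subtype.ext ?_) <;> ext i j <;> fin_cases i <;> fin_cases j <;>
      first | rfl | exact u.alt.2 _ | exact u.alt.symm _ _ | exact h1 _ _ (by decide)
            | exact h2 _ _ (by decide)
  rw [this]
  exact mk00 _

theorem card_Q : Nat.card Q0 = 2 ^ 13 := by
  rw [← Nat.card_congr (Equiv.ofBijective
    (fun p : F × V6 × V6 => (⟨mk p.1 p.2.1 p.2.2, mk_mem _ _ _⟩ : Q0)) ⟨fun p q h => ?_, fun u => ?_⟩)]
  · simp
  · obtain ⟨h1, h2, h3⟩ := mk_inj (congrArg Subtype.val h)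
    exact Prod.ext h1 (Prod.ext h2 h3)
  · obtain ⟨c, a, b, h⟩ := ex_mk u.2
    exact ⟨(c, a, b), Subtype.ext h.symm⟩

theorem xs : H49.XS Q0 (zz 1 2) where
  mem := z_eq ▸ mk_mem _ _ _
  ne := by decide
  zz := by decide
  cen x hx := by
    obtain ⟨c, a, b, rfl⟩ := ex_mk hx
    rw [z_eq, mk_mul, mk_mul, be_zero_left, be_zero_right, add_comm c, add_comm a, add_comm b]
  cent x hx h := by
    obtain ⟨c, a, b, rfl⟩ := ex_mk hx
    have k : ∀ a' b', be b a' = be b' a := fun a' b' => by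
      have := h _ (mk_mem 0 a' b')
      rw [mk_mul, mk_mul] at this
      simpa using (mk_inj this).1
    have ha : a = 0 := funext fun i => by
      fin_cases i
      exacts [by simpa [be] using (k 0 (Pi.single 3 1)).symm,
        by simpa [be] using (k 0 (Pi.single 4 1)).symm,
        by simpa [be] using (k 0 (Pi.single 5 1)).symm,
        by simpa [be] using (k 0 (Pi.single 0 1)).symm,
        by simpa [be] using (k 0 (Pi.single 1 1)).symm,
        by simpa [be] using (k 0 (Pi.single 2 1)).symm]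
    have hb : b = 0 := funext fun i => by
      fin_cases i
      exacts [by simpa [be] using k (Pi.single 3 1) 0, by simpa [be] using k (Pi.single 4 1) 0,
        by simpa [be] using k (Pi.single 5 1) 0, by simpa [be] using k (Pi.single 0 1) 0,
        by simpa [be] using k (Pi.single 1 1) 0, by simpa [be] using k (Pi.single 2 1) 0]
    rw [ha, hb]
    exact mk00 c
  comm x hx y hy := by
    rw [comm x hx y hy, z_pow]
    exact (mk00 _).imp (fun e => by rw [e, mul_one]) fun e => by rw [e]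
  nonab := ⟨mk 0 (Pi.single 0 1) 0, mk_mem _ _ _, mk 0 0 (Pi.single 3 1), mk_mem _ _ _, fun h => by
    rw [mk_mul, mk_mul] at h
    simpa [be] using (mk_inj h).1⟩

theorem gzg (g : M5) (i j : Fin 5) :
    (g * (zz 1 2).a * gᵀ) i j = g i 0 * g j 1 + g i 1 * g j 0 := by
  rw [z_eq]
  simp [mk, am, mul_apply, Fin.sum_univ_five, add_comm]

theorem mem_H {n : N0} : n ∈ H0 ↔ n.g.1 2 0 = 0 ∧ n.g.1 2 1 = 0 ∧ n.g.1 3 0 = 0 ∧ n.g.1 3 1 = 0 ∧
    n.g.1 4 0 = 0 ∧ n.g.1 4 1 = 0 := by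
  refine mem_Pat.trans ⟨fun h => ⟨h.2 2 0 rfl, h.2 2 1 rfl, h.2 3 0 rfl, h.2 3 1 rfl, h.2 4 0 rfl,
    h.2 4 1 rfl⟩, fun ⟨h1, h2, h3, h4, h5, h6⟩ => ⟨fun _ _ h => absurd h (by simp), fun i j h => ?_⟩⟩
  fin_cases i <;> fin_cases j <;> first | assumption | exact absurd h (by decide)

theorem cen_z (n : N0) : n ∈ H0 ↔ n * zz 1 2 = zz 1 2 * n := by
  have zg : (zz 1 2).g = 1 := rfl
  let w : N0 := ⟨n.g.1 * (zz 1 2).a * n.g.1ᵀ, 1, (zz 1 2).alt.act _⟩
  have hw : n * zz 1 2 = w * n := N0.ext (by simp [w, add_comm]) (by simp [w, zg])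
  rw [hw, mul_left_inj, mem_H]
  constructor
  · rintro ⟨h1, h2, h3, h4, h5, h6⟩
    refine ((mem_Z w).1 (mem_Pat.2 ⟨fun i j h => ?_, fun _ _ _ => rfl⟩)).resolve_left fun e => ?_
    · show (n.g.1 * (zz 1 2).a * n.g.1ᵀ) i j = 0
      rw [gzg]
      fin_cases i <;> fin_cases j <;> first | exact absurd h (by decide) | simp [*]
    · rw [e, one_mul, mul_eq_left] at hw
      exact xs.ne hw
  · intro e
    have k : ∀ i j, n.g.1 i 0 * n.g.1 j 1 + n.g.1 i 1 * n.g.1 j 0 = (zz 1 2).a i j := fun i j => by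
      rw [← gzg]; exact congrFun (congrFun (congrArg N0.a e) i) j
    have t : ∀ a b c d x y : F, a * d + b * c = 1 → x * b + y * a = 0 → x * d + y * c = 0 →
        x = 0 ∧ y = 0 := by decide
    have t2 := t _ _ _ _ _ _ (k 0 1) (k 2 0) (k 2 1)
    have t3 := t _ _ _ _ _ _ (k 0 1) (k 3 0) (k 3 1)
    have t4 := t _ _ _ _ _ _ (k 0 1) (k 4 0) (k 4 1)
    exact ⟨t2.1, t2.2, t3.1, t3.2, t4.1, t4.2⟩

def bm (b : V6) : M5 :=
  !![0, 0, b 0, b 1, b 2; 0, 0, b 3, b 4, b 5; 0, 0, 0, 0, 0; 0, 0, 0, 0, 0; 0, 0, 0, 0, 0]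

theorem gm_eq (b : V6) : gm b = 1 + bm b := by
  ext i j
  fin_cases i <;> fin_cases j <;> simp [gm, bm]

theorem row {h : M5} (a : M5) {i j : Fin 5} (hi : ∀ k, h i k = (1 : M5) i k)
    (hj : ∀ k, h j k = (1 : M5) j k) : (h * a * hᵀ) i j = a i j := by
  simp [mul_apply, hi, hj, one_apply]

theorem norm_Q : H0 ≤ normalizer (Q0 : Set N0) := fun n hn => mem_normalizer_fintype fun u hu => by
  obtain ⟨c, a, b, rfl⟩ := ex_mk hu
  obtain ⟨h1, h2, h3, h4, h5, h6⟩ := mem_H.1 hn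
  obtain ⟨k1, k2, k3, k4, k5, k6⟩ := mem_H.1 (inv_mem hn)
  obtain ⟨m, hm⟩ : ∃ m, m = n * mk c a b * n⁻¹ := ⟨_, rfl⟩
  rw [← hm]
  have e1 : m.g.1 = 1 + n.g.1 * bm b * (n⁻¹).g.1 := by
    have : n.g.1 * (n⁻¹).g.1 = 1 := by rw [← coe_mul', ← mul_g, mul_inv_cancel]; rfl
    rw [hm]
    show n.g.1 * gm b * (n⁻¹).g.1 = _
    rw [gm_eq, Matrix.mul_add, Matrix.add_mul, Matrix.mul_one, this]
  have e2 : ∀ i j : Fin 5, decide (i.1 + 1 ≤ 2 ∧ 3 ≤ j.1 + 1) = false → m.g.1 i j = (1 : M5) i j :=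
    fun i j h => by
      rw [e1, Matrix.add_apply, add_eq_left]
      generalize (n⁻¹).g.1 = g' at k1 k2 k3 k4 k5 k6
      simp only [mul_apply, Fin.sum_univ_five]
      fin_cases i <;> fin_cases j <;> first
        | exact absurd h (by decide)
        | simp [bm, h1, h2, h3, h4, h5, h6, k1, k2, k3, k4, k5, k6]
  refine mem_Pat.2 ⟨fun i j h => ?_, e2⟩
  have e3 : m.a + m.g.1 * n.a * m.g.1ᵀ = n.a + n.g.1 * am c a * n.g.1ᵀ := by
    rw [← mul_a, hm, inv_mul_cancel_right]; rfl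
  have e4 := congrFun (congrFun e3 i) j
  have hi : ¬ (i.1 + 1 ≤ 2 ∨ j.1 + 1 ≤ 2) := by simpa using h
  rw [Matrix.add_apply, Matrix.add_apply, row _ (fun k => e2 _ _ (by simp; omega))
    (fun k => e2 _ _ (by simp; omega)), add_comm, add_right_inj] at e4
  rw [e4]
  simp only [mul_apply, transpose_apply, Fin.sum_univ_five]
  fin_cases i <;> fin_cases j <;>
    first | exact absurd h (by decide) | simp [am, h1, h2, h3, h4, h5, h6]

theorem qk : QKStmt := by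
  refine ⟨qc_mul, fun u => ?_, fun u hu => ⟨fun h => ?_, ?_⟩, fun c hc => ?_, fun u hu => ?_, comm,
    mem_Z, card_Q, xs, cen_z, norm_Q⟩
  · have h1 := fun i j => ZMod.val_lt (u.a i j)
    have h2 := fun i j => ZMod.val_lt (u.g.1 i j)
    unfold qc
    grind
  · obtain ⟨c, a, b, rfl⟩ := ex_mk hu
    rw [qc_mk] at h
    rw [cd_zero a (by omega), cd_zero b (by omega)]
    exact mk00 c
  · rintro (rfl | rfl) <;> decide
  · obtain ⟨a0, a1, a2, a3, a4, a5, ha⟩ := cd_surj (c % 64) (by omega)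
    obtain ⟨b0, b1, b2, b3, b4, b5, hb⟩ := cd_surj (c / 64) (by omega)
    exact ⟨_, mk_mem 0 ![a0, a1, a2, a3, a4, a5] ![b0, b1, b2, b3, b4, b5],
      by rw [qc_mk, ha, hb]; omega⟩
  · obtain ⟨c, a, b, rfl⟩ := ex_mk hu
    rw [z_pow, mk_mul, qf_mk, two_F, zero_add, add_self6, add_self6]

end Cfsg.Agent.H27.LpQk
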