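import Cfsg.Agent.H90.MaxClassPow
import Cfsg.Agent.H78.McDefs

/-! Uniform elements outside a given proper subgroup of a `p`-group of maximal class. -/

set_option autoImplicit false

namespace Cfsg.Agent.H27.McUni

open Subgroup Cfsg.Agent.H90
open scoped commutatorElement

universe u

variable {G : Type u} [Group G] [Finite G] {p : ℕ} [hp : Fact p.Prime]

local notation "γ" => Subgroup.lowerCentralSeries (⊤ : Subgroup G)

theorem pow_mod (hG : IsPGroup p G) {B Z : Subgroup G} [Z.Normal]
    (hc : B.lowerCentralSeries (p - 1) ≤ Z) {x y : G} (hx : x ∈ B) (hy : y ∈ B)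
    (h : (x⁻¹ * y) ^ p ∈ Z) : (x ^ p)⁻¹ * y ^ p ∈ Z := by
  let π := QuotientGroup.mk' Z
  have hreg : WeakReg p (B.map π) := weakReg_of_class_lt ((hG.to_quotient Z).to_subgroup _) (by
    rw [← map_subtype_inj, top_subtype_lowerCentralSeries, ← map_lowerCentralSeries,
      Subgroup.map_bot, Subgroup.map_eq_bot_iff, QuotientGroup.ker_mk']
    exact hc)
  have := (hreg.pow_eq_pow_iff_one ⟨π x, mem_map_of_mem _ hx⟩ ⟨π y, mem_map_of_mem _ hy⟩).2
    (Subtype.ext ((QuotientGroup.eq_one_iff _).2 h))
  exact QuotientGroup.eq.1 (congrArg Subtype.val this)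

theorem step {c : ℕ} (h : MaxCl p c G) {i : ℕ} (hi : 1 ≤ i) (hc : i + p - 1 ≤ c) {s : G}
    (hs : ¬ ⁅γ (i + p - 1), zpowers s⁆ ≤ γ (i + p - 1 + 2)) : ¬ ⁅γ i, zpowers s⁆ ≤ γ (i + 2) :=
  fun k => by
    have h2 := hp.out.two_le
    obtain ⟨y, hy, hy'⟩ := SetLike.not_le_iff_exists.1 (h.not_lcs_le (i := i) (by omega))
    have h3 := lcs_le_lcs_of_commutator_le (i := i + 3) (B := γ i)
      ((CycMod.commutator_le_lcs ⟨y, hy, h.le_zpowers_sup hi hy hy'⟩ le_rfl).trans
        (Subgroup.lowerCentralSeries_antitone _ (by omega))) (p - 2)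
    rw [show p - 2 + 1 = p - 1 by omega, show i + 3 + (p - 2) = i + p - 1 + 2 by omega] at h3
    have h4 := h.pow_mem_lcs_add (i := i + 2) (by omega) _
      (k (commutator_mem_commutator (inv_mem hy) (inv_mem (mem_zpowers s))))
    rw [show i + 2 + p - 1 = i + p - 1 + 2 by omega] at h4
    have h5 := pow_mod h.isPGroup h3 hy ((inferInstance : (γ i).Normal).conj_mem' _ hy s)
      (by simpa [commutatorElement_def, mul_assoc] using h4)
    refine h.comm_not_mem (by omega) hs (h.pow_mem_lcs_add hi y hy)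
      (by rw [show i + p - 1 + 1 = i + p by omega]; exact h.pow_not_mem_lcs_add hi hc hy hy') ?_
    rwa [show (s⁻¹ * y * s) ^ p = s⁻¹ * y ^ p * s by simpa using conj_pow (a := s⁻¹),
      ← mul_assoc, ← mul_assoc] at h5

theorem uni : H78.Mc.UniStmt.{u} := by
  intro G _ _ p n hp hG hn hcl M hM
  classical
  have h := maxCl_of_nilpotencyClass (by omega) hG hcl
  obtain ⟨c, hc⟩ : ∃ c, c = n - 2 := ⟨_, rfl⟩
  rw [← hc] at h
  have c1 : 1 ≤ c := by omega
  have h2 := hp.out.two_le
  obtain ⟨M', hM1, hM2, hM3, -⟩ := exists_lt_of_lt (h.isPGroup.to_subgroup ⊤) (lt_top_iff_ne_top.2 hM)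
  obtain ⟨s, hs⟩ := exists_not_mem_of_card_le h.isPGroup (Finset.Ico (c - (p - 1)) (c + 1))
    (by rw [Nat.card_Ico]; omega)
    (fun j => if j = c then M' else H54.relCent (Subgroup.lowerCentralSeries (⊤ : Subgroup G) (j + 2))
      (Subgroup.lowerCentralSeries (⊤ : Subgroup G) j))
    fun j hj h' => by
      have := (Finset.mem_Ico.1 hj).2
      split_ifs at h' with e
      · exact hM2.ne h'
      · have k := (H54.le_relCent_iff.1 h'.ge).2
        rw [Subgroup.commutator_comm] at k
        exact h.not_lcs_le (i := j + 1) (by omega) k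
  have sM : s ∉ M' := by simpa using hs c (Finset.mem_Ico.2 ⟨by omega, by omega⟩)
  have s1 : s ∉ Subgroup.lowerCentralSeries (⊤ : Subgroup G) 1 := fun k => sM (hM3 k)
  have all : ∀ d j, 1 ≤ j → j < c → c - j ≤ d →
      ¬ ⁅Subgroup.lowerCentralSeries (⊤ : Subgroup G) j, zpowers s⁆ ≤ Subgroup.lowerCentralSeries (⊤ : Subgroup G) (j + 2) := fun d => by
    induction d with
    | zero => intro j _ _ _; omega
    | succ d ih =>
      intro j j1 j2 j3
      by_cases e : j + p - 1 < c
      · exact step h j1 e.le (ih _ (by omega) e (by omega))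
      · intro h3
        have := hs j (Finset.mem_Ico.2 ⟨by omega, by omega⟩)
        rw [if_neg j2.ne] at this
        rw [Subgroup.commutator_comm] at h3
        exact this (H54.le_relCent_iff.2 ⟨le_normalizer_of_normal' _ _, h3⟩ (mem_zpowers s))
  refine ⟨s, fun k => sM (hM1 k), le_antisymm ?_ ?_⟩
  · have hH : centralizer ({s} : Set G) < ⊤ := lt_top_iff_ne_top.2 fun e => s1
      (h.le_lcs (N := center G) le_rfl ((card_center_of_maxClass c1 h.card h.ne_bot).trans (by
        rw [h.card_lcs le_rfl]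
        exact Nat.le_self_pow (by omega) p)) (mem_center_iff.2 fun g =>
          mem_centralizer_singleton_iff.1 (e ▸ mem_top g)))
    obtain ⟨L, hL, hL', hLc, -⟩ := exists_lt_of_lt (h.isPGroup.to_subgroup ⊤) hH
    have h3 := card_mul_le_of_lt h.isPGroup hL'
    rw [card_top, h.card, pow_succ, Nat.mul_le_mul_right_iff hp.out.pos] at h3
    have h4 := card_le_card_inf_mul (N := Subgroup.lowerCentralSeries (⊤ : Subgroup G) 1) (k := p) hL hLc
      (by rwa [h.card_lcs le_rfl, Nat.add_sub_cancel, ← pow_succ])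
    have h5 : ∀ j, j + 1 ≤ c → centralizer ({s} : Set G) ⊓ Subgroup.lowerCentralSeries (⊤ : Subgroup G) 1 ≤
        Subgroup.lowerCentralSeries (⊤ : Subgroup G) (j + 1) := fun j => by
      induction j with
      | zero => exact fun _ => inf_le_right
      | succ j ih =>
        intro hj y hy
        by_contra k
        refine h.comm_not_mem (by omega) (all _ (j + 1) (by omega) (by omega) le_rfl)
          (ih (by omega) hy) k ?_
        rw [mul_assoc, mem_centralizer_singleton_iff.1 hy.1, show y⁻¹ * s⁻¹ * (s * y) = 1 by group]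
        exact one_mem _
    have h6 := card_le_of_le (h5 (c - 1) (by omega))
    rw [h.card_lcs (by omega), show c + 1 - (c - 1 + 1) = 1 by omega, pow_one] at h6
    exact h4.trans (by rw [pow_two]; exact Nat.mul_le_mul_right _ h6)
  · have h3 : Subgroup.lowerCentralSeries (⊤ : Subgroup G) c < centralizer ({s} : Set G) := by
      refine lt_of_le_not_ge (fun y hy => mem_centralizer_singleton_iff.2 ?_) fun k =>
        s1 (Subgroup.lowerCentralSeries_antitone _ c1 (k (mem_centralizer_singleton_iff.2 rfl)))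
      have := commutator_mem_commutator hy (mem_top s)
      rw [← Subgroup.lowerCentralSeries_succ, h.eq_bot le_rfl, mem_bot] at this
      exact commutatorElement_eq_one_iff_mul_comm.1 this
    have h4 := card_mul_le_of_lt h.isPGroup h3
    rwa [h.card_lcs c1, show c + 1 - c = 1 by omega, pow_one, ← pow_two] at h4

end Cfsg.Agent.H27.McUni
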