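import Cfsg.Agent.H27.TenSig

/-!
# Classes of quadratic elements in a group of isometries
-/

set_option autoImplicit false

namespace Cfsg.Agent.H27

open Module H36

section Ring

variable {A : Type*} [Ring A]

theorem comm_of_mul_eq {a e e' k J : A} (h : a * e = k) (he : e * e' = 1) (h1 : e * J = J * e)
    (h2 : k * J = J * k) : a * J = J * a := by
  calc a * J = a * J * (e * e') := by rw [he, mul_one]
    _ = a * e * J * e' := by rw [mul_assoc a e J, h1]; noncomm_ring
    _ = J * (a * (e * e')) := by rw [h, h2, ← h]; noncomm_ring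
    _ = J * a := by rw [he, mul_one]

theorem comm_of_mul_eq' {a e e' k J : A} (h : a * e = k) (he : e' * a = 1) (h1 : a * J = J * a)
    (h2 : k * J = J * k) : e * J = J * e := by
  calc e * J = e' * (a * e) * J := by rw [← mul_assoc, he, one_mul]
    _ = e' * (J * a) * e := by rw [h, mul_assoc, h2, ← h]; noncomm_ring
    _ = J * e := by rw [← h1, ← mul_assoc, he, one_mul]

end Ring

variable {F V : Type*} [Field F] [AddCommGroup V] [Module F V]

/-- A group of isometries of a bilinear form. -/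
def IsoG (f : LinearMap.BilinForm F V) (X : Subgroup (End F V)ˣ) : Prop :=
  ∀ g, InG X g → ∀ p q, f (g p) (g q) = f p q

/-- A skew-adjoint operator. -/
def Skew (f : LinearMap.BilinForm F V) (N : End F V) : Prop := ∀ p q, f (N p) q = -f p (N q)

variable {f : LinearMap.BilinForm F V} {X : Subgroup (End F V)ˣ} {N n n' B : End F V}

theorem skew3 (h : ∀ p q, f ((1 + n) p) ((1 + n) q) = f p q) (p q : V) :
    f (n p) q + f p (n q) + f (n p) (n q) = 0 := by
  have := h p q
  simp only [LinearMap.add_apply, End.one_apply, map_add] at this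
  linear_combination this

theorem IsoG.skew (hG : IsoG f X) (h2 : (2 : F) ≠ 0) (hB : QT F X B) : Skew f B := fun p q => by
  have h1 := skew3 (hG _ (by simpa using hB.mem 1)) p q
  have h3 := skew3 (hG _ (hB.mem (-1))) p q
  simp only [neg_smul, one_smul, LinearMap.neg_apply, map_neg, neg_neg] at h3
  exact mul_left_cancel₀ h2 (by linear_combination h1 - h3)

/-- The exponential of a skew operator with cube zero is an isometry. -/
theorem Skew.exp_iso {m : End F V} (h2 : (2 : F) ≠ 0) (hm : Skew f m) (h3 : ∀ p, m (m (m p)) = 0)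
    (p q : V) : f ((1 + (m + (2 : F)⁻¹ • (m * m))) p) ((1 + (m + (2 : F)⁻¹ • (m * m))) q) =
      f p q := by
  simp only [LinearMap.add_apply, End.one_apply, LinearMap.smul_apply, End.mul_apply, map_add,
    map_smul, hm _, h3, smul_eq_mul, map_zero]
  field_simp
  ring

/-- `1 + n` lies in the unipotent radical of the stabiliser of `[V, N]`. -/
structure QN (f : LinearMap.BilinForm F V) (N n : End F V) : Prop where
  iso : ∀ p q, f ((1 + n) p) ((1 + n) q) = f p q
  kill : ∀ p, n (N p) = 0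
  into : ∀ p, N p = 0 → n p ∈ LinearMap.range N

theorem QN.kill' (h : QN f N n) {p : V} (hp : p ∈ LinearMap.range N) : n p = 0 := by
  obtain ⟨q, rfl⟩ := hp
  exact h.kill q

theorem QN.perp (hf : f.Nondegenerate) (hN : Skew f N) (h : QN f N n) (p : V) : N (n p) = 0 :=
  hf.1 _ fun q => by simpa [h.kill, hN (n p)] using skew3 h.iso p (N q)

theorem QN.triple (hf : f.Nondegenerate) (hN : Skew f N) {n'' : End F V} (h : QN f N n)
    (h' : QN f N n') (h'' : QN f N n'') : n * n' * n'' = 0 :=
  LinearMap.ext fun p => h.kill' (h'.into _ (h''.perp hf hN p))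

theorem QN.add (hNN : ∀ p, N (N p) = 0) (h : QN f N n) (h' : QN f N n') :
    QN f N (n + n' + n * n') := by
  refine ⟨fun p q => ?_, fun w => by simp [h.kill, h'.kill], fun p hp => ?_⟩
  · rw [show 1 + (n + n' + n * n') = (1 + n) * (1 + n') by noncomm_ring, End.mul_apply,
      End.mul_apply, h.iso, h'.iso]
  · obtain ⟨q, hq⟩ := h'.into p hp
    exact Submodule.add_mem _ (Submodule.add_mem _ (h.into p hp) (h'.into p hp))
      (h.into _ (by rw [← hq, hNN]))

theorem QN.conj (h : QN f N n) {k k' : End F V} (hk : ∀ p q, f (k p) (k q) = f p q)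
    (hkk' : ∀ p, k (k' p) = p) (h1 : ∀ p, k (N p) ∈ LinearMap.range N)
    (h2 : ∀ p, k' (N p) ∈ LinearMap.range N) (h3 : ∀ p, N p = 0 → N (k' p) = 0) :
    QN f N (k * n * k') := by
  refine ⟨fun p q => ?_, fun w => by simp [h.kill' (h2 w)], fun p hp => ?_⟩
  · have e : ∀ p, (1 + k * n * k') p = k ((1 + n) (k' p)) := fun p => by simp [hkk']
    rw [e, e, hk, h.iso, ← hk, hkk', hkk']
  · obtain ⟨w, hw⟩ := h.into _ (h3 p hp)
    simpa [← hw] using h1 w

theorem Skew.eq_zero (hN : Skew f N) {p q : V} (hp : N p = 0) (hq : q ∈ LinearMap.range N) :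
    f p q = 0 ∧ f q p = 0 := by
  obtain ⟨q, rfl⟩ := hq
  exact ⟨by rw [← neg_eq_zero, ← hN, hp, LinearMap.map_zero₂], by rw [hN, hp, map_zero, neg_zero]⟩

/-- An isometry with `[V, g] ≤ [V, N]` fixes the kernel of `N` pointwise. -/
theorem Skew.apply_eq_zero (hf : f.Nondegenerate) (hN : Skew f N) (hNN : ∀ p, N (N p) = 0)
    (hn : ∀ p q, f ((1 + n) p) ((1 + n) q) = f p q) (hr : ∀ p, n p ∈ LinearMap.range N) {p : V}
    (hp : N p = 0) : n p = 0 := hf.1 _ fun q => by
  have := skew3 hn p q
  obtain ⟨w, hw⟩ := hr p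
  rwa [(hN.eq_zero hp (hr q)).1, (hN.eq_zero (by rw [← hw, hNN]) (hr q)).1, add_zero,
    add_zero] at this

/-- An isometry fixing `[V, N]` pointwise acts trivially modulo the kernel of `N`. -/
theorem Skew.apply_of_fix (hf : f.Nondegenerate) (hN : Skew f N) {x : End F V}
    (hx : ∀ p q, f (x p) (x q) = f p q) (h : ∀ p, x (N p) = N p) (p : V) : N (x p) = N p :=
  sub_eq_zero.1 (hf.1 _ fun q => by
    rw [LinearMap.map_sub₂, hN, hN p, ← hx p (N q), h, sub_self])

/-- The commutator form of two elements of the unipotent radical. -/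
theorem QN.comm_form (hf : f.Nondegenerate) (hN : Skew f N) (h : QN f N n) (h' : QN f N n')
    (p q : V) : f ((n * n' - n' * n) p) q = f (n p) (n' q) - f (n' p) (n q) := by
  have h2 := skew3 h.iso (n' p) q
  have h3 := skew3 h'.iso (n p) q
  rw [(hN.eq_zero (h.perp hf hN q) (h.into _ (h'.perp hf hN p))).2] at h2
  rw [(hN.eq_zero (h'.perp hf hN q) (h'.into _ (h.perp hf hN p))).2] at h3
  simp only [LinearMap.sub_apply, End.mul_apply, map_sub]
  linear_combination h2 - h3

theorem QN.inG_comm (hf : f.Nondegenerate) (hN : Skew f N) (h : QN f N n) (h' : QN f N n')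
    (hn : InG X (1 + n)) (hn' : InG X (1 + n')) : InG X (1 + (n * n' - n' * n)) ∧
      ∀ p, (n * n' - n' * n) p ∈ LinearMap.range N :=
  ⟨H27.inG_comm hn hn' (h.triple hf hN h' h) (h.triple hf hN h' h') (h'.triple hf hN h h)
    (h'.triple hf hN h h'), fun p =>
    Submodule.sub_mem _ (h.into _ (h'.perp hf hN p)) (h'.into _ (h.perp hf hN p))⟩

/-- A family of quadratic elements each of which spans the elements of `X` with the same
commutator space. -/
structure RF (X : Subgroup (End F V)ˣ) (S : End F V → Prop) : Prop where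
  qt : ∀ N, S N → QT F X N
  ne : ∀ N, S N → N ≠ 0
  m : ∀ N, S N → ∀ n, InG X (1 + n) → (∀ p, n p ∈ LinearMap.range N) → ∃ c : F, n = c • N

/-- The conjugates under `X` of the members of `S`. -/
def Cls (X : Subgroup (End F V)ˣ) (S : End F V → Prop) (B : End F V) : Prop :=
  ∃ g g' N : End F V, InG X g ∧ g * g' = 1 ∧ g' * g = 1 ∧ S N ∧ B = g * N * g'

variable {S : End F V → Prop}

theorem cls_self (h : S N) : Cls X S N :=
  ⟨1, 1, N, inG_one X, mul_one 1, mul_one 1, h, by simp⟩

theorem Cls.conj (hB : Cls X S B) {g g' : End F V} (hg : InG X g) (h1 : g * g' = 1)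
    (h2 : g' * g = 1) : Cls X S (g * B * g') := by
  obtain ⟨k, k', u, hk, h3, h4, hu, rfl⟩ := hB
  exact ⟨g * k, k' * g', u, hg.mul hk, by rw [mul_assoc, ← mul_assoc k, h3, one_mul, h1],
    by rw [mul_assoc, ← mul_assoc g', h2, one_mul, h4], hu, by simp only [mul_assoc]⟩

theorem RF.cls (hR : RF X S) : RF X (Cls X S) := by
  refine ⟨?_, ?_, ?_⟩
  · rintro _ ⟨g, g', N, hg, h1, h2, hN, rfl⟩
    refine ⟨?_, fun c => ?_⟩
    · rw [mul_assoc, mul_assoc, ← mul_assoc g', ← mul_assoc g', h2, one_mul, ← mul_assoc N,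
        (hR.qt N hN).sq, zero_mul, mul_zero]
    · simpa only [mul_smul_comm, smul_mul_assoc] using inG_conj hg h1 ((hR.qt N hN).mem c)
  · rintro _ ⟨g, g', N, hg, h1, h2, hN, rfl⟩ h
    apply hR.ne N hN
    calc N = g' * (g * N * g') * g := by
          rw [← mul_assoc, ← mul_assoc, h2, one_mul, mul_assoc, h2, mul_one]
      _ = 0 := by rw [h, mul_zero, zero_mul]
  · rintro _ ⟨g, g', N, hg, h1, h2, hN, rfl⟩ n hn hr
    obtain ⟨c, hc⟩ := hR.m N hN _ (inG_conj (inG_inv hg h1) h2 hn) fun p => by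
      obtain ⟨q, hq⟩ := hr (g p)
      refine ⟨g' q, ?_⟩
      rw [End.mul_apply, End.mul_apply, ← hq, End.mul_apply, End.mul_apply, ← End.mul_apply g', h2,
        End.one_apply]
    refine ⟨c, ?_⟩
    rw [← smul_mul_assoc, ← mul_smul_comm, ← hc, ← mul_assoc, ← mul_assoc, h1, one_mul, mul_assoc,
      h1, mul_one]

theorem RF.triple_eq_zero (hR : RF X S) (h2 : (2 : F) ≠ 0) {s r : End F V} (hs : Cls X S s)
    (hr : Cls X S r) (h : IsNilpotent (s * r + r * s)) : s * r * s = 0 := by
  obtain ⟨n, hn⟩ := h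
  refine nil_lemma h2 (Cls X S) hR.cls.qt (fun s hs g hg => hs.conj ⟨g, hg, rfl⟩ g.mul_inv g.inv_mul)
    (fun s z n hs h hzs hn => ?_) n s r hs hr (by rw [pow_succ, hn, zero_mul])
  obtain ⟨c, hc⟩ := hR.cls.m s hs (z * s) (by simpa using h.mem 1)
    fun p => ⟨z p, by rw [hzs, End.mul_apply]⟩
  have h2 : ∀ n, z ^ n * s = c ^ n • s := fun n => by
    induction n with
    | zero => simp
    | succ n ih => rw [pow_succ', mul_assoc, ih, mul_smul_comm, hc, smul_smul, pow_succ]
  rw [h2] at hn
  rw [hc, pow_eq_zero_iff'.1 ((smul_eq_zero.1 hn).resolve_right (hR.cls.ne s hs)) |>.1, zero_smul]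

/-- The data of an involution centralising `A`, trivial on `ker A / [V, A]`. -/
structure Invol (X : Subgroup (End F V)ˣ) (A z : End F V) : Prop where
  mem : InG X z
  sq : ∀ p, z (z p) = p
  comm : ∀ p, z (A p) = A (z p)
  triv : ∀ p, A p = 0 → z p - p ∈ LinearMap.range A
  ne : ∃ p, z (A p) ≠ A p

theorem Invol.conj {A z g g' : End F V} (h : Invol X (g * A * g') z) (hg : InG X g)
    (h1 : g * g' = 1) (h2 : g' * g = 1) : Invol X A (g' * z * g) := by
  have e1 : ∀ p, g (g' p) = p := LinearMap.congr_fun h1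
  have e2 : ∀ p, g' (g p) = p := LinearMap.congr_fun h2
  refine ⟨((inG_inv hg h1).mul h.mem).mul hg, fun p => by simp only [End.mul_apply, e1, h.sq, e2],
    fun p => ?_, fun p hp => ?_, ?_⟩
  · simpa only [End.mul_apply, e2] using congrArg g' (h.comm (g p))
  · obtain ⟨q, hq⟩ := h.triv (g p) (by simp [e2, hp])
    exact ⟨g' q, by simpa only [End.mul_apply, e2, map_sub] using congrArg g' hq⟩
  · obtain ⟨p, hp⟩ := h.ne
    exact ⟨g' p, fun e => hp (by simpa only [End.mul_apply, e1] using congrArg g e)⟩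

theorem exists_invol [Finite F] [FiniteDimensional F V] (h2 : (2 : F) ≠ 0) {A : End F V}
    (hA : QT F X A) (hB : QT F X B) (hn : ¬ IsNilpotent (A * B + B * A)) :
    ∃ z, Invol X A z ∧ Invol X B z ∧ ∀ p, z p - p ∈ LinearMap.range A ⊔ LinearMap.range B := by
  obtain ⟨z, q, hz, hzz, hz1, hq, hzq⟩ := exists_involution h2 hA hB hn
  have hΘ := theta_commute hA.sq hB.sq
  have hzA : Commute z A := hzq ▸ (Commute.one_left _).add_left (hq.1.mul_left hΘ.1)
  have hzB : Commute z B := hzq ▸ (Commute.one_left _).add_left (hq.2.mul_left hΘ.2)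
  have e1 : ∀ p, q (A p) = A (q p) := LinearMap.congr_fun hq.1.eq
  have e2 : ∀ p, q (B p) = B (q p) := LinearMap.congr_fun hq.2.eq
  have hne : ¬ ∀ p, z ((A * B + B * A) p) = (A * B + B * A) p := fun h => hz1 (by
    refine LinearMap.ext fun p => ?_
    have h1 : ∀ p, z p = p + (A * B + B * A) (q p) := fun p => by
      rw [hzq, (commute_theta hq).eq]; rfl
    have h4 := LinearMap.congr_fun hzz p
    rw [End.mul_apply, h1 p, map_add, h, h1 p, End.one_apply, add_assoc, add_eq_left,
      ← two_smul F] at h4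
    rw [h1, (smul_eq_zero.1 h4).resolve_left h2, add_zero, End.one_apply])
  have eA : ∀ p, z (A p) = A (z p) := LinearMap.congr_fun hzA.eq
  have eB : ∀ p, z (B p) = B (z p) := LinearMap.congr_fun hzB.eq
  refine ⟨z, ⟨hz, LinearMap.congr_fun hzz, eA, fun p hp => ⟨q (B p), by rw [hzq]; simp [hp, e1]⟩,
    ?_⟩, ⟨hz, LinearMap.congr_fun hzz, eB, fun p hp => ⟨q (A p), by rw [hzq]; simp [hp, e2]⟩, ?_⟩,
    fun p => ?_⟩
  · by_contra! H
    exact hne fun p => by simp only [LinearMap.add_apply, End.mul_apply, map_add, eB (A p), H]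
  · by_contra! H
    exact hne fun p => by simp only [LinearMap.add_apply, End.mul_apply, map_add, eA (B p), H]
  · rw [hzq]
    simpa [e1, e2] using Submodule.add_mem_sup (LinearMap.mem_range_self A (q (B p)))
      (LinearMap.mem_range_self B (q (A p)))

end Cfsg.Agent.H27
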