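import Cfsg.Agent.H27.PowGeo
import Cfsg.Agent.H79.TenO

/-!
# Orthogonal groups acting through a matrix subalgebra: invariant subgroups
-/

set_option autoImplicit false

namespace Cfsg.Agent.H27

open Module QuadraticMap H30 H36
open H79 (sk Big sk_apply)

section Adj

variable {F V : Type*} [Field F] [AddCommGroup V] [Module F V] [FiniteDimensional F V]
  {B : LinearMap.BilinForm F V} {hB : B.Nondegenerate}

/-- The adjoint of an endomorphism. -/
noncomputable def adj (hB : B.Nondegenerate) : End F V →ₗ[F] End F V where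
  toFun a := B.leftAdjointOfNondegenerate hB a
  map_add' a b := ((B.isAdjointPair_iff_eq_of_nondegenerate hB _ _).1
    ((B.isAdjointPairLeftAdjointOfNondegenerate hB a).add
      (B.isAdjointPairLeftAdjointOfNondegenerate hB b))).symm
  map_smul' c a := ((B.isAdjointPair_iff_eq_of_nondegenerate hB _ _).1 fun x y => by
    simp [B.isAdjointPairLeftAdjointOfNondegenerate hB a x y]).symm

theorem adj_left (a : End F V) (x y : V) : B (adj hB a x) y = B x (a y) :=
  B.isAdjointPairLeftAdjointOfNondegenerate hB a x y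

theorem adj_eq {a b : End F V} (h : ∀ x y, B (b x) y = B x (a y)) : adj hB a = b :=
  ((B.isAdjointPair_iff_eq_of_nondegenerate hB _ _).1 h).symm

theorem adj_mul (a b : End F V) : adj hB (a * b) = adj hB b * adj hB a :=
  adj_eq fun x y => by simp [adj_left]

theorem adj_one : adj hB 1 = 1 := adj_eq fun _ _ => rfl

theorem adj_adj (hs : ∀ x y, B x y = B y x) (a : End F V) : adj hB (adj hB a) = a :=
  adj_eq fun x y => by rw [hs, hs x, adj_left]

theorem adj_mul_self {g : End F V} (h : ∀ x y, B (g x) (g y) = B x y) : adj hB g * g = 1 :=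
  LinearMap.ext fun x => sub_eq_zero.1 (hB.1 _ fun y => by simp [adj_left, h])

theorem mul_adj_self {g : End F V} (h : ∀ x y, B (g x) (g y) = B x y) : g * adj hB g = 1 :=
  mul_eq_one_comm.1 (adj_mul_self h)

theorem adj_eq_of_mul {g g' : End F V} (h : ∀ x y, B (g x) (g y) = B x y) (e : g * g' = 1) :
    adj hB g = g' := by
  rw [← mul_one (adj hB g), ← e, ← mul_assoc, adj_mul_self h, one_mul]

theorem iso_of_adj {g : End F V} (h : adj hB g * g = 1) (x y : V) : B (g x) (g y) = B x y := by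
  rw [← adj_left (hB := hB), ← End.mul_apply, h, End.one_apply]

theorem adj_ro (hs : ∀ x y, B x y = B y x) (x y : V) : adj hB (ro B x y) = ro B y x :=
  adj_eq fun a b => by simp [hs b, mul_comm]

theorem adj_sk (hs : ∀ x y, B x y = B y x) (x y : V) : adj hB (sk B x y) = -sk B x y := by
  simp [sk, adj_ro hs]

end Adj

variable {F U : Type*} [Field F] [AddCommGroup U] [Module F U] {Q : QuadraticForm F U}

local notation "𝔟" => polarBilin Q

theorem sk_mul_sk {u x y : U} (hu : Q u = 0) (hx : polar Q u x = 0) (hy : polar Q u y = 0) :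
    sk 𝔟 u x * sk 𝔟 u y = -polar Q x y • ro 𝔟 u u := by
  ext v
  simp [hu, hx, polar_comm Q y u, hy, polar_comm Q y x, smul_smul, mul_comm]

theorem sk_mul_ro {u x : U} (hu : Q u = 0) (hx : polar Q u x = 0) (y : U) :
    sk 𝔟 u x * ro 𝔟 u y = 0 := by
  ext v
  simp [hu, hx]

theorem ro_mul_sk {u x : U} (hu : Q u = 0) (hx : polar Q u x = 0) (y : U) :
    ro 𝔟 y u * sk 𝔟 u x = 0 := by
  ext v
  simp [hu, hx, polar_comm Q x u]

theorem ro_mul_ro_self {u : U} (hu : Q u = 0) (x y : U) : ro 𝔟 x u * ro 𝔟 u y = 0 := by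
  rw [ro_mul_ro, polarBilin_apply_apply, polar_self', hu, mul_zero, zero_smul]

theorem sk_comm_sk (a b x y : U) :
    sk 𝔟 a b * sk 𝔟 x y - sk 𝔟 x y * sk 𝔟 a b = sk 𝔟 (sk 𝔟 a b x) y + sk 𝔟 x (sk 𝔟 a b y) := by
  ext v
  simp only [LinearMap.sub_apply, End.mul_apply, sk_apply, LinearMap.add_apply,
    polarBilin_apply_apply, polar_sub_left, polar_sub_right, polar_smul_left', polar_smul_right',
    polar_comm Q a x, polar_comm Q b x, polar_comm Q a y, polar_comm Q b y]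
  module

/-- `sk` as a bilinear map. -/
def skL (f : LinearMap.BilinForm F U) : U →ₗ[F] U →ₗ[F] End F U :=
  LinearMap.mk₂ F (sk f) (fun _ _ _ => by simp only [sk, ro_add_left, ro_add_right]; abel)
    (fun _ _ _ => by simp only [sk, ro_smul_left, ro_smul_right, smul_sub])
    (fun _ _ _ => by simp only [sk, ro_add_left, ro_add_right]; abel)
    (fun _ _ _ => by simp only [sk, ro_smul_left, ro_smul_right, smul_sub])

theorem skL_apply (f : LinearMap.BilinForm F U) (x y : U) : skL f x y = sk f x y := rfl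

theorem sk_self (f : LinearMap.BilinForm F U) (x : U) : sk f x x = 0 := sub_self _

theorem sk_swap (f : LinearMap.BilinForm F U) (x y : U) : sk f x y = -sk f y x := by simp [sk]

/-- Quadratic spaces of odd characteristic and dimension at least three other than `O₃(3)` and
`O₄⁺`. -/
structure OG (Q : QuadraticForm F U) : Prop extends Big Q where
  line : ∀ u d, Q u = 0 → Q d = 0 → polar Q u d = 0 → u ≠ 0 → d ∉ F ∙ u → 5 ≤ finrank F U

variable [FiniteDimensional F U]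

theorem exists_hperp_ne (hQ : Big Q) {u u' : U} (h : H30.IsHyp Q u u') :
    ∃ w ∈ hperp Q u u', Q w ≠ 0 :=
  (h.nondegOn_hperp hQ.nd).exists_Q_ne_zero
    (ne_bot_of_finrank_pos (by have := h.finrank_hperp; have := hQ.three; omega))

theorem mem_of_ns (hQ : Big Q) {u u' x : U} (h : H30.IsHyp Q u u') (S : Submodule F U)
    (hS : ∀ w ∈ hperp Q u u', Q w ≠ 0 → w ∈ S) (hx : x ∈ hperp Q u u') : x ∈ S := by
  by_contra hx'
  exact hQ.two ((h.nondegOn_hperp hQ.nd).mem_of_nonsingular S.toAddSubgroup hS hx hx').1.two_eq_zero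

section Bil

variable {M : Type*} [AddCommGroup M] [Module F M]

theorem quad_mod (hQ : Big Q) (β : U →ₗ[F] U →ₗ[F] M) (h : ∀ u, Q u = 0 → β u u = 0) :
    ∃ m, ∀ x y, β x y + β y x = polar Q x y • m := by
  obtain ⟨e, e', he⟩ := hQ.hyp
  refine ⟨β e e' + β e' e, fun x y => sub_eq_zero.1
    ((Module.forall_dual_apply_eq_zero_iff F _).1 fun φ => ?_)⟩
  obtain ⟨μ, hμ⟩ := hQ.quad_eq (β.compr₂ φ) fun u hu => by simp [h u hu]
  have key : ∀ x y, φ (β x y) + φ (β y x) = μ * polar Q x y := fun x y => by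
    have h1 := hμ (x + y)
    have h2 := hμ x
    have h3 := hμ y
    simp only [LinearMap.compr₂_apply, map_add, LinearMap.add_apply, Q_add] at h1 h2 h3
    linear_combination h1 - h2 - h3
  simp only [map_sub, map_add, map_smul, key, he.pol, smul_eq_mul]
  ring

theorem bil_mod (hQ : Big Q) (β : U →ₗ[F] U →ₗ[F] M)
    (h : ∀ u x, Q u = 0 → polar Q x u = 0 → β x u = 0) : ∃ c, ∀ x y, β x y = polar Q x y • c := by
  have h1 : ∀ {u u'}, H30.IsHyp Q u u' → ∀ x, β x u = polar Q x u • β u' u := fun {u u'} hu x => by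
    have := h u (x - polar Q x u • u') hu.left (by simp [hu.pol'])
    simpa [sub_eq_zero] using this
  have h2 : ∀ {u u'}, H30.IsHyp Q u u' → β u' u = β u u' := fun {u u'} hu => by
    obtain ⟨w, hw, hw0⟩ := exists_hperp_ne hQ hu
    have a1 : H30.IsHyp Q ((-Q w) • u + (1 : F) • u' + w) u :=
      ⟨(hu.Q_comb _ _ hw).trans (by ring), hu.left, hu.polar_comb_left _ _ hw⟩
    have a2 : H30.IsHyp Q ((-Q w) • u + (1 : F) • u' + -w) u :=
      ⟨(hu.Q_comb _ _ (neg_mem hw)).trans (by simp), hu.left, hu.polar_comb_left _ _ (neg_mem hw)⟩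
    have b3 := h1 a1 u'
    have b4 := h1 a2 u'
    have c3 := h u u hu.left hu.polar_left
    have c4 := h u' u' hu.right hu.polar_right
    simp only [map_add, map_smul, map_neg, polar_add_right, polar_smul_right', polar_neg_right,
      hw.2, polar_comm Q u' w, hu.pol', hu.polar_right, c3, c4] at b3 b4
    refine smul_right_injective M (mul_ne_zero hQ.two hw0) ?_
    linear_combination (norm := module) -b3 - b4
  obtain ⟨e, e', he⟩ := hQ.hyp
  refine ⟨β e' e, fun x y => ?_⟩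
  obtain ⟨a, b, w, hw, rfl⟩ := he.exists_decomp y
  have a1 : H30.IsHyp Q ((-Q w) • e + (1 : F) • e' + w) e :=
    ⟨(he.Q_comb _ _ hw).trans (by ring), he.left, he.polar_comb_left _ _ hw⟩
  have b1 := h1 a1 x
  rw [h2 a1, h1 he, he.polar_comb_left _ _ hw] at b1
  have b2 := h1 he x
  have b3 := h1 he.symm x
  rw [← h2 he] at b3
  simp only [map_add, map_smul, polar_add_right, polar_smul_right'] at b1 ⊢
  linear_combination (norm := module) b1 + (a + Q w) • b2 + (b - 1) • b3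

end Bil

section Alg

variable {A : Type*} [Ring A] [Algebra F A] {φ : End F U →ₐ[F] A} {u u' w x y : U} {D : A}

omit [FiniteDimensional F U] in
theorem phi_sk (u x : U) : φ (sk 𝔟 u x) = eE 𝔟 φ x u - eE 𝔟 φ u x := map_sub _ _ _

omit [FiniteDimensional F U] in
theorem phi_eich (u x : U) : φ (H79.eE Q u x) = 1 + φ (sk 𝔟 u x) - Q x • eE 𝔟 φ u u := by
  simp [H79.eE, eE_apply]

omit [FiniteDimensional F U] in
theorem phi_eich_neg (u x : U) : φ (H79.eE Q u (-x)) = 1 - φ (sk 𝔟 u x) - Q x • eE 𝔟 φ u u := by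
  simp [H79.eE_neg, eE_apply]

/-- An additive subgroup invariant under conjugation by the Eichler transformations. -/
def AInv (Q : QuadraticForm F U) (φ : End F U →ₐ[F] A) (L : AddSubgroup A) : Prop :=
  ∀ u x, Q u = 0 → polar Q u x = 0 → ∀ D ∈ L, φ (H79.eE Q u x) * D * φ (H79.eE Q u (-x)) ∈ L

/-- The even part of the conjugation by an Eichler transformation. -/
def tt (Q : QuadraticForm F U) (φ : End F U →ₐ[F] A) (u x : U) (D : A) : A :=
  φ (sk (polarBilin Q) u x) * D * φ (sk (polarBilin Q) u x) +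
    Q x • (eE (polarBilin Q) φ u u * D + D * eE (polarBilin Q) φ u u) -
      (Q x * Q x) • (eE (polarBilin Q) φ u u * D * eE (polarBilin Q) φ u u)

variable {L : AddSubgroup A}

omit [FiniteDimensional F U] in
theorem AInv.tt_mem (hL : AInv Q φ L) (hu : Q u = 0) (hx : polar Q u x = 0) (hD : D ∈ L) :
    (2 : F) • tt Q φ u x D ∈ L := by
  have h1 := hL u x hu hx D hD
  have h3 := hL u (-x) hu (by simp [hx]) D hD
  rw [neg_neg] at h3
  rw [phi_eich_neg, phi_eich] at h1 h3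
  convert L.sub_mem (L.add_mem hD hD) (L.add_mem h1 h3) using 1
  simp only [tt, mul_add, add_mul, mul_sub, sub_mul, smul_mul_assoc, mul_smul_comm, one_mul, mul_one]
  module

theorem AInv.ro_mem (hL : AInv Q φ L) (hQ : Big Q) (hu : Q u = 0) (hD : D ∈ L) :
    ∃ c : F, c ≠ 0 ∧ c • (eE 𝔟 φ u u * co hQ.nd φ u u D) ∈ L := by
  obtain ⟨x, hx, h1⟩ := exists_nonsingular_orth hQ.nd hQ.three hu
  have h2 := hQ.two
  rw [eE_mul_co]
  rcases hQ.big with h4 | ⟨t, ht0, ht⟩
  · obtain ⟨y, hy, h5, h6⟩ := H79.exists_nonsingular_orth₄ hQ.nd hQ.two h4 hx h1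
    refine ⟨8 * Q x * Q y, mul_ne_zero (mul_ne_zero ?_ hx) hy, ?_⟩
    · rw [show (8 : F) = 2 ^ 3 by norm_num]
      exact pow_ne_zero _ h2
    have a1 : ∀ T, φ (sk 𝔟 u y) * (φ (sk 𝔟 u x) * T) = 0 := fun T => by
      rw [← mul_assoc, ← map_mul, sk_mul_sk hu h5 h1, polar_comm, h6]; simp
    have a3 : ∀ z T, polar Q u z = 0 → φ (sk 𝔟 u z) * (eE 𝔟 φ u u * T) = 0 := fun z T hz => by
      rw [← mul_assoc, eE_apply, ← map_mul, sk_mul_ro hu hz]; simp
    have a4 : ∀ z, polar Q u z = 0 → eE 𝔟 φ u u * φ (sk 𝔟 u z) = 0 := fun z hz => by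
      rw [eE_apply, ← map_mul, ro_mul_sk hu hz]; simp
    have a5 : ∀ z T, polar Q u z = 0 → eE 𝔟 φ u u * (φ (sk 𝔟 u z) * T) = 0 := fun z T hz => by
      rw [← mul_assoc, a4 z hz, zero_mul]
    have a6 : ∀ z, polar Q u z = 0 → φ (sk 𝔟 u z) * eE 𝔟 φ u u = 0 := fun z hz => by
      simpa using a3 z 1 hz
    have a7 : ∀ T, eE 𝔟 φ u u * (eE 𝔟 φ u u * T) = 0 := fun T => by simp [eE_mul', hu]
    have a8 : eE 𝔟 φ u u * eE 𝔟 φ u u = 0 := by simp [eE_mul, hu]
    convert hL.tt_mem hu h5 (hL.tt_mem hu h1 hD) using 1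
    simp only [tt, mul_add, add_mul, mul_sub, sub_mul, smul_mul_assoc, mul_smul_comm, mul_assoc,
      a1, a3 _ _ h5, a4 _ h5, a5 _ _ h1, a6 _ h1, a7, a8, mul_zero, smul_zero, zero_mul]
    module
  · have a1 : ∀ s : F, (2 : F) • tt Q φ u (s • x) D ∈ L := fun s => hL.tt_mem hu (by simp [h1]) hD
    refine ⟨4 * ((2 * t) * (t * t - 1) * (Q x)) ^ 2, mul_ne_zero ?_ (pow_ne_zero _
      (mul_ne_zero (mul_ne_zero (mul_ne_zero h2 ht0) (sub_ne_zero.2 ht)) hx)), ?_⟩
    · rw [show (4 : F) = 2 ^ 2 by norm_num]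
      exact pow_ne_zero _ h2
    convert L.sub_mem (L.add_mem (a1 (2 * t)) (a1 (t * t - 1))) (a1 (t * t + 1)) using 1
    simp only [tt, ← skL_apply, map_smul, smul_mul_assoc, mul_smul_comm, Q_smul]
    module

/-- Elements of the form `∑ (u ∧ wᵢ) ⊗ aᵢ`. -/
structure Kt (hf : (polarBilin Q).Nondegenerate) (φ : End F U →ₐ[F] A) (u : U) (D : A)
    (γ : U →ₗ[F] A) : Prop where
  zero : γ u = 0
  co : ∀ x y, co hf φ x y D = polar Q y u • γ x - polar Q x u • γ y

theorem co_phi_left' (hf : (polarBilin Q).Nondegenerate) (a : End F U) (x y : U) (T : A) :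
    co hf φ x y (φ a * T) = co hf φ (adj hf a x) y T :=
  co_phi_left (fun v => by
    rw [polarBilin_apply_apply, polar_comm, ← polarBilin_apply_apply, ← adj_left (hB := hf),
      polarBilin_apply_apply, polar_comm, polarBilin_apply_apply]) y T

omit [FiniteDimensional F U] in
theorem pb_symm (x y : U) : 𝔟 x y = 𝔟 y x := polar_comm Q x y

theorem AInv.exists_kt (hL : AInv Q φ L) (hQ : Big Q) (hD : D ∈ L)
    (h : ∀ v, Q v = 0 → co hQ.nd φ v v D = 0) (hu : Q u = 0) (hw : polar Q u w = 0)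
    (hw0 : Q w ≠ 0) : ∃ D₁ ∈ L, ∃ γ, Kt hQ.nd φ u D₁ γ ∧
      ∀ x, polar Q x u = 0 → γ x = (2 * Q w) • co hQ.nd φ (reflLin Q w x) u D := by
  obtain ⟨m, hm⟩ := quad_mod hQ ((co hQ.nd φ).compr₂ (LinearMap.applyₗ D)) h
  simp only [LinearMap.compr₂_apply, LinearMap.applyₗ_apply_apply] at hm
  have h1 := h u hu
  have hw' : polar Q w u = 0 := by rwa [polar_comm]
  refine ⟨_, hL.tt_mem hu hw hD, (2 * Q w) • (((co hQ.nd φ).compr₂ (LinearMap.applyₗ D)).flip u ∘ₗ
    reflLin Q w) - Q w • ((polarBilin Q).flip u).smulRight m, ⟨by simp [reflLin_apply, hw, h1, hu], fun x y => ?_⟩,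
    fun x hx => by simp [hx]⟩
  have a1 := hm u y
  have a2 := hm w w
  have a3 := hm w u
  rw [polar_self'] at a2
  simp only [tt, map_smul, map_sub, map_add, mul_assoc, co_phi_left', co_phi_right, co_eE_left,
    co_eE_right, adj_sk pb_symm, reflLin_apply, LinearMap.neg_apply, sk_apply, LinearMap.sub_apply,
    LinearMap.smul_apply, LinearMap.comp_apply, LinearMap.flip_apply, LinearMap.compr₂_apply,
    LinearMap.applyₗ_apply_apply, LinearMap.smulRight_apply, polarBilin_apply_apply, h1, map_neg,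
    polar_comm Q u x, polar_comm Q u y, hw'] at a1 a3 ⊢
  linear_combination (norm := (match_scalars <;> field_simp <;> ring))
    (2 * Q w * polar Q x u) • a1 - (polar Q x u * polar Q y u) • a2 +
    (2 * polar Q x w * polar Q y u) • a3

theorem AInv.exists_kt_ne (hL : AInv Q φ L) (hQ : Big Q) (hD : D ∈ L)
    (h : ∀ v, Q v = 0 → co hQ.nd φ v v D = 0) (hD' : ¬ Cm φ D) : ∃ u u' w, H30.IsHyp Q u u' ∧
      w ∈ hperp Q u u' ∧ Q w ≠ 0 ∧ ∃ D₁ ∈ L, ∃ γ, Kt hQ.nd φ u D₁ γ ∧ γ w ≠ 0 ∧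
        ∃ (c : F) (x : U), γ w = c • co hQ.nd φ x u D := by
  obtain ⟨u, x, hu, hx, h1⟩ : ∃ u x, Q u = 0 ∧ polar Q x u = 0 ∧ co hQ.nd φ x u D ≠ 0 := by
    by_contra! H
    obtain ⟨c, hc⟩ := bil_mod hQ ((co hQ.nd φ).compr₂ (LinearMap.applyₗ D)) H
    exact hD' (cm_of_co (hf := hQ.nd) fun x y hxy => by
      simpa [polar_comm Q x, show polar Q y x = 0 from hxy] using hc x y)
  obtain ⟨u', hu'⟩ := exists_isHyp hQ.nd hu (by rintro rfl; simp at h1)
  obtain ⟨w, hw, hw0⟩ := exists_hperp_ne hQ hu'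
  obtain ⟨D₁, h2, γ, h3, h4⟩ := hL.exists_kt hQ hD h hu (by rw [polar_comm]; exact hw.1) hw0
  have h5 : ∀ y, polar Q y u = 0 → polar Q (reflLin Q w y) u = 0 := fun y hy => by
    simp [reflLin_apply, hy, hw.1]
  have h6 : γ (hproj Q u u' (reflLin Q w x)) ≠ 0 := by
    simp only [hproj, h5 x hx, zero_smul, sub_zero, map_sub, map_smul, h3.zero, smul_zero]
    rw [h4 _ (h5 x hx), reflLin_reflLin]
    exact smul_ne_zero (mul_ne_zero hQ.two hw0) h1
  have h7 := hu'.hproj_mem (reflLin Q w x)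
  generalize hproj Q u u' (reflLin Q w x) = y at h6 h7
  obtain ⟨z, hz, hz0, hz'⟩ : ∃ z ∈ hperp Q u u', Q z ≠ 0 ∧ γ z ≠ 0 := by
    by_contra! H
    exact h6 (mem_of_ns hQ hu' (LinearMap.ker γ) H h7)
  exact ⟨u, u', z, hu', hz, hz0, D₁, h2, γ, h3, hz', _, _, h4 z hz.1⟩

variable {hf : (polarBilin Q).Nondegenerate} {γ : U →ₗ[F] A}

theorem Kt.mul_eE (h : Kt hf φ u D γ) (hu : Q u = 0) (y : U) : D * eE 𝔟 φ u y = 0 :=
  eq_zero_of_co (hf := hf) (φ := φ) fun a b => by simp [co_eE_right, h.co, h.zero, hu]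

theorem Kt.eE_mul (h : Kt hf φ u D γ) (hu : Q u = 0) (y : U) : eE 𝔟 φ y u * D = 0 :=
  eq_zero_of_co (hf := hf) (φ := φ) fun a b => by simp [co_eE_left, h.co, h.zero, hu]

theorem Kt.co_hyp (h : Kt hf φ u D γ) (hu : H30.IsHyp Q u u') (hw : polar Q w u = 0) :
    H27.co hf φ w u' D = γ w := by simp [h.co, hw, hu.pol']

theorem co_conj {g : End F U} (hf : (polarBilin Q).Nondegenerate) (x y : U) :
    co hf φ x y (φ g * D * φ (adj hf g)) = co hf φ (adj hf g x) (adj hf g y) D := by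
  rw [co_phi_right, co_phi_left']

/-- The torus of a hyperbolic pair. -/
def tor (Q : QuadraticForm F U) (u u' : U) (a : F) : End F U :=
  1 + (a - 1) • ro (polarBilin Q) u u' + (a⁻¹ - 1) • ro (polarBilin Q) u' u

theorem adj_tor (a : F) : adj hf (tor Q u u' a) = tor Q u u' a⁻¹ := by
  simp only [tor, map_add, map_smul, adj_one, adj_ro pb_symm, inv_inv]
  abel

theorem Kt.tor (h : Kt hf φ u D γ) (hu : H30.IsHyp Q u u') (a : F) :
    φ (tor Q u u' a) * D * φ (adj hf (tor Q u u' a)) = a • D :=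
  sub_eq_zero.1 (eq_zero_of_co (hf := hf) (φ := φ) fun x y => by
    rw [map_sub, co_conj, adj_tor]
    simp only [H27.tor, h.co, map_smul, LinearMap.add_apply, End.one_apply, LinearMap.smul_apply,
      ro_apply, map_add, h.zero, hu.polar_left, hu.pol',
      polarBilin_apply_apply, inv_inv]
    module)

theorem adj_reflLin (w : U) : adj hf (reflLin Q w) = reflLin Q w :=
  adj_eq fun x y => by
    simp only [reflLin_apply, polarBilin_apply_apply, polar_sub_left, polar_sub_right,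
      polar_smul_left', polar_smul_right', polar_comm Q y w]
    ring

theorem Kt.refl (h : Kt hf φ u D γ) (hu : H30.IsHyp Q u u') (hw : polar Q w u = 0) :
    D - φ (reflLin Q w) * D * φ (reflLin Q w) = φ ((Q w)⁻¹ • sk 𝔟 u w) * γ w := by
  have hc : Cm φ (γ w) := h.co_hyp hu hw ▸ cm_co _ _ _
  refine sub_eq_zero.1 (eq_zero_of_co (hf := hf) (φ := φ) fun x y => ?_)
  rw [map_sub, map_sub, hc.co_phi_mul]
  conv_lhs => enter [1, 2, 2, 2]; rw [← adj_reflLin (hf := hf)]
  rw [co_conj, adj_reflLin]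
  simp only [h.co, reflLin_apply, map_sub, map_smul, hw,
    LinearMap.smul_apply, sk_apply, polarBilin_apply_apply, LinearMap.sub_apply, smul_eq_mul,
    polar_comm Q w x, polar_comm Q u x]
  module

omit [FiniteDimensional F U] in
theorem odd_mem {C : Submodule F A} (h2 : (2 : F) ≠ 0)
    (h1 : φ (H79.eE Q u x) * D * φ (H79.eE Q u (-x)) ∈ C)
    (h3 : φ (H79.eE Q u (-x)) * D * φ (H79.eE Q u x) ∈ C) :
    φ (sk 𝔟 u x) * D - D * φ (sk 𝔟 u x) +
      Q x • (eE 𝔟 φ u u * D * φ (sk 𝔟 u x) - φ (sk 𝔟 u x) * D * eE 𝔟 φ u u) ∈ C := by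
  rw [phi_eich_neg, phi_eich] at h1 h3
  rw [← C.smul_mem_iff h2]
  convert C.sub_mem h1 h3 using 1
  simp only [mul_add, add_mul, mul_sub, sub_mul, smul_mul_assoc, mul_smul_comm, one_mul, mul_one]
  module

/-- Vectors of `P` can be written as sums of two vectors of another norm. -/
def Sp (Q : QuadraticForm F U) (P : Submodule F U) : Prop :=
  ∀ w ∈ P, Q w ≠ 0 → ∃ v ∈ P, ∃ v' ∈ P, ∃ c : F, c ≠ 0 ∧ v + v' = c • w ∧ Q v' = Q v ∧ Q v ≠ Q w

omit [FiniteDimensional F U] in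
theorem Sp.mem {M : Type*} [AddCommGroup M] [Module F M] {P : Submodule F U} (hP : Sp Q P)
    {C : Submodule F M} (l l' : U →ₗ[F] M) (h : ∀ w ∈ P, l w + Q w • l' w ∈ C) (hw : w ∈ P) :
    l w ∈ C ∧ Q w • l' w ∈ C := by
  by_cases h0 : Q w = 0
  · simpa [h0] using h w hw
  obtain ⟨v, hv, v', hv', c, hc, h1, h2, h3⟩ := hP w hw h0
  have h4 : l w + Q v • l' w ∈ C := by
    rw [← C.smul_mem_iff hc]
    convert C.add_mem (h v hv) (h v' hv') using 1
    rw [h2]
    linear_combination (norm := module) -congrArg l h1 - Q v • congrArg l' h1 + l.map_add v v' +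
      Q v • l'.map_add v v' - l.map_smul c w - Q v • l'.map_smul c w
  have h5 : l' w ∈ C := by
    rw [← C.smul_mem_iff (sub_ne_zero.2 h3)]
    convert C.sub_mem h4 (h w hw) using 1
    module
  exact ⟨by simpa using C.sub_mem (h w hw) (C.smul_mem (Q w) h5), C.smul_mem _ h5⟩

omit [FiniteDimensional F U] in
theorem Sp.ad_mem {P : Submodule F U} (hP : Sp Q P) {C : Submodule F A} (h2 : (2 : F) ≠ 0)
    (h : ∀ w ∈ P, φ (H79.eE Q u w) * D * φ (H79.eE Q u (-w)) ∈ C) (hw : w ∈ P) :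
    φ (sk 𝔟 u w) * D - D * φ (sk 𝔟 u w) ∈ C ∧
      Q w • (eE 𝔟 φ u u * D * φ (sk 𝔟 u w) - φ (sk 𝔟 u w) * D * eE 𝔟 φ u u) ∈ C :=
  hP.mem ((LinearMap.mulRight F D - LinearMap.mulLeft F D) ∘ₗ φ.toLinearMap ∘ₗ skL 𝔟 u)
    ((LinearMap.mulLeft F (eE 𝔟 φ u u * D) - LinearMap.mulRight F (D * eE 𝔟 φ u u)) ∘ₗ
      φ.toLinearMap ∘ₗ skL 𝔟 u) (fun w hw => by
    simpa [skL_apply, mul_assoc] using odd_mem h2 (h w hw) (by simpa using h _ (P.neg_mem hw))) hw
    |>.imp id fun h => by simpa [skL_apply, mul_assoc] using h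

theorem sp_perp (hQ : Big Q) (u : U) : Sp Q (LinearMap.ker (𝔟 u)) := fun w hw h0 => by
  rcases hQ.big with h4 | ⟨t, ht0, ht⟩
  · obtain ⟨y, hy, h5, h6⟩ := H79.exists_nonsingular_orth₄ hQ.nd hQ.two h4 h0 (u := u) hw
    exact ⟨w + y, add_mem hw h5, w - y, sub_mem hw h5, 2, hQ.two, by module,
      by simp [Q_add, Q_sub, h6], by simp [Q_add, h6, hy]⟩
  · exact ⟨t • w, Submodule.smul_mem _ _ hw, t • w, Submodule.smul_mem _ _ hw, 2 * t,
      mul_ne_zero hQ.two ht0, by module, rfl, by simp [Q_smul, h0, ht]⟩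

theorem sk_mem (hQ : Big Q) (C : Submodule F (End F U))
    (h : ∀ u x, Q u = 0 → polar Q u x = 0 → sk 𝔟 u x ∈ C) (x y : U) : sk 𝔟 x y ∈ C := by
  obtain ⟨e, e', he⟩ := hQ.hyp
  refine H79.mem_of_singular he ⊤ (C.comap ((skL 𝔟).flip y)) trivial trivial (fun u _ hu => ?_)
    (Submodule.mem_top (x := x))
  change skL 𝔟 u y ∈ C
  by_cases hu0 : u = 0
  · simp [hu0]
  obtain ⟨u', h'⟩ := exists_isHyp hQ.nd hu hu0
  obtain ⟨w, hw, hw0⟩ := exists_hperp_ne hQ h'
  have h1 := h ((-Q w) • u + (1 : F) • u' + w) (w - (2 * Q w) • u)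
    ((h'.Q_comb _ _ hw).trans (by ring))
    (by simp [polar_comm Q u w, polar_comm Q u' w, hw.1, hw.2, h'.left, h'.pol'])
  have h2 := h u w hu (by rw [polar_comm, hw.1])
  have h3 := h u' w h'.right (by rw [polar_comm, hw.2])
  have h4 : sk 𝔟 u u' ∈ C := by
    rw [← C.smul_mem_iff (mul_ne_zero hQ.two hw0)]
    convert C.sub_mem (C.sub_mem h1 h3) (C.smul_mem (Q w) h2) using 1
    simp only [← skL_apply, map_add, map_sub, map_smul, LinearMap.add_apply, LinearMap.smul_apply]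
    simp only [skL_apply, sk_self, sk_swap 𝔟 u' u, sk_swap 𝔟 w u]
    module
  convert C.add_mem (h u (y - polar Q u y • u') hu (by simp [h'.pol])) (C.smul_mem (polar Q u y) h4)
  simp [← skL_apply]

theorem AInv.ad_mem {C : Submodule F A} (hC : AInv Q φ C.toAddSubgroup) (hQ : Big Q) (hD : D ∈ C)
    (x y : U) : φ (sk 𝔟 x y) * D - D * φ (sk 𝔟 x y) ∈ C :=
  sk_mem hQ (C.comap ((LinearMap.mulRight F D - LinearMap.mulLeft F D) ∘ₗ φ.toLinearMap))
    (fun u _ hu hx => ((sp_perp hQ u).ad_mem hQ.two (fun w hw => hC u w hu hw D hD) hx).1) x y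

end Alg

end Cfsg.Agent.H27
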