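import Cfsg.Agent.H27.OPA

/-!
# Orthogonal groups in odd characteristic: auxiliary facts
-/

set_option autoImplicit false

namespace Cfsg.Agent.H27

open Module QuadraticMap H30 H36
open H79 (sk Big sk_apply oU)

variable {F U : Type*} [Field F] [AddCommGroup U] [Module F U] {Q : QuadraticForm F U}
  {u u' v w x y z : U}

local notation "𝔟" => polarBilin Q

/-- Isometries as endomorphisms. -/
def oE (Q : QuadraticForm F U) : O Q →* End F U := (Units.coeHom _).comp (oU Q)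

@[simp] theorem oE_apply (σ : O Q) (x : U) : oE Q σ x = σ.1 x := rfl

theorem oE_mul_inv (σ : O Q) : oE Q σ * oE Q σ⁻¹ = 1 := by rw [← map_mul, mul_inv_cancel, map_one]

theorem oE_inv_mul (σ : O Q) : oE Q σ⁻¹ * oE Q σ = 1 := by rw [← map_mul, inv_mul_cancel, map_one]

theorem oE_iso (σ : O Q) (x y : U) : 𝔟 (oE Q σ x) (oE Q σ y) = 𝔟 x y := O_polar σ x y

theorem oE_eich (hu : Q u = 0) (hx : polar Q u x = 0) : oE Q (eich Q u x) = H79.eE Q u x :=
  H79.eich_eq_eE hu hx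

theorem oE_eich_inv (hu : Q u = 0) (hx : polar Q u x = 0) :
    oE Q (eich Q u x)⁻¹ = H79.eE Q u (-x) := by rw [eich_inv, oE_eich hu (by simp [hx])]

theorem oE_refl (v : U) : oE Q (refl Q v) = reflLin Q v := rfl

theorem reflLin_eq (v : U) : reflLin Q v = 1 - (Q v)⁻¹ • ro 𝔟 v v :=
  LinearMap.ext fun x => by simp [reflLin_apply, smul_smul]

theorem oE_conj_ro (σ : O Q) (x y : U) :
    oE Q σ * ro 𝔟 x y * oE Q σ⁻¹ = ro 𝔟 (σ.1 x) (σ.1 y) := iso_conj_ro (oE_iso σ) (oE_mul_inv σ) x y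

theorem oE_torus (h : H30.IsHyp Q u u') {a : F} (ha : a ≠ 0) :
    oE Q (torus Q u u' a) = tor Q u u' a := LinearMap.ext fun x => by
  obtain ⟨b, c, w, hw, rfl⟩ := h.exists_decomp x
  simp only [oE_apply, map_add, map_smul, h.torus_left ha, h.torus_right ha,
    IsHyp.torus_of_orth a hw.1 hw.2, tor, LinearMap.add_apply, End.one_apply, LinearMap.smul_apply,
    ro_apply, polarBilin_apply_apply, h.pol, h.pol', h.polar_left, h.polar_right, hw.1, hw.2]
  module

theorem eE_add (hu : Q u = 0) (hx : polar Q u x = 0) (hy : polar Q u y = 0) :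
    H79.eE Q u (x + y) = H79.eE Q u x * H79.eE Q u y := by
  rw [← oE_eich hu hx, ← oE_eich hu hy, ← map_mul, eich_mul hu hx hy, oE_eich hu (by simp [hx, hy])]

theorem eE_zero (u : U) : H79.eE Q u 0 = 1 := by simp [H79.eE, ← skL_apply]

variable [FiniteDimensional F U]

theorem adj_oE (hf : (polarBilin Q).Nondegenerate) (σ : O Q) : adj hf (oE Q σ) = oE Q σ⁻¹ :=
  adj_eq_of_mul (oE_iso σ) (oE_mul_inv σ)

theorem span_omega (hQ : Big Q) (ρ : O Q) (a : End F U) :
    a ∈ Submodule.span F {b | ∃ σ ∈ eichGroup Q, b = oE Q (σ * ρ)} := by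
  set C := Submodule.span F {b | ∃ σ ∈ eichGroup Q, b = oE Q σ}
  have h1 : ∀ a ∈ C, ∀ b ∈ C, a * b ∈ C := fun a ha b hb => by
    have := Submodule.mul_mem_mul ha hb
    rw [Submodule.span_mul_span] at this
    refine Submodule.span_mono ?_ this
    rintro _ ⟨_, ⟨σ, hσ, rfl⟩, _, ⟨σ', hσ', rfl⟩, rfl⟩
    exact ⟨σ * σ', mul_mem hσ hσ', (map_mul _ _ _).symm⟩
  have h2 : ∀ u x, Q u = 0 → polar Q u x = 0 → H79.eE Q u x ∈ C := fun u x hu hx =>
    Submodule.subset_span ⟨_, eich_mem_eichGroup u x, (oE_eich hu hx).symm⟩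
  have h3 : ∀ a, a ∈ C := ro_induction hQ.nd C.zero_mem (fun _ _ => C.add_mem)
    (H79.ro_mem_of_singular hQ.nd hQ.hyp C h1 fun u hu => by
      obtain ⟨x, hx, h4⟩ := exists_nonsingular_orth hQ.nd hQ.three hu
      rw [← C.smul_mem_iff (mul_ne_zero hQ.two hx)]
      convert C.sub_mem (C.smul_mem 2 (h2 u 0 hu (by simp)))
        (C.add_mem (h2 u x hu h4) (h2 u (-x) hu (by simp [h4]))) using 1
      rw [H79.eE_neg, eE_zero, H79.eE]
      module)
  have := Submodule.mem_map_of_mem (f := LinearMap.mulRight F (oE Q ρ)) (h3 (a * oE Q ρ⁻¹))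
  rw [Submodule.map_span, LinearMap.mulRight_apply, mul_assoc, oE_inv_mul, mul_one] at this
  refine Submodule.span_mono ?_ this
  rintro _ ⟨_, ⟨σ, hσ, rfl⟩, rfl⟩
  exact ⟨σ, hσ, (map_mul _ _ _).symm⟩

theorem exists_omega_smul (hQ : Big Q) (hu : Q u = 0) (hu0 : u ≠ 0) (hv : Q v = 0) (hv0 : v ≠ 0) :
    ∃ σ ∈ eichGroup Q, ∃ c : F, c ≠ 0 ∧ σ.1 u = c • v := by
  obtain ⟨z, hz, h1, h2⟩ : ∃ z, Q z = 0 ∧ polar Q u z ≠ 0 ∧ polar Q v z ≠ 0 := by
    by_cases h : polar Q u v = 0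
    · exact exists_singular_not_orth hQ.nd hu hu0 hv0 h
    have h1 := exists_isHyp_smul hu hv h
    obtain ⟨w, hw, hw0⟩ := exists_hperp_ne hQ h1
    refine ⟨(-Q w) • u + (1 : F) • _ + w, (h1.Q_comb _ _ hw).trans (by ring), ?_, fun e => ?_⟩
    · rw [polar_comm, h1.polar_comb_left _ _ hw]
      exact one_ne_zero
    · have := h1.polar_comb_right (-Q w) 1 hw
      rw [polar_comm, polar_smul_left', e, mul_zero, zero_eq_neg] at this
      exact hw0 this
  rw [polar_comm] at h1 h2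
  obtain ⟨w, -, h3⟩ := (exists_isHyp_smul hz hu h1).exists_eich_apply (exists_isHyp_smul hz hv h2)
  refine ⟨_, eich_mem_eichGroup z w, polar Q z u * (polar Q z v)⁻¹,
    mul_ne_zero h1 (inv_ne_zero h2), ?_⟩
  rw [mul_smul, ← h3, map_smul, smul_inv_smul₀ h1]

theorem exists_swap (hQ : Big Q) (h : H30.IsHyp Q u u') :
    ∃ σ ∈ eichGroup Q, ∃ c : F, c ≠ 0 ∧ σ.1 u = c • u' ∧ σ.1 u' = c⁻¹ • u := by
  obtain ⟨σ, hσ, c, hc, h1⟩ := exists_omega_smul hQ h.left h.left_ne_zero h.right h.right_ne_zero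
  have h2 : H30.IsHyp Q (c • u') (c⁻¹ • u) :=
    ⟨by simp [Q_smul, h.right], by simp [Q_smul, h.left], by simp [h.pol', hc]⟩
  obtain ⟨w, -, h3⟩ := (h1 ▸ h.map σ).exists_eich_apply h2
  exact ⟨_, mul_mem (eich_mem_eichGroup (c • u') w) hσ, c, hc,
    by rw [O_mul_apply, h1, eich_apply_self], h3⟩

theorem exists_orth_ns (hQ : Big Q) (h : H30.IsHyp Q u u') (h4 : 4 ≤ finrank F U) (hx : Q x ≠ 0)
    (hx' : x ∈ hperp Q u u') : ∃ y ∈ hperp Q u u', Q y ≠ 0 ∧ polar Q x y = 0 := by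
  obtain ⟨y, hy, h5, h6⟩ := H79.exists_nonsingular_orth₄ hQ.nd hQ.two h4 hx (u := u)
    (by rw [polar_comm]; exact hx'.1)
  refine ⟨_, h.hproj_mem y, ?_, by simp [hproj, h6, hx'.1, hx'.2]⟩
  rwa [h.Q_eq y, polar_comm Q y u, h5, mul_zero, zero_add] at hy

theorem sk_mem_of_ad (hQ : OG Q) (C : Submodule F (End F U))
    (hC : ∀ x y, ∀ a ∈ C, sk 𝔟 x y * a - a * sk 𝔟 x y ∈ C) (hu : Q u = 0) (hu0 : u ≠ 0)
    (hz : polar Q u z = 0) (hz' : z ∉ F ∙ u) (h : sk 𝔟 u z ∈ C) (x y : U) : sk 𝔟 x y ∈ C := by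
  have key : ∀ a b z, polar Q u a = 0 → polar Q u b = 0 → sk 𝔟 u z ∈ C →
      sk 𝔟 u (polar Q z a • b - polar Q z b • a) ∈ C := fun a b z ha hb h => by
    have := hC a b _ h
    rw [sk_comm_sk, sk_apply, sk_apply] at this
    simpa [ha, hb, ← skL_apply] using this
  have h1 : ∀ z, polar Q u z = 0 → Q z ≠ 0 → sk 𝔟 u z ∈ C → ∀ y, polar Q u y = 0 → sk 𝔟 u y ∈ C :=
    fun z hz h0 h y hy => by
      rw [← C.smul_mem_iff (mul_ne_zero hQ.two h0)]
      convert C.add_mem (key z y z hz hy h) (C.smul_mem (polar Q z y) h) using 1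
      simp [← skL_apply]
  obtain ⟨u', hu'⟩ := exists_isHyp hQ.nd hu hu0
  have h2 : ∀ y, polar Q u y = 0 → sk 𝔟 u y ∈ C := by
    by_cases h0 : Q z = 0
    · obtain ⟨y, hy, a1, a2⟩ := H79.exists_nonsingular_orth₅ hQ.nd (hQ.line u z hu h0 hz hu0 hz') u z
      obtain ⟨a, a3, a4⟩ := H79.exists_orth_eq_one hQ.nd (H79.polarBilin_isRefl Q) hz'
      exact h1 y a1 hy (by
        simpa [a2, show polar Q z a = 1 from a3] using key a y z (a4 u rfl) a1 h)
    · exact h1 z hz h0 h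
  obtain ⟨w, hw, hw0⟩ := exists_hperp_ne hQ.toBig hu'
  have h3 : ∀ y, sk 𝔟 u y ∈ C := fun y => by
    have a1 := hC u' w _ (h2 w (by rw [polar_comm, hw.1]))
    rw [sk_comm_sk] at a1
    simp only [sk_apply, polarBilin_apply_apply, hu'.pol, polar_comm Q u w, hw.1, hw.2, one_smul,
      zero_smul, sub_zero, sk_self, zero_add, zero_sub, polar_self', ← neg_smul] at a1
    rw [← skL_apply, map_smul, C.smul_mem_iff (neg_ne_zero.2 (mul_ne_zero hQ.two hw0))] at a1
    convert C.add_mem (h2 (y - polar Q u y • u') (by simp [hu'.pol])) (C.smul_mem (polar Q u y) a1)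
    simp [← skL_apply]
  have h4 : ∀ x, polar Q u x = 0 → ∀ y, sk 𝔟 x y ∈ C := fun x hx y => by
    have := C.sub_mem (hC u' x _ (h3 y)) (h3 (sk 𝔟 u' x y))
    simpa [sk_comm_sk, hu'.pol, hx] using this
  have h5 : sk 𝔟 u' y ∈ C := by
    convert C.neg_mem (h4 (y - polar Q u y • u') (by simp [hu'.pol]) u')
    rw [← sk_swap, ← skL_apply, ← skL_apply, map_sub, map_smul, skL_apply _ u' u', sk_self,
      smul_zero, sub_zero]
  convert C.add_mem (h4 (x - polar Q u x • u') (by simp [hu'.pol]) y) (C.smul_mem (polar Q u x) h5)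
  simp [← skL_apply]

theorem exists_smul_of_sing (hQ : Big Q) {a : End F U} (h : ∀ u, Q u = 0 → a u ∈ F ∙ u) :
    ∃ c : F, a = c • 1 := by
  obtain ⟨c, hc⟩ := bil_mod hQ ((polarBilin Q).compl₂ a) fun u x hu hx => by
    obtain ⟨c, hc⟩ := Submodule.mem_span_singleton.1 (h u hu)
    simp [← hc, hx]
  exact ⟨c, LinearMap.ext fun y => eq_of_polar hQ.nd fun x => by
    simpa [polar_comm Q _ x, mul_comm] using hc x y⟩

theorem eq_zero_of_skew {V : Type*} [AddCommGroup V] [Module F V] [FiniteDimensional F V]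
    {B : LinearMap.BilinForm F V} {hB : B.Nondegenerate} (h2 : (2 : F) ≠ 0) {a : End F V}
    (h : adj hB a = -a) (h' : adj hB a = a) : a = 0 := by
  rw [h', eq_neg_iff_add_eq_zero, ← two_smul F] at h
  exact (smul_eq_zero.1 h).resolve_left h2

theorem skew_polar {hf : (polarBilin Q).Nondegenerate} {a : End F U} (h : adj hf a = -a) (x y : U) :
    polar Q (a x) y = -polar Q x (a y) := by
  simpa [h, neg_eq_iff_eq_neg] using (adj_left (hB := hf) a x y)

/-- The Lie algebra `so(U)` is simple. -/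
theorem sk_mem_of_ideal (hQ : OG Q) (C : Submodule F (End F U))
    (hC : ∀ x y, ∀ a ∈ C, sk 𝔟 x y * a - a * sk 𝔟 x y ∈ C) {a : End F U} (ha : a ∈ C) (ha0 : a ≠ 0)
    (hs : adj hQ.nd a = -a) (x y : U) : sk 𝔟 x y ∈ C := by
  obtain ⟨u, hu, h1⟩ : ∃ u, Q u = 0 ∧ a u ∉ F ∙ u := by
    by_contra! H
    obtain ⟨c, rfl⟩ := exists_smul_of_sing hQ.toBig H
    exact ha0 (eq_zero_of_skew hQ.two hs (by rw [map_smul, adj_one]))
  have h2 : polar Q (a u) u = 0 := by
    have := skew_polar hs u u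
    rw [polar_comm Q u, eq_neg_iff_add_eq_zero, ← two_mul] at this
    exact (mul_eq_zero.1 this).resolve_left hQ.two
  obtain ⟨w, hw0, hw⟩ := exists_nonsingular_orth hQ.nd hQ.three hu
  have h3 : polar Q (a w) w = 0 := by
    have := skew_polar hs w w
    rw [polar_comm Q w, eq_neg_iff_add_eq_zero, ← two_mul] at this
    exact (mul_eq_zero.1 this).resolve_left hQ.two
  refine sk_mem_of_ad hQ C hC hu (by rintro rfl; simp at h1) (z := reflLin Q w (a u))
    (by simp [reflLin_apply, hw, polar_comm Q u (a u), h2]) (fun e => h1 ?_) ?_ x y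
  · obtain ⟨c, hc⟩ := Submodule.mem_span_singleton.1 e
    have := congrArg (reflLin Q w) hc
    rw [reflLin_reflLin, map_smul, reflLin_apply, hw, mul_zero, zero_smul, sub_zero] at this
    exact Submodule.mem_span_singleton.2 ⟨c, this⟩
  rw [← C.smul_mem_iff (neg_ne_zero.2 (mul_ne_zero hQ.two hw0))]
  convert hC u w _ (hC u w _ ha) using 1
  ext v
  have h4 := skew_polar hs v u
  have h5 := skew_polar hs v w
  have h6 := skew_polar hs w u
  simp only [LinearMap.smul_apply, sk_apply, reflLin_apply, LinearMap.sub_apply, End.mul_apply,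
    map_sub, map_smul, polarBilin_apply_apply, h2, h3, h4, h5,
    h6, hw, polar_comm Q w u, polar_comm Q w (a u), polar_self', hu, smul_eq_mul]
  match_scalars <;> field_simp <;> ring

theorem sk_mem_of_inv (hQ : OG Q) (C : Submodule F (End F U))
    (hC : AInv Q (AlgHom.id F (End F U)) C.toAddSubgroup) (hu : Q u = 0) (hu0 : u ≠ 0)
    (hw : polar Q u w = 0) (hw0 : Q w ≠ 0) (h : sk 𝔟 u w ∈ C) (x y : U) : sk 𝔟 x y ∈ C :=
  sk_mem_of_ad hQ C (fun x y _ ha => hC.ad_mem hQ.toBig ha x y) hu hu0 hw (fun e => by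
    obtain ⟨c, rfl⟩ := Submodule.mem_span_singleton.1 e
    exact hw0 (by simp [Q_smul, hu])) h x y

theorem eq_zero_of_orth (hQ : OG Q) (h : H30.IsHyp Q u u') (hv : v ∈ hperp Q u u') (hv0 : Q v = 0)
    (H : ∀ x ∈ hperp Q u u', ∀ y ∈ hperp Q u u', Q x = 0 → polar Q x y = 0 →
      polar Q v ((eich Q x y).1 v) = 0) : v = 0 := by
  by_contra h0
  have h5 := hQ.line u v h.left hv0 (by rw [polar_comm, hv.1]) h.left_ne_zero fun e => by
    obtain ⟨c, rfl⟩ := Submodule.mem_span_singleton.1 e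
    exact h0 (by simp [show c = 0 by simpa [h.pol] using hv.2])
  obtain ⟨v', hv', h1⟩ := (h.nondegOn_hperp hQ.nd).exists_isHyp hv hv0 h0
  obtain ⟨y, hy, h2⟩ := ((h.nondegOn_hperp hQ.nd).inf_hperp h1 hv hv').1.exists_Q_ne_zero
    (ne_bot_of_finrank_pos (by
      have := ((h.nondegOn_hperp hQ.nd).inf_hperp h1 hv hv').2
      have := h.finrank_hperp
      omega))
  have := H v' hv' y hy.1 h1.right (by rw [polar_comm, hy.2.2])
  rw [eich_apply h1.right (by rw [polar_comm, hy.2.2])] at this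
  simp [hv0, h1.pol, polar_comm Q v y, hy.2.1, h2] at this

variable [Finite F]

theorem torus_mem (hQ : Big Q) (h : H30.IsHyp Q u u') {a : F} (ha : a ≠ 0) :
    torus Q u u' (a * a) ∈ eichGroup Q := by
  rw [eichGroup_eq_kerDS hQ.nd (not_isExc_of_two hQ.two) hQ.three]
  exact h.torus_mem_kerDS hQ.nd ha

omit [FiniteDimensional F U] [Finite F] in
theorem three_cases (h2 : (2 : F) ≠ 0) :
    (∃ t : F, t ≠ 0 ∧ t * t ≠ 1) ∨ ((3 : F) = 0 ∧ ∀ a b : F, a ≠ 0 → b ≠ 0 → b = a ∨ b = -a) := by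
  by_cases h : ∃ t : F, t ≠ 0 ∧ t * t ≠ 1
  · exact Or.inl h
  push Not at h
  refine Or.inr ⟨by linear_combination h 2 h2, fun a b ha hb => ?_⟩
  rcases mul_self_eq_one_iff.1 (h a ha) with rfl | rfl <;>
    rcases mul_self_eq_one_iff.1 (h b hb) with rfl | rfl <;> simp

omit [Finite F] in
theorem exists_pair (hQ : OG Q) (h : H30.IsHyp Q u u') (h4 : 4 ≤ finrank F U)
    (hF : ∀ a b : F, a ≠ 0 → b ≠ 0 → b = a ∨ b = -a) (hx : x ∈ hperp Q u u') (hx0 : Q x ≠ 0) :
    (∃ y ∈ hperp Q u u', polar Q x y = 0 ∧ Q y = Q x) ∨ 5 ≤ finrank F U := by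
  obtain ⟨y, hy, hy0, h1⟩ := exists_orth_ns hQ.toBig h h4 hx0 hx
  refine (hF _ _ hx0 hy0).imp (fun e => ⟨y, hy, h1, e⟩) fun e => ?_
  refine hQ.line u (x + y) h.left (by simp [Q_add, h1, e]) (by rw [polar_comm, (add_mem hx hy).1])
    h.left_ne_zero fun e' => ?_
  obtain ⟨c, hc⟩ := Submodule.mem_span_singleton.1 e'
  have := congrArg (polar Q x) hc
  simp [hx.1, h1, hQ.two, hx0] at this

theorem omega_perfect (hQ : OG Q) : ⁅eichGroup Q, eichGroup Q⁆ = eichGroup Q := by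
  by_cases h5 : 5 ≤ finrank F U
  · exact eichGroup_perfect hQ.nd h5
  refine le_antisymm (Subgroup.commutator_le_self _) (eichGroup_le fun u v hu0 hu huv => ?_)
  obtain ⟨u', h⟩ := exists_isHyp hQ.nd hu hu0
  have key : ∀ σ ∈ eichGroup Q, ∀ (a b : F) x, x ∈ hperp Q u u' → a ≠ 0 → σ.1 u = a • u →
      σ.1 x = b • x → eich Q u ((a * b - 1) • x) ∈ ⁅eichGroup Q, eichGroup Q⁆ := by
    intro σ hσ a b x hx ha h1 h2
    have h3 : polar Q u x = 0 := by rw [polar_comm, hx.1]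
    convert Subgroup.commutator_mem_commutator hσ (eich_mem_eichGroup u x) using 1
    rw [commutatorElement_def, eich_conj, h1, h2, eich_smul_left ha, eich_inv,
      eich_mul hu (by simp [h3]) (by simp [h3]), smul_smul, sub_smul, one_smul, sub_eq_add_neg]
  have h1 : ∀ x ∈ hperp Q u u', eich Q u x ∈ ⁅eichGroup Q, eichGroup Q⁆ := fun x hx => by
    rcases three_cases hQ.two with ⟨t, ht0, ht⟩ | ⟨h3, hF⟩
    · have h6 := Submodule.smul_mem _ (t * t - 1)⁻¹ hx
      simpa [smul_smul, sub_ne_zero.2 ht] using key _ (torus_mem hQ.toBig h ht0) (t * t) 1 _ h6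
        (mul_ne_zero ht0 ht0) (h.torus_left (mul_ne_zero ht0 ht0))
        (by rw [one_smul, IsHyp.torus_of_orth _ h6.1 h6.2])
    by_cases hx0 : Q x = 0
    · by_cases e : x ∈ F ∙ u
      · obtain ⟨c, rfl⟩ := Submodule.mem_span_singleton.1 e
        rw [eich_smul_self]
        exact one_mem _
      · exact (h5 (hQ.line u x hu hx0 (by rw [polar_comm, hx.1]) hu0 e)).elim
    obtain ⟨y, hy, h6, h7⟩ := (exists_pair hQ h (hQ.big.resolve_right fun ⟨t, ht0, ht⟩ =>
      ht (by rcases hF 1 t one_ne_zero ht0 with rfl | rfl <;> simp)) hF hx hx0).resolve_right h5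
    have := key _ (refl_mul_refl_mem_eichGroup hQ.nd h hQ.three hx0 h7.symm) 1 (-1) x hx one_ne_zero
      (by rw [O_mul_apply, refl_apply_of_orth (x := u) (by rw [polar_comm, hy.1]),
        refl_apply_of_orth (by rw [polar_comm, hx.1]), one_smul])
      (by rw [O_mul_apply, refl_apply_of_orth h6, refl_apply_self hx0, neg_one_smul])
    rwa [show (1 : F) * -1 - 1 = 1 by linear_combination -h3, one_smul] at this
  have := h1 _ (h.hproj_mem v)
  rwa [hproj, polar_comm Q v u, huv, zero_smul, sub_zero, sub_eq_add_neg, ← neg_smul,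
    eich_add_smul] at this

omit [Finite F] in
theorem exists_plane (hQ : OG Q) (h : H30.IsHyp Q u u') (h4 : 4 ≤ finrank F U)
    (hF : ∀ a b : F, a ≠ 0 → b ≠ 0 → b = a ∨ b = -a) : ∃ a ∈ hperp Q u u', ∃ b ∈ hperp Q u u',
      polar Q a b = 0 ∧ Q a ≠ 0 ∧ Q b = Q a := by
  obtain ⟨x, hx, hx0⟩ := exists_hperp_ne hQ.toBig h
  rcases exists_pair hQ h h4 hF hx hx0 with ⟨y, hy, h1, h2⟩ | h5
  · exact ⟨x, hx, y, hy, h1, hx0, h2⟩
  obtain ⟨y, hy, hy0, h1⟩ := exists_orth_ns hQ.toBig h h4 hx0 hx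
  obtain ⟨z, hz, hz0⟩ : ∃ z, (z ∈ hperp Q u u' ∧ polar Q x z = 0 ∧ polar Q y z = 0) ∧ Q z ≠ 0 := by
    classical
    obtain ⟨v, -, hv⟩ := SetLike.exists_of_lt (span_lt_top_of_card_lt_finrank (R := F)
      (s := (({u, u', x, y} : Finset U) : Set U)) (by
        simpa using Finset.card_le_four.trans_lt h5))
    have h6 := h.hproj_mem v
    have h2 := hQ.two
    obtain ⟨z, hz0, hz⟩ := H79.exists_nonsingular_of_notMem hQ.nd (s := {u, u', x, y})
      (y := hproj Q u u' v - (polar Q x (hproj Q u u' v) / (2 * Q x)) • x -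
        (polar Q y (hproj Q u u' v) / (2 * Q y)) • y) (by
        simp [polar_comm Q u, polar_comm Q u', h6.1, h6.2, hx.1, hx.2, hy.1, hy.2, h1,
          polar_comm Q y x]
        constructor <;> field_simp <;> ring) fun e => hv (by
        rw [Finset.coe_insert, Finset.coe_insert, Finset.coe_insert, Finset.coe_singleton]
        have a : ∀ z ∈ ({u, u', x, y} : Set U), ∀ c : F, c • z ∈ Submodule.span F {u, u', x, y} :=
          fun z hz c => Submodule.smul_mem _ _ (Submodule.subset_span hz)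
        rwa [hproj, Submodule.sub_mem_iff_left _ (a y (by simp) _),
          Submodule.sub_mem_iff_left _ (a x (by simp) _),
          Submodule.sub_mem_iff_left _ (a u' (by simp) _),
          Submodule.sub_mem_iff_left _ (a u (by simp) _)] at e)
    exact ⟨z, ⟨⟨by rw [polar_comm, hz u (by simp)], by rw [polar_comm, hz u' (by simp)]⟩,
      hz x (by simp), hz y (by simp)⟩, hz0⟩
  rcases hF _ _ hx0 hy0 with e | e
  · exact ⟨x, hx, y, hy, h1, hx0, e⟩
  rcases hF _ _ hx0 hz0 with e' | e'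
  · exact ⟨x, hx, z, hz.1, hz.2.1, hx0, e'⟩
  · exact ⟨y, hy, z, hz.1, hz.2.2, hy0, e'.trans e.symm⟩

omit [FiniteDimensional F U] [Finite F] in
theorem four_le (hQ : Big Q) (hF : ∀ a b : F, a ≠ 0 → b ≠ 0 → b = a ∨ b = -a) : 4 ≤ finrank F U :=
  hQ.big.resolve_right fun ⟨t, ht0, ht⟩ =>
    ht (by rcases hF 1 t one_ne_zero ht0 with rfl | rfl <;> simp)

/-- An anisotropic subspace of `u^⊥` on which quadratic forms have sum zero. -/
structure PS (Q : QuadraticForm F U) (u : U) (P : Submodule F U) [Fintype P] : Prop where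
  perp : ∀ w ∈ P, polar Q u w = 0
  aniso : ∀ w ∈ P, Q w = 0 → w = 0
  ne : ∃ w ∈ P, w ≠ 0
  sp : Sp Q P
  sum : ∀ β : U →ₗ[F] U →ₗ[F] F, ∑ v : P, β v v = 0

theorem exists_ps (hQ : OG Q) (hu : Q u = 0) (hu0 : u ≠ 0) :
    ∃ (P : Submodule F U) (_ : Fintype P), PS Q u P := by
  classical
  have := Module.finite_of_finite F (M := U)
  have := Fintype.ofFinite F
  obtain ⟨u', h⟩ := exists_isHyp hQ.nd hu hu0
  rcases three_cases hQ.two with ⟨t, ht0, ht⟩ | ⟨h3, hF⟩
  · obtain ⟨w, hw, hw0⟩ := exists_hperp_ne hQ.toBig h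
    let := Fintype.ofFinite (F ∙ w)
    refine ⟨F ∙ w, this, fun v hv => ?_, fun v hv h0 => ?_,
      ⟨w, Submodule.mem_span_singleton_self w, ne_zero_of_Q_ne_zero hw0⟩, fun v hv h0 =>
      ⟨t • v, Submodule.smul_mem _ _ hv, t • v, Submodule.smul_mem _ _ hv, 2 * t,
        mul_ne_zero hQ.two ht0, by module, rfl, by simp [Q_smul, h0, ht]⟩, fun β => ?_⟩
    · obtain ⟨c, rfl⟩ := Submodule.mem_span_singleton.1 hv
      simp [polar_comm Q u, hw.1]
    · obtain ⟨c, rfl⟩ := Submodule.mem_span_singleton.1 hv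
      simp [show c = 0 by simpa [Q_smul, hw0] using h0]
    · have := Equiv.sum_comp (LinearEquiv.smulOfNeZero F (F ∙ w) t ht0).toEquiv
        fun v : F ∙ w => β v v
      simp only [LinearEquiv.coe_toEquiv, LinearEquiv.smulOfNeZero_apply, Submodule.coe_smul,
        map_smul, LinearMap.smul_apply, smul_eq_mul, ← Finset.mul_sum] at this
      exact mul_left_cancel₀ (sub_ne_zero.2 ht) (by linear_combination this)
  obtain ⟨a, ha, b, hb, h1, h2, h4⟩ := exists_plane hQ h (four_le hQ.toBig hF) hF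
  have h5 : ∀ c d : F, Q (c • a + d • b) = (c * c + d * d) * Q a := fun c d => by
    simp [Q_add, Q_smul, h1, h4, add_mul]
  have h6 : ∀ c : F, c ≠ 0 → c * c = 1 := fun c hc => by
    rcases hF 1 c one_ne_zero hc with rfl | rfl <;> simp
  have h7 : ∀ c d : F, Q (c • a + d • b) = 0 → c = 0 ∧ d = 0 := fun c d e => by
    rw [h5, mul_eq_zero, or_iff_left h2] at e
    by_cases hc : c = 0 <;> by_cases hd : d = 0
    · exact ⟨hc, hd⟩
    · simp [hc, hd] at e
    · simp [hc, hd] at e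
    · exact (hQ.two (by rw [h6 c hc, h6 d hd] at e; linear_combination e)).elim
  let := Fintype.ofFinite (Submodule.span F {a, b})
  refine ⟨Submodule.span F {a, b}, this, fun v hv => ?_, fun v hv h0 => ?_,
    ⟨a, Submodule.subset_span (by simp), ne_zero_of_Q_ne_zero h2⟩, fun v hv h0 => ?_, fun β => ?_⟩
  · obtain ⟨c, d, rfl⟩ := Submodule.mem_span_pair.1 hv
    simp [polar_comm Q u, ha.1, hb.1]
  · obtain ⟨c, d, rfl⟩ := Submodule.mem_span_pair.1 hv
    simp [h7 c d h0]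
  · obtain ⟨c, d, rfl⟩ := Submodule.mem_span_pair.1 hv
    refine ⟨_, Submodule.mem_span_pair.2 ⟨c - d, d + c, rfl⟩, _,
      Submodule.mem_span_pair.2 ⟨c + d, d - c, rfl⟩, 2, hQ.two, by module, by rw [h5, h5]; ring,
      fun e => h0 ?_⟩
    rw [h5, h5] at e
    rw [h5]
    linear_combination e
  · rw [← Fintype.sum_bijective (fun p : F × F => (⟨p.1 • a + p.2 • b,
      Submodule.mem_span_pair.2 ⟨_, _, rfl⟩⟩ : Submodule.span F {a, b})) ⟨fun p q e => ?_,
        fun v => ?_⟩ _ _ fun _ => rfl]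
    · have hs : ∑ c : F, c = 0 := by
        have := Equiv.sum_comp (Equiv.neg F) (fun c => c)
        simp only [Equiv.neg_apply] at this
        rw [Finset.sum_neg_distrib] at this
        exact mul_left_cancel₀ hQ.two (by linear_combination -this)
      simp [Fintype.sum_prod_type, Finset.sum_add_distrib, mul_add, ← mul_assoc, ← Finset.sum_mul, hs]
      exact Or.inl (Finset.sum_eq_zero fun c _ => by rw [← Finset.mul_sum, hs, mul_zero])
    · have := h7 (p.1 - q.1) (p.2 - q.2) (by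
        rw [show (p.1 - q.1) • a + (p.2 - q.2) • b = 0 by
          linear_combination (norm := module) congrArg Subtype.val e, map_zero])
      exact Prod.ext (sub_eq_zero.1 this.1) (sub_eq_zero.1 this.2)
    · obtain ⟨c, d, e⟩ := Submodule.mem_span_pair.1 v.2
      exact ⟨(c, d), Subtype.ext e⟩

omit [FiniteDimensional F U] [Finite F] in
theorem rot_cube (h3 : (3 : F) = 0) (hx : Q x = 1) (hy : Q y = -1)
    (h : polar Q x y * polar Q x y = 1) {r : End F U}
    (hr : r = ro 𝔟 y y - ro 𝔟 x x - polar Q x y • ro 𝔟 x y := by rfl) :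
    r * (r * r) + (2 : F) • (r * r) + (2 : F) • r = 0 := by
  simp only [hr, mul_sub, sub_mul, smul_mul_assoc, mul_smul_comm, ro_mul_ro, polarBilin_apply_apply,
    polar_comm Q y x, polar_self', hx, hy]
  match_scalars <;> grind

/-- An element of `Ω` with eigenvector `u` from which the projection to the hyperbolic plane can be
recovered. -/
theorem exists_proj (hQ : OG Q) : ∃ μ : F, ∀ u u', H30.IsHyp Q u u' → ∃ σ ∈ eichGroup Q,
    σ.1 u = μ • u ∧ ∀ C : Subalgebra F (End F U), oE Q σ ∈ C → ro 𝔟 u u' + ro 𝔟 u' u ∈ C := by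
  rcases three_cases hQ.two with ⟨t, ht0, ht⟩ | ⟨h3, hF⟩
  · have h1 := mul_ne_zero ht0 ht0
    refine ⟨t * t, fun u u' h => ⟨_, torus_mem hQ.toBig h ht0, h.torus_left h1, fun C hC => ?_⟩⟩
    rw [oE_torus h h1] at hC
    generalize t * t = a at ht h1 hC
    have h2 := sub_ne_zero.2 ht
    convert C.sub_mem C.one_mem (C.smul_mem (C.mul_mem (C.sub_mem hC (C.smul_mem C.one_mem a))
      (C.sub_mem hC (C.smul_mem C.one_mem a⁻¹))) (-a * ((a - 1) * (a - 1))⁻¹)) using 1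
    simp only [tor, mul_add, add_mul, mul_sub, sub_mul, smul_mul_assoc, mul_smul_comm, one_mul,
      mul_one, ro_mul_ro, polarBilin_apply_apply, h.pol, h.pol', h.polar_left, h.polar_right]
    match_scalars <;> field_simp <;> ring
  refine ⟨-1, fun u u' h => ?_⟩
  obtain ⟨a, ha, b, hb, h1, h2, h4⟩ := exists_plane hQ h (four_le hQ.toBig hF) hF
  have h5 : Q (a + b) = -Q a := by
    rw [Q_add, h1, h4]
    linear_combination Q a * h3
  have h6 : Q (u + u') = 1 := h.Q_add_self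
  have h7 : Q (u - u') = -1 := by simp [Q_sub, h.left, h.right, h.pol]
  obtain ⟨x, y, hx, hy, hxy⟩ : ∃ x y, Q x = 1 ∧ Q y = -1 ∧ ((x = a ∧ y = a + b) ∨ (x = a + b ∧ y = a)) := by
    rcases hF 1 _ one_ne_zero h2 with e | e
    · exact ⟨_, _, e, by rw [h5, e], Or.inl ⟨rfl, rfl⟩⟩
    · exact ⟨_, _, by rw [h5, e, neg_neg], e, Or.inr ⟨rfl, rfl⟩⟩
  have h8 : x ∈ hperp Q u u' := by rcases hxy with ⟨rfl, -⟩ | ⟨rfl, -⟩; exacts [ha, add_mem ha hb]
  have h9 : y ∈ hperp Q u u' := by rcases hxy with ⟨-, rfl⟩ | ⟨-, rfl⟩; exacts [add_mem ha hb, ha]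
  have h10 : polar Q x y * polar Q x y = 1 := by
    have : Q a * Q a = 1 := by rcases hF 1 _ one_ne_zero h2 with e | e <;> simp [e]
    rcases hxy with ⟨rfl, rfl⟩ | ⟨rfl, rfl⟩ <;> simp [h1, polar_comm Q b] <;>
      linear_combination 4 * this + h3
  refine ⟨_, mul_mem (refl_mul_refl_mem_eichGroup hQ.nd h hQ.three (by simp [h6]) (h6.trans hx.symm))
    (refl_mul_refl_mem_eichGroup hQ.nd h hQ.three (by simp [h7]) (h7.trans hy.symm)), ?_,
    fun C hC => ?_⟩
  · simp [refl_apply, polar_comm Q u y, polar_comm Q u' x, h8.2, h9.1, h6, h7,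
      h.left, h.right, h.pol, h.pol']
  generalize hg : oE Q _ = g at hC
  have e : g = 1 - (2 : F) • (ro 𝔟 u u' + ro 𝔟 u' u) +
      (ro 𝔟 y y - ro 𝔟 x x - polar Q x y • ro 𝔟 x y) := by
    ext v
    simp only [← hg, oE_apply, O_mul_apply, refl_apply, h6, h7, hx, hy, map_sub, map_smul,
      polar_sub_right, polar_add_right, h8.1, h8.2, h9.1, h9.2, h.pol, h.pol',
      h.polar_left, h.polar_right, polar_comm Q u x, polar_comm Q u' x, LinearMap.sub_apply,
      LinearMap.add_apply, LinearMap.smul_apply, End.one_apply, ro_apply, polarBilin_apply_apply,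
      polar_comm Q y x]
    match_scalars <;> simp <;> ring
  have e1 : (ro 𝔟 u u' + ro 𝔟 u' u) * (ro 𝔟 u u' + ro 𝔟 u' u) = ro 𝔟 u u' + ro 𝔟 u' u := by
    simp [mul_add, add_mul, ro_mul_ro, h.pol, h.pol', h.left, h.right]
  have e2 : (ro 𝔟 u u' + ro 𝔟 u' u) * (ro 𝔟 y y - ro 𝔟 x x - polar Q x y • ro 𝔟 x y) = 0 := by
    simp [mul_sub, add_mul, ro_mul_ro, h8.1, h8.2, h9.1, h9.2]
  have e3 : (ro 𝔟 y y - ro 𝔟 x x - polar Q x y • ro 𝔟 x y) * (ro 𝔟 u u' + ro 𝔟 u' u) = 0 := by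
    simp [sub_mul, mul_add, ro_mul_ro, h8.1, h8.2, h9.1, h9.2, polar_comm Q u x, polar_comm Q u' x,
      polar_comm Q u y, polar_comm Q u' y]
  have e4 := rot_cube h3 hx hy h10 rfl
  generalize ro 𝔟 u u' + ro 𝔟 u' u = p at *
  generalize ro 𝔟 y y - ro 𝔟 x x - polar Q x y • ro 𝔟 x y = r at *
  convert C.mul_mem (C.sub_mem C.one_mem hC) (C.add_mem (C.mul_mem hC hC) C.one_mem) using 1
  simp only [e, mul_add, add_mul, mul_sub, sub_mul, smul_mul_assoc, mul_smul_comm, one_mul,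
    mul_one, e1, e2, e3, ← mul_assoc p, zero_mul, mul_zero, smul_zero]
  linear_combination (norm := module) e4 - h3 • p

end Cfsg.Agent.H27
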