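import Cfsg.Agent.H27.OPB

/-!
# Overgroups of tensor induced orthogonal groups: pure tensors
-/

set_option autoImplicit false

namespace Cfsg.Agent.H27

open Module Function QuadraticMap H30 H36
open H79 (sk Big sk_apply oU)

variable {F U V τ : Type*} [Field F] [AddCommGroup U] [Module F U] [AddCommGroup V] [Module F V]
  [Fintype τ] [DecidableEq τ] {Q : QuadraticForm F U} {B : LinearMap.BilinForm F V}
  {S : TPow τ (polarBilin Q) B} {X : Subgroup (End F V)ˣ} {s j : τ} {u u' v w x y : U}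
  {D T : End F V}

local notation "𝔟" => polarBilin Q

/-- A group of isometries of a tensor power of an orthogonal space containing the stabiliser of
the decomposition in `Ω`. -/
structure OX (S : TPow τ (polarBilin Q) B) (X : Subgroup (End F V)ˣ) : Prop where
  og : OG Q
  bnd : B.Nondegenerate
  iso : IsoG B X
  fac : ∀ s, ∀ σ ∈ eichGroup Q, InG X (S.fac s (oE Q σ))
  pair : ∀ s j, s ≠ j → ∀ σ : O Q, InG X (S.fac s (oE Q σ) * S.fac j (oE Q σ⁻¹))
  alt : HasAlt S X
  nt : Nontrivial τ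

include S in
theorem pow_symm (p q : V) : B p q = B q p :=
  congrArg (fun b : LinearMap.BilinForm F V => b p q) (show B = B.flip from
    S.ext_bilin fun u v => by simp [S.form, polar_comm Q (u _)])

theorem fac_mul_inv (σ : O Q) : S.fac s (oE Q σ) * S.fac s (oE Q σ⁻¹) = 1 := by
  rw [← map_mul, oE_mul_inv, map_one]

theorem OX.eich (hX : OX S X) (s : τ) (hu : Q u = 0) (hx : polar Q u x = 0) :
    InG X (S.fac s (H79.eE Q u x)) := oE_eich hu hx ▸ hX.fac s _ (eich_mem_eichGroup u x)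

theorem fac_eich_mul (s : τ) (hu : Q u = 0) (hx : polar Q u x = 0) :
    S.fac s (H79.eE Q u x) * S.fac s (H79.eE Q u (-x)) = 1 := by
  rw [← map_mul, H79.eE_mul_neg hu hx, map_one]

theorem Cm.conj_fac (h : Cm (S.fac s) D) (hj : j ≠ s) (a b : End F U) :
    Cm (S.fac s) (S.fac j a * D * S.fac j b) :=
  ((cm_fac S hj.symm a).mul h).mul (cm_fac S hj.symm b)

theorem Phi_conj (n : τ → End F U) (j : τ) (a b c : End F U) :
    S.fac j a * Phi S (update n j c) * S.fac j b = Phi S (update n j (a * c * b)) := by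
  rw [Phi_update, Phi_update S n j (a * c * b), map_mul, map_mul, mul_assoc, mul_assoc, mul_assoc,
    mul_assoc, cm_Phi S (by simp) b]

variable [FiniteDimensional F U]

theorem red_gen (hf : (polarBilin Q).Nondegenerate) [Nontrivial U] {L : Set (End F V)}
    {θ : Set (End F U)} (hθ : ∀ m ∈ θ, m ≠ 0) (hstep : ∀ j, j ≠ s → ∀ D ∈ L, ¬ Cm (S.fac j) D →
      ∃ m ∈ θ, ∃ x y, co hf (S.fac j) x y D ≠ 0 ∧ S.fac j m * co hf (S.fac j) x y D ∈ L)
    (hD : D ∈ L) (hD0 : D ≠ 0) (hs : Cm (S.fac s) D) :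
    ∃ n, n s = 1 ∧ (∀ j, n j = 1 ∨ n j ∈ θ) ∧ ∃ c : F, c ≠ 0 ∧ c • Phi S n ∈ L := by
  have key : ∀ T : Finset τ, s ∉ T → ∃ n, (∀ j ∉ T, n j = 1) ∧ (∀ j, n j = 1 ∨ n j ∈ θ) ∧
      ∃ E, (∀ i ∈ insert s T, Cm (S.fac i) E) ∧ Phi S n * E ≠ 0 ∧ Phi S n * E ∈ L := by
    intro T
    induction T using Finset.induction_on with
    | empty => exact fun _ => ⟨1, by simp, by simp, D, by simpa, by simpa, by simpa⟩
    | insert j T hj ih =>
      intro hs
      rw [Finset.mem_insert, not_or] at hs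
      obtain ⟨n, h1, h2, E, h3, h4, h5⟩ := ih hs.2
      have h6 := cm_Phi S (h1 j hj)
      have h7 : ∀ x y, ∀ i ∈ insert s (insert j T), Cm (S.fac i) (co hf (S.fac j) x y E) := by
        intro x y i hi
        by_cases hij : j = i
        · exact hij ▸ cm_co _ _ _
        · exact cm_co_of_ne S hf hij (h3 i (by grind)) x y
      by_cases hE : Cm (S.fac j) (Phi S n * E)
      · obtain ⟨x, hx⟩ := exists_ne (0 : U)
        obtain ⟨y, hy⟩ := exists_apply_eq_one' hf hx
        have h8 := hE.co_self (hf := hf) x y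
        rw [h6.co_mul, hy, one_smul] at h8
        exact ⟨n, fun i hi => h1 i (by grind), h2, _, h7 x y, h8.symm ▸ h4, h8.symm ▸ h5⟩
      obtain ⟨m, hm, x, y, h8, h9⟩ := hstep j (Ne.symm hs.1) _ h5 hE
      rw [h6.co_mul] at h8 h9
      rw [← mul_assoc, ← Phi_update' S (h1 j hj)] at h9
      refine ⟨update n j m, fun i hi => by rw [update_of_ne (by grind), h1 i (by grind)],
        fun i => ?_, _, h7 x y, fun e => h8 ((h6.mul (cm_co _ _ _)).eq_zero_of_phi hf (hθ m hm)
          (by rw [← mul_assoc, ← Phi_update' S (h1 j hj), e])), h9⟩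
      by_cases hi : i = j
      · simp [hi, hm]
      · simpa [hi] using h2 i
  obtain ⟨n, h1, h2, E, h3, h4, h5⟩ := key (Finset.univ.erase s) (by simp)
  obtain ⟨c, rfl⟩ := exists_smul_of_cm S hf fun i => h3 i (by simp)
  exact ⟨n, h1 s (by simp), h2, c, by rintro rfl; simp at h4, by simpa using h5⟩

variable [FiniteDimensional F V] {hB : B.Nondegenerate}

theorem adj_fac (hf : (polarBilin Q).Nondegenerate) (a : End F U) :
    adj hB (S.fac s a) = S.fac s (adj hf a) :=
  adj_eq (S.fac_adj s (adj_left a))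

omit [FiniteDimensional F U] in
theorem adj_eE (x y : U) : adj hB (eE 𝔟 (S.fac s) x y) = eE 𝔟 (S.fac s) y x :=
  adj_eq (S.fac_adj s fun a b => by simp [polar_comm Q b, mul_comm])

theorem adj_Phi (hf : (polarBilin Q).Nondegenerate) (n : τ → End F U) :
    adj hB (Phi S n) = Phi S fun j => adj hf (n j) :=
  adj_eq fun p q => congrArg (fun b : LinearMap.BilinForm F V => b p q)
    (show B.compLeft _ = B.compRight _ from S.ext_bilin fun u v => by
      simp only [LinearMap.BilinForm.compLeft_apply, LinearMap.BilinForm.compRight_apply, Phi_pt,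
        S.form, adj_left])

theorem Cm.adj (hf : (polarBilin Q).Nondegenerate) (h : Cm (S.fac s) D) :
    Cm (S.fac s) (adj hB D) := fun a => by
  rw [← adj_adj (hB := hf) pb_symm a, ← adj_fac (hB := hB), ← adj_mul, ← adj_mul, h]

/-- The common properties of the logarithms of unipotent elements of `X` and of the elements of an
`X`-invariant Lie algebra. -/
structure GP (S : TPow τ (polarBilin Q) B) (hB : B.Nondegenerate) (X : Subgroup (End F V)ˣ)
    (ε : F) (G : End F V → Prop) : Prop where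
  zero : G 0
  add : ∀ x y, G x → G y → G (x + y + ε • (x * y))
  neg : ∀ x, G x → x * x * x = 0 → G (-x + ε • (x * x))
  conj : ∀ g g' x, InG X g → g * g' = 1 → G x → G (g * x * g')
  comm : ∀ x y, G x → G y → x * y * x = 0 → x * y * y = 0 → y * x * x = 0 → y * x * y = 0 →
    G (x * y - y * x)
  adj : ∀ x, G x → adj hB x + x + ε • (adj hB x * x) = 0
  eich : ∀ s u w, Q u = 0 → polar Q u w = 0 →
    G (S.fac s (sk (polarBilin Q) u w) - (ε * Q w) • eE (polarBilin Q) (S.fac s) u u)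

variable {ε : F} {G : End F V → Prop}

omit [FiniteDimensional F U] [FiniteDimensional F V] in
theorem Cm.sq_zero (hu : Q u = 0) (h : Cm (S.fac s) D) (T : End F V) :
    eE 𝔟 (S.fac s) u u * D * (eE 𝔟 (S.fac s) u u * T) = 0 := by
  rw [h.comm_eE, mul_assoc, eE_mul']
  simp [hu]

omit [FiniteDimensional F U] in
/-- The operators `D` with `t_u ⊗ D` in the set. -/
def GP.zA (hG : GP S hB X ε G) (s : τ) (hu : Q u = 0) : AddSubgroup (End F V) where
  carrier := {D | Cm (S.fac s) D ∧ G (eE (polarBilin Q) (S.fac s) u u * D)}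
  add_mem' {D D'} hD hD' := ⟨hD.1.add hD'.1, by
    simpa [hD.1.sq_zero hu, mul_add] using hG.add _ _ hD.2 hD'.2⟩
  zero_mem' := ⟨cm_zero, by simpa using hG.zero⟩
  neg_mem' {D} hD := ⟨hD.1.neg, by
    simpa [hD.1.sq_zero hu] using hG.neg _ hD.2 (by simp [hD.1.sq_zero hu])⟩

omit [FiniteDimensional F U] in
/-- The operators `D` with all `c t_u ⊗ D` in the set. -/
def GP.zS (hG : GP S hB X ε G) (s : τ) : Submodule F (End F V) where
  carrier := {D | Cm (S.fac s) D ∧ ∀ u, Q u = 0 → ∀ c : F,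
    G (c • (eE (polarBilin Q) (S.fac s) u u * D))}
  add_mem' {D D'} hD hD' := ⟨hD.1.add hD'.1, fun u hu c => by
    simpa [hD.1.sq_zero hu, mul_add] using hG.add _ _ (hD.2 u hu c) (hD'.2 u hu c)⟩
  zero_mem' := ⟨cm_zero, by simpa using fun _ _ => hG.zero⟩
  smul_mem' a D hD := ⟨hD.1.smul a, fun u hu c => by simpa [smul_smul] using hD.2 u hu (c * a)⟩

theorem GP.skew (hG : GP S hB X ε G) (hf : (polarBilin Q).Nondegenerate) (hu : Q u = 0)
    (hu0 : u ≠ 0) (hD : D ∈ hG.zA s hu) : H27.adj hB D = -D := by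
  have := hG.adj _ hD.2
  rw [adj_mul, adj_eE, ← (hD.1.adj hf).comm_eE, (hD.1.adj hf).sq_zero hu, smul_zero, add_zero,
    ← mul_add] at this
  exact eq_neg_of_add_eq_zero_left (((hD.1.adj hf).add hD.1).eq_zero hf hu0 hu0 this)

omit [FiniteDimensional F U] in
theorem GP.conj_fac (hG : GP S hB X ε G) (hj : j ≠ s) {a b : End F U} (h : InG X (S.fac j a))
    (e : S.fac j a * S.fac j b = 1) (hD : G (eE 𝔟 (S.fac s) u u * D)) :
    G (eE 𝔟 (S.fac s) u u * (S.fac j a * D * S.fac j b)) := by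
  have := hG.conj _ _ _ h e hD
  rwa [← mul_assoc, ← (cm_fac S hj.symm a).comm_eE, mul_assoc _ _ D, mul_assoc] at this

omit [FiniteDimensional F U] in
theorem GP.ainv_zA (hG : GP S hB X ε G) (hX : OX S X) (hu : Q u = 0) (hj : j ≠ s) :
    AInv Q (S.fac j) (hG.zA s hu) := fun _ _ hv hx _ hD =>
  ⟨hD.1.conj_fac hj _ _, hG.conj_fac hj (hX.eich j hv hx) (fac_eich_mul j hv hx) hD.2⟩

omit [FiniteDimensional F U] in
theorem GP.zS_conj (hG : GP S hB X ε G) (hX : OX S X) (hj : j ≠ s) (σ : O Q) (hD : D ∈ hG.zS s) :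
    S.fac j (oE Q σ) * D * S.fac j (oE Q σ⁻¹) ∈ hG.zS s :=
  ⟨hD.1.conj_fac hj _ _, fun u hu c => by
    have := hG.conj _ (S.fac s (oE Q σ) * S.fac j (oE Q σ⁻¹)) _ (hX.pair j s hj σ) (by
      rw [mul_assoc, ← mul_assoc (S.fac s _), ← map_mul, oE_inv_mul, map_one, one_mul, fac_mul_inv])
      (hD.2 (σ.1 u) (by rw [O_map, hu]) c)
    convert this using 1
    have h1 := congrArg (S.fac s) (oE_conj_ro σ u u)
    have h2 := fac_mul_inv (S := S) (s := s) σ⁻¹
    rw [map_mul, map_mul] at h1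
    rw [inv_inv] at h2
    rw [eE_apply, eE_apply, ← h1]
    simp only [mul_smul_comm, smul_mul_assoc, mul_assoc]
    rw [← mul_assoc D (S.fac s _), ← hD.1 (oE Q σ), mul_assoc (S.fac s (oE Q σ)) D,
      ← mul_assoc (S.fac s (oE Q σ⁻¹)) (S.fac s (oE Q σ)) (D * _), h2, one_mul,
      ← mul_assoc (S.fac s (oE Q σ⁻¹)) (S.fac s (oE Q σ)), h2, one_mul, ← mul_assoc (S.fac j _),
      ← mul_assoc (S.fac j _), S.fac_comm hj, mul_assoc, mul_assoc]⟩

omit [FiniteDimensional F U] in
theorem GP.ainv_zS (hG : GP S hB X ε G) (hX : OX S X) (hj : j ≠ s) :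
    AInv Q (S.fac j) (hG.zS s).toAddSubgroup := fun _ _ hv hx _ hD => by
  rw [← oE_eich hv hx, ← oE_eich_inv hv hx]
  exact hG.zS_conj hX hj _ hD

end Cfsg.Agent.H27
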