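import Cfsg.Agent.H27.OPC

/-!
# Overgroups of tensor induced orthogonal groups: growth of pure tensors
-/

set_option autoImplicit false

namespace Cfsg.Agent.H27

open Module Function QuadraticMap H30 H36
open H79 (sk Big sk_apply oU)

variable {F U V τ : Type*} [Field F] [AddCommGroup U] [Module F U] [AddCommGroup V] [Module F V]
  [Fintype τ] [DecidableEq τ] {Q : QuadraticForm F U} {B : LinearMap.BilinForm F V}
  {S : TPow τ (polarBilin Q) B} {X : Subgroup (End F V)ˣ} {s j : τ} {u u' v w x y : U}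
  {D T : End F V} [FiniteDimensional F U] [FiniteDimensional F V] {hB : B.Nondegenerate}
  {ε : F} {G : End F V → Prop} {A J : Finset τ}

local notation "𝔟" => polarBilin Q

omit [FiniteDimensional F U] [FiniteDimensional F V] in
theorem OX.nontrivial (hX : OX S X) : Nontrivial U :=
  let ⟨_, _, h⟩ := hX.og.hyp; ⟨⟨_, _, h.left_ne_zero⟩⟩

theorem GP.zS_of (hG : GP S hB X ε G) (hX : OX S X) (hu : Q u = 0) (hu0 : u ≠ 0)
    (hD : Cm (S.fac s) D) (h : ∀ c : F, G (c • (eE 𝔟 (S.fac s) u u * D))) : D ∈ hG.zS s :=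
  ⟨hD, fun v hv c => by
    by_cases hv0 : v = 0
    · simpa [hv0] using hG.zero
    obtain ⟨σ, hσ, a, ha, h1⟩ := exists_omega_smul hX.og.toBig hu hu0 hv hv0
    have := hG.conj _ _ _ (hX.fac s σ hσ) (fac_mul_inv σ) (h (c * (a * a)⁻¹))
    rw [mul_smul_comm, smul_mul_assoc, eE_apply, hD.conj_mul, oE_conj_ro, h1, ro_smul_left,
      ro_smul_right] at this
    simpa [smul_smul, mul_assoc, ha, eE_apply] using this⟩

theorem GP.exists_zS [Finite F] (hG : GP S hB X ε G) (hX : OX S X) (hu : Q u = 0) (hu0 : u ≠ 0)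
    (hD : D ∈ hG.zA s hu) (hD0 : D ≠ 0) : ∃ D ∈ hG.zS s, D ≠ 0 := by
  by_contra! H
  have hQ := hX.og.toBig
  have := hX.nontrivial
  obtain ⟨n, h1, h2, c, hc, h3⟩ := red_gen (S := S) (s := s) hQ.nd (L := hG.zA s hu)
    (θ := {m | m ≠ 0 ∧ H27.adj hQ.nd m = m}) (fun m hm => hm.1) (fun j hj D hD hD' => by
      by_cases h : ∀ v, Q v = 0 → co hQ.nd (S.fac j) v v D = 0
      · obtain ⟨a, a', w, h1, h2, -, D₁, h3, γ, h4, h5, -⟩ :=
          (hG.ainv_zA hX hu hj).exists_kt_ne hQ hD h hD'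
        have h6 : ∀ b : F, (b * b) • D₁ ∈ hG.zA s hu := fun b => by
          by_cases hb : b = 0
          · simp [hb]
          have h7 := mul_ne_zero hb hb
          rw [← h4.tor h1, ← oE_torus h1 h7, adj_oE]
          exact ⟨h3.1.conj_fac hj _ _,
            hG.conj_fac hj (hX.fac j _ (torus_mem hQ h1 hb)) (fac_mul_inv _) h3.2⟩
        refine (h5 ?_).elim
        rw [← h4.co_hyp h1 h2.1, H D₁ (hG.zS_of hX hu hu0 h3.1 fun c => ?_), map_zero]
        have h8 := hQ.two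
        convert (sub_mem (h6 ((c + 1) / 2)) (h6 ((c - 1) / 2))).2 using 1
        rw [← sub_smul, mul_smul_comm]
        congr 1
        field_simp
        ring
      push Not at h
      obtain ⟨v, hv, h⟩ := h
      obtain ⟨c, hc, h1⟩ := (hG.ainv_zA hX hu hj).ro_mem hQ hv hD
      have hv0 : v ≠ 0 := by rintro rfl; simp at h
      exact ⟨c • ro 𝔟 v v, ⟨smul_ne_zero hc (ro_ne_zero hQ.nd hv0 hv0), by
        rw [map_smul, adj_ro pb_symm]⟩, v, v, h, by rwa [map_smul, smul_mul_assoc]⟩)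
    hD hD0 hD.1
  refine smul_ne_zero hc (Phi_ne_zero S hQ.nd fun j => ?_)
    (eq_zero_of_skew hQ.two (hG.skew hQ.nd hu hu0 h3) ?_)
  · exact (h2 j).elim (fun e => e ▸ one_ne_zero) And.left
  rw [map_smul, adj_Phi hQ.nd]
  congr 2
  exact funext fun j => (h2 j).elim (fun e => by rw [e, adj_one]) And.right

/-- The span of the symmetric operators of rank one and square zero. -/
def symS (Q : QuadraticForm F U) : Submodule F (End F U) :=
  Submodule.span F {a | ∃ v, Q v = 0 ∧ a = ro (polarBilin Q) v v}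

/-- The operators allowed at a position. -/
def tyL (hf : (polarBilin Q).Nondegenerate) (A J : Finset τ) (j : τ) : Set (End F U) :=
  if j ∈ A then symS Q else if j ∈ J then {a | adj hf a = -a} else {1}

/-- All pure tensors of the type given by `A` and `J` lie in the set. -/
def OTy (S : TPow τ (polarBilin Q) B) (hf : (polarBilin Q).Nondegenerate) (G : End F V → Prop)
    (A J : Finset τ) : Prop :=
  ∀ n, (∀ j, n j ∈ tyL hf A J j) → (∃ s ∈ A, ∃ u, Q u = 0 ∧ n s = ro (polarBilin Q) u u) →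
    ∀ c : F, G (c • Phi S n)

theorem mem_of_skew (hQ : Big Q) (C : Submodule F (End F U)) (h : ∀ x y, sk 𝔟 x y ∈ C)
    {a : End F U} (ha : adj hQ.nd a = -a) : a ∈ C := by
  have : ∀ a, a - adj hQ.nd a ∈ C := ro_induction hQ.nd (by simp)
    (fun a b ha hb => by convert C.add_mem ha hb using 1; rw [map_add]; abel)
    fun x y => by rw [adj_ro pb_symm]; exact h y x
  rw [← C.smul_mem_iff hQ.two, two_smul, ← sub_neg_eq_add, ← ha]
  exact this a

theorem GP.zS_update (hG : GP S hB X ε G) (hX : OX S X) (hj : j ≠ s) {n : τ → End F U}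
    {a b : End F U} (h : Phi S (update n j a) ∈ hG.zS s) (ha : a ≠ 0)
    (hab : (∃ u, Q u = 0 ∧ ∃ c : F, a = c • ro 𝔟 u u ∧ b ∈ symS Q) ∨
      (H27.adj hX.og.nd a = -a ∧ H27.adj hX.og.nd b = -b)) : Phi S (update n j b) ∈ hG.zS s := by
  let C := (hG.zS s).comap ((Phi_linear S n j).mk' _)
  have hC : ∀ σ : O Q, ∀ a ∈ C, oE Q σ * a * oE Q σ⁻¹ ∈ C := fun σ a ha => by
    have := hG.zS_conj hX hj σ ha
    rwa [IsLinearMap.mk'_apply, Phi_conj] at this
  rcases hab with ⟨u, hu, c, rfl, hb⟩ | ⟨h1, h2⟩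
  · refine (Submodule.span_le (p := C)).2 ?_ hb
    rintro _ ⟨v, hv, rfl⟩
    by_cases hv0 : v = 0
    · simp [hv0, ro_zero_left]
    obtain ⟨σ, -, d, hd, h1⟩ := exists_omega_smul hX.og.toBig hu
      (by rintro rfl; simp [ro_zero_left] at ha) hv hv0
    have := hC σ _ h
    rwa [mul_smul_comm, smul_mul_assoc, oE_conj_ro, h1, ro_smul_left, ro_smul_right,
      C.smul_mem_iff (left_ne_zero_of_smul ha), C.smul_mem_iff hd, C.smul_mem_iff hd] at this
  refine mem_of_skew hX.og.toBig C (sk_mem_of_ideal hX.og C (fun x y a ha => AInv.ad_mem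
    (φ := AlgHom.id F _) (fun u x hu hx a ha => ?_) hX.og.toBig ha x y) h ha h1) h2
  rw [← oE_eich hu hx, ← oE_eich_inv hu hx]
  exact hC _ a ha

theorem OTy.intro (hG : GP S hB X ε G) (hX : OX S X) (hs : s ∈ A) {n : τ → End F U}
    (h0 : ∀ j, n j ≠ 0) (h1 : ∀ j ∈ A, ∃ u, Q u = 0 ∧ ∃ c : F, n j = c • ro 𝔟 u u)
    (h2 : ∀ j ∉ A, n j ∈ tyL hX.og.nd A J j) (h : ∀ c : F, G (c • Phi S n)) :
    OTy S hX.og.nd G A J := by
  have key : ∀ s ∈ A, ∀ n : τ → End F U, (∀ j, n j ≠ 0) →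
      (∀ j ∈ A, ∃ u, Q u = 0 ∧ ∃ c : F, n j = c • ro 𝔟 u u) →
      (∀ j ∉ A, n j ∈ tyL hX.og.nd A J j) → (∀ c : F, G (c • Phi S n)) → ∀ m : τ → End F U,
        (∀ j, m j ∈ tyL hX.og.nd A J j) → ∀ u, Q u = 0 → m s = ro 𝔟 u u →
          ∀ c : F, G (c • Phi S m) := by
    intro s hs n h0 h1 h2 h m hm u hu e c
    obtain ⟨v, hv, d, hd⟩ := h1 s hs
    have h3 := multi_induction (p := fun m => Phi S (update m s 1) ∈ hG.zS s)
      (G := fun j => {n j}) (fun i m h y hy => ?_) (fun m hm => ?_) m hm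
    · have := h3.2 u hu c
      rwa [eE_apply, ← e, ← Phi_update, update_eq_self] at this
    · have := h _ rfl
      by_cases hi : i = s
      · simpa [hi] using this
      rw [update_comm hi] at this ⊢
      by_cases hA : i ∈ A
      · obtain ⟨v, hv, d, hd⟩ := h1 i hA
        exact hG.zS_update hX hi this (h0 i) (Or.inl ⟨v, hv, d, hd, by simpa [tyL, hA] using hy⟩)
      have h4 := h2 i hA
      by_cases hJ : i ∈ J
      · simp only [tyL, hA, hJ, if_true, if_false] at hy h4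
        exact hG.zS_update hX hi this (h0 i) (Or.inr ⟨h4, hy⟩)
      · simp only [tyL, hA, hJ, if_false, Set.mem_singleton_iff] at hy h4
        rwa [hy.trans h4.symm]
    rw [show m = n from funext hm]
    have h4 := h0 s
    rw [hd] at h4
    refine hG.zS_of hX hv (by rintro rfl; simp [ro_zero_left] at h4) (cm_Phi S (by simp)) fun c => ?_
    have := h (c * d⁻¹)
    rw [← update_eq_self s n, Phi_update, hd] at this
    simpa [smul_smul, left_ne_zero_of_smul h4, eE_apply] using this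
  rintro m hm ⟨s', hs', u, hu, e⟩
  obtain ⟨v, hv, d, hd⟩ := h1 s hs
  have h4 := h0 s
  rw [hd] at h4
  refine key s' hs' (update n s (ro 𝔟 v v)) (fun j => ?_) (fun j hj => ?_) (fun j hj => ?_)
    (fun c => ?_) m hm u hu e
  · by_cases hj : j = s
    · simpa [hj] using right_ne_zero_of_smul h4
    · simpa [hj] using h0 j
  · by_cases hj' : j = s
    · exact ⟨v, hv, 1, by simp [hj']⟩
    · simpa [hj'] using h1 j hj
  · rw [update_of_ne (by rintro rfl; exact hj hs)]
    exact h2 j hj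
  · have := h (c * d⁻¹)
    rw [← update_eq_self s n, hd, (Phi_linear S n s).2] at this
    simpa [smul_smul, left_ne_zero_of_smul h4] using this

theorem GP.rule (hG : GP S hB X ε G) (hf : (polarBilin Q).Nondegenerate) {n n' : τ → End F U}
    {s s' : τ} (ρ : τ) (h : ∀ c : F, G (c • Phi S n)) (h' : ∀ c : F, G (c • Phi S n'))
    (hu : Q u = 0) (hv : Q v = 0) (hs : n s = ro 𝔟 u u) (hs' : n' s' = ro 𝔟 v v)
    (h1 : ∃ j, n j * n' j * n j = 0) (h2 : ∃ j, n' j * n j * n' j = 0)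
    (hm : ∀ j ≠ ρ, H27.adj hf (n j * n' j) = n j * n' j) (c : F) :
    G (c • Phi S (update (n * n') ρ (n ρ * n' ρ - H27.adj hf (n ρ * n' ρ)))) := by
  have key : ∀ {n : τ → End F U} {s u}, (∀ c : F, G (c • Phi S n)) → Q u = 0 → n s = ro 𝔟 u u →
      H27.adj hB (Phi S n) = -Phi S n ∧ Phi S n * Phi S n = 0 := fun {n s u} h hu hs => by
    have h1 := hG.adj _ (h 1)
    rw [one_smul, adj_Phi hf, ← map_mul, Phi_eq_zero S (s := s) (n := _ * _) (by
      simp [hs, adj_ro pb_symm, ro_mul_ro_self hu]), smul_zero, add_zero, ← adj_Phi (hB := hB)] at h1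
    exact ⟨eq_neg_of_add_eq_zero_left h1, by
      rw [← map_mul, Phi_eq_zero S (s := s) (by simp [hs, ro_mul_ro_self hu])]⟩
  obtain ⟨a1, a2⟩ := key h hu hs
  obtain ⟨a3, a4⟩ := key h' hv hs'
  obtain ⟨j, h1⟩ := h1
  obtain ⟨j', h2⟩ := h2
  have a5 : Phi S n * Phi S n' * Phi S n = 0 := by
    rw [← map_mul, ← map_mul, Phi_eq_zero S (s := j) h1]
  have a6 : Phi S n' * Phi S n * Phi S n' = 0 := by
    rw [← map_mul, ← map_mul, Phi_eq_zero S (s := j') h2]
  convert hG.comm _ _ (h c) (h' 1) (by simp [a5]) (by simp [mul_assoc, a4])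
    (by simp [mul_assoc, a2]) (by simp [a6]) using 1
  have a7 : Phi S n' * Phi S n = H27.adj hB (Phi S (n * n')) := by
    rw [map_mul, adj_mul, a1, a3, neg_mul_neg]
  rw [(Phi_linear S _ ρ).map_sub, one_smul, smul_mul_assoc, mul_smul_comm, a7, adj_Phi hf,
    ← map_mul, ← smul_sub, ← Pi.mul_apply, update_eq_self]
  congr 3
  funext j
  by_cases hj : j = ρ
  · simp [hj]
  · simp [hj, hm j hj]

omit [FiniteDimensional F U] in
theorem GP.perm (hG : GP S hB X ε G) (hX : OX S X) {σ : Equiv.Perm τ} (hσ : σ ∈ alternatingGroup τ)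
    {n : τ → End F U} (h : ∀ c : F, G (c • Phi S fun j => n (σ j))) (c : F) : G (c • Phi S n) := by
  obtain ⟨g, hg, h1⟩ := hX.alt σ hσ
  obtain ⟨g', -, h2, -⟩ := inG_exists_inv hg
  have := hG.conj _ _ _ hg h2 (h c)
  rw [mul_smul_comm, Act.conj_Phi S h1, smul_mul_assoc, mul_assoc, h2] at this
  simpa using this

omit [FiniteDimensional F U] in
theorem ro_mem_symS (hu : Q u = 0) : ro 𝔟 u u ∈ symS Q := Submodule.subset_span ⟨u, hu, rfl⟩

omit [FiniteDimensional F U] in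
theorem exists_symS (h2 : (2 : F) ≠ 0) (h : H30.IsHyp Q u u') (hw : w ∈ hperp Q u u')
    (hw0 : Q w ≠ 0) : ∃ p ∈ symS Q, ro 𝔟 u u * p = ro 𝔟 u u := by
  refine ⟨ro 𝔟 u u' + ro 𝔟 u' u - (Q w)⁻¹ • ro 𝔟 w w, ?_, by
    simp [mul_add, mul_sub, ro_mul_ro, h.pol', h.left, hw.1]⟩
  rw [← (symS Q).smul_mem_iff (mul_ne_zero h2 hw0)]
  convert sub_mem (add_mem (Submodule.smul_mem _ 2 (ro_mem_symS h.right))
    (Submodule.smul_mem _ (2 * Q w * Q w) (ro_mem_symS h.left)))
    (add_mem (ro_mem_symS ((h.Q_comb (-Q w) 1 hw).trans (by ring)))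
      (ro_mem_symS ((h.Q_comb (-Q w) 1 (neg_mem hw)).trans (by simp)))) using 1
  rw [← neg_one_smul F w]
  simp only [ro_add_left, ro_add_right, ro_smul_left, ro_smul_right]
  match_scalars <;> field_simp <;> ring

theorem OTy.grow (hG : GP S hB X ε G) (hX : OX S X) (h : OTy S hX.og.nd G A J) {y ρ : τ}
    (hs : s ∈ A) (hy : y ∈ J) (hy' : y ∉ A) (hρ : ρ ∉ A) (hρ' : ρ ≠ y) :
    OTy S hX.og.nd G ((A ∪ J).erase ρ) {ρ} := by
  have hQ := hX.og.toBig
  obtain ⟨e, e', he⟩ := hQ.hyp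
  obtain ⟨w, hw, hw0⟩ := exists_hperp_ne hQ he
  obtain ⟨p, hp, hp'⟩ := exists_symS hQ.two he hw hw0
  have h1 : y ≠ s := by rintro rfl; exact hy' hs
  have h2 : ρ ≠ s := by rintro rfl; exact hρ hs
  have hw' : polar Q e w = 0 := by rw [polar_comm, hw.1]
  have b0 : ro 𝔟 e e ≠ 0 := ro_ne_zero hQ.nd he.left_ne_zero he.left_ne_zero
  have b1 := ro_mem_symS he.left
  have b2 : ∀ x y, H27.adj hQ.nd (sk 𝔟 x y) = -sk 𝔟 x y := adj_sk pb_symm
  have b3 : ro 𝔟 e e * sk 𝔟 e e' = ro 𝔟 e e := by simp [sk, mul_sub, ro_mul_ro, he.pol', he.left]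
  have b4 : sk 𝔟 e e' * ro 𝔟 e e = (-1 : F) • ro 𝔟 e e := by
    simp [sk, sub_mul, ro_mul_ro, he.pol, he.left]
  have b5 := sk_mul_sk he.left hw' hw'
  have b6 : sk 𝔟 e w ≠ 0 := fun e => by simp [e, hQ.two, hw0, b0] at b5
  have b7 : sk 𝔟 e e' * sk 𝔟 e w = ro 𝔟 e w := by
    simp [sk, sub_mul, mul_sub, ro_mul_ro, he.pol, he.left, hw.1, hw.2]
  have b8 := ro_mul_ro_self he.left e e
  let n : τ → End F U := fun j => if j ∈ A then ro 𝔟 e e else if j ∈ J then
    if j = y ∨ j = ρ then sk 𝔟 e e' else sk 𝔟 e w else 1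
  let n' : τ → End F U := fun j => if j = y then ro 𝔟 e e else if j = ρ then sk 𝔟 e w else
    if j = s then (if ρ ∈ J then sk 𝔟 e e' else 1) else if j ∈ A then p else if j ∈ J then
      sk 𝔟 e w else 1
  have hm : ∀ j ≠ ρ, if j ∈ A ∪ J then ∃ c : F, c ≠ 0 ∧ n j * n' j = c • ro 𝔟 e e else
      n j * n' j = 1 := fun j hj => by
    by_cases a1 : j = y
    · simp only [a1, n, n', hy, hy', Finset.mem_union, or_true, true_or, if_true, if_false, b4]
      exact ⟨_, by simp, rfl⟩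
    by_cases a2 : j = s
    · simp only [a2, n, n', hs, h1.symm, h2.symm, Finset.mem_union, true_or, if_true, if_false]
      exact ⟨1, one_ne_zero, by split_ifs <;> simp [b3]⟩
    by_cases a3 : j ∈ A
    · simp only [a1, a2, a3, hj, n, n', Finset.mem_union, true_or, if_true, if_false]
      exact ⟨1, one_ne_zero, by simp [hp']⟩
    by_cases a4 : j ∈ J
    · simp only [a1, a2, a3, a4, hj, n, n', Finset.mem_union, or_true, or_self, if_true, if_false]
      exact ⟨_, by simp [hQ.two, hw0], b5⟩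
    · simp [a1, a2, a3, a4, hj, n, n']
  have h3 : ∃ c : F, c ≠ 0 ∧ n ρ * n' ρ - H27.adj hQ.nd (n ρ * n' ρ) = c • sk 𝔟 e w := by
    by_cases a : ρ ∈ J
    · exact ⟨-1, by simp, by
        simp only [n, n', a, hρ, hρ', or_true, if_true, if_false, b7, adj_ro pb_symm]
        simp [sk]⟩
    · exact ⟨2, hQ.two, by simp [n, n', a, hρ, hρ', b2, two_smul]⟩
  obtain ⟨c, hc, h3⟩ := h3
  have h4 := hG.rule hQ.nd (n := n) (n' := n') (s := s) (s' := y) ρ
    (h _ (fun j => by simp only [n, tyL]; split_ifs <;> simp [b1, b2])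
      ⟨s, hs, e, he.left, by simp [n, hs]⟩)
    (hG.perm hX (σ := Equiv.swap s y * Equiv.swap y ρ) (by simp [h1.symm, hρ'.symm])
      (h _ (fun j => ?_) ⟨s, hs, e, he.left, by
        simp [n', Equiv.swap_apply_of_ne_of_ne h1.symm h2.symm]⟩))
    he.left he.left (by simp [n, hs]) (by simp [n'])
    ⟨s, by simp only [n, n', hs, h1.symm, h2.symm, if_true, if_false]; split_ifs <;> simp [b3, b8]⟩
    ⟨y, by simp [n, n', hy, hy', b3, b8]⟩ fun j hj => by
      have := hm j hj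
      split_ifs at this
      · obtain ⟨c, -, e⟩ := this
        rw [e, map_smul, adj_ro pb_symm]
      · rw [this, adj_one]
  · rw [h3] at h4
    refine OTy.intro hG hX (s := s) (by simp [hs, h2.symm]) (fun j => ?_) (fun j hj => ?_)
      (fun j hj => ?_) h4
    · by_cases hj : j = ρ
      · simp [hj, hc, b6]
      have := hm j hj
      have := hX.nontrivial
      rw [update_of_ne hj, Pi.mul_apply]
      split_ifs at * <;> grind [smul_ne_zero, one_ne_zero]
    · rw [Finset.mem_erase] at hj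
      obtain ⟨c, -, h5⟩ := (if_pos hj.2 ▸ hm j hj.1 :)
      exact ⟨e, he.left, c, by simpa [hj.1] using h5⟩
    by_cases hj' : j = ρ
    · simp [hj', tyL, b2]
    have := hm j hj'
    rw [if_neg (by simpa [hj'] using hj)] at this
    simpa [tyL, hj, hj'] using this
  by_cases a1 : j = s
  · simp [a1, n', tyL, hs, b1, Equiv.swap_apply_of_ne_of_ne h1.symm h2.symm]
  by_cases a2 : j = y
  · simp [a2, n', tyL, hy, hy', hρ', b2, Equiv.swap_apply_of_ne_of_ne h2 hρ']
  by_cases a3 : j = ρ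
  · simp only [a3, n', tyL, hρ, h1.symm, h2.symm, Equiv.Perm.mul_apply, Equiv.swap_apply_right,
      if_true, if_false]
    split_ifs <;> simp [b2]
  simp only [n', tyL, Equiv.Perm.mul_apply, Equiv.swap_apply_of_ne_of_ne a2 a3,
    Equiv.swap_apply_of_ne_of_ne a1 a2, a1, a2, a3, if_false]
  split_ifs <;> simp [b2, hp]

theorem OTy.flip (hG : GP S hB X ε G) (hX : OX S X) {y ρ : τ}
    (h : OTy S hX.og.nd G (Finset.univ.erase y) {y}) (hρ : ρ ≠ y) :
    OTy S hX.og.nd G (Finset.univ.erase ρ) {ρ} := by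
  have hQ := hX.og.toBig
  obtain ⟨e, e', he⟩ := hQ.hyp
  obtain ⟨w, hw, hw0⟩ := exists_hperp_ne hQ he
  obtain ⟨p, hp, hp'⟩ := exists_symS hQ.two he hw hw0
  have hw' : polar Q e w = 0 := by rw [polar_comm, hw.1]
  have b0 : ro 𝔟 e e ≠ 0 := ro_ne_zero hQ.nd he.left_ne_zero he.left_ne_zero
  have b2 : ∀ x y, H27.adj hQ.nd (sk 𝔟 x y) = -sk 𝔟 x y := adj_sk pb_symm
  have b5 := sk_mul_sk he.left hw' hw'
  have b6 : sk 𝔟 e w * sk 𝔟 e w * sk 𝔟 e w = 0 := by simp [b5, ro_mul_sk he.left hw']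
  have b7 : ro 𝔟 e e * ro 𝔟 e' e' = ro 𝔟 e e' := by simp [ro_mul_ro, he.pol']
  let n : τ → End F U := fun j => if j = y then sk 𝔟 e w else ro 𝔟 e e
  let n' : τ → End F U := fun j => if j = y then sk 𝔟 e w else if j = ρ then ro 𝔟 e' e' else p
  have hm : ∀ j ≠ ρ, ∃ c : F, c ≠ 0 ∧ n j * n' j = c • ro 𝔟 e e := fun j hj => by
    by_cases a1 : j = y
    · exact ⟨-polar Q w w, by simp [hQ.two, hw0], by simpa only [a1, n, n', if_true] using b5⟩
    · exact ⟨1, one_ne_zero, by simp [n, n', a1, hj, hp']⟩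
  have h4 := hG.rule hQ.nd (n := n) (n' := n') (s := ρ) (s' := ρ) ρ
    (h _ (fun j => by by_cases a : j = y <;> simp [n, tyL, a, b2, ro_mem_symS he.left])
      ⟨ρ, by simpa, e, he.left, by simp [n, hρ]⟩)
    (h _ (fun j => by
      by_cases a : j = y <;> by_cases a' : j = ρ <;>
        simp [n', tyL, a, a', hρ, b2, ro_mem_symS he.right, hp])
      ⟨ρ, by simpa, e', he.right, by simp [n', hρ]⟩)
    he.left he.right (by simp [n, hρ]) (by simp [n', hρ]) ⟨y, by simp [n, n', b6]⟩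
    ⟨y, by simp [n, n', b6]⟩ fun j hj => by
      obtain ⟨c, -, e⟩ := hm j hj
      rw [e, map_smul, adj_ro pb_symm]
  simp only [n, n', hρ, if_true, if_false, b7, adj_ro pb_symm] at h4
  refine OTy.intro hG hX (s := y) (by simp [hρ.symm]) (fun j => ?_) (fun j hj => ?_)
    (fun j hj => ?_) h4
  · by_cases hj : j = ρ
    · rw [hj, update_self]
      intro h5
      simpa [he.pol', he.right, he.right_ne_zero] using LinearMap.congr_fun h5 e'
    obtain ⟨c, hc, h5⟩ := hm j hj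
    rw [update_of_ne hj, Pi.mul_apply, h5]
    exact smul_ne_zero hc b0
  · rw [Finset.mem_erase] at hj
    obtain ⟨c, -, h5⟩ := hm j hj.1
    exact ⟨e, he.left, c, by rw [update_of_ne hj.1]; exact h5⟩
  · simp [show j = ρ by simpa using hj, tyL, adj_ro pb_symm]

theorem OTy.univ (hG : GP S hB X ε G) (hX : OX S X) {y : τ} (h : OTy S hX.og.nd G A J) (hs : s ∈ A)
    (hy : y ∈ J) (hy' : y ∉ A) (ρ : τ) : OTy S hX.og.nd G (Finset.univ.erase ρ) {ρ} := by
  induction hk : Aᶜ.card using Nat.strong_induction_on generalizing A J y with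
  | _ k ih =>
  by_cases hA : ∃ r ∉ A, r ≠ y
  · obtain ⟨r, h1, h2⟩ := hA
    refine ih _ (hk ▸ Finset.card_lt_card ?_) (h.grow hG hX hs hy hy' h1 h2)
      (by simp [hs]; rintro rfl; exact h1 hs) (Finset.mem_singleton_self r) (by simp) rfl
    exact ⟨fun i => by simp; grind, fun e => by simpa [hy, h2.symm] using e (x := y) (by simpa)⟩
  have h1 : OTy S hX.og.nd G (Finset.univ.erase y) {y} := by
    have h2 : A = Finset.univ.erase y := Finset.ext fun i => by grind
    subst h2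
    exact fun n hn => h n fun j => by
      by_cases a : j = y
      · simpa [tyL, a, hy] using hn j
      · simpa [tyL, a] using hn j
  by_cases hρ : ρ = y
  · exact hρ ▸ h1
  · exact h1.flip hG hX hρ

theorem GP.oty [Finite F] (hG : GP S hB X ε G) (hX : OX S X) (hu : Q u = 0) (hu0 : u ≠ 0)
    (hD : D ∈ hG.zA s hu) (hD0 : D ≠ 0) (ρ : τ) : OTy S hX.og.nd G (Finset.univ.erase ρ) {ρ} := by
  classical
  obtain ⟨D, hD, hD0⟩ := hG.exists_zS hX hu hu0 hD hD0
  have hQ := hX.og.toBig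
  have := hX.nontrivial
  obtain ⟨n, h1, h2, c, hc, h3⟩ := red_gen (S := S) (s := s) hQ.nd (L := hG.zS s)
    (θ := {m | m ≠ 0 ∧ ((∃ v, Q v = 0 ∧ ∃ c : F, m = c • ro 𝔟 v v) ∨ H27.adj hQ.nd m = -m)})
    (fun m hm => hm.1) (fun j hj D hD hD' => by
      by_cases h : ∀ v, Q v = 0 → co hQ.nd (S.fac j) v v D = 0
      · obtain ⟨a, a', w, h1, h2, h3, D₁, h4, γ, h5, h6, c, x, h7⟩ :=
          (hG.ainv_zS hX hj).exists_kt_ne hQ hD h hD'
        have h8 := sub_mem h4 (hG.zS_conj hX hj (refl Q w) h4)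
        rw [refl_inv, oE_refl, h5.refl h1 h2.1, h7, mul_smul_comm, ← smul_mul_assoc,
          ← map_smul] at h8
        rw [h7] at h6
        refine ⟨_, ⟨smul_ne_zero (left_ne_zero_of_smul h6) (smul_ne_zero (inv_ne_zero h3)
          fun e => ?_), Or.inr (by simp [adj_sk pb_symm])⟩, x, a, right_ne_zero_of_smul h6, h8⟩
        exact h3 (by
          simpa [h1.pol', polar_comm Q a' w, h2.2] using congrArg Q (LinearMap.congr_fun e a'))
      push Not at h
      obtain ⟨v, hv, h⟩ := h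
      obtain ⟨c, hc, h1⟩ := (hG.ainv_zS hX hj).ro_mem hQ hv hD
      have hv0 : v ≠ 0 := by rintro rfl; simp at h
      exact ⟨c • ro 𝔟 v v, ⟨smul_ne_zero hc (ro_ne_zero hQ.nd hv0 hv0), Or.inl ⟨v, hv, c, rfl⟩⟩,
        v, v, h, by rwa [map_smul, smul_mul_assoc]⟩) hD hD0 hD.1
  replace h3 : Phi S n ∈ hG.zS s := ((hG.zS s).smul_mem_iff hc).1 h3
  have h4 : ∀ j, n j ≠ 0 := fun j => (h2 j).elim (fun e => e ▸ one_ne_zero) And.left
  let A := insert s (Finset.univ.filter fun j => ∃ v, Q v = 0 ∧ ∃ c : F, n j = c • ro 𝔟 v v)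
  let J := Finset.univ.filter fun j => H27.adj hQ.nd (n j) = -n j
  have h5 : OTy S hX.og.nd G A J := OTy.intro hG hX (s := s) (n := update n s (ro 𝔟 u u))
    (by simp [A]) (fun j => by
      by_cases hj : j = s
      · simpa [hj] using ro_ne_zero hQ.nd hu0 hu0
      · simpa [hj] using h4 j)
    (fun j hj => by
      by_cases hj' : j = s
      · exact ⟨u, hu, 1, by simp [hj']⟩
      · simpa [A, hj'] using hj)
    (fun j hj => by
      have := h2 j
      simp only [A, Finset.mem_insert, Finset.mem_filter, Finset.mem_univ, true_and, not_or] at hj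
      by_cases hJ : j ∈ J
      · simpa [tyL, A, hj.1, hj.2, hJ] using (Finset.mem_filter.1 hJ).2
      · simpa [tyL, A, hj.1, hj.2, hJ, show ¬ H27.adj hQ.nd (n j) = -n j by simpa [J] using hJ]
          using this)
    fun c => by rw [Phi_update' S h1]; exact h3.2 u hu c
  obtain ⟨y, hy, hy'⟩ : ∃ y ∈ J, y ∉ A := by
    by_contra! H
    refine Phi_ne_zero S hQ.nd h4 (eq_zero_of_skew hQ.two
      (hG.skew hQ.nd hu hu0 ⟨h3.1, by simpa using h3.2 u hu 1⟩) ?_)
    rw [adj_Phi hQ.nd]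
    congr 1
    funext j
    rcases h2 j with e | ⟨-, ⟨v, -, c, e⟩ | e⟩
    · rw [e, adj_one]
    · rw [e, map_smul, adj_ro pb_symm]
    rcases Finset.mem_insert.1 (H j (by simpa [J] using e)) with rfl | h
    · rw [h1, adj_one]
    obtain ⟨v, -, c, e⟩ := (Finset.mem_filter.1 h).2
    rw [e, map_smul, adj_ro pb_symm]
  exact h5.univ hG hX (s := s) (by simp [A]) hy hy' ρ

end Cfsg.Agent.H27
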