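import Cfsg.Agent.H27.OPD

/-!
# Overgroups of tensor induced orthogonal groups: long root elements
-/

set_option autoImplicit false

namespace Cfsg.Agent.H27

open Module Function QuadraticMap H30 H36
open H79 (sk Big sk_apply oU)

variable {F U V τ : Type*} [Field F] [AddCommGroup U] [Module F U] [AddCommGroup V] [Module F V]
  [Fintype τ] [DecidableEq τ] {Q : QuadraticForm F U} [FiniteDimensional F U]
  [FiniteDimensional F V] {X : Subgroup (End F V)ˣ} {s j : τ} {e e' u u' v w x y : U}

local notation "𝔟" => polarBilin Q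

omit [FiniteDimensional F U] in
theorem OX.gp {B : LinearMap.BilinForm F V} {S : TPow τ (polarBilin Q) B} (hX : OX S X) :
    GP S hX.bnd X 1 fun x => InG X (1 + x) where
  zero := by simpa using inG_one X
  add x y hx hy := by
    convert hx.mul hy using 1
    rw [one_smul]
    noncomm_ring
  neg x hx h := inG_inv hx (by
    rw [one_smul]
    linear_combination (norm := noncomm_ring) h)
  conj _ _ _ := inG_conj
  comm _ _ := inG_comm
  adj x hx := by
    have := adj_mul_self (hB := hX.bnd) (hX.iso _ hx)
    rw [map_add, adj_one] at this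
    rw [one_smul]
    linear_combination (norm := noncomm_ring) this
  eich s u w hu hw := by
    have := hX.eich s hu hw
    rwa [phi_eich, add_sub_assoc, ← one_mul (Q w)] at this

theorem exists_orth_notMem_one (f : LinearMap.BilinForm F U) (h3 : 3 ≤ finrank F U) (u v : U) :
    ∃ y, f u y = 0 ∧ y ∉ F ∙ v := by
  by_contra! H
  have h1 := Submodule.finrank_mono (show LinearMap.ker (f u) ≤ F ∙ v from H)
  have h2 := LinearMap.finrank_range_add_finrank_ker (f u)
  have h3 := (LinearMap.range (f u)).finrank_le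
  have h4 := finrank_span_le_card (R := F) ({v} : Set U)
  simp at h3 h4
  omega

theorem mem_of_sing_ne (hQ : Big Q) (h : H30.IsHyp Q e e') (N : AddSubgroup U)
    (hN : ∀ y, Q y = 0 → polar Q y e ≠ 0 → y ∈ N) (y : U) : y ∈ N := by
  let C : Submodule F U :=
    { carrier := {y | ∀ c : F, c • y ∈ N}
      add_mem' := fun ha hb c => by simpa using N.add_mem (ha c) (hb c)
      zero_mem' := fun c => by simp
      smul_mem' := fun a y hy c => by simpa [smul_smul] using hy (c * a) }
  have h1 : ∀ w ∈ hperp Q e e', (-Q w) • e + (1 : F) • e' + w ∈ C := fun w hw c => by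
    by_cases hc : c = 0
    · simp [hc]
    exact hN _ (by rw [Q_smul, h.Q_comb _ _ hw]; ring)
      (by rw [polar_smul_left', h.polar_comb_left _ _ hw]; simpa)
  have h2 : e' ∈ C := by simpa using h1 0 (zero_mem _)
  have h3 : e ∈ C := by
    obtain ⟨w, hw, hw0⟩ := exists_hperp_ne hQ h
    rw [← C.smul_mem_iff (mul_ne_zero hQ.two hw0)]
    convert C.sub_mem (C.smul_mem 2 h2) (C.add_mem (h1 w hw) (h1 _ (neg_mem hw))) using 1
    rw [QuadraticMap.map_neg]
    module
  obtain ⟨a, b, w, hw, rfl⟩ := h.exists_decomp y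
  have := C.add_mem (C.add_mem (h1 w hw) (C.smul_mem (a + Q w) h3)) (C.smul_mem (b - 1) h2) 1
  convert this using 1
  module

variable {R : QuadraticForm F V} {S : TPow τ (polarBilin Q) (polarBilin R)}

omit [FiniteDimensional F U] [FiniteDimensional F V] in
theorem pt_sing (h2 : (2 : F) ≠ 0) {a : τ → U} (j : τ) (h : Q (a j) = 0) : R (S.pt a) = 0 := by
  have := S.form_eq_zero (u := a) (v := a) j (by simp [h])
  simpa [h2] using this

omit [FiniteDimensional F V] in
theorem fullAt_of_root [Nontrivial τ] (hQ : Big Q) {M : Subgroup (O R)}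
    (hE : ∀ (a : τ → U) j x y, (∀ i, Q (a i) = 0) →
      eich R (S.pt (update a j x)) (S.pt (update a j y)) ∈ M) (h : H30.IsHyp Q e e') :
    FullAt M (S.pt fun _ => e) := by
  obtain ⟨s⟩ : Nonempty τ := inferInstance
  have hz : R (S.pt fun _ => e) = 0 := pt_sing hQ.two s h.left
  have h0 : ∀ {a b : τ → U} i, polar Q (a i) (b i) = 0 → polar R (S.pt a) (S.pt b) = 0 :=
    fun i => S.form_eq_zero i
  have h1 : ∀ (b : τ → U) j, polar Q (b j) e = 0 → S.pt b ∈ eichAddSubgroup M hz := by
    intro b j hb
    obtain ⟨l, hl⟩ := exists_ne j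
    refine multi_induction (p := fun u => S.pt (update u j (b j)) ∈ eichAddSubgroup M hz)
      (G := fun _ => {y | Q y = 0 ∧ polar Q y e ≠ 0}) (L := fun _ => Set.univ)
      (fun i u hu y _ => ?_) (fun u hu => ?_) b (fun _ => trivial) |> (update_eq_self j b ▸ ·)
    · by_cases hi : i = j
      · simpa [hi] using hu e' ⟨h.right, by simp [h.pol']⟩
      simp only [update_comm hi] at hu ⊢
      exact mem_of_sing_ne hQ h ((eichAddSubgroup M hz).comap
        (S.pt.toLinearMap (update u j (b j)) i).toAddMonoidHom) (fun y h1 h2 => hu y ⟨h1, h2⟩) y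
    obtain ⟨x, a1, a2⟩ := exists_orth_notMem_one 𝔟 hQ.three e (b j)
    obtain ⟨v, a3, a4⟩ := H79.exists_orth_eq_one hQ.nd (H79.polarBilin_isRefl Q) a2
    refine eich_move (a := S.pt (update u j x)) (w := S.pt (update (fun _ => e) j v)) hz
      (fun c => by simpa [S.pt.map_update_smul] using hE u j x (c • b j) fun i => (hu i).1)
      (pt_sing hQ.two l (by simp [hl, (hu l).1])) (pt_sing hQ.two l (by simp [hl, (hu l).1]))
      (h0 l (by simp [hl, (hu l).1])) (h0 j (by simpa using a1))
      (h0 j (by simpa [polar_comm Q e] using hb)) ⟨h0 l (by simp [hl, h.left]), by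
        simpa using hE (fun _ => e) j e v fun _ => h.left⟩
      (h0 j (by simpa [polar_comm Q v] using a4 _ rfl)) (form_ne_zero (S := S) fun i => ?_)
    by_cases hi : i = j
    · simpa [hi, polar_comm Q v] using a3.trans_ne one_ne_zero
    · simpa [hi, polar_comm Q e] using (hu i).2
  have key : ∀ v, v - (S.c⁻¹ * polar R v (S.pt fun _ => e)) • S.pt (fun _ => e') ∈
      eichAddSubgroup M hz := by
    refine pt_add_induction (S := S) (by simp) (fun a b ha hb => ?_) fun u => ?_
    · convert add_mem ha hb using 1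
      simp only [polar_add_left, mul_add, add_smul]
      abel
    refine multi_induction (p := fun u => S.pt u - (S.c⁻¹ * polar R (S.pt u) (S.pt fun _ => e)) •
      S.pt (fun _ => e') ∈ eichAddSubgroup M hz)
      (G := fun i => {v | polar Q v e = 0 ∨ ∃ c : F, v = c • e'})
      (L := fun _ => Set.univ) (fun i u hu v _ => ?_) (fun u hu => ?_) u fun _ => trivial
    · convert add_mem (hu (v - polar Q v e • e') (Or.inl (by simp [h.pol'])))
        (hu _ (Or.inr ⟨polar Q v e, rfl⟩)) using 1
      simp only [S.pt.map_update_sub, polar_sub_left, mul_sub, sub_smul]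
      abel
    by_cases h2 : ∃ j, polar Q (u j) e = 0
    · obtain ⟨j, hj⟩ := h2
      simpa [h0 (b := fun _ => e) j hj] using h1 u j hj
    choose c hc using fun i => (hu i).resolve_left fun e => h2 ⟨i, e⟩
    have := S.form (fun _ => e') fun _ => e
    simp only [polarBilin_apply_apply, h.pol', Finset.prod_const_one, mul_one] at this
    rw [show u = fun i => c i • e' from funext hc, S.pt.map_smul_univ]
    simp [this, mul_left_comm S.c⁻¹, S.c_ne]
  exact ⟨hz, fun w hw => by simpa [polar_comm R w, hw] using (key w).2⟩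

omit [FiniteDimensional F V] in
theorem OX.eichGroup_le (hX : OX S X)
    (h : ∀ ρ, OTy S hX.og.nd (fun x => InG X (1 + x)) (Finset.univ.erase ρ) {ρ}) :
    eichGroup R ≤ X.comap (oU R) := by
  have hQ := hX.og.toBig
  have := hX.nt
  have hE : ∀ (a : τ → U) j x y, (∀ i, Q (a i) = 0) →
      H30.eich R (S.pt (update a j x)) (S.pt (update a j y)) ∈ X.comap (oU R) := fun a j x y ha => by
    obtain ⟨l, hl⟩ := exists_ne j
    have h1 : ∀ x, R (S.pt (update a j x)) = 0 := fun x => pt_sing hQ.two l (by simp [hl, ha])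
    have e1 : ∀ x y, (fun i => ro 𝔟 (update a j x i) (update a j y i)) =
        update (fun i => ro 𝔟 (a i) (a i)) j (ro 𝔟 x y) := fun x y => funext fun i => by
      by_cases hi : i = j <;> simp [hi]
    refine (h j (update (fun i => ro 𝔟 (a i) (a i)) j (sk 𝔟 x y)) (fun i => ?_)
      ⟨l, by simpa, a l, ha l, by simp [hl]⟩ S.c).mem ?_
    · by_cases hi : i = j <;> simp [hi, tyL, adj_sk pb_symm, ro_mem_symS (ha i)]
    rw [sk, (Phi_linear S _ j).map_sub, smul_sub, ← e1, ← e1, ← ro_pt, ← ro_pt]
    refine (oE_eich (h1 x) (S.form_eq_zero (v := update a j y) l (by simp [hl, ha]))).trans ?_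
    simp [H79.eE, h1, sk]
  obtain ⟨e, e', he⟩ := hQ.hyp
  exact (fullAt_of_root hQ hE he).eichGroup_le hX.bnd (fullAt_of_root hQ hE he.symm)
    (form_ne_zero (S := S) fun _ => by simp [he.pol])

end Cfsg.Agent.H27
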