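import Cfsg.Agent.H27.OPE

/-!
# Overgroups of tensor induced orthogonal groups: the unipotent radical
-/

set_option autoImplicit false

namespace Cfsg.Agent.H27

open Module Function QuadraticMap H30 H36
open H79 (sk Big sk_apply oU)

section Ring

variable {A : Type*} [Ring A] {p p' n n' g g' : A}

/-- Operators raising the filtration given by two orthogonal idempotents. -/
structure Rs (p p' n : A) : Prop where
  l : n * p = 0
  r : p' * n = 0
  m : (1 - p) * n * (1 - p') = 0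

theorem Rs.left (h : Rs p p' n) (h' : Rs p p' n') : p * (n * n') = n * n' := by
  linear_combination (norm := noncomm_ring) -(h.m * n') - (1 - p) * n * h'.r

theorem Rs.right (h : Rs p p' n) (h' : Rs p p' n') : n * n' * p' = n * n' := by
  linear_combination (norm := noncomm_ring) -(n * h'.m) - h.l * n' * (1 - p')

theorem Rs.add (h : Rs p p' n) (h' : Rs p p' n') : Rs p p' (n + n') :=
  ⟨by rw [add_mul, h.l, h'.l, add_zero], by rw [mul_add, h.r, h'.r, add_zero],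
    by rw [mul_add, add_mul, h.m, h'.m, add_zero]⟩

theorem Rs.neg (h : Rs p p' n) : Rs p p' (-n) :=
  ⟨by rw [neg_mul, h.l, neg_zero], by rw [mul_neg, h.r, neg_zero],
    by rw [mul_neg, neg_mul, h.m, neg_zero]⟩

theorem Rs.mul (h : Rs p p' n) (h' : Rs p p' n') : Rs p p' (n * n') :=
  ⟨by rw [mul_assoc, h'.l, mul_zero], by rw [← mul_assoc, h.r, zero_mul],
    by rw [sub_mul, h.left h', one_mul, sub_self, zero_mul]⟩

theorem Rs.three {n'' : A} (h : Rs p p' n) (h' : Rs p p' n') (h'' : Rs p p' n'') :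
    n * n' * n'' = 0 := by rw [← h.right h', mul_assoc, h''.r, mul_zero]

theorem Rs.conj (h : Rs p p' n) (a1 : g * p = p * g) (a2 : g * p' = p' * g) (a3 : g' * p = p * g')
    (a4 : g' * p' = p' * g') : Rs p p' (g * n * g') :=
  ⟨by rw [mul_assoc, a3, ← mul_assoc, mul_assoc g, h.l, mul_zero, zero_mul],
    by rw [← mul_assoc, ← mul_assoc, ← a2, mul_assoc g, h.r, mul_zero, zero_mul], by
    linear_combination (norm := noncomm_ring) g * h.m * g' + a1 * n * g' * (1 - p') -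
      g * (1 - p) * n * a4⟩

theorem Rs.smul {F : Type*} [Field F] [Algebra F A] (h : Rs p p' n) (c : F) : Rs p p' (c • n) :=
  ⟨by rw [smul_mul_assoc, h.l, smul_zero], by rw [mul_smul_comm, h.r, smul_zero],
    by rw [mul_smul_comm, smul_mul_assoc, h.m, smul_zero]⟩

end Ring

variable {F U V τ : Type*} [Field F] [AddCommGroup U] [Module F U] [AddCommGroup V] [Module F V]
  [Fintype τ] [DecidableEq τ] {Q : QuadraticForm F U} {B : LinearMap.BilinForm F V}
  {S : TPow τ (polarBilin Q) B} {X : Subgroup (End F V)ˣ} {s j : τ} {e e' u u' v w x y z : U}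
  {D T n n' ξ ξ' : End F V} [FiniteDimensional F U] [FiniteDimensional F V]
  {hB : B.Nondegenerate} {ε : F} {G : End F V → Prop}

local notation "𝔟" => polarBilin Q
local notation "𝔭" => eE (polarBilin Q) (S.fac s) e e'
local notation "𝔮" => eE (polarBilin Q) (S.fac s) e' e

theorem adj_co (hf : (polarBilin Q).Nondegenerate) (x y : U) (T : End F V) :
    adj hB (co hf (S.fac s) x y T) = co hf (S.fac s) y x (adj hB T) := by
  rcases subsingleton_or_nontrivial U with h | h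
  · simp [Subsingleton.elim x 0, Subsingleton.elim y 0]
  obtain ⟨a, ha⟩ := exists_ne (0 : U)
  refine ((cm_co _ _ _).adj hf).cancel hf ha ha (cm_co _ _ _) ?_
  rw [eE_mul_co, ← adj_eE (hB := hB), ← adj_mul, co_mul_eE, adj_mul, adj_mul, adj_eE, adj_eE,
    mul_assoc]

omit [FiniteDimensional F V] in
theorem co_comm (hf : (polarBilin Q).Nondegenerate) (h : j ≠ s) (x y a b : U) (T : End F V) :
    co hf (S.fac j) x y (co hf (S.fac s) a b T) = co hf (S.fac s) a b (co hf (S.fac j) x y T) := by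
  simp only [co_apply a b, map_sum, eE_apply, (cm_fac S h _).co_mul, (cm_fac S h _).co_mul']

theorem eq_zero_of_iso (hQ : OG Q) (he : H30.IsHyp Q e e') {a : End F V} (h1 : 𝔭 * a = 0)
    (h2 : 𝔮 * a = 0) (h : ∀ x ∈ hperp Q e e', ∀ y ∈ hperp Q e e', Q x = 0 → polar Q x y = 0 →
      ∀ n, n s = oE Q (eich Q x y) → adj hB a * Phi S n * a = 0) : a = 0 := by
  refine LinearMap.ext fun q => hB.1 _ (S.induction (by simp) (fun _ _ h1 h2 => by simp [h1, h2])
    (fun _ _ h => by simp [h]) fun z => ?_)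
  obtain ⟨v, hv⟩ : ∃ v, ∀ x, polar Q v x = B (a q) (S.pt (update z s x)) :=
    ⟨(LinearMap.BilinForm.toDual 𝔟 hQ.nd).symm (B (a q) ∘ₗ S.pt.toLinearMap z s), fun x =>
      LinearMap.BilinForm.apply_toDual_symm_apply (B := 𝔟) _ x⟩
  have key : ∀ b, S.c * B (a q) (Phi S (update (fun i => ro 𝔟 (z i) (z i)) s b) (a q)) =
      polar Q v (b v) := ro_induction hQ.nd (by simp [Phi_eq_zero S (s := s)])
    (fun b b' h1 h2 => by simp [(Phi_linear S _ s).1, mul_add, h1, h2]) fun x y => by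
      have : update (fun i => ro 𝔟 (z i) (z i)) s (ro 𝔟 x y) =
          fun i => ro 𝔟 (update z s x i) (update z s y i) := funext fun i => by
        by_cases hi : i = s <;> simp [hi]
      rw [this, ← smul_eq_mul, ← map_smul, ← LinearMap.smul_apply, ← ro_pt]
      simp [hv]
  have h3 : ∀ x y, H30.IsHyp Q x y → eE 𝔟 (S.fac s) x y * a = 0 → polar Q v y = 0 := fun x y h h' => by
    have := S.fac_pt s (ro 𝔟 y x) (update z s y)
    simp only [update_self, ro_apply, polarBilin_apply_apply, h.pol', one_smul, update_idem] at this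
    rw [hv, ← this, ← eE_apply, ← adj_left (hB := hB), adj_eE, ← End.mul_apply, h']
    simp
  have h4 : ∀ x ∈ hperp Q e e', ∀ y ∈ hperp Q e e', Q x = 0 → polar Q x y = 0 →
      polar Q v ((eich Q x y).1 v) = 0 := fun x hx y hy h5 h6 => by
    rw [← oE_apply, ← key, pow_symm (S := S), ← adj_left (hB := hB), ← End.mul_apply,
      ← End.mul_apply, h x hx y hy h5 h6 _ (update_self ..)]
    simp
  have h5 := eq_zero_of_orth hQ he ⟨h3 _ _ he.symm h2, h3 _ _ he h1⟩ (by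
    simpa [eich_zero, hQ.two] using h4 0 (zero_mem _) 0 (zero_mem _) (by simp) (by simp)) h4
  simpa [h5] using (hv (z s)).symm

omit [FiniteDimensional F U] in
theorem GP.adj_xi (hG : GP S hB X ε G) (hn : G n) (h : Rs 𝔭 𝔮 n) :
    H27.adj hB ((1 - 𝔭) * n * 𝔮) = -(𝔭 * n * (1 - 𝔮)) := by
  have h1 := congrArg (H27.adj hB) h.r
  rw [adj_mul, adj_eE, map_zero] at h1
  have h2 : H27.adj hB n * n * (1 - 𝔮) = 0 := by
    linear_combination (norm := noncomm_ring) H27.adj hB n * h.m + h1 * n * (1 - 𝔮)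
  have h3 := congrArg (𝔭 * · * (1 - 𝔮)) (hG.adj n hn)
  simp only [mul_add, add_mul, mul_smul_comm, smul_mul_assoc, mul_assoc _ (_ * n), h2] at h3
  rw [adj_mul, adj_mul, map_sub, adj_one, adj_eE, adj_eE, ← mul_assoc]
  simpa [add_eq_zero_iff_eq_neg] using h3

omit [FiniteDimensional F U] in
theorem GP.mul_xi (hG : GP S hB X ε G) (he : H30.IsHyp Q e e') (hn : G n) (h : Rs 𝔭 𝔮 n)
    (h' : Rs 𝔭 𝔮 n') : H27.adj hB ((1 - 𝔭) * n * 𝔮) * ((1 - 𝔭) * n' * 𝔮) = -(n * n') := by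
  have h1 : 𝔮 * 𝔭 = 0 := by simp [eE_mul, he.left]
  rw [hG.adj_xi hn h]
  linear_combination (norm := noncomm_ring) -(h.left h' * 𝔮) - h.right h' + 𝔭 * h.l * n' * 𝔮 +
    𝔭 * n * h'.r * 𝔮 - 𝔭 * n * h1 * n' * 𝔮

theorem GP.eq_zero_of_xi (hG : GP S hB X ε G) (hf : (polarBilin Q).Nondegenerate)
    (he : H30.IsHyp Q e e') (hz : ∀ D ∈ hG.zA s he.left, D = 0) (hn : G n) (h : Rs 𝔭 𝔮 n)
    (h0 : (1 - 𝔭) * n * 𝔮 = 0) : n = 0 := by
  have h1 := hG.adj_xi hn h
  rw [h0, map_zero] at h1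
  have h2 : n = 𝔭 * n * 𝔮 := by linear_combination (norm := noncomm_ring) h0 + h.m + h1
  rw [← eE_mul_co (hf := hf)] at h2
  rw [h2, hz _ ⟨cm_co _ _ _, h2 ▸ hn⟩, mul_zero]

theorem GP.rs_comm (hG : GP S hB X ε G) (hf : (polarBilin Q).Nondegenerate)
    (he : H30.IsHyp Q e e') (hz : ∀ D ∈ hG.zA s he.left, D = 0) (hn : G n) (h : Rs 𝔭 𝔮 n)
    (hn' : G n') (h' : Rs 𝔭 𝔮 n') : n * n' = n' * n :=
  sub_eq_zero.1 (hG.eq_zero_of_xi hf he hz
    (hG.comm _ _ hn hn' (h.three h' h) (h.three h' h') (h'.three h h) (h'.three h h'))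
    (by rw [sub_eq_add_neg]; exact (h.mul h').add (h'.mul h).neg)
    (by linear_combination (norm := noncomm_ring) -(h.left h' * 𝔮) + h'.left h * 𝔮))

omit [FiniteDimensional F U] in
/-- The components of the raising operators. -/
def GP.xi (hG : GP S hB X ε G) (s : τ) (e e' : U) : AddSubgroup (End F V) where
  carrier := {ξ | ∃ n, G n ∧ Rs (eE (polarBilin Q) (S.fac s) e e') (eE (polarBilin Q) (S.fac s) e' e) n
    ∧ ξ = (1 - eE (polarBilin Q) (S.fac s) e e') * n * eE (polarBilin Q) (S.fac s) e' e}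
  add_mem' := by
    rintro _ _ ⟨n, h1, h2, rfl⟩ ⟨n', h3, h4, rfl⟩
    exact ⟨_, hG.add _ _ h1 h3, (h2.add h4).add ((h2.mul h4).smul ε), by
      simp [mul_add, add_mul, sub_mul, h2.left h4]⟩
  zero_mem' := ⟨0, hG.zero, ⟨by simp, by simp, by simp⟩, by simp⟩
  neg_mem' := by
    rintro _ ⟨n, h1, h2, rfl⟩
    exact ⟨_, hG.neg _ h1 (h2.three h2 h2), h2.neg.add ((h2.mul h2).smul ε), by
      simp [mul_add, sub_mul, h2.left h2]⟩

omit [FiniteDimensional F U] in
theorem GP.xi_conj (hG : GP S hB X ε G) {g g' : End F V} (hg : InG X g) (h : g * g' = 1)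
    (h1 : g * 𝔭 = 𝔭 * g) (h2 : g * 𝔮 = 𝔮 * g) (hξ : ξ ∈ hG.xi s e e') :
    g * ξ * g' ∈ hG.xi s e e' := by
  obtain ⟨n, a1, a2, rfl⟩ := hξ
  have h' := mul_eq_one_comm.1 h
  have key : ∀ p, g * p = p * g → g' * p = p * g' := fun p e => by
    rw [← mul_one (g' * p), ← h, ← mul_assoc, mul_assoc g', ← e, ← mul_assoc, h', one_mul]
  exact ⟨_, hG.conj _ _ _ hg h a1, a2.conj h1 h2 (key _ h1) (key _ h2), by
    linear_combination (norm := noncomm_ring) -(h1 * n * 𝔮 * g') - (1 - 𝔭) * g * n * key _ h2⟩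

theorem GP.xi_rel (hG : GP S hB X ε G) (hf : (polarBilin Q).Nondegenerate)
    (he : H30.IsHyp Q e e') (hz : ∀ D ∈ hG.zA s he.left, D = 0) (hξ : ξ ∈ hG.xi s e e')
    (hξ' : ξ' ∈ hG.xi s e e') : H27.adj hB ξ * ξ' = H27.adj hB ξ' * ξ := by
  obtain ⟨n, a1, a2, rfl⟩ := hξ
  obtain ⟨n', a3, a4, rfl⟩ := hξ'
  rw [hG.mul_xi he a1 a2 a4, hG.mul_xi he a3 a4 a2, hG.rs_comm hf he hz a1 a2 a3 a4]

omit [FiniteDimensional F U] in
theorem GP.xi_facts (hG : GP S hB X ε G) (he : H30.IsHyp Q e e') (hξ : ξ ∈ hG.xi s e e') :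
    𝔭 * ξ = 0 ∧ 𝔮 * ξ = 0 ∧ ξ * 𝔮 = ξ := by
  obtain ⟨n, -, a2, rfl⟩ := hξ
  have h1 : 𝔭 * 𝔭 = 𝔭 := by simp [eE_mul, he.pol]
  have h2 : 𝔮 * 𝔭 = 0 := by simp [eE_mul, he.left]
  have h3 : 𝔮 * 𝔮 = 𝔮 := by simp [eE_mul, he.pol']
  exact ⟨by linear_combination (norm := noncomm_ring) -(h1 * n * 𝔮),
    by linear_combination (norm := noncomm_ring) a2.r * 𝔮 - h2 * n * 𝔮, by rw [mul_assoc, h3]⟩

omit [FiniteDimensional F U] [FiniteDimensional F V] in
theorem rs_eich (he : H30.IsHyp Q e e') (hw : w ∈ hperp Q e e') (c : F) :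
    Rs 𝔭 𝔮 (S.fac s (sk 𝔟 e w) - c • eE 𝔟 (S.fac s) e e) ∧
      (1 - 𝔭) * (S.fac s (sk 𝔟 e w) - c • eE 𝔟 (S.fac s) e e) * 𝔮 = eE 𝔟 (S.fac s) w e := by
  refine ⟨⟨?_, ?_, ?_⟩, ?_⟩ <;>
    simp [phi_sk, mul_sub, sub_mul, eE_mul, he.pol, he.pol', he.left, hw.1, hw.2, polar_comm Q e w]

omit [FiniteDimensional F U] [FiniteDimensional F V] in
theorem Phi_mul_eE (σ : τ → O Q) (s : τ) (x y : U) :
    Phi S (fun i => oE Q (σ i)) * eE 𝔟 (S.fac s) x y =
      eE 𝔟 (S.fac s) ((σ s).1 x) ((σ s).1 y) * Phi S fun i => oE Q (σ i) := by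
  rw [← update_eq_self s fun i => oE Q (σ i), Phi_update, mul_assoc,
    ← (cm_Phi S (update_self ..)).comm_eE, eE_apply, eE_apply, ← oE_conj_ro, ← mul_assoc,
    ← mul_assoc, ← map_mul, ← map_mul, mul_assoc _ (oE Q _⁻¹), oE_inv_mul, mul_one]

omit [FiniteDimensional F U] [FiniteDimensional F V] in
theorem Phi_mul_inv (σ : τ → O Q) :
    Phi S (fun i => oE Q (σ i)) * Phi S (fun i => oE Q (σ i)⁻¹) = 1 := by
  rw [← map_mul, ← map_one (Phi S)]
  exact congrArg _ (funext fun i => oE_mul_inv _)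

omit [FiniteDimensional F U] [FiniteDimensional F V] in
theorem OX.phi (hX : OX S X) {σ : τ → O Q} (h : ∀ i, σ i ∈ eichGroup Q) :
    InG X (Phi S fun i => oE Q (σ i)) :=
  Phi_induction S (inG_one X) (fun _ _ => InG.mul) _ fun i => hX.fac i _ (h i)

theorem GP.star (hG : GP S hB X ε G) (hX : OX S X) (he : H30.IsHyp Q e e')
    (hz : ∀ D ∈ hG.zA s he.left, D = 0) {κ : τ → O Q} (hκ : InG X (Phi S fun i => oE Q (κ i)))
    (h1 : κ s = 1) (hj : j ≠ s) {c : F} (h2 : (κ j).1 u' = c • u) (hξ : ξ ∈ hG.xi s e e')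
    (h0 : ∀ y, ξ * eE 𝔟 (S.fac j) u y = 0) (hx : x ∈ hperp Q e e') (hy : y ∈ hperp Q e e')
    {n : τ → End F U} (h3 : n s = oE Q (H30.eich Q x y)) (h4 : n j = oE Q (κ j)) (v : U) :
    H27.adj hB ξ * Phi S n * ξ * eE 𝔟 (S.fac j) u' v = 0 := by
  have hQ := hX.og.toBig
  refine multi_span (fun m => H27.adj hB ξ * Phi S m * ξ * eE 𝔟 (S.fac j) u' v) (fun m i =>
    ⟨fun a b => by rw [(Phi_linear S m i).1, mul_add, add_mul, add_mul], fun a b => by
      rw [(Phi_linear S m i).2, mul_smul_comm, smul_mul_assoc, smul_mul_assoc]⟩) ⊥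
    (G := fun i => {b | ∃ σ ∈ eichGroup Q, b = oE Q (σ * κ i) ∧ (i = s → σ = H30.eich Q x y) ∧
      (i = j → σ = 1)}) (fun m hm => ?_) n fun i => ?_
  · choose σ a1 a2 a3 a4 using hm
    rw [show m = fun i => oE Q (σ i * κ i) from funext a2]
    have a5 : ∀ z, polar Q z x = 0 → polar Q z y = 0 → (σ s * κ s).1 z = z := fun z b1 b2 => by
      rw [a3 s rfl, h1, mul_one, eich_apply_of_orth b1 b2]
    have a6 := a5 e (by rw [polar_comm, hx.1]) (by rw [polar_comm, hy.1])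
    have a7 := a5 e' (by rw [polar_comm, hx.2]) (by rw [polar_comm, hy.2])
    have a8 : InG X (Phi S fun i => oE Q (σ i * κ i)) := by
      convert (hX.phi a1).mul hκ
      rw [← map_mul]
      exact congrArg _ (funext fun i => map_mul _ _ _)
    have a9 := hG.xi_rel hQ.nd he hz hξ (hG.xi_conj a8 (Phi_mul_inv fun i => σ i * κ i)
      (by rw [Phi_mul_eE, a6, a7]) (by rw [Phi_mul_eE, a6, a7]) hξ)
    have a10 := Phi_mul_inv (S := S) fun i => (σ i * κ i)⁻¹
    have a11 := Phi_mul_eE (S := S) (fun i => σ i * κ i) j u' v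
    simp only [inv_inv, a4 j rfl, one_mul, h2, map_smul, LinearMap.smul_apply] at a10 a11
    have := congrArg (· * Phi S (fun i => oE Q (σ i * κ i)) * eE 𝔟 (S.fac j) u' v) a9
    simp only [mul_assoc, a10, mul_one] at this ⊢
    rw [this, a11, smul_mul_assoc, mul_smul_comm, ← mul_assoc ξ, h0]
    simp
  by_cases hi : i = s
  · exact Submodule.subset_span ⟨_, eich_mem_eichGroup x y, by simp [hi, h1, h3], fun _ => rfl,
      fun e => (hj (e.symm.trans hi)).elim⟩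
  by_cases hi' : i = j
  · exact Submodule.subset_span ⟨1, one_mem _, by simp [hi', h4], fun e => (hi e).elim, fun _ => rfl⟩
  · simpa [hi, hi'] using span_omega hQ (κ i) (n i)

theorem GP.co_eq_zero (hG : GP S hB X ε G) (hQ : OG Q) (he : H30.IsHyp Q e e') (hj : j ≠ s)
    (hξ : ξ ∈ hG.xi s e e') (hu : H30.IsHyp Q u u') (z : U)
    (h : ∀ x ∈ hperp Q e e', ∀ y ∈ hperp Q e e', ∀ n : τ → End F U, n s = oE Q (H30.eich Q x y) →
      H27.adj hB ξ * Phi S (update n j (ro 𝔟 z z)) * ξ * eE 𝔟 (S.fac j) u' u = 0) :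
    co hQ.nd (S.fac j) z u' ξ = 0 := by
  obtain ⟨h1, h2, -⟩ := hG.xi_facts he hξ
  refine eq_zero_of_iso (hB := hB) (s := s) hQ he
    (by rw [eE_apply, ← (cm_fac S hj _).co_mul, ← eE_apply, h1, map_zero])
    (by rw [eE_apply, ← (cm_fac S hj _).co_mul, ← eE_apply, h2, map_zero]) fun x hx y hy _ _ n hn => ?_
  have h3 := cm_Phi S (update_self j 1 n)
  have h4 := cm_co (hf := hQ.nd) (φ := S.fac j) z u' ξ
  have h5 := h4.adj (hB := hB) hQ.nd
  have h6 := h x hx y hy n hn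
  have f1 := eE_mul_co (hf := hQ.nd) (φ := S.fac j) u u u' z (H27.adj hB ξ)
  have f2 := eE_mul_co (hf := hQ.nd) (φ := S.fac j) u' u z u' ξ
  have f3 : eE 𝔟 (S.fac j) z u * eE 𝔟 (S.fac j) u' z = eE 𝔟 (S.fac j) z z := by
    simp [eE_mul, hu.pol']
  have f4 : eE 𝔟 (S.fac j) u u * eE 𝔟 (S.fac j) u' u = eE 𝔟 (S.fac j) u u := by
    simp [eE_mul, hu.pol']
  rw [Phi_update, ← eE_apply, ← f3] at h6
  rw [← adj_co (hB := hB)] at f1
  rw [← update_eq_self j n, Phi_update, ← mul_assoc, ← h5, mul_assoc, mul_assoc,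
    ← mul_assoc (H27.adj _ _), ((h5.mul h3).mul h4).eq_zero hQ.nd hu.left_ne_zero hu.left_ne_zero ?_,
    mul_zero]
  have f5 := (h5.mul h3).comm_eE (f := 𝔟) u' u
  have f6 := h3.comm_eE (f := 𝔟) u' z
  generalize H27.adj hB (co hQ.nd (S.fac j) z u' ξ) = a' at *
  generalize co hQ.nd (S.fac j) z u' ξ = a at *
  generalize Phi S (update n j 1) = g at *
  linear_combination (norm := noncomm_ring) -(f4 * a' * g * a) + eE 𝔟 (S.fac j) u u * f5 * a +
    f1 * g * eE 𝔟 (S.fac j) u' u * a + eE 𝔟 (S.fac j) u u' * H27.adj hB ξ * eE 𝔟 (S.fac j) z u * g * f2 -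
    eE 𝔟 (S.fac j) u u' * H27.adj hB ξ * eE 𝔟 (S.fac j) z u * f6 * ξ * eE 𝔟 (S.fac j) u' u +
    eE 𝔟 (S.fac j) u u' * h6

theorem GP.xi_cm (hG : GP S hB X ε G) (hX : OX S X) (he : H30.IsHyp Q e e')
    (hz : ∀ D ∈ hG.zA s he.left, D = 0) (hj : j ≠ s) (hξ : ξ ∈ hG.xi s e e') : Cm (S.fac j) ξ := by
  by_contra hc
  have hQ := hX.og.toBig
  have hL : AInv Q (S.fac j) (hG.xi s e e') := fun u x hu hx D hD =>
    hG.xi_conj (hX.eich j hu hx) (fac_eich_mul j hu hx) (cm_fac S hj _ _) (cm_fac S hj _ _) hD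
  by_cases h : ∀ v, Q v = 0 → co hQ.nd (S.fac j) v v ξ = 0
  swap
  · push Not at h
    obtain ⟨u, hu, h⟩ := h
    obtain ⟨c, hc, h1⟩ := hL.ro_mem hQ hu hξ
    obtain ⟨u', h2⟩ := exists_isHyp hQ.nd hu (by rintro rfl; simp at h)
    obtain ⟨σ, hσ, d, hd, h3, h4⟩ := exists_swap hQ h2
    have h5 := cm_co (hf := hQ.nd) (φ := S.fac j) u u ξ
    generalize co hQ.nd (S.fac j) u u ξ = a at h h1 h5
    refine smul_ne_zero hc h ?_
    have := hG.co_eq_zero hX.og he hj h1 h2 u' fun x hx y hy n hn => by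
      have h6 := hG.star hX he hz (κ := Pi.mulSingle j σ) (hX.phi fun i => by
        by_cases hi : i = j <;> simp [hi, hσ, one_mem]) (by simp [hj.symm]) hj (by simpa using h4) h1
        (fun y => by simp [mul_assoc, ← h5.comm_eE, eE_mul', hu]) hx hy
        (n := update n j (oE Q σ)) (by simpa [hj.symm]) (by simp) u
      have h7 : eE 𝔟 (S.fac j) u u * Phi S (update n j (oE Q σ)) * eE 𝔟 (S.fac j) u u =
          d • (eE 𝔟 (S.fac j) u u * Phi S (update n j (ro 𝔟 u' u')) * eE 𝔟 (S.fac j) u u) := by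
        rw [eE_apply, Phi_conj, Phi_conj, ← (Phi_linear S n j).2]
        congr 2
        ext
        simp [h3, h2.pol, h2.pol', smul_smul, mul_comm]
      rw [← smul_eq_zero_iff_right hd, ← h6]
      have h8 := congrArg (H27.adj hB a * · * a * eE 𝔟 (S.fac j) u' u) h7
      simp only [map_smul, adj_mul, adj_eE, smul_mul_assoc, mul_smul_comm, mul_assoc] at h8 ⊢
      rw [h8, smul_comm d, smul_comm d]
    simpa [h5.co_eE_mul, h2.pol, h2.pol'] using this
  obtain ⟨u, u', w, h1, h2, h3, D, h4, γ, h5, h6, -⟩ := hL.exists_kt_ne hQ hξ h hc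
  refine h6 (h5.co_hyp h1 h2.1 ▸ ?_)
  by_cases hl : ∃ l, l ≠ s ∧ l ≠ j
  · obtain ⟨l, a1, a2⟩ := hl
    have a3 : Q (u - u') = -1 := by simp [Q_sub, h1.left, h1.right, h1.pol]
    have a4 : (refl Q (u - u')).1 u' = (1 : F) • u := by
      simp [refl_apply, a3, h1.pol', h1.right]
    refine hG.co_eq_zero hX.og he hj h4 h1 w fun x hx y hy n hn => ?_
    have key : ∀ σ : O Q, σ.1 u' = (1 : F) • u →
        H27.adj hB D * Phi S (update n j (oE Q σ)) * D * eE 𝔟 (S.fac j) u' u = 0 := fun σ hσ =>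
      hG.star hX he hz (κ := update (Pi.mulSingle j σ) l σ⁻¹) (by
        convert hX.pair l j a2 σ⁻¹
        rw [inv_inv, ← Phi_single S j, ← Phi_update' S (by simp [a2])]
        exact congrArg _ (funext fun i => by
          by_cases b1 : i = l <;> by_cases b2 : i = j <;> simp [b1, b2, a2.symm]))
        (by simp [a1.symm, hj.symm]) hj (c := 1) (by simpa [a2.symm] using hσ) h4 (h5.mul_eE h1.left) hx hy
        (by simpa [hj.symm]) (by simp [a2.symm]) u
    have a5 : oE Q (refl Q (u - u')) - oE Q (refl Q (u - u') * refl Q w) = (Q w)⁻¹ • ro 𝔟 w w := by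
      rw [map_mul, oE_refl w, reflLin_eq, mul_sub, mul_one, sub_sub_cancel, mul_smul_comm, mul_ro,
        oE_apply, refl_apply_of_orth (by simp [h2.1, h2.2])]
    rw [← smul_eq_zero_iff_right (inv_ne_zero h3), ← smul_mul_assoc, ← smul_mul_assoc, ← mul_smul_comm, ← (Phi_linear S n j).2, ← a5,
      (Phi_linear S n j).map_sub, mul_sub, sub_mul, sub_mul, key _ a4, key _ (by
        rw [O_mul_apply, refl_apply_of_orth (x := u') (by rw [polar_comm, h2.2]), a4])]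
    simp
  obtain ⟨a1, a2, a3⟩ := hG.xi_facts he h4
  have key : ∀ y ∈ hperp Q e e', eE 𝔟 (S.fac s) e y * D = 0 := fun y hy => by
    have b1 := eE_mul_co (hf := hQ.nd) (φ := S.fac s) e e y e' D
    rw [mul_assoc, a3] at b1
    have b2 := hG.xi_rel hQ.nd he hz h4 ⟨_, hG.eich s e y he.left (by rw [polar_comm, hy.1]),
      (rs_eich he hy _).1, (rs_eich he hy _).2.symm⟩
    have b3 := cm_co (hf := hQ.nd) (φ := S.fac s) y e' D
    rw [adj_eE, ← adj_eE (hB := hB), ← adj_mul, ← b1, adj_mul, adj_eE,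
      ← (b3.adj hQ.nd).comm_eE] at b2
    replace b2 := (b3.adj hQ.nd).cancel hQ.nd he.left_ne_zero he.left_ne_zero b3 b2
    rw [← b1, eq_zero_of_co (hf := hQ.nd) (φ := S.fac j) (T := co _ _ y e' D) fun a b => ?_, mul_zero]
    have := hX.nontrivial
    obtain ⟨c, hc⟩ := exists_smul_of_cm S hQ.nd (T := co hQ.nd (S.fac j) a b (co hQ.nd (S.fac s) y e' D))
      fun i => by
        by_cases hi : i = j
        · exact hi ▸ cm_co _ _ _
        · exact (by_contra fun a => hl ⟨i, a, hi⟩ : i = s) ▸ cm_co_of_ne S hQ.nd hj b3 a b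
    refine eq_zero_of_skew (hB := hB) hQ.two ?_ (by rw [hc, map_smul, adj_one])
    rw [adj_co, b2, co_comm hQ.nd hj, co_comm hQ.nd hj, h5.co, h5.co, ← map_neg, neg_sub]
  rw [show D = 0 from ?_, map_zero]
  rw [← one_mul D, ← sum_eE (φ := S.fac s) hQ.nd, Finset.sum_mul]
  refine Finset.sum_eq_zero fun i _ => ?_
  obtain ⟨a, b, y, hy, e1⟩ := he.exists_decomp (bas F U i)
  rw [e1]
  have b1 := eE_mul' (f := 𝔟) (φ := S.fac s) (dbas hQ.nd i) e e' e D
  have b2 := eE_mul' (f := 𝔟) (φ := S.fac s) (dbas hQ.nd i) e' e e' D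
  have b3 := eE_mul' (f := 𝔟) (φ := S.fac s) (dbas hQ.nd i) e' e y D
  simp only [a1, a2, key y hy, mul_zero, polarBilin_apply_apply, he.pol, he.pol', one_smul] at b1 b2 b3
  simp [add_mul, ← b1, ← b2, ← b3]

theorem GP.exists_fac (hG : GP S hB X ε G) (hX : OX S X) (he : H30.IsHyp Q e e')
    (hz : ∀ D ∈ hG.zA s he.left, D = 0) (hn : G n) (h : Rs 𝔭 𝔮 n) : ∃ a, n = S.fac s a := by
  have hQ := hX.og.toBig
  have := hX.nontrivial
  have hξ : _ ∈ hG.xi s e e' := ⟨n, hn, h, rfl⟩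
  obtain ⟨a, ha⟩ := exists_fac_of_cm S hQ.nd fun j hj => hG.xi_cm hX he hz hj hξ
  obtain ⟨h1, h2, h3⟩ := hG.xi_facts he hξ
  rw [ha, phi_mul_eE] at h3
  rw [ha, ← h3, eE_mul] at h1 h2
  have h4 : eE 𝔟 (S.fac s) e e ≠ 0 :=
    fac_ne_zero S hQ.nd s (ro_ne_zero hQ.nd he.left_ne_zero he.left_ne_zero)
  have h5 : eE 𝔟 (S.fac s) e' e ≠ 0 :=
    fac_ne_zero S hQ.nd s (ro_ne_zero hQ.nd he.right_ne_zero he.left_ne_zero)
  have hw : -a e' ∈ hperp Q e e' :=
    neg_mem ⟨(smul_eq_zero.1 h2).resolve_right h5, (smul_eq_zero.1 h1).resolve_right h4⟩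
  obtain ⟨h6, h7⟩ := rs_eich (S := S) (s := s) he hw (ε * Q (-a e'))
  have h8 := hG.eq_zero_of_xi hQ.nd he hz (hG.add _ _ hn (hG.eich s e _ he.left
    (by rw [polar_comm, hw.1]))) ((h.add h6).add ((h.mul h6).smul ε)) (by
      rw [mul_add, mul_add, add_mul, add_mul, h7, ha, ← h3, mul_smul_comm, sub_mul, h.left h6]
      simp)
  have h9 := hG.mul_xi he hn h h6
  rw [h7, ha, adj_fac hQ.nd, eE_apply, ← map_mul, ← neg_eq_iff_eq_neg] at h9
  rw [← h9, add_assoc, add_eq_zero_iff_eq_neg, eE_apply] at h8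
  exact ⟨_, by rw [h8, ← map_smul, ← map_sub, ← map_neg (S.fac s), ← map_smul, ← map_add,
    ← map_neg]⟩

end Cfsg.Agent.H27
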