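import Cfsg.Agent.H27.OPF

/-!
# Overgroups of tensor induced orthogonal groups: recognising the factors
-/

set_option autoImplicit false

namespace Cfsg.Agent.H27

open Module Function QuadraticMap H30 H36
open H79 (sk Big sk_apply oU)

theorem Rs.conj' {A : Type*} [Ring A] {p q n g g' : A} (h : Rs p q n) (hp : p * p = p)
    (hq : q * q = q) (a1 : g * p = p) (a2 : q * g = q) (a3 : g' * p = p) (a4 : q * g' = q) :
    Rs p q (g * n * g') :=
  ⟨by rw [mul_assoc, a3, mul_assoc, h.l, mul_zero], by rw [← mul_assoc, ← mul_assoc, a2, h.r, zero_mul],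
    by linear_combination (norm := noncomm_ring) (1 - p) * g * h.m * g' * (1 - q) +
      (1 - p) * a1 * n * (1 - q) * g' * (1 - q) - hp * n * (1 - q) * g' * (1 - q) +
      (1 - p) * g * n * a4 * (1 - q) - (1 - p) * g * n * hq⟩

variable {F U V τ : Type*} [Field F] [AddCommGroup U] [Module F U] [AddCommGroup V] [Module F V]
  [Fintype τ] [DecidableEq τ] {Q : QuadraticForm F U} {B : LinearMap.BilinForm F V}
  {S : TPow τ (polarBilin Q) B} {X : Subgroup (End F V)ˣ} {s j : τ} {e e' u u' v w x y z : U}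
  {D T g : End F V} [FiniteDimensional F U] [FiniteDimensional F V]

local notation "𝔟" => polarBilin Q
local notation "𝔭" => eE (polarBilin Q) (S.fac s) e e'
local notation "𝔮" => eE (polarBilin Q) (S.fac s) e' e

omit [FiniteDimensional F V] in
theorem cm_of_omega {A : Type*} [Ring A] [Algebra F A] {φ : End F U →ₐ[F] A} {T : A} (hQ : Big Q)
    (h : ∀ σ ∈ eichGroup Q, φ (oE Q σ) * T = T * φ (oE Q σ)) : Cm φ T := fun a =>
  sub_eq_zero.1 ((Submodule.span_le (p := LinearMap.ker ((LinearMap.mulRight F T -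
    LinearMap.mulLeft F T) ∘ₗ φ.toLinearMap))).2 (by
      rintro _ ⟨σ, hσ, rfl⟩
      simpa [sub_eq_zero] using h σ hσ) (span_omega hQ 1 a))

/-- Overgroups without elements `1 + t_u ⊗ D`. -/
structure OY (S : TPow τ (polarBilin Q) B) (X : Subgroup (End F V)ˣ) : Prop extends OX S X where
  nz : ∀ s u, Q u = 0 → u ≠ 0 → ∀ D, Cm (S.fac s) D →
    InG X (1 + eE (polarBilin Q) (S.fac s) u u * D) → D = 0

theorem OY.exists_fac [Finite F] (hX : OY S X) (he : H30.IsHyp Q e e') (hg : InG X g)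
    (h : g * 𝔭 = 𝔭) : ∃ a, g = S.fac s a := by
  have hQ := hX.og.toBig
  have := hX.nontrivial
  have hG := hX.gp
  have hz : ∀ D ∈ hG.zA s he.left, D = 0 := fun D hD => hX.nz s e he.left he.left_ne_zero D hD.1 hD.2
  obtain ⟨g', -, h1, h1'⟩ := inG_exists_inv hg
  have h2 : g' * 𝔭 = 𝔭 := by rw [← h, ← mul_assoc, h1', one_mul, h]
  have h3 : 𝔮 * g' = 𝔮 := by
    simpa [adj_mul, adj_eE, adj_eq_of_mul (hX.iso g hg) h1] using congrArg (adj hX.bnd) h
  have h4 : 𝔮 * g = 𝔮 := by rw [← h3, mul_assoc, h1', mul_one, h3]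
  have hp : 𝔭 * 𝔭 = 𝔭 := by simp [eE_mul, he.pol]
  have hq : 𝔮 * 𝔮 = 𝔮 := by simp [eE_mul, he.pol']
  obtain ⟨a, ha⟩ : (1 - 𝔭) * g * S.fac s ((1 - ro 𝔟 e e' - ro 𝔟 e' e) * 1) ∈ (S.fac s).range := by
    refine ro_induction (P := fun b => (1 - 𝔭) * g * S.fac s ((1 - ro 𝔟 e e' - ro 𝔟 e' e) * b) ∈
      (S.fac s).range) hQ.nd (by simp) (fun a b ha hb => by
        simpa only [mul_add, map_add] using add_mem ha hb) (fun x y => ?_) 1
    have hw : (1 - ro 𝔟 e e' - ro 𝔟 e' e) x ∈ hperp Q e e' :=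
      ⟨by simp [he.pol', he.left], by simp [he.pol, he.right]⟩
    rw [mul_ro, ← eE_apply]
    generalize (1 - ro 𝔟 e e' - ro 𝔟 e' e) x = w at hw
    obtain ⟨a1, a2⟩ := rs_eich (S := S) (s := s) he hw (1 * Q w)
    have a3 := a1.conj' hp hq h h4 h2 h3
    obtain ⟨a, a4⟩ := hG.exists_fac hX.toOX he hz
      (hG.conj _ _ _ hg h1 (hG.eich s e w he.left (by rw [polar_comm, hw.1]))) a3
    have a5 : eE 𝔟 (S.fac s) w y = eE 𝔟 (S.fac s) w e * eE 𝔟 (S.fac s) e' y := by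
      simp [eE_mul, he.pol']
    refine ⟨(1 - ro 𝔟 e e') * a * ro 𝔟 e' e * ro 𝔟 e' y, ?_⟩
    simp only [AlgHom.toRingHom_eq_coe, RingHom.coe_coe, map_mul, map_sub, map_one, ← eE_apply]
    rw [a5, ← a2, ← a4]
    generalize S.fac s (sk 𝔟 e w) - _ = n at a3
    have a6 := a3.m
    generalize eE 𝔟 (S.fac s) e' y = t
    linear_combination (norm := noncomm_ring) -(a6 * g * 𝔮 * t) + (1 - 𝔭) * g * n * h1' * 𝔮 * t -
      (1 - 𝔭) * g * n * g' * h4 * 𝔮 * t - (1 - 𝔭) * g * n * g' * hq * t + (1 - 𝔭) * h * n * 𝔮 * t -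
      hp * n * 𝔮 * t
  simp only [AlgHom.toRingHom_eq_coe, RingHom.coe_coe, map_sub, map_one, ← eE_apply, mul_one] at ha
  refine exists_fac_of_cm S hQ.nd fun j hj => cm_of_omega hQ fun σ hσ => ?_
  have key : ∀ σ ∈ eichGroup Q, ∃ n, InG X (1 + n) ∧ Rs 𝔭 𝔮 n ∧
      g * S.fac j (oE Q σ) = (1 + n) * S.fac j (oE Q σ) * g := fun σ hσ => by
    have b1 := fac_mul_inv (S := S) (s := j) σ
    have b2 := mul_eq_one_comm.1 b1
    have b3 := (cm_fac S hj.symm (oE Q σ)).comm_eE (f := 𝔟) e e'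
    have b4 := (cm_fac S hj.symm (oE Q σ)).comm_eE (f := 𝔟) e' e
    have b5 := (cm_fac S hj.symm (oE Q σ⁻¹)).comm_eE (f := 𝔟) e e'
    have b6 := (cm_fac S hj.symm (oE Q σ⁻¹)).comm_eE (f := 𝔟) e' e
    have b7 := cm_fac S hj.symm (oE Q σ) a
    have b8 := ((hg.mul (hX.fac j σ hσ)).mul (inG_inv hg h1)).mul (hX.fac j _ (inv_mem hσ))
    rw [ha] at b7
    generalize S.fac j (oE Q σ) = y at *
    generalize S.fac j (oE Q σ⁻¹) = y' at *
    refine ⟨g * y * g' * y' - 1, by simpa, ⟨?_, ?_, ?_⟩, ?_⟩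
    · linear_combination (norm := noncomm_ring) -(g * y * g' * b5) + g * y * h2 * y' -
        g * b3 * y' + h * y * y' + 𝔭 * b1
    · linear_combination (norm := noncomm_ring) h4 * y * g' * y' + b4 * g' * y' + y * h3 * y' +
        y * b6 + b1 * 𝔮
    · have s1 : (1 - 𝔭) * (g * y - y * g) * (1 - 𝔮) = 0 := by
        linear_combination (norm := noncomm_ring) b7 + (1 - 𝔭) * g * b4 + (1 - 𝔭) * h * y -
          hp * y + b3 * g * (1 - 𝔮) - y * (1 - 𝔭) * h + y * hp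
      have s2 : 𝔮 * g' * y' * (1 - 𝔮) = 0 := by
        linear_combination (norm := noncomm_ring) h3 * y' * (1 - 𝔮) + b6 * (1 - 𝔮) - y' * hq
      linear_combination (norm := noncomm_ring) s1 * g' * y' * (1 - 𝔮) +
        (1 - 𝔭) * (g * y - y * g) * s2 + (1 - 𝔭) * y * h1 * y' * (1 - 𝔮) + (1 - 𝔭) * b1 * (1 - 𝔮)
    · linear_combination (norm := noncomm_ring) -(g * y * g' * b2 * g) - g * y * h1'
  let K : Subgroup (O Q) :=
    { carrier := {σ | S.fac j (oE Q σ) * g = g * S.fac j (oE Q σ)}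
      mul_mem' := fun {a b} ha hb => by
        rw [Set.mem_ofPred, map_mul, map_mul, mul_assoc, hb, ← mul_assoc, ha, mul_assoc]
      one_mem' := by simp
      inv_mem' := fun {a} (ha : _ = _) => show _ = _ by
        linear_combination (norm := noncomm_ring) -(S.fac j (oE Q a⁻¹) * ha * S.fac j (oE Q a⁻¹)) -
          S.fac j (oE Q a⁻¹) * g * fac_mul_inv (S := S) (s := j) a +
          mul_eq_one_comm.1 (fac_mul_inv (S := S) (s := j) a) * g * S.fac j (oE Q a⁻¹) }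
  refine (omega_perfect hX.og).ge.trans (Subgroup.commutator_le.2 fun σ hσ ρ hρ => ?_ : _ ≤ K) hσ
  obtain ⟨n, a1, a2, a3⟩ := key σ hσ
  obtain ⟨n', b1, b2, b3⟩ := key ρ hρ
  have c1 := hG.rs_comm hQ.nd he hz a1 a2 b1 b2
  obtain ⟨m, rfl⟩ := hG.exists_fac hX.toOX he hz a1 a2
  obtain ⟨m', rfl⟩ := hG.exists_fac hX.toOX he hz b1 b2
  have c2 : S.fac j (oE Q (σ * ρ * σ⁻¹ * ρ⁻¹)) * (S.fac j (oE Q ρ) * S.fac j (oE Q σ)) =
      S.fac j (oE Q σ) * S.fac j (oE Q ρ) := by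
    simp only [← map_mul, mul_assoc, inv_mul_cancel_left, inv_mul_cancel, mul_one]
  have c3 : S.fac j (oE Q ρ) * S.fac j (oE Q σ) * S.fac j (oE Q (ρ * σ)⁻¹) = 1 := by
    rw [← map_mul, ← map_mul (oE Q), fac_mul_inv]
  change S.fac j (oE Q (σ * ρ * σ⁻¹ * ρ⁻¹)) * g = g * S.fac j (oE Q (σ * ρ * σ⁻¹ * ρ⁻¹))
  have d1 := S.fac_comm hj (oE Q σ) m'
  have d2 := S.fac_comm hj (oE Q ρ) m
  have d3 := S.fac_comm hj (oE Q (σ * ρ * σ⁻¹ * ρ⁻¹)) m
  have d4 := S.fac_comm hj (oE Q (σ * ρ * σ⁻¹ * ρ⁻¹)) m'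
  generalize S.fac j (oE Q (σ * ρ * σ⁻¹ * ρ⁻¹)) = c at *
  generalize S.fac j (oE Q (ρ * σ)⁻¹) = W at *
  generalize S.fac j (oE Q σ) = Y at *
  generalize S.fac j (oE Q ρ) = Z at *
  generalize S.fac s m = A at *
  generalize S.fac s m' = A' at *
  linear_combination (norm := noncomm_ring) -(c * g * c3) + c * b3 * Y * W +
    c * (1 + A') * Z * a3 * W + c * (1 + A') * d2 * Y * g * W + d4 * (1 + A) * Z * Y * g * W +
    (1 + A') * d3 * Z * Y * g * W - c1 * c * Z * Y * g * W + (1 + A) * (1 + A') * c2 * g * W -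
    (1 + A) * d1 * Z * g * W - (1 + A) * Y * b3 * W - a3 * Z * W - g * c2 * W + g * c * c3

end Cfsg.Agent.H27
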