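import Cfsg.Agent.H27.OPG

/-!
# Overgroups of tensor induced orthogonal groups: conjugate decompositions
-/

set_option autoImplicit false

namespace Cfsg.Agent.H27

open Module Function QuadraticMap H30 H36
open H79 (sk Big sk_apply oU)

/-- Conjugation by a unit. -/
def cjA (F : Type*) {A : Type*} [CommSemiring F] [Semiring A] [Algebra F A] (x : Aˣ) : A →ₐ[F] A where
  toFun a := x * a * ↑x⁻¹
  map_one' := by simp
  map_mul' a b := by simp [mul_assoc]
  map_zero' := by simp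
  map_add' a b := by simp [mul_add, add_mul]
  commutes' c := by simp [Algebra.algebraMap_eq_smul_one]

theorem cjA_apply {F A : Type*} [CommSemiring F] [Semiring A] [Algebra F A] (x : Aˣ) (a : A) :
    cjA F x a = x * a * ↑x⁻¹ := rfl

variable {F U V τ : Type*} [Field F] [AddCommGroup U] [Module F U] [AddCommGroup V] [Module F V]
  [Fintype τ] [DecidableEq τ] {Q : QuadraticForm F U} {B : LinearMap.BilinForm F V}
  {S S' : TPow τ (polarBilin Q) B} {X : Subgroup (End F V)ˣ} {s j : τ} {e e' u u' v w x y z : U}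
  {D T g : End F V}

local notation "𝔟" => polarBilin Q

/-- The image of a decomposition under an isometry. -/
def mapT (S : TPow τ (polarBilin Q) B) (x : (End F V)ˣ) (hx : ∀ p q, B (x.1 p) (x.1 q) = B p q) :
    TPow τ (polarBilin Q) B where
  pt := x.1.compMultilinearMap S.pt
  span := by
    rw [LinearMap.coe_compMultilinearMap, Set.range_comp, ← Submodule.map_span, S.span,
      Submodule.map_top, LinearMap.range_eq_top]
    exact fun v => ⟨x⁻¹.1 v, LinearMap.congr_fun x.mul_inv v⟩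
  fac s := (cjA F x).comp (S.fac s)
  fac_pt s a u := by
    simp only [AlgHom.comp_apply, cjA_apply, LinearMap.compMultilinearMap_apply, End.mul_apply]
    rw [← End.mul_apply x⁻¹.1, x.inv_mul, End.one_apply, S.fac_pt]
  c := S.c
  c_ne := S.c_ne
  form u v := (hx _ _).trans (S.form u v)

theorem OY.map (hX : OY S X) {x : (End F V)ˣ} (hx : x ∈ X) :
    OY (mapT S x (hX.iso _ ⟨x, hx, rfl⟩)) X := by
  have h1 : ∀ g, InG X g → InG X (cjA F x g) := fun g hg =>
    (InG.mul ⟨x, hx, rfl⟩ hg).mul ⟨_, inv_mem hx, rfl⟩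
  refine ⟨⟨hX.og, hX.bnd, hX.iso, fun s σ hσ => h1 _ (hX.fac s σ hσ), fun s j h σ => ?_,
    fun σ hσ => ?_, hX.nt⟩, fun s u hu hu0 D hD h => ?_⟩
  · exact map_mul (cjA F x) _ _ ▸ h1 _ (hX.pair s j h σ)
  · obtain ⟨g, hg, h⟩ := hX.alt σ hσ
    refine ⟨_, h1 g hg, fun u => ?_⟩
    simp only [mapT, cjA_apply, LinearMap.compMultilinearMap_apply, End.mul_apply]
    rw [← End.mul_apply x⁻¹.1, x.inv_mul, End.one_apply, h]
  have := hX.nz s u hu hu0 (x⁻¹.1 * D * x) (fun a => by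
    simpa [mapT, cjA_apply, mul_assoc] using congrArg (x⁻¹.1 * · * x) (hD a)) (by
    simpa [mapT, cjA_apply, mul_assoc, eE_apply] using
      inG_conj (g' := x.1) ⟨_, inv_mem hx, rfl⟩ x.inv_mul h)
  simpa using this

variable [FiniteDimensional F U]

omit [FiniteDimensional F U] in
theorem exists_smul_of_central (hf : (polarBilin Q).Nondegenerate) [Nontrivial U] {a : End F U}
    (h : ∀ d x y, 𝔟 ((a * d - d * a) y) x = 0) : ∃ c : F, a = c • 1 := by
  obtain ⟨y, hy⟩ := exists_ne (0 : U)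
  obtain ⟨v, hv⟩ := exists_apply_eq_one' hf hy
  exact ⟨𝔟 (a v) y, LinearMap.ext fun x => by
    simpa [sub_eq_zero, show polar Q v y = 1 from hv] using hf.1 _ (h (ro 𝔟 x y) · v)⟩

theorem exists_ginv (n : End F U) (h : ∀ y, n y = 0 → y ∈ LinearMap.range n) :
    ∃ a b, 1 = n * a + b * n := by
  obtain ⟨g, hg⟩ := n.rangeRestrict.exists_rightInverse_of_surjective n.range_rangeRestrict
  obtain ⟨a, rfl⟩ := LinearMap.exists_extend g
  have h1 : ∀ x, n (a (n x)) = n x := fun x => congrArg Subtype.val (LinearMap.congr_fun hg ⟨_, x, rfl⟩)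
  refine ⟨a, (1 - n * a) * a, LinearMap.ext fun x => ?_⟩
  obtain ⟨y, hy⟩ := h (x - a (n x)) (by simp [h1])
  have := h1 y
  rw [hy] at this
  simp only [map_sub, End.one_apply, LinearMap.add_apply, End.mul_apply, LinearMap.sub_apply] at this ⊢
  linear_combination (norm := module) -this

theorem five_le_of_skew (hQ : OG Q) {n : End F U} (hn : adj hQ.nd n = -n) (h0 : n ≠ 0)
    (h2 : n * n = 0) : 5 ≤ finrank F U := by
  obtain ⟨x, hx⟩ := DFunLike.ne_iff.1 h0
  obtain ⟨y, hy⟩ := exists_apply_eq_one hQ.nd hx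
  have h1 : ∀ x y, polar Q (n x) (n y) = 0 := fun x y => by
    rw [skew_polar hn, ← End.mul_apply, h2]
    simp
  have h3 : ∀ x, Q (n x) = 0 := fun x => by simpa [hQ.two] using h1 x x
  refine hQ.line _ _ (h3 x) (h3 y) (h1 x y) hx fun e => ?_
  obtain ⟨c, hc⟩ := Submodule.mem_span_singleton.1 e
  have h4 := skew_polar hn y y
  have h5 := skew_polar hn x y
  rw [polar_comm Q y, eq_neg_iff_add_eq_zero, ← two_mul, mul_eq_zero, or_iff_right hQ.two, ← hc] at h4
  change polar Q _ _ = 1 at hy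
  simp [← hc, hy, show c = 0 by simpa [hy] using h4] at h5

variable [FiniteDimensional F V]

theorem not_sq_zero (hQ : OG Q) {φ ψ : End F U →ₐ[F] End F V} (he : H30.IsHyp Q e e')
    (hw : polar Q e w = 0) (hw0 : Q w ≠ 0) {n : End F U} {m : End F V} (hm : Cm ψ m)
    (h : φ (sk 𝔟 e w) = ψ n + m) (hn : adj hQ.nd n = -n) (h1 : n * n = 0) (h2 : m * m = 0)
    (hn0 : n ≠ 0) : m = 0 := by
  by_contra hm0
  have a1 : φ (sk 𝔟 e w) * φ (sk 𝔟 e w) = -(2 * Q w) • eE 𝔟 φ e e := by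
    rw [← map_mul, sk_mul_sk he.left hw hw, map_smul, polar_self', eE_apply]
  have a2 : ∀ v, φ (sk 𝔟 e w) (φ (sk 𝔟 e w) v) = 0 → φ (sk 𝔟 e w) v ∈ (eE 𝔟 φ e e).range := by
    intro v hv
    rw [← End.mul_apply, a1, LinearMap.smul_apply, smul_eq_zero_iff_right
      (neg_ne_zero.2 (mul_ne_zero hQ.two hw0))] at hv
    have : eE 𝔟 φ w e v = 0 := by simpa [eE_eE, he.pol] using congrArg (eE 𝔟 φ w e') hv
    exact ⟨-eE 𝔟 φ e' w v, by simp [phi_sk, eE_eE, he.pol', this]⟩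
  have a3 : eE 𝔟 φ e e = (-(Q w)⁻¹) • (ψ n * m) := by
    rw [h, add_mul, mul_add, mul_add, ← map_mul, h1, h2, ← hm] at a1
    refine smul_right_injective _ (neg_ne_zero.2 (mul_ne_zero hQ.two hw0)) (a1.symm.trans ?_)
    simp only [map_zero]
    match_scalars
    field_simp
    ring
  have a4 : ∀ y, n y = 0 → y ∈ LinearMap.range n := fun y hy => by
    by_contra hy'
    obtain ⟨z, hz, h3⟩ := exists_orth_ne_zero hQ.nd (H79.polarBilin_isRefl Q) _ hy'
    have b1 : φ (sk 𝔟 e w) * eE 𝔟 ψ y e = eE 𝔟 ψ y e * m := by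
      simp [h, add_mul, phi_mul_eE, hy, hm.comm_eE]
    refine hm0 (hm.eq_zero hQ.nd he.left_ne_zero he.left_ne_zero (LinearMap.ext fun v => ?_))
    obtain ⟨t, ht⟩ := a2 (eE 𝔟 ψ y e v) (by
      rw [← End.mul_apply _ _ v, b1, ← End.mul_apply, ← mul_assoc, b1, mul_assoc, h2]
      simp)
    have b2 : eE 𝔟 ψ e z * ψ n = 0 := by
      rw [eE_mul_phi (y' := 0) fun v => by simpa using hz _ ⟨v, rfl⟩, map_zero]
    have := congrArg (eE 𝔟 ψ e z) ht
    rw [a3, ← End.mul_apply _ _ v, b1, ← End.mul_apply, ← End.mul_apply, mul_smul_comm,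
      ← mul_assoc, b2, eE_mul'] at this
    simpa [show polar Q y z ≠ 0 from h3] using this.symm
  obtain ⟨a, b, a5⟩ := exists_ginv n a4
  have a6 : ∀ v, ψ n v = 0 → m v = 0 → v ∈ (eE 𝔟 φ e e).range := fun v b1 b2 => by
    have b3 : φ (sk 𝔟 e w) (ψ a v) = v := by
      rw [h, LinearMap.add_apply, ← End.mul_apply m, ← hm, End.mul_apply, b2, map_zero, add_zero]
      simpa [b1] using (LinearMap.congr_fun (congrArg ψ a5) v).symm
    exact b3 ▸ a2 _ (by rw [b3]; simp [h, b1, b2])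
  have h5 := five_le_of_skew hQ hn hn0 h1
  obtain ⟨x₁, c1, c2, c3⟩ := H79.exists_orth_notMem 𝔟 h5 e w e e
  obtain ⟨x₂, c4, c5, c6⟩ := H79.exists_orth_notMem 𝔟 h5 e w e x₁
  obtain ⟨y₁, c7, c8⟩ := H79.exists_orth_eq_one hQ.nd (H79.polarBilin_isRefl Q) c3
  obtain ⟨y₂, c9, c10⟩ := H79.exists_orth_eq_one hQ.nd (H79.polarBilin_isRefl Q) c6
  let Y := (eE 𝔟 φ e e).range
  let θ : Y × Y →ₗ[F] V := (eE 𝔟 φ x₁ e' ∘ₗ Y.subtype).coprod (eE 𝔟 φ x₂ e' ∘ₗ Y.subtype)
  have a7 : ∀ r, m (θ r) = -ψ n (θ r) := fun r => by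
    rw [eq_neg_iff_add_eq_zero, add_comm, ← LinearMap.add_apply, ← h]
    simp [θ, phi_sk, eE_eE, c1, c2, c4, c5]
  have a8 := LinearMap.finrank_le_finrank_of_injective (f := (ψ n ∘ₗ θ).codRestrict Y fun r =>
    a6 _ (by rw [LinearMap.comp_apply, ← End.mul_apply, ← map_mul, h1]; simp) (by
      rw [LinearMap.comp_apply, ← End.mul_apply, ← hm, End.mul_apply, a7, map_neg, ← End.mul_apply,
        ← map_mul, h1]
      simp)) ((injective_iff_map_eq_zero _).2 fun ⟨⟨_, r, rfl⟩, ⟨_, r', rfl⟩⟩ hr => by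
    have b1 := congrArg Subtype.val hr
    obtain ⟨t, ht⟩ := a6 _ b1 (by rw [a7]; exact neg_eq_zero.2 b1)
    have b2 := congrArg (eE 𝔟 φ e y₂) ht
    have b3 := congrArg (eE 𝔟 φ e y₁) ht
    simp [θ, eE_eE, c10, c9, he.pol] at b2
    simp [θ, eE_eE, c8, c7, he.pol, ← b2] at b3
    simp [← b2, ← b3])
  rw [finrank_prod] at a8
  have a9 : Y = ⊥ := Submodule.finrank_eq_zero.1 (by omega)
  rw [LinearMap.range_eq_bot, a3, smul_eq_zero_iff_right (by simpa)] at a9
  exact hm0 (hm.eq_zero_of_phi hQ.nd hn0 a9)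

/-- If the Eichler transformations normalise a factor, their logarithms lie in the factor or
centralise it. -/
theorem mem_or_cm (hQ : OG Q) (hB : B.Nondegenerate) (he : H30.IsHyp Q e e') {P : Submodule F U}
    (hP : Sp Q P) (hP' : ∀ w ∈ P, polar Q e w = 0) (hw : w ∈ P) (hw0 : Q w ≠ 0)
    (h : ∀ w ∈ P, ∀ D ∈ (S'.fac j).range,
      S.fac s (H79.eE Q e w) * D * S.fac s (H79.eE Q e (-w)) ∈ (S'.fac j).range) :
    S.fac s (sk 𝔟 e w) ∈ (S'.fac j).range ∨ Cm (S'.fac j) (S.fac s (sk 𝔟 e w)) := by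
  have : Nontrivial U := ⟨⟨_, _, he.left_ne_zero⟩⟩
  have h1 := fun D hD => hP.ad_mem (C := (S'.fac j).range.toSubmodule) (D := D) hQ.two
    (fun w hw => h w hw D hD) hw
  have h2 : S.fac s (sk 𝔟 e w) * S.fac s (sk 𝔟 e w) = -(2 * Q w) • eE 𝔟 (S.fac s) e e := by
    rw [← map_mul, sk_mul_sk he.left (hP' w hw) (hP' w hw), map_smul, polar_self', eE_apply]
  have h3 : eE 𝔟 (S.fac s) e e * S.fac s (sk 𝔟 e w) = 0 := by
    rw [eE_apply, ← map_mul, ro_mul_sk he.left (hP' w hw), map_zero]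
  have h4 : adj hB (S.fac s (sk 𝔟 e w)) = -S.fac s (sk 𝔟 e w) := by
    rw [adj_fac hQ.nd, adj_sk pb_symm, map_neg]
  obtain ⟨n, m, hm, a1, a2, a3⟩ : ∃ n m, Cm (S'.fac j) m ∧ S.fac s (sk 𝔟 e w) = S'.fac j n + m ∧
      adj hQ.nd n = -n ∧ adj hB m = -m := by
    generalize S.fac s (sk 𝔟 e w) = N at *
    obtain ⟨n, hn⟩ : N - co hQ.nd (S'.fac j) e e' N ∈ (S'.fac j).range := by
      convert sum_mem fun i (_ : i ∈ Finset.univ) => (S'.fac j).range.mul_mem
        (h1 _ ⟨ro 𝔟 (dbas hQ.nd i) e, rfl⟩).1 ⟨ro 𝔟 e' (bas F U i), rfl⟩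
      simp [co_apply, sub_mul, ← eE_apply, mul_assoc, eE_mul, he.pol', ← Finset.mul_sum, sum_eE]
    have h5 := cm_co (hf := hQ.nd) (φ := S'.fac j) e e' N
    generalize co hQ.nd (S'.fac j) e e' N = m at hn h5
    have h6 := congrArg (adj hB) hn
    simp only [AlgHom.toRingHom_eq_coe, RingHom.coe_coe, adj_fac hQ.nd, map_sub, h4] at hn h6
    refine ⟨(2 : F)⁻¹ • (n - adj hQ.nd n), (2 : F)⁻¹ • (m - adj hB m), (h5.sub (h5.adj hQ.nd)).smul _,
      ?_, by simp [adj_adj pb_symm, ← smul_neg], by simp [adj_adj (pow_symm (S := S)), ← smul_neg]⟩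
    rw [map_smul, map_sub, hn, h6]
    have := hQ.two
    match_scalars <;> field_simp <;> ring
  by_cases hm0 : m = 0
  · exact Or.inl ⟨n, by simp [a1, hm0]⟩
  by_cases hn0 : n = 0
  · exact Or.inr (by simpa [a1, hn0] using hm)
  have key : ∀ d x y, ∃ c : F, 𝔟 ((n * n * d - d * (n * n)) y) x • m +
      𝔟 ((n * d - d * n) y) x • (m * m) = c • 1 := fun d x y => by
    obtain ⟨a, ha⟩ : (S'.fac j n + m) * (S'.fac j n + m) * S'.fac j d * (S'.fac j n + m) -
        (S'.fac j n + m) * S'.fac j d * ((S'.fac j n + m) * (S'.fac j n + m)) ∈ (S'.fac j).range := by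
      rw [← a1, h2]
      convert (S'.fac j).range.smul_mem (h1 _ ⟨d, rfl⟩).2 (-2) using 1
      simp only [smul_mul_assoc, mul_smul_comm, AlgHom.toRingHom_eq_coe, RingHom.coe_coe]
      module
    refine ⟨𝔟 ((a - (n * n * d * n - n * d * (n * n))) y) x, ?_⟩
    rw [← hm.co_phi_mul (hf := hQ.nd), ← (hm.mul hm).co_phi_mul (hf := hQ.nd),
      ← co_phi (hf := hQ.nd) (φ := S'.fac j), ← map_add]
    congr 1
    have b1 : ∀ a T, m * (S'.fac j a * T) = S'.fac j a * (m * T) := fun a T => by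
      rw [← mul_assoc, ← hm, mul_assoc]
    rw [AlgHom.toRingHom_eq_coe, RingHom.coe_coe] at ha
    simp only [map_sub, map_mul, ha, mul_add, add_mul, sub_mul, mul_assoc, b1, ← hm d, ← hm n]
    abel
  have b1 : adj hB (m * m) = m * m := by rw [adj_mul, a3, neg_mul_neg]
  obtain ⟨ν, b2⟩ := exists_smul_of_central hQ.nd (a := n * n) fun d x y => by
    obtain ⟨c, hc⟩ := key d x y
    have := congrArg (adj hB) hc
    rw [map_add, map_smul, map_smul, map_smul, b1, a3, adj_one, ← hc, add_left_inj, smul_neg,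
      neg_eq_iff_add_eq_zero, ← two_smul F, smul_smul] at this
    simpa [hm0, hQ.two] using this
  obtain ⟨d, x, y, b3⟩ : ∃ d x y, 𝔟 ((n * d - d * n) y) x ≠ 0 := by
    by_contra! H
    obtain ⟨c, rfl⟩ := exists_smul_of_central hQ.nd H
    exact hn0 (eq_zero_of_skew hQ.two a2 (by rw [map_smul, adj_one]))
  obtain ⟨μ, b4⟩ : ∃ μ : F, m * m = μ • 1 := by
    obtain ⟨c, hc⟩ := key d x y
    refine ⟨(𝔟 ((n * d - d * n) y) x)⁻¹ * c, ?_⟩
    rw [mul_smul, ← hc, b2]
    simp [-LinearMap.sub_apply, -polarBilin_apply_apply, b3]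
  have b5 : (ν + 3 * μ) • S'.fac j n + (3 * ν + μ) • m = 0 := by
    have b6 := congrArg (S'.fac j) b2
    have b7 := congrArg (· * S.fac s (sk 𝔟 e w)) h2
    simp only [smul_mul_assoc, h3, smul_zero] at b7
    rw [map_mul, map_smul, map_one] at b6
    rw [← b7, a1]
    simp only [mul_add, add_mul, ← hm n, b6, b4, mul_assoc _ m, ← mul_assoc (S'.fac j n) (S'.fac j n),
      smul_mul_assoc, mul_smul_comm, one_mul, mul_one]
    module
  have b6 : ν + 3 * μ = 0 := by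
    have b7 : (ν + 3 * μ) • S'.fac j (n * d - d * n) = 0 := by
      rw [map_sub, map_mul, map_mul, smul_sub, ← smul_mul_assoc, ← mul_smul_comm,
        eq_neg_of_add_eq_zero_left b5, ← (hm.smul _).neg, sub_self]
    have := congrArg (co hQ.nd (S'.fac j) x y) b7
    have h5 := nontrivial_of_ne _ _ hm0
    simpa [-LinearMap.sub_apply, -polarBilin_apply_apply, -map_sub, co_phi, b3] using this
  rw [b6, zero_smul, zero_add, smul_eq_zero, or_iff_left hm0] at b5
  have b7 : μ = 0 := by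
    have : (2 : F) ^ 3 * μ = 0 := by linear_combination 3 * b6 - b5
    simpa [hQ.two] using this
  exact (hm0 (not_sq_zero hQ he (hP' w hw) hw0 hm a1 a2
    (by rw [b2, show ν = 0 by linear_combination b6 - 3 * b7, zero_smul]) (by simp [b4, b7]) hn0)).elim

end Cfsg.Agent.H27
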