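import Cfsg.Agent.H27.OPH

/-!
# Overgroups of tensor induced orthogonal groups: factors containing a root element
-/

set_option autoImplicit false

namespace Cfsg.Agent.H27

open Module Function QuadraticMap H30 H36
open H79 (sk Big sk_apply oU)

variable {F U V τ : Type*} [Field F] [AddCommGroup U] [Module F U] [AddCommGroup V] [Module F V]
  [Fintype τ] [DecidableEq τ] {Q : QuadraticForm F U} {B : LinearMap.BilinForm F V}
  {S S' : TPow τ (polarBilin Q) B} {X : Subgroup (End F V)ˣ} {s j : τ} {e e' u u' v w x y z : U}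
  {D T g l : End F V} [FiniteDimensional F U] [FiniteDimensional F V]

local notation "𝔟" => polarBilin Q

section Alg

variable {f : LinearMap.BilinForm F U} {A : Type*} [Ring A] [Algebra F A]

omit [FiniteDimensional F V] in
theorem phi_injective (hf : f.Nondegenerate) [Nontrivial A] (φ : End F U →ₐ[F] A) : Injective φ :=
  (injective_iff_map_eq_zero φ).2 fun a ha => by_contra fun h =>
    one_ne_zero (cm_one.eq_zero_of_phi hf h (by rw [ha, zero_mul]))

theorem exists_equiv_of_le (hf : f.Nondegenerate) [Nontrivial A] {φ ψ : End F U →ₐ[F] A}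
    (h : φ.range ≤ ψ.range) : ∃ θ : End F U ≃ₐ[F] End F U, ∀ a, ψ (θ a) = φ a := by
  let θ := (AlgEquiv.ofInjective ψ (phi_injective hf ψ)).symm.toAlgHom.comp
    (φ.codRestrict _ fun a => h ⟨a, rfl⟩)
  have h1 : ∀ a, ψ (θ a) = φ a := fun a =>
    congrArg Subtype.val ((AlgEquiv.ofInjective ψ (phi_injective hf ψ)).apply_symm_apply _)
  have h2 : Injective θ := fun a b e => phi_injective hf φ (by rw [← h1, e, h1])
  exact ⟨AlgEquiv.ofBijective θ ⟨h2, LinearMap.surjective_of_injective (f := θ.toLinearMap) h2⟩, h1⟩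

theorem range_eq_of_le (hf : f.Nondegenerate) [Nontrivial A] {φ ψ : End F U →ₐ[F] A}
    (h : φ.range ≤ ψ.range) : φ.range = ψ.range := by
  obtain ⟨θ, h1⟩ := exists_equiv_of_le hf h
  exact le_antisymm h (by rintro _ ⟨a, rfl⟩; exact ⟨θ.symm a, by simpa using (h1 (θ.symm a)).symm⟩)

theorem mul_rk_eE (hf : f.Nondegenerate) (φ : End F U →ₐ[F] End F V) (h : f x y = 1) :
    finrank F U * rk (eE f φ x y) = finrank F V := by
  let Ψ : (Fin (finrank F U) → LinearMap.range (eE f φ x y)) →ₗ[F] V :=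
    ∑ i, eE f φ (dbas hf i) y ∘ₗ Submodule.subtype _ ∘ₗ LinearMap.proj i
  have h1 : ∀ r : LinearMap.range (eE f φ x y), eE f φ x y r = r := by
    rintro ⟨_, p, rfl⟩
    simp [eE_eE, h]
  have := (LinearEquiv.ofBijective Ψ ⟨(injective_iff_map_eq_zero _).2 fun r hr => funext fun j => by
    simpa [Ψ, eE_eE, dbas_bas, h1] using congrArg (eE f φ x (bas F U j)) hr, fun p =>
    ⟨fun i => ⟨eE f φ x (bas F U i) p, eE f φ x (bas F U i) p, by simp [eE_eE, h]⟩, by
      simp [Ψ, eE_eE, h, ← LinearMap.sum_apply, sum_eE]⟩⟩).finrank_eq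
  simpa [finrank_pi_fintype] using this

end Alg

theorem exists_oE (hQ : Big Q) {a : End F U} (h : adj hQ.nd a * a = 1) : ∃ σ, oE Q σ = a := by
  obtain ⟨σ, rfl⟩ := H79.exists_isom_eq hQ.nd (iso_of_adj h)
  exact ⟨⟨σ.1, fun x => by simpa [hQ.two] using σ.2 x x⟩, rfl⟩

variable [Finite F]

theorem OY.home (hX : OY S X) (hX' : OY S' X) (he : H30.IsHyp Q e e')
    (h : eE 𝔟 (S.fac s) e e ∈ (S'.fac j).range) : ∃ l, Cm (S.fac s) l ∧ adj hX.bnd l = -l ∧
      ∀ a, (1 + eE 𝔟 (S.fac s) e e * l) * S.fac s a * (1 - eE 𝔟 (S.fac s) e e * l) ∈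
        (S'.fac j).range := by
  have hQ := hX.og.toBig
  have := hX.nontrivial
  have := nontrivial_pow S hQ.nd
  have inj := phi_injective hQ.nd (S'.fac j)
  obtain ⟨n, hn⟩ := id h
  rw [AlgHom.toRingHom_eq_coe, RingHom.coe_coe] at hn
  have a1 : adj hQ.nd n = n := inj (by rw [← adj_fac (hB := hX.bnd), hn, adj_eE])
  have a2 : n * n = 0 := inj (by simp [hn, eE_mul, he.left])
  obtain ⟨x, hx⟩ := DFunLike.ne_iff.1 (show n ≠ 0 from fun h0 => fac_ne_zero S hQ.nd s
    (ro_ne_zero hQ.nd he.left_ne_zero he.left_ne_zero) (by rw [← eE_apply, ← hn, h0, map_zero]))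
  obtain ⟨y', hy⟩ := exists_isHyp hQ.nd (show Q (n x) = 0 by
    simpa [a1, ← End.mul_apply, a2, hQ.two] using adj_left (hB := hQ.nd) n x (n x)) hx
  have a3 : eE 𝔟 (S.fac s) e e' * eE 𝔟 (S'.fac j) (n x) y' = eE 𝔟 (S'.fac j) (n x) y' := by
    rw [← phi_mul_eE, hn, eE_mul']
    simp [he.pol]
  generalize n x = y at hy a3
  have a4 : n = polar Q y' (n y') • ro 𝔟 y y := by
    have b1 : LinearMap.range (eE 𝔟 (S'.fac j) y y') = LinearMap.range (eE 𝔟 (S.fac s) e e') :=
      Submodule.eq_of_le_of_finrank_eq (a3 ▸ LinearMap.range_comp_le_range _ _)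
        (Nat.eq_of_mul_eq_mul_left (finrank_pos (R := F) (M := U))
          ((mul_rk_eE hQ.nd _ hy.pol).trans (mul_rk_eE hQ.nd _ he.pol).symm))
    have b2 : ro 𝔟 y y' * n = n := inj (LinearMap.ext fun v => by
      obtain ⟨t, ht⟩ := b1.ge ⟨eE 𝔟 (S.fac s) e e v, rfl⟩
      simp only [eE_eE, polarBilin_apply_apply, he.pol, one_smul] at ht
      rw [map_mul, hn, End.mul_apply, ← ht, ← eE_apply, eE_eE]
      simp [hy.pol])
    have b3 : ∀ v, n v = polar Q v (n y') • y := fun v => by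
      rw [← polarBilin_apply_apply, ← adj_left (hB := hQ.nd), a1, ← ro_apply, ← End.mul_apply, b2]
    ext v
    rw [b3, b3 y']
    simp [smul_smul, mul_comm, hy.pol']
  have a5 : polar Q y' (n y') ≠ 0 := by
    intro h0
    simp [a4.trans (by rw [h0, zero_smul])] at hx
  generalize polar Q y' (n y') = c at a4 a5
  have P1 : ∀ g, InG X g → g * eE 𝔟 (S'.fac j) y y' = eE 𝔟 (S'.fac j) y y' → g ∈ (S'.fac j).range :=
    fun g h1 h2 => (hX'.exists_fac hy h1 h2).imp fun _ => Eq.symm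
  have a6 : ∀ w, polar Q e w = 0 → S.fac s (sk 𝔟 e w) ∈ (S'.fac j).range := fun w hw => by
    convert add_mem (sub_mem (P1 _ (hX.eich s he.left hw) (by
      rw [← a3, ← mul_assoc, phi_mul_eE, ← oE_eich he.left hw, oE_apply, eich_apply_self]))
      (one_mem _)) (Subalgebra.smul_mem _ h (Q w)) using 1
    rw [phi_eich]
    abel
  obtain ⟨π, a7⟩ : S.fac s (ro 𝔟 e e' + ro 𝔟 e' e) ∈ (S'.fac j).range := by
    obtain ⟨μ, hμ⟩ := exists_proj hX.og
    obtain ⟨σ, b1, b2, b3⟩ := hμ e e' he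
    obtain ⟨σ', b4, b5, -⟩ := hμ y y' hy
    refine b3 ((S'.fac j).range.comap (S.fac s)) ?_
    have := mul_mem (⟨oE Q σ', rfl⟩ : _ ∈ (S'.fac j).range) (P1 _
      ((hX'.fac j _ (inv_mem b4)).mul (hX.fac s _ b1)) (by
        rw [mul_assoc, ← a3, ← mul_assoc (S.fac s _), phi_mul_eE, oE_apply, b2, map_smul,
          LinearMap.smul_apply, smul_mul_assoc, a3, ← LinearMap.smul_apply, ← map_smul, ← b5,
          phi_mul_eE, oE_apply, O_inv_apply]))
    rwa [AlgHom.toRingHom_eq_coe, RingHom.coe_coe, ← mul_assoc, fac_mul_inv, one_mul] at this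
  rw [AlgHom.toRingHom_eq_coe, RingHom.coe_coe] at a7
  have a8 : adj hQ.nd π = π := inj (by
    rw [← adj_fac (hB := hX.bnd), a7, adj_fac hQ.nd, map_add (adj _), adj_ro pb_symm, adj_ro pb_symm,
      add_comm])
  have a9 : π * π = π := inj (by
    simp [a7, mul_add, add_mul, ← eE_apply, eE_mul, he.pol, he.pol', he.left, he.right])
  have a10 : π y = y := by
    have : ro 𝔟 (π y) y' = ro 𝔟 y y' := inj (by
      rw [← eE_apply, ← phi_mul_eE, a7, ← eE_apply, ← a3, ← mul_assoc, phi_mul_eE]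
      simp [he.pol, he.left])
    simpa [hy.pol] using LinearMap.congr_fun this y
  obtain ⟨z, hz, a11⟩ : ∃ z, H30.IsHyp Q y z ∧ π z = z :=
    ⟨_, exists_isHyp_of_polar hy.left (y := π y') (by
      rw [← polarBilin_apply_apply, ← adj_left (hB := hQ.nd), a8, a10]; exact hy.pol), by
      rw [map_sub, map_smul, a10, ← End.mul_apply, a9]⟩
  obtain ⟨M, b1, b2, b3, b4, b5⟩ : ∃ M ∈ (S'.fac j).range, M * M = 0 ∧ adj hX.bnd M = M ∧
      eE 𝔟 (S.fac s) e e * M * eE 𝔟 (S.fac s) e e = eE 𝔟 (S.fac s) e e ∧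
      S'.fac j π * M = M := ⟨c⁻¹ • eE 𝔟 (S'.fac j) z z, (S'.fac j).range.smul_mem ⟨_, rfl⟩ _,
    by simp [eE_mul, hz.right], by rw [map_smul, adj_eE],
    by simp [← hn, a4, ← eE_apply, eE_mul, hz.pol, hz.pol', a5],
    by rw [mul_smul_comm, phi_mul_eE, a11]⟩
  have b6 : M * S'.fac j π = M := by simpa [adj_mul, b3, adj_fac hQ.nd, a8] using congrArg (adj hX.bnd) b5
  have c0 := fun x y => cm_co (hf := hQ.nd) (φ := S.fac s) x y M
  have c1 : co hQ.nd (S.fac s) e e M = 1 := (c0 e e).cancel hQ.nd he.left_ne_zero he.left_ne_zero cm_one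
    (by rw [eE_mul_co, b4, mul_one])
  have c2 : M = eE 𝔟 (S.fac s) e' e' + eE 𝔟 (S.fac s) e e' * co hQ.nd (S.fac s) e' e M +
      eE 𝔟 (S.fac s) e' e * co hQ.nd (S.fac s) e e' M +
        eE 𝔟 (S.fac s) e e * co hQ.nd (S.fac s) e' e' M := by
    rw [← mul_one (eE 𝔟 (S.fac s) e' e'), ← c1]
    simp only [eE_mul_co]
    rw [a7, map_add, ← eE_apply, ← eE_apply] at b5 b6
    linear_combination (norm := noncomm_ring) -(b5 * (eE 𝔟 (S.fac s) e e' + eE 𝔟 (S.fac s) e' e)) - b6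
  have c3 := adj_co (hB := hX.bnd) (S := S) (s := s) hQ.nd e' e M
  have c4 := c0 e' e
  have c5 := c0 e e'
  have c6 := c0 e' e'
  rw [b3] at c3
  generalize co hQ.nd (S.fac s) e' e M = l at *
  generalize co hQ.nd (S.fac s) e e' M = l' at *
  generalize co hQ.nd (S.fac s) e' e' M = d at *
  have key : ∀ {c : End F V}, Cm (S.fac s) c → ∀ x y T, c * (eE 𝔟 (S.fac s) x y * T) =
      eE 𝔟 (S.fac s) x y * (c * T) := fun h x y T => by rw [← mul_assoc, ← h.comm_eE, mul_assoc]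
  rw [c2] at b2
  simp only [mul_add, add_mul, mul_assoc, key c4, key c5, key c6, ← c4.comm_eE, ← c5.comm_eE,
    ← c6.comm_eE, eE_mul, eE_mul', polarBilin_apply_apply, he.pol, he.pol', he.polar_left,
    he.polar_right, one_smul, zero_smul] at b2
  have c7 : l' = -l := eq_neg_of_add_eq_zero_left <| by
    simpa [c4.co_eE_mul, c5.co_eE_mul, c6.co_eE_mul, (c4.mul c4).co_eE_mul, (c5.mul c5).co_eE_mul,
      (c4.mul c6).co_eE_mul, (c6.mul c5).co_eE_mul, he.pol, he.pol', he.left, he.right] using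
      congrArg (co hQ.nd (S.fac s) e e) b2
  have c8 : d = -(l * l) := eq_neg_of_add_eq_zero_left <| by
    simpa [c4.co_eE_mul, c5.co_eE_mul, c6.co_eE_mul, (c4.mul c4).co_eE_mul, (c5.mul c5).co_eE_mul,
      (c4.mul c6).co_eE_mul, (c6.mul c5).co_eE_mul, he.pol, he.pol', he.left, he.right] using
      congrArg (co hQ.nd (S.fac s) e' e) b2
  refine ⟨l, c4, c3.trans c7, ?_⟩
  have d1 : ∀ x y, polar Q x e = 0 → polar Q e y = 0 → eE 𝔟 (S.fac s) x y ∈ (S'.fac j).range →
      (1 + eE 𝔟 (S.fac s) e e * l) * eE 𝔟 (S.fac s) x y * (1 - eE 𝔟 (S.fac s) e e * l) ∈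
        (S'.fac j).range := fun x y h1 h2 h3 => by
    simpa [mul_sub, add_mul, mul_assoc, ← c4.comm_eE, eE_mul', h1, h2]
  have d2 : (1 + eE 𝔟 (S.fac s) e e * l) * eE 𝔟 (S.fac s) e' e' * (1 - eE 𝔟 (S.fac s) e e * l) ∈
      (S'.fac j).range := by
    convert b1
    simp only [c2, c7, c8, mul_sub, add_mul, mul_assoc, ← c4.comm_eE, key c4, eE_mul',
      polarBilin_apply_apply, he.pol, he.pol', one_smul, one_mul, mul_one, mul_neg]
    abel
  let C := (S'.fac j).range.comap ((cjA F ⟨1 + eE 𝔟 (S.fac s) e e * l, 1 - eE 𝔟 (S.fac s) e e * l,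
    by simp [mul_sub, add_mul, c4.sq_zero he.left], by simp [mul_add, sub_mul, c4.sq_zero he.left]⟩).comp
      (S.fac s))
  have d3 : ro 𝔟 e e ∈ C := d1 e e he.polar_left he.polar_left h
  have d4 : ∀ w ∈ hperp Q e e', ro 𝔟 w e ∈ C ∧ ro 𝔟 e w ∈ C := fun w hw => by
    have h1 := a6 w (by rw [polar_comm, hw.1])
    have h2 : _ ∈ (S'.fac j).range := ⟨π, a7⟩
    refine ⟨d1 _ _ hw.1 he.polar_left ?_, d1 _ _ he.polar_left (by rw [polar_comm, hw.1]) ?_⟩
    · simpa [phi_sk, ← eE_apply, mul_add, sub_mul, eE_mul, he.left, he.pol', polar_comm Q e,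
        polar_comm Q e' w, hw.1, hw.2] using mul_mem h1 h2
    · simpa [phi_sk, ← eE_apply, add_mul, mul_sub, eE_mul, he.left, he.pol, hw.1, hw.2] using mul_mem h2 h1
  refine ro_induction (P := (· ∈ C)) hQ.nd C.zero_mem (fun _ _ => C.add_mem) fun x y => ?_
  have d5 : ro 𝔟 x e ∈ C := by
    obtain ⟨a, b, w, hw, rfl⟩ := he.exists_decomp x
    simp only [ro_add_left, ro_smul_left]
    exact add_mem (add_mem (C.smul_mem d3 _) (C.smul_mem (by
      simpa [ro_mul_ro, he.pol] using C.mul_mem (show ro 𝔟 e' e' ∈ C from d2) d3) _)) (d4 w hw).1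
  have d6 : ro 𝔟 e y ∈ C := by
    obtain ⟨a, b, w, hw, rfl⟩ := he.exists_decomp y
    simp only [ro_add_right, ro_smul_right]
    exact add_mem (add_mem (C.smul_mem d3 _) (C.smul_mem (by
      simpa [ro_mul_ro, he.pol'] using C.mul_mem d3 (show ro 𝔟 e' e' ∈ C from d2)) _)) (d4 w hw).2
  simpa [ro_mul_ro, he.pol, he.pol'] using C.mul_mem (C.mul_mem d5 (show ro 𝔟 e' e' ∈ C from d2)) d6

omit [Finite F] in
theorem comm_of_home (hQ : Big Q) (hB : B.Nondegenerate) (he : H30.IsHyp Q e e') (h1 : Cm (S.fac s) l)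
    (h2 : adj hB l = -l) (h : ∀ a, (1 + eE 𝔟 (S.fac s) e e * l) * S.fac s a *
      (1 - eE 𝔟 (S.fac s) e e * l) ∈ (S'.fac j).range) {g g' : End F V} (hg : g * g' = 1)
    (h3 : adj hB g = g') (h4 : Cm (S.fac s) g) (h5 : ∀ D ∈ (S'.fac j).range, g * D * g' ∈ (S'.fac j).range) :
    g * l = l * g := by
  have : Nontrivial U := ⟨⟨_, _, he.left_ne_zero⟩⟩
  have := nontrivial_pow S hQ.nd
  have hg' := mul_eq_one_comm.1 hg
  have h6 := h4.inv hg hg'
  have h7 := range_eq_of_le hQ.nd (ψ := S'.fac j) (φ := (cjA F ⟨1 + eE 𝔟 (S.fac s) e e * l,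
    1 - eE 𝔟 (S.fac s) e e * l, by simp [mul_sub, add_mul, h1.sq_zero he.left],
    by simp [mul_add, sub_mul, h1.sq_zero he.left]⟩).comp (S.fac s)) (by rintro _ ⟨a, rfl⟩; exact h a)
  obtain ⟨a, ha⟩ := h7.ge (h5 _ (h (ro 𝔟 e' e')))
  have h8 := congrArg (eE 𝔟 (S.fac s) e e' * · * eE 𝔟 (S.fac s) e e)
    (congrArg ((1 - eE 𝔟 (S.fac s) e e * l) * · * (1 + eE 𝔟 (S.fac s) e e * l)) ha)
  have key : ∀ {c : End F V}, Cm (S.fac s) c → ∀ x y T, c * (eE 𝔟 (S.fac s) x y * T) =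
      eE 𝔟 (S.fac s) x y * (c * T) := fun h x y T => by rw [← mul_assoc, ← h.comm_eE, mul_assoc]
  have h9 : (1 - eE 𝔟 (S.fac s) e e * l) * (1 + eE 𝔟 (S.fac s) e e * l) = 1 := by
    simp [mul_add, sub_mul, h1.sq_zero he.left]
  change _ * (_ * (_ * S.fac s a * (1 - _)) * _) * _ = _ at h8
  rw [← mul_assoc (1 - _), ← mul_assoc (1 - _), h9, mul_assoc _ (1 - _), h9, one_mul, mul_one,
    mul_assoc, phi_mul_eE, eE_mul] at h8
  simp only [← eE_apply, mul_add, add_mul, mul_sub, sub_mul, mul_assoc, key h1, key h4, key h6,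
    ← h1.comm_eE, ← h4.comm_eE, ← h6.comm_eE, eE_mul', eE_mul, polarBilin_apply_apply, he.pol,
    he.pol', he.polar_left, one_smul, zero_smul, one_mul, mul_one, he.polar_right, hg, sub_zero,
    add_zero, zero_sub, neg_mul, neg_zero] at h8
  have h10 : g * (l * g') - l = polar Q (a e) e' • 1 :=
    ((h4.mul (h1.mul h6)).sub h1).cancel hQ.nd he.left_ne_zero he.left_ne_zero (cm_one.smul _)
      (by rw [mul_smul_comm, mul_one, h8, mul_sub, neg_add_eq_sub])
  have h11 := eq_zero_of_skew (hB := hB) (a := g * (l * g') - l) hQ.two (by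
    rw [map_sub, adj_mul, adj_mul, ← h3, adj_adj (pow_symm (S := S)), h2, h3]
    noncomm_ring) (by rw [h10, map_smul, adj_one])
  rw [← mul_one (g * l), ← hg', ← mul_assoc, mul_assoc g, sub_eq_zero.1 h11]

omit [Finite F] in
theorem isNilpotent_of_comm (hQ : Big Q) (hB : B.Nondegenerate) (he : H30.IsHyp Q e e')
    (h1 : adj hB l = -l) (h2 : ∀ j w, polar Q e w = 0 →
      S.fac j (H79.eE Q e w) * l = l * S.fac j (H79.eE Q e w)) : IsNilpotent l := by
  have h3 : ∀ j w, polar Q e w = 0 → S.fac j (sk 𝔟 e w) * l = l * S.fac j (sk 𝔟 e w) := fun j w hw => by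
    have a1 := h2 j w hw
    have a2 := h2 j (-w) (by simp [hw])
    rw [phi_eich_neg] at a2
    rw [phi_eich] at a1
    refine smul_right_injective _ hQ.two ?_
    simp only [two_smul]
    linear_combination (norm := noncomm_ring) a1 - a2
  have h4 : ∀ j, eE 𝔟 (S.fac j) e e * l = l * eE 𝔟 (S.fac j) e e := fun j => by
    obtain ⟨w, hw0, hw⟩ := exists_nonsingular_orth hQ.nd hQ.three he.left
    have a1 := h2 j w hw
    rw [phi_eich] at a1
    refine smul_right_injective _ hw0 ?_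
    simp only [← smul_mul_assoc]
    linear_combination (norm := noncomm_ring) h3 j w hw - a1
  have a1 : B (S.pt fun _ => e') (S.pt fun _ => e) = S.c := by simp [S.form, he.pol']
  have a2 : B (S.pt fun _ => e) (S.pt fun _ => e') = S.c := by simp [S.form, he.pol]
  have h5 : l (S.pt fun _ => e) = 0 := by
    have b1 : Phi S (fun _ => ro 𝔟 e e) * l = l * Phi S fun _ => ro 𝔟 e e :=
      Phi_induction S (p := fun x => x * l = l * x) (by simp)
        (fun x y hx hy => by rw [mul_assoc, hy, ← mul_assoc, hx, mul_assoc]) _ h4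
    replace b1 := congrArg (S.c • ·) b1
    simp only [] at b1
    rw [← smul_mul_assoc, ← mul_smul_comm, ← ro_pt] at b1
    have b2 := LinearMap.congr_fun b1 (S.pt fun _ => e')
    have b3 := adj_left (hB := hB) l (S.pt fun _ => e') (S.pt fun _ => e)
    simp only [End.mul_apply, ro_apply, a1, map_smul] at b2
    have b4 := congrArg (B (S.pt fun _ => e')) b2
    simp only [map_smul, ← b3, h1, a1, smul_eq_mul, LinearMap.neg_apply, map_neg] at b4
    have b5 : B (l (S.pt fun _ => e')) (S.pt fun _ => e) = 0 :=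
      mul_left_cancel₀ (mul_ne_zero hQ.two S.c_ne) (by linear_combination b4)
    simpa [b5, S.c_ne] using b2.symm
  obtain ⟨m, hm, hm1⟩ := (l.eventually_disjoint_ker_pow_range_pow.and
    (Filter.eventually_ge_atTop 1)).exists
  refine ⟨m, by_contra fun h0 => ?_⟩
  have h6 : ∀ a : End F V, a * l = l * a → ∀ v ∈ LinearMap.range (l ^ m), a v ∈ LinearMap.range (l ^ m) := by
    rintro a ha _ ⟨v, rfl⟩
    exact ⟨a v, (LinearMap.congr_fun (Commute.pow_right ha m).eq v).symm⟩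
  have key : ∀ T : Finset τ, ∃ v ∈ LinearMap.range (l ^ m), v ≠ 0 ∧
      ∀ j ∈ T, S.fac j (ro 𝔟 e e') v = v := by
    intro T
    induction T using Finset.induction_on with
    | empty =>
      obtain ⟨v, hv⟩ := DFunLike.ne_iff.1 h0
      exact ⟨_, ⟨v, rfl⟩, hv, by simp⟩
    | insert j T hj ih =>
      obtain ⟨v, b1, b2, b3⟩ := ih
      have b4 : ∀ a, S.fac j a * l = l * S.fac j a → S.fac j a v ≠ 0 →
          S.fac j (ro 𝔟 e e' * a) v = S.fac j a v → ∃ v ∈ LinearMap.range (l ^ m), v ≠ 0 ∧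
            ∀ i ∈ insert j T, S.fac i (ro 𝔟 e e') v = v := fun a c1 c2 c3 =>
        ⟨_, h6 _ c1 v b1, c2, fun i hi => by
          rcases Finset.mem_insert.1 hi with rfl | hi'
          · rw [← End.mul_apply, ← map_mul, c3]
          · rw [← End.mul_apply, S.fac_comm (by rintro rfl; exact hj hi'), End.mul_apply, b3 i hi']⟩
      by_cases c1 : eE 𝔟 (S.fac j) e e v = 0
      swap
      · exact b4 _ (h4 j) c1 (by simp [ro_mul_ro, he.pol])
      have c2 : ∀ x, eE 𝔟 (S.fac j) x e v = 0 := fun x => by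
        simpa [eE_eE, he.pol] using congrArg (eE 𝔟 (S.fac j) x e') c1
      by_cases c3 : ∃ w, polar Q e w = 0 ∧ eE 𝔟 (S.fac j) e w v ≠ 0
      · obtain ⟨w, c4, c5⟩ := c3
        exact b4 _ (h3 j w c4) (by simpa [phi_sk, c2])
          (by simp [phi_sk, ← eE_apply, eE_eE, c2, he.pol])
      push Not at c3
      refine b4 1 (by simp) (by simpa) ?_
      have := ro_induction (P := fun a => S.fac j (a * (1 - ro 𝔟 e e')) v = 0) hQ.nd (by simp)
        (fun a b ha hb => by simp only [add_mul, map_add, LinearMap.add_apply, ha, hb, add_zero])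
        (fun x y => by
          simpa [mul_sub, ro_mul_ro, ← eE_apply, eE_eE, he.pol, eE_mul] using congrArg
            (eE 𝔟 (S.fac j) x e') (c3 (y - polar Q e y • e') (by simp [he.pol]))) 1
      simpa [sub_eq_zero, eq_comm (a := v)] using this
  obtain ⟨v, b1, b2, b3⟩ := key Finset.univ
  have b4 : Phi S (fun _ => ro 𝔟 e e') v = v := Phi_induction S (p := fun x => x v = v) rfl
    (fun x y hx hy => by rw [End.mul_apply, hy, hx]) _ fun j => b3 j (by simp)
  have b5 : l v = 0 := by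
    rw [← smul_eq_zero_iff_right S.c_ne, ← map_smul, ← b4, ← LinearMap.smul_apply, ← ro_pt]
    simp [h5]
  obtain ⟨m, rfl⟩ := Nat.exists_eq_add_of_le' hm1
  exact b2 (Submodule.disjoint_def.1 hm v (by simp [pow_succ, b5]) b1)

end Cfsg.Agent.H27
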