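import Cfsg.Agent.H27.OPI

/-!
# Overgroups of tensor induced orthogonal groups: uniqueness of invariant factors
-/

set_option autoImplicit false

namespace Cfsg.Agent.H27

open Module Function QuadraticMap H30 H36
open H79 (sk Big sk_apply oU)

section Filt

variable {F R A : Type*} [Field F] [Ring R] [Algebra F R] [Ring A] [Algebra F A] {φ : R →ₐ[F] A}
  {X : Subgroup Aˣ} {l : A}

theorem exists_inv_comm {t : A} {i : ℕ} (h : InG X (1 + t * l ^ (i + 1))) (ht : Commute l t) :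
    ∃ k, Commute l k ∧ (1 + t * l ^ (i + 1)) * (1 + k * l) = 1 := by
  obtain ⟨g, -, h1, h2⟩ := inG_exists_inv h
  have h3 : Commute l (1 + t * l ^ (i + 1)) :=
    (Commute.one_right l).add_right (ht.mul_right (Commute.self_pow l _))
  have h4 : Commute l g := by
    rw [Commute, SemiconjBy, ← one_mul (l * g), ← h2, mul_assoc, ← mul_assoc _ l, ← h3.eq, mul_assoc,
      h1, mul_one]
  refine ⟨-(g * t * l ^ i), ((h4.mul_right ht).mul_right (Commute.self_pow l _)).neg_right, ?_⟩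
  rw [pow_succ] at h1 h2 ⊢
  linear_combination (norm := noncomm_ring) h1 - (1 + t * (l ^ i * l)) * h2

/-- The leading coefficients of elements of a congruence subgroup. -/
def lead (φ : R →ₐ[F] A) (X : Subgroup Aˣ) {l : A} (hl : ∀ a, Commute l (φ a)) (i : ℕ) :
    AddSubgroup R where
  carrier := {a | ∃ r, Commute l r ∧ InG X (1 + (φ a + r * l) * l ^ (i + 1))}
  add_mem' := by
    rintro a b ⟨r, h1, h2⟩ ⟨r', h3, h4⟩
    have h5 := (hl b).add_right (h3.mul_right (Commute.refl l))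
    refine ⟨r + r' + (φ a + r * l) * l ^ i * (φ b + r' * l), (h1.add_right h3).add_right
      ((((hl a).add_right (h1.mul_right (Commute.refl l))).mul_right (Commute.self_pow l _)).mul_right
        h5), ?_⟩
    convert h2.mul h4 using 1
    rw [map_add, pow_succ]
    linear_combination (norm := noncomm_ring) -((φ a + r * l) * l ^ i * h5.eq * l ^ i * l)
  zero_mem' := ⟨0, Commute.zero_right l, by simpa using inG_one X⟩
  neg_mem' := by
    rintro a ⟨r, h1, h2⟩
    have h3 := (hl a).add_right (h1.mul_right (Commute.refl l))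
    obtain ⟨k, h4, h5⟩ := exists_inv_comm h2 h3
    refine ⟨-r - (φ a + r * l) * k, h1.neg_right.sub_right (h3.mul_right h4), ?_⟩
    convert inG_inv h2 h5 using 1
    rw [map_neg]
    linear_combination (norm := noncomm_ring) -h5 + (φ a + r * l) * (h4.pow_left (i + 1)).eq * l +
      (φ a + r * l) * k * (Commute.self_pow l (i + 1)).eq.symm

variable {hl : ∀ a, Commute l (φ a)} {i : ℕ} {a b : R}

theorem lead_conj (ha : a ∈ lead φ X hl i) {g g' : R} (hg : InG X (φ g)) (h : φ g * φ g' = 1) :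
    g * a * g' ∈ lead φ X hl i := by
  obtain ⟨r, h1, h2⟩ := ha
  refine ⟨φ g * r * φ g', ((hl g).mul_right h1).mul_right (hl g'), ?_⟩
  convert inG_conj hg h h2 using 2
  rw [map_mul, map_mul]
  linear_combination (norm := noncomm_ring) -(φ g * r * (hl g').eq * l ^ (i + 1)) -
    φ g * (φ a + r * l) * ((hl g').pow_left (i + 1)).eq

theorem lead_comm (ha : a ∈ lead φ X hl i) (hb : b ∈ lead φ X hl 0) :
    a * b - b * a ∈ lead φ X hl (i + 1) := by
  obtain ⟨r, h1, h2⟩ := ha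
  obtain ⟨r', h3, h4⟩ := hb
  have h5 := (hl a).add_right (h1.mul_right (Commute.refl l))
  have h6 := (hl b).add_right (h3.mul_right (Commute.refl l))
  obtain ⟨k, h7, h8⟩ := exists_inv_comm h2 h5
  obtain ⟨k', h9, h10⟩ := exists_inv_comm h4 h6
  have h11 : (φ a + r * l) * (φ b + r' * l) - (φ b + r' * l) * (φ a + r * l) = φ (a * b - b * a) +
      (φ a * r' + r * (φ b + r' * l) - φ b * r - r' * (φ a + r * l)) * l := by
    rw [map_sub, map_mul, map_mul]
    linear_combination (norm := noncomm_ring) r * h6.eq - r' * h5.eq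
  have h12 := ((((hl a).mul_right h3).add_right (h1.mul_right h6)).sub_right
    ((hl b).mul_right h1)).sub_right (h3.mul_right h5)
  have h13 := (h2.mul h4).mul ((inG_inv h2 h8).mul (inG_inv h4 h10))
  generalize φ a * r' + r * (φ b + r' * l) - φ b * r - r' * (φ a + r * l) = c at h11 h12
  generalize φ a + r * l = t at *
  generalize φ b + r' * l = t' at *
  have h14 := (h7.add_right h9).add_right ((h7.mul_right (Commute.refl l)).mul_right h9)
  refine ⟨c + (t * t' - t' * t) * (k + k' + k * l * k'), h12.add_right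
    (((h5.mul_right h6).sub_right (h6.mul_right h5)).mul_right h14), ?_⟩
  convert h13 using 1
  rw [add_mul c, ← add_assoc, ← h11]
  have h15 : (1 + t * l ^ (i + 1)) * (1 + t' * l ^ (0 + 1)) = (1 + t' * l ^ (0 + 1)) *
      (1 + t * l ^ (i + 1)) + (t * t' - t' * t) * l ^ (i + 1 + 1) := by
    rw [zero_add, pow_one, pow_succ l (i + 1)]
    linear_combination (norm := noncomm_ring) t * (h6.pow_left (i + 1)).eq * l -
      t' * h5.eq * l ^ (i + 1) - t' * t * (Commute.self_pow l (i + 1)).eq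
  rw [h15]
  linear_combination (norm := noncomm_ring) -((1 + t' * l ^ (0 + 1)) * h8 * (1 + k' * l)) - h10 -
    (t * t' - t' * t) * ((h14.mul_right (Commute.refl l)).pow_left (i + 1 + 1)).eq

end Filt

variable {F U V τ : Type*} [Field F] [AddCommGroup U] [Module F U] [AddCommGroup V] [Module F V]
  [Fintype τ] [DecidableEq τ] {Q : QuadraticForm F U} {B : LinearMap.BilinForm F V}
  {S S' : TPow τ (polarBilin Q) B} {X : Subgroup (End F V)ˣ} {s j : τ} {e e' u u' v w x y z : U}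
  {D T g l : End F V} [FiniteDimensional F U] [FiniteDimensional F V] [Finite F]

local notation "𝔟" => polarBilin Q

theorem OX.conj_mem (hX : OX S X) (hX' : OX S' X) (he : H30.IsHyp Q e e') (h1 : Cm (S.fac s) l)
    (h2 : adj hX.bnd l = -l) (h : ∀ a, (1 + eE 𝔟 (S.fac s) e e * l) * S.fac s a *
      (1 - eE 𝔟 (S.fac s) e e * l) ∈ (S'.fac j).range) {σ : O Q} (hσ : σ ∈ eichGroup Q) :
    InG X ((1 + eE 𝔟 (S.fac s) e e * l) * S.fac s (oE Q σ) * (1 - eE 𝔟 (S.fac s) e e * l)) := by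
  have hQ := hX.og.toBig
  have := hX.nontrivial
  have := nontrivial_pow S hQ.nd
  have a1 : adj hX.bnd (eE 𝔟 (S.fac s) e e * l) = -(eE 𝔟 (S.fac s) e e * l) := by
    rw [adj_mul, h2, adj_eE, neg_mul, h1.comm_eE]
  let φ := (cjA F ⟨1 + eE 𝔟 (S.fac s) e e * l, 1 - eE 𝔟 (S.fac s) e e * l,
    by simp [mul_sub, add_mul, h1.sq_zero he.left],
    by simp [mul_add, sub_mul, h1.sq_zero he.left]⟩).comp (S.fac s)
  have a2 : ∀ σ, ∃ σ', S'.fac j (oE Q σ') = φ (oE Q σ) := fun σ => by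
    obtain ⟨a, ha⟩ := h (oE Q σ)
    obtain ⟨σ', rfl⟩ := exists_oE hQ (a := a) (phi_injective hQ.nd (S'.fac j) (by
      rw [AlgHom.toRingHom_eq_coe, RingHom.coe_coe] at ha
      rw [map_mul, ← adj_fac (hB := hX.bnd), map_one, ha, adj_mul, adj_mul, map_add, map_sub, a1,
        adj_one, adj_fac hQ.nd, adj_oE, sub_neg_eq_add, ← sub_eq_add_neg, ← mul_assoc]
      change φ _ * φ _ = 1
      rw [← map_mul, oE_inv_mul, map_one]))
    exact ⟨σ', ha⟩
  choose θ hθ using a2
  let K := X.comap ((Units.map (φ : End F U →* End F V)).comp (oU Q))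
  rw [← commutator_eq_eichGroup hQ.nd (not_isExc_of_two hQ.two) hQ.three] at hσ
  refine ⟨_, (Subgroup.commutator_le.2 fun σ _ ρ _ => ?_ : _ ≤ K) hσ, rfl⟩
  refine (hX'.fac j (θ σ * θ ρ * (θ σ)⁻¹ * (θ ρ)⁻¹) ?_).mem ?_
  · rw [← commutator_eq_eichGroup hQ.nd (not_isExc_of_two hQ.two) hQ.three]
    exact Subgroup.commutator_mem_commutator (Subgroup.mem_top _) (Subgroup.mem_top _)
  have a3 : ∀ σ, S'.fac j (oE Q (θ σ)⁻¹) = φ (oE Q σ⁻¹) := fun σ => by
    rw [← mul_one (φ _), ← fac_mul_inv (S := S') (s := j) (θ σ), hθ, ← mul_assoc, ← map_mul,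
      oE_inv_mul, map_one, one_mul]
  change φ (oE Q (σ * ρ * σ⁻¹ * ρ⁻¹)) = _
  simp only [map_mul, hθ, a3]

theorem OY.eq_zero_of_nilpotent (hX : OY S X) (he : H30.IsHyp Q e e') (h1 : Cm (S.fac s) l)
    (h2 : IsNilpotent l) (h : ∀ σ ∈ eichGroup Q,
      InG X ((1 + eE 𝔟 (S.fac s) e e * l) * S.fac s (oE Q σ) * (1 - eE 𝔟 (S.fac s) e e * l))) :
    l = 0 := by
  by_contra h0
  have hQ := hX.og.toBig
  have hl : ∀ a, Commute l (S.fac s a) := fun a => (h1 a).symm
  have hL : ∀ i, AInv Q (AlgHom.id F _) (lead (S.fac s) X hl i) := fun i u x hu hx a ha =>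
    lead_conj ha (hX.eich s hu hx) (fac_eich_mul s hu hx)
  obtain ⟨σ, a1, c, hc, a2, -⟩ := exists_swap hQ he
  have a3 : ro 𝔟 e e - (c * c) • ro 𝔟 e' e' ∈ lead (S.fac s) X hl 0 := by
    refine ⟨S.fac s (-(c * c) • ro 𝔟 e e'), hl _, ?_⟩
    convert (h σ a1).mul (hX.fac s _ (inv_mem a1)) using 1
    have b1 := congrArg (S.fac s) (oE_conj_ro σ e e)
    rw [a2, ro_smul_left, ro_smul_right, smul_smul, map_mul, map_mul] at b1
    have b2 : S.fac s (ro 𝔟 e e) * S.fac s ((c * c) • ro 𝔟 e' e') = S.fac s ((c * c) • ro 𝔟 e e') := by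
      simp [← map_mul, ro_mul_ro, he.pol']
    have b3 := h1 (oE Q σ * ro 𝔟 e e * oE Q σ⁻¹)
    rw [map_mul, map_mul] at b3
    rw [neg_smul, map_neg, map_sub, ← b2, ← b1, eE_apply]
    linear_combination (norm := noncomm_ring) -((1 + S.fac s (ro 𝔟 e e) * l) *
      fac_mul_inv (S := S) (s := s) σ) - (1 + S.fac s (ro 𝔟 e e) * l) * S.fac s (oE Q σ) *
      S.fac s (ro 𝔟 e e) * h1 (oE Q σ⁻¹) - S.fac s (ro 𝔟 e e) * b3 * l
  obtain ⟨c₁, hc₁, a4⟩ : ∃ d : F, d ≠ 0 ∧ d • ro 𝔟 e e ∈ lead (S.fac s) X hl 0 := by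
    obtain ⟨d, hd, b1⟩ := (hL 0).ro_mem hQ he.left a3
    rw [eE_mul_co] at b1
    exact ⟨-(d * (c * c)), by simp [hd, hc], by
      simpa [eE_apply, mul_sub, sub_mul, ro_mul_ro, he.left, he.pol, he.pol', mul_smul] using b1⟩
  obtain ⟨c₂, hc₂, a5⟩ : ∃ d : F, d ≠ 0 ∧ d • ro 𝔟 e' e' ∈ lead (S.fac s) X hl 0 := by
    obtain ⟨d, hd, b1⟩ := (hL 0).ro_mem hQ he.right a3
    rw [eE_mul_co] at b1
    exact ⟨d, hd, by
      simpa [eE_apply, mul_sub, sub_mul, ro_mul_ro, he.right, he.pol, he.pol'] using b1⟩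
  have key : ∀ i, ∃ d : F, d ≠ 0 ∧ (d • ro 𝔟 e e ∈ lead (S.fac s) X hl i ∨
      d • sk 𝔟 e e' ∈ lead (S.fac s) X hl i) := fun i => by
    induction i with
    | zero => exact ⟨c₁, hc₁, Or.inl a4⟩
    | succ i ih =>
      obtain ⟨d, hd, b1 | b1⟩ := ih
      · refine ⟨-(d * c₂), by simp [hd, hc₂], Or.inr ?_⟩
        convert lead_comm b1 a5 using 1
        simp only [sk, smul_mul_assoc, mul_smul_comm, ro_mul_ro, polarBilin_apply_apply, he.pol, he.pol']
        module
      · refine ⟨-(2 * d * c₁), by simp [hd, hc₁, hQ.two], Or.inl ?_⟩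
        convert lead_comm b1 a4 using 1
        simp only [sk, smul_mul_assoc, mul_smul_comm, ro_mul_ro, polarBilin_apply_apply, he.pol,
          he.pol', he.polar_left, mul_sub, sub_mul, smul_sub]
        module
  obtain ⟨m, b1, b2⟩ : ∃ m, l ^ (m + 1) ≠ 0 ∧ l ^ (m + 2) = 0 := by
    by_contra! H
    obtain ⟨m, hm⟩ := h2
    have : ∀ m, l ^ (m + 1) ≠ 0 := fun m => by
      induction m with
      | zero => simpa
      | succ m ih => exact H m ih
    exact this m (by rw [pow_succ, hm, zero_mul])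
  obtain ⟨a, b3, b4, r, -, b5⟩ : ∃ a, a ≠ 0 ∧ a e = 0 ∧ a ∈ lead (S.fac s) X hl m := by
    obtain ⟨d, hd, b3 | b3⟩ := key m
    · exact ⟨_, smul_ne_zero hd (ro_ne_zero hQ.nd he.left_ne_zero he.left_ne_zero),
        by simp [he.left], b3⟩
    obtain ⟨w, hw, hw0⟩ := exists_hperp_ne hQ he
    have hw' : polar Q e w = 0 := by rw [polar_comm, hw.1]
    refine ⟨d • sk 𝔟 e w, smul_ne_zero hd fun e1 => hw0 ?_, by simp [he.left, hw'], ?_⟩
    · simpa [he.pol', polar_comm Q e' w, hw.2] using congrArg Q (LinearMap.congr_fun e1 e')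
    convert sub_mem (hL m e w he.left hw' _ b3) b3 using 1
    rw [← oE_eich he.left hw', ← oE_eich_inv he.left hw']
    simp only [AlgHom.id_apply, sk, mul_sub, sub_mul, mul_smul_comm, smul_mul_assoc, oE_conj_ro,
      eich_apply_self, eich_apply he.left hw' e', he.pol', polar_comm Q e' w, hw.2]
    simp only [sub_eq_add_neg, ← neg_smul, ro_add_left, ro_add_right, ro_smul_left, ro_smul_right]
    module
  rw [add_mul, mul_assoc, ← pow_succ', b2, mul_zero, add_zero] at b5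
  obtain ⟨b, b6⟩ := hX.exists_fac (s := s) he b5 (by
    rw [add_mul, mul_assoc, eE_apply, (Commute.pow_left (hl _) _).eq, ← mul_assoc, ← eE_apply,
      phi_mul_eE, b4]
    simp)
  obtain ⟨y, hy⟩ := DFunLike.ne_iff.1 b3
  obtain ⟨x, hx⟩ := exists_apply_eq_one hQ.nd hy
  have b7 := congrArg (co hQ.nd (S.fac s) x y) (eq_sub_of_add_eq' b6)
  rw [Cm.co_phi_mul (fun a => (Commute.pow_left (hl a) _).eq.symm), hx, one_smul,
    ← map_one (S.fac s), ← map_sub, co_phi] at b7
  have b8 := congrArg (· * l ^ (m + 1)) b7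
  simp only [smul_mul_assoc, one_mul, ← pow_add, show m + 1 + (m + 1) = m + 2 + m by ring] at b8
  rw [pow_add, b2, zero_mul, eq_comm, smul_eq_zero, or_iff_left b1] at b8
  exact b1 (by rw [b7, b8, zero_smul])

theorem OY.range_eq (hX : OY S X) (hX' : OY S' X) (he : H30.IsHyp Q e e')
    (h : eE 𝔟 (S.fac s) e e ∈ (S'.fac j).range) (h' : ∀ i ≠ s, ∀ w, polar Q e w = 0 →
      ∀ D ∈ (S'.fac j).range,
        S.fac i (H79.eE Q e w) * D * S.fac i (H79.eE Q e (-w)) ∈ (S'.fac j).range) :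
    (S.fac s).range = (S'.fac j).range := by
  have hQ := hX.og.toBig
  have := hX.nontrivial
  have := nontrivial_pow S hQ.nd
  obtain ⟨l, h1, h2, h3⟩ := hX.home hX' he h
  obtain rfl := hX.eq_zero_of_nilpotent he h1 (isNilpotent_of_comm (S := S) hQ hX.bnd he h2
    fun i w hw => by
      by_cases hi : i = s
      · exact hi ▸ h1 _
      exact comm_of_home hQ hX.bnd he h1 h2 h3 (fac_eich_mul i he.left hw) (adj_eq_of_mul
        (hX.iso _ (hX.eich i he.left hw)) (fac_eich_mul i he.left hw)) (cm_fac S (Ne.symm hi) _)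
        (h' i hi w hw)) fun σ => hX.conj_mem hX'.toOX he h1 h2 h3
  exact range_eq_of_le hQ.nd (by rintro _ ⟨a, rfl⟩; simpa using h3 a)

end Cfsg.Agent.H27
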