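import Cfsg.Agent.H27.OPJ

/-!
# Overgroups of tensor induced orthogonal groups: averaging partial traces
-/

set_option autoImplicit false

namespace Cfsg.Agent.H27

open Module Function QuadraticMap H30 H36 LinearMap
open H79 (sk Big sk_apply oU)

theorem sum_odd {F G M : Type*} [Field F] [AddCommGroup G] [Fintype G] [AddCommGroup M] [Module F M]
    (h2 : (2 : F) ≠ 0) (g : G → M) (h : ∀ t, g (-t) = -g t) : ∑ t, g t = 0 := by
  have := Equiv.sum_comp (Equiv.neg G) g
  simp only [Equiv.neg_apply, h, Finset.sum_neg_distrib] at this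
  rw [← smul_eq_zero_iff_right h2, two_smul, ← neg_eq_iff_add_eq_zero, this]

section Orbit

variable {G α M : Type*} [AddCommGroup G] [Fintype G] [DecidableEq α] [AddCommGroup M]
  (act : G → α → α) (h0 : ∀ a, act 0 a = a) (hadd : ∀ s t a, act (s + t) a = act s (act t a))
include h0 hadd

theorem sum_orbits_eq_zero (n : α → M) (S : Finset α) (hS : ∀ a ∈ S, ∀ s, act s a ∈ S)
    (h : ∀ a ∈ S, ∑ b ∈ Finset.univ.image (act · a), n b = 0) : ∑ a ∈ S, n a = 0 := by
  induction S using Finset.strongInduction with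
  | H S ih =>
    rcases S.eq_empty_or_nonempty with rfl | ⟨a, ha⟩
    · simp
    have h1 : Finset.univ.image (act · a) ⊆ S := fun b hb => by
      obtain ⟨s, -, rfl⟩ := Finset.mem_image.1 hb
      exact hS a ha s
    rw [← Finset.sum_sdiff h1, h a ha, add_zero]
    refine ih _ (Finset.sdiff_ssubset h1 ⟨a, Finset.mem_image.2 ⟨0, Finset.mem_univ _, h0 a⟩⟩)
      (fun b hb s => ?_) fun b hb => h b (Finset.mem_sdiff.1 hb).1
    rw [Finset.mem_sdiff] at hb ⊢
    refine ⟨hS b hb.1 s, fun h2 => hb.2 ?_⟩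
    obtain ⟨t, -, ht⟩ := Finset.mem_image.1 h2
    exact Finset.mem_image.2 ⟨-s + t, Finset.mem_univ _, by
      rw [hadd, ht, ← hadd, neg_add_cancel, h0]⟩

theorem sum_orbit_free {a : α} (h : ∀ s, act s a = a → s = 0) (n : α → M) :
    ∑ b ∈ Finset.univ.image (act · a), n b = ∑ s, n (act s a) :=
  Finset.sum_image fun s _ t _ (e : act s a = act t a) => neg_add_eq_zero.1 (h _ (by
    rw [hadd, ← e, ← hadd, neg_add_cancel, h0]))

theorem sum_orbit_affine {F : Type*} [Field F] [Finite F] [Module F G] [Module F M] (h2 : (2 : F) ≠ 0)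
    {a : α} {t : G} (ht : act t a ≠ a) (n : α → M) (l : G →+ M) (h : ∀ s, n (act s a) = n a + l s) :
    ∑ b ∈ Finset.univ.image (act · a), n b = 0 := by
  classical
  have := Fact.mk (CharP.char_is_prime F (ringChar F))
  have h1 : Nat.card (AddSubgroup.zmultiples t) = ringChar F := by
    rw [Nat.card_zmultiples]
    exact addOrderOf_eq_prime (by rw [← Nat.cast_smul_eq_nsmul F, ringChar.Nat.cast_ringChar, zero_smul])
      (by rintro rfl; exact ht (h0 a))
  have := Fintype.ofFinite (AddSubgroup.zmultiples t)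
  refine sum_orbits_eq_zero (fun (s : AddSubgroup.zmultiples t) => act s) h0 (fun _ _ => hadd _ _) n _
    (fun b hb s => ?_) fun b hb => ?_
  all_goals obtain ⟨r, -, rfl⟩ := Finset.mem_image.1 hb
  · exact Finset.mem_image.2 ⟨s + r, Finset.mem_univ _, hadd ..⟩
  rw [sum_orbit_free (fun (s : AddSubgroup.zmultiples t) => act s) h0 (fun _ _ => hadd _ _) fun s hs =>
    by_contra fun hs0 => ht ?_]
  · have h3 : ∑ s : AddSubgroup.zmultiples t, l s = 0 := sum_odd h2 _ (by simp)
    simp [← hadd, h, Finset.sum_add_distrib, h3, ← Nat.card_eq_fintype_card, h1,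
      ← Nat.cast_smul_eq_nsmul F]
  let K : AddSubgroup (AddSubgroup.zmultiples t) :=
    { carrier := {s | act s a = a}
      add_mem' := fun {x y} (hx : _ = _) (hy : _ = _) => show _ = _ by
        rw [AddSubgroup.coe_add, hadd, hy, hx]
      zero_mem' := h0 a
      neg_mem' := fun {x} (hx : _ = _) => show _ = _ by
        rw [← hx, ← hadd, AddSubgroup.coe_neg, neg_add_cancel, h0, hx] }
  refine (AddSubgroup.zmultiples_le (H := K)).2 (show act s a = a from ?_)
    (mem_zmultiples_of_prime_card h1 hs0 (g' := ⟨t, AddSubgroup.mem_zmultiples t⟩))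
  simpa [← hadd, h0, add_comm] using congrArg (act (-r)) hs

end Orbit

variable {F U V τ : Type*} [Field F] [AddCommGroup U] [Module F U] [AddCommGroup V] [Module F V]
  [FiniteDimensional F U]

section Trace

variable {f : LinearMap.BilinForm F U} {hf : f.Nondegenerate} {φ ψ : End F U →ₐ[F] End F V}
  {D : End F V}

theorem trace_ro (x y : U) : trace F U (ro f x y) = f x y := trace_smulRight _ _

theorem trace_adj (hs : ∀ x y, f x y = f y x) (a : End F U) : trace F U (adj hf a) = trace F U a :=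
  ro_induction (P := fun a => trace F U (adj hf a) = trace F U a) hf (by simp)
    (fun a b ha hb => by simp [ha, hb]) (fun x y => by rw [adj_ro hs, trace_ro, trace_ro, hs]) a

/-- The partial trace. -/
noncomputable def ptr (hf : f.Nondegenerate) (φ : End F U →ₐ[F] End F V) : End F V →ₗ[F] End F U :=
  ∑ i, ∑ j, (trace F V ∘ₗ mulRight F (eE f φ (dbas hf j) (bas F U i))).smulRight
    (ro f (dbas hf i) (bas F U j))

theorem ptr_apply (D : End F V) (x y : U) : f (ptr hf φ D y) x = trace F V (D * eE f φ y x) := by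
  conv_rhs => rw [← sum_dbas hf y, ← sum_bas hf x]
  simp [ptr, Finset.mul_sum, mul_comm, mul_left_comm, mul_assoc]

theorem trace_ptr (D : End F V) (a : End F U) : trace F U (ptr hf φ D * a) = trace F V (D * φ a) :=
  ro_induction (P := fun a => trace F U (ptr hf φ D * a) = trace F V (D * φ a)) hf (by simp)
    (fun a b ha hb => by simp [mul_add, ha, hb]) (fun x y => by rw [mul_ro, trace_ro, ptr_apply, eE_apply]) a

theorem ptr_eq {a : End F U} (h : ∀ x y, trace F V (D * eE f φ y x) = f (a y) x) : ptr hf φ D = a :=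
  LinearMap.ext fun y => sub_eq_zero.1 (hf.1 _ fun x => by simp [ptr_apply, h])

theorem ptr_canon [Nontrivial V] (h : φ.range ≤ ψ.range) (D : End F V) :
    φ (ptr hf φ D) = ψ (ptr hf ψ D) := by
  obtain ⟨θ, h1⟩ := exists_equiv_of_le hf h
  rw [← h1, ptr_eq (φ := ψ) fun x y => ?_]
  rw [← trace_ro, ← mul_ro, ← θ.apply_symm_apply (ro f y x), ← map_mul, trace_map, trace_ptr, ← h1,
    θ.apply_symm_apply, eE_apply]

theorem ptr_conj (x : (End F V)ˣ) (D : End F V) :
    ptr hf ((cjA F x).comp φ) (cjA F x D) = ptr hf φ D :=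
  ptr_eq fun a b => by
    rw [ptr_apply, eE_apply, AlgHom.comp_apply, ← map_mul, cjA_apply, trace_conj, eE_apply]

theorem Cm.ptr_mul (h : Cm φ D) {x y : U} (hxy : f x y = 1) (a : End F U) :
    ptr hf φ (φ a * D) = trace F V (D * eE f φ x y) • a :=
  ptr_eq fun u v => by
    rw [h, mul_assoc, phi_mul_eE, ← one_smul F (eE f φ (a v) u), ← hxy, ← eE_mul, ← mul_assoc,
      trace_mul_comm, ← mul_assoc, h.comm_eE, mul_assoc, eE_mul]
    simp [mul_comm]

theorem Cm.ptr_eq_zero {N : End F V} (h : Cm φ N) (hN : IsNilpotent N) (hD : N * D = D * N) :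
    ptr hf φ (N * D) = 0 :=
  ptr_eq fun u v => by
    rw [mul_assoc, (isNilpotent_trace_of_isNilpotent (Commute.isNilpotent_mul_right
      (Commute.mul_right hD (h.comm_eE _ _).symm) hN)).eq_zero]
    simp

open Classical in
/-- The partial trace attached to a subalgebra. -/
noncomputable def rho (hf : f.Nondegenerate) (C : Subalgebra F (End F V)) : End F V →ₗ[F] End F V :=
  if h : ∃ φ : End F U →ₐ[F] End F V, φ.range = C then h.choose.toLinearMap ∘ₗ ptr hf h.choose else 0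

theorem rho_range [Nontrivial V] (φ : End F U →ₐ[F] End F V) (D : End F V) :
    rho hf φ.range D = φ (ptr hf φ D) := by
  have h : ∃ ψ : End F U →ₐ[F] End F V, ψ.range = φ.range := ⟨φ, rfl⟩
  rw [rho, dif_pos h]
  exact ptr_canon h.choose_spec.le D

theorem rho_map [Nontrivial V] (φ : End F U →ₐ[F] End F V) (x : (End F V)ˣ) (D : End F V) :
    rho hf (φ.range.map (cjA F x)) (cjA F x D) = cjA F x (rho hf φ.range D) := by
  rw [← AlgHom.range_comp, rho_range, rho_range, ptr_conj, AlgHom.comp_apply]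

end Trace

omit [FiniteDimensional F U] in
theorem map_cjA_mul {A : Type*} [Ring A] [Algebra F A] (C : Subalgebra F A) (x y : Aˣ) :
    C.map (cjA F (x * y)) = (C.map (cjA F y)).map (cjA F x) := by
  rw [Subalgebra.map_map]
  congr 1
  ext
  simp [cjA_apply, mul_assoc]

omit [FiniteDimensional F U] in
theorem map_cjA_one {A : Type*} [Ring A] [Algebra F A] (C : Subalgebra F A) :
    C.map (cjA F 1) = C := by
  ext
  simp [cjA_apply]

variable [FiniteDimensional F V] [Fintype τ] [DecidableEq τ] {Q : QuadraticForm F U} {B : LinearMap.BilinForm F V}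
  {S S' : TPow τ (polarBilin Q) B} {X : Subgroup (End F V)ˣ} {s j : τ} {e e' u u' v w x y z : U}
  {D T g l : End F V} [Finite F] {C : Subalgebra F (End F V)}

local notation "𝔟" => polarBilin Q

open Classical in
/-- The conjugates of the factors. -/
noncomputable def orb (S : TPow τ (polarBilin Q) B) (X : Subgroup (End F V)ˣ) :
    Finset (Subalgebra F (End F V)) :=
  have := Module.finite_of_finite F (M := End F V)
  have := Fintype.ofFinite (End F V)
  Finset.univ.filter fun C => ∃ x ∈ X, ∃ j, C = (S.fac j).range.map (cjA F x)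

omit [FiniteDimensional F U] in
theorem mem_orb : C ∈ orb S X ↔ ∃ x ∈ X, ∃ j, C = (S.fac j).range.map (cjA F x) := by simp [orb]

omit [FiniteDimensional F U] in
theorem map_mem_orb {x : (End F V)ˣ} (hx : x ∈ X) (h : C ∈ orb S X) : C.map (cjA F x) ∈ orb S X := by
  obtain ⟨y, hy, j, rfl⟩ := mem_orb.1 h
  exact mem_orb.2 ⟨x * y, mul_mem hx hy, j, (map_cjA_mul ..).symm⟩

omit [FiniteDimensional F U] in
theorem OY.of_orb (hX : OY S X) (h : C ∈ orb S X) :
    ∃ S' : TPow τ (polarBilin Q) B, OY S' X ∧ ∃ j, C = (S'.fac j).range := by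
  obtain ⟨x, hx, j, rfl⟩ := mem_orb.1 h
  exact ⟨_, hX.map hx, j, (AlgHom.range_comp _ _).symm⟩

/-- The average of the partial traces. -/
noncomputable def avg (hf : (polarBilin Q).Nondegenerate) (S : TPow τ (polarBilin Q) B)
    (X : Subgroup (End F V)ˣ) : End F V →ₗ[F] End F V := ∑ C ∈ orb S X, rho hf C

theorem OY.rho_map (hX : OY S X) (h : C ∈ orb S X) (x : (End F V)ˣ) (D : End F V) :
    rho hX.og.nd (C.map (cjA F x)) (cjA F x D) = cjA F x (rho hX.og.nd C D) := by
  obtain ⟨S', -, j, rfl⟩ := hX.of_orb h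
  have := hX.nontrivial
  have := nontrivial_pow S hX.og.nd
  exact H27.rho_map _ x D

theorem OY.avg_conj (hX : OY S X) {x : (End F V)ˣ} (hx : x ∈ X) (D : End F V) :
    avg hX.og.nd S X (cjA F x D) = cjA F x (avg hX.og.nd S X D) := by
  simp only [avg, LinearMap.sum_apply, map_sum]
  exact (Finset.sum_bij' (fun C _ => C.map (cjA F x)) (fun C _ => C.map (cjA F x⁻¹))
    (fun C hC => map_mem_orb hx hC) (fun C hC => map_mem_orb (inv_mem hx) hC)
    (fun C _ => by rw [← map_cjA_mul, inv_mul_cancel, map_cjA_one])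
    (fun C _ => by rw [← map_cjA_mul, mul_inv_cancel, map_cjA_one])
    fun C hC => (hX.rho_map hC x D).symm).symm

theorem OY.avg_comm (hX : OY S X) (hg : InG X g) (h : g * D = D * g) :
    g * avg hX.og.nd S X D = avg hX.og.nd S X D * g := by
  obtain ⟨x, hx, rfl⟩ := hg
  have := hX.avg_conj hx D
  rw [cjA_apply, cjA_apply, h, Units.mul_inv_cancel_right] at this
  rw [this, Units.inv_mul_cancel_right, ← this]

theorem OY.adj_avg (hX : OY S X) (D : End F V) :
    adj hX.bnd (avg hX.og.nd S X D) = avg hX.og.nd S X (adj hX.bnd D) := by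
  simp only [avg, LinearMap.sum_apply, map_sum]
  refine Finset.sum_congr rfl fun C hC => ?_
  obtain ⟨S', -, j, rfl⟩ := hX.of_orb hC
  have := hX.nontrivial
  have := nontrivial_pow S hX.og.nd
  rw [rho_range, rho_range, adj_fac hX.og.nd, ptr_eq (D := adj _ D) fun x y => ?_]
  rw [adj_left, pb_symm, ptr_apply, ← adj_eE (hB := hX.bnd), ← adj_mul,
    trace_adj (pow_symm (S := S)), trace_mul_comm]

theorem OY.card_home (hX : OY S X) (he : H30.IsHyp Q e e') [DecidablePred fun C : Subalgebra F (End F V) =>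
    eE 𝔟 (S.fac s) e e ∈ C] : (((orb S X).filter (eE 𝔟 (S.fac s) e e ∈ ·)).card : F) = 1 := by
  classical
  have := Module.finite_of_finite F (M := U)
  have := Fintype.ofFinite (τ → ker (𝔟 e))
  let θ : (τ → ker (𝔟 e)) → (End F V)ˣ := fun t => ⟨Phi S fun i => oE Q (H30.eich Q e (t i)),
    Phi S fun i => oE Q (H30.eich Q e (t i))⁻¹, Phi_mul_inv _, mul_eq_one_comm.1 (Phi_mul_inv _)⟩
  have h0 : θ 0 = 1 := Units.ext (by simp [θ, eich_zero, ← Pi.one_def])
  have h1 : ∀ t t', θ (t + t') = θ t * θ t' := fun t t' => Units.ext (by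
    simp only [θ, Units.val_mul, ← map_mul]
    exact congrArg _ (funext fun i => by
      rw [Pi.mul_apply, ← map_mul, eich_mul he.left (t i).2 (t' i).2]; rfl))
  have h2 : ∀ t, θ t ∈ X := fun t => (hX.phi fun i => eich_mem_eichGroup _ _).mem rfl
  have h3 : ∀ t a, cjA F (θ t) (S.fac s a) =
      S.fac s (oE Q (H30.eich Q e (t s)) * a * oE Q (H30.eich Q e (t s))⁻¹) := fun t a => by
    rw [cjA_apply, Units.mul_inv_eq_iff_eq_mul]
    simp only [θ]
    rw [← update_eq_self s fun i => oE Q _, Phi_update, mul_assoc, ← cm_Phi S (update_self ..),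
      ← mul_assoc, ← mul_assoc, ← map_mul, ← map_mul, mul_assoc _ (oE Q _⁻¹), oE_inv_mul, mul_one]
  have h4 : ∀ t, cjA F (θ t) (eE 𝔟 (S.fac s) e e) = eE 𝔟 (S.fac s) e e := fun t => by
    rw [eE_apply, h3, oE_conj_ro, eich_apply_self]
  have h5 : ∀ t, (S.fac s).range.map (cjA F (θ t)) = (S.fac s).range := fun t => by
    have := hX.nontrivial
    have := nontrivial_pow S hX.og.nd
    rw [← AlgHom.range_comp]
    exact range_eq_of_le hX.og.nd (by rintro _ ⟨a, rfl⟩; exact ⟨_, (h3 t a).symm⟩)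
  have a0 : ∀ C : Subalgebra F (End F V), C.map (cjA F (θ 0)) = C := fun C => by rw [h0, map_cjA_one]
  have a1 : ∀ t t' (C : Subalgebra F (End F V)), C.map (cjA F (θ (t + t'))) =
      (C.map (cjA F (θ t'))).map (cjA F (θ t)) := fun t t' C => by rw [h1, map_cjA_mul]
  rw [Finset.card_eq_sum_ones, Nat.cast_sum, ← Finset.add_sum_erase _ _ (a := (S.fac s).range)
    (Finset.mem_filter.2 ⟨mem_orb.2 ⟨1, one_mem _, s, (map_cjA_one _).symm⟩, _, rfl⟩), Nat.cast_one,
    add_eq_left]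
  refine sum_orbits_eq_zero (fun t C => C.map (cjA F (θ t))) a0 a1 _ _ (fun C hC t => ?_) fun C hC => ?_
  all_goals
    rw [Finset.mem_erase, Finset.mem_filter] at hC
  · rw [Finset.mem_erase, Finset.mem_filter]
    exact ⟨fun h => hC.1 (by rw [← a0 C, ← neg_add_cancel t, a1, h, h5]),
      map_mem_orb (h2 t) hC.2.1, _, hC.2.2, h4 t⟩
  obtain ⟨t, ht⟩ : ∃ t, C.map (cjA F (θ t)) ≠ C := by
    by_contra! H
    obtain ⟨S', hS, j, rfl⟩ := hX.of_orb hC.2.1
    refine hC.1 (hX.range_eq hS he hC.2.2 fun i _ w hw D hD => ?_).symm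
    have b1 : (θ (Pi.single i ⟨w, hw⟩)).1 = S.fac i (H79.eE Q e w) := by
      rw [← oE_eich he.left hw, ← Phi_single]
      exact congrArg (Phi S) (funext fun l => by by_cases hl : l = i <;> simp [hl, eich_zero])
    have b2 := (H (Pi.single i ⟨w, hw⟩)).le ⟨D, hD, rfl⟩
    rwa [RingHom.coe_coe, cjA_apply, Units.inv_eq_of_mul_eq_one_right
      (b1 ▸ fac_eich_mul i he.left hw), b1] at b2
  exact sum_orbit_affine (F := F) (fun t (C : Subalgebra F (End F V)) => C.map (cjA F (θ t))) a0 a1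
    hX.og.two ht (fun _ => (1 : F)) 0 (by simp)

theorem OY.avg_mul (hX : OY S X) (he : H30.IsHyp Q e e') {P : Submodule F U} [Fintype P]
    (hP : PS Q e P) (hw : w ∈ P) (hw0 : Q w ≠ 0) (hD : Cm (S.fac s) D) :
    avg hX.og.nd S X (S.fac s (sk 𝔟 e w) * D) * S.fac s (sk 𝔟 e w) =
      trace F V (D * eE 𝔟 (S.fac s) e e') • (S.fac s (sk 𝔟 e w) * S.fac s (sk 𝔟 e w)) := by
  classical
  have hQ := hX.og.toBig
  have := hX.nontrivial
  have := nontrivial_pow S hQ.nd
  have b1 : ∀ v : P, S.fac s (sk 𝔟 e v) * S.fac s (sk 𝔟 e w) =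
      -QuadraticMap.polar Q v w • eE 𝔟 (S.fac s) e e := fun v => by
    rw [← map_mul, sk_mul_sk he.left (hP.perp _ v.2) (hP.perp w hw), map_smul, eE_apply]
  have b2 : ∀ v : P, S.fac s (sk 𝔟 e w) * S.fac s (sk 𝔟 e v) =
      -QuadraticMap.polar Q v w • eE 𝔟 (S.fac s) e e := fun v => by
    rw [← map_mul, sk_mul_sk he.left (hP.perp w hw) (hP.perp _ v.2), map_smul, eE_apply, polar_comm]
  have b3 : ∀ v : P, eE 𝔟 (S.fac s) e e * S.fac s (sk 𝔟 e v) = 0 := fun v => by
    rw [eE_apply, ← map_mul, ro_mul_sk he.left (hP.perp _ v.2), map_zero]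
  have b4 : ∀ v : P, S.fac s (sk 𝔟 e v) * eE 𝔟 (S.fac s) e e = 0 := fun v => by
    rw [eE_apply, ← map_mul, sk_mul_ro he.left (hP.perp _ v.2), map_zero]
  have b5 : eE 𝔟 (S.fac s) e e * eE 𝔟 (S.fac s) e e = 0 := by simp [eE_mul, he.left]
  have b6 := b3 ⟨w, hw⟩
  have b7 := b4 ⟨w, hw⟩
  dsimp only at b6 b7
  rw [avg, LinearMap.sum_apply, Finset.sum_mul, ← Finset.sum_filter_add_sum_filter_not _
    (eE 𝔟 (S.fac s) e e ∈ ·), Finset.sum_congr rfl (g := fun _ => trace F V (D * eE 𝔟 (S.fac s) e e') •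
      (S.fac s (sk 𝔟 e w) * S.fac s (sk 𝔟 e w))) fun C hC => ?_, Finset.sum_const,
    ← Nat.cast_smul_eq_nsmul F, hX.card_home he, one_smul, add_eq_left]
  swap
  · obtain ⟨S', hS, j, rfl⟩ := hX.of_orb (Finset.mem_filter.1 hC).1
    obtain ⟨l, h1, -, h3⟩ := hX.home hS he (Finset.mem_filter.1 hC).2
    let u : (End F V)ˣ := ⟨1 + eE 𝔟 (S.fac s) e e * l, 1 - eE 𝔟 (S.fac s) e e * l,
      by simp [mul_sub, add_mul, h1.sq_zero he.left], by simp [mul_add, sub_mul, h1.sq_zero he.left]⟩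
    have h4 : ∀ D, Cm (S.fac s) D → cjA F u (S.fac s (sk 𝔟 e w) * D) = S.fac s (sk 𝔟 e w) * D := by
      intro D hD
      rw [cjA_apply, Units.mul_inv_eq_iff_eq_mul]
      simp only [u, add_mul, mul_add, one_mul, mul_one, mul_assoc, ← mul_assoc l, ← h1 (sk 𝔟 e w),
        ← mul_assoc D, ← hD.comm_eE]
      simp [← mul_assoc, b6, b7]
    rw [← range_eq_of_le hQ.nd (φ := (cjA F u).comp (S.fac s)) (by rintro _ ⟨a, rfl⟩; exact h3 a),
      AlgHom.range_comp, ← h4 D hD, H27.rho_map, rho_range, hD.ptr_mul he.pol, map_smul, map_smul,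
      ← mul_one (S.fac s (sk 𝔟 e w)), h4 1 cm_one, mul_one, smul_mul_assoc]
  let θ : P → (End F V)ˣ := fun v => ⟨S.fac s (H79.eE Q e v), S.fac s (H79.eE Q e (-v)),
    fac_eich_mul s he.left (hP.perp _ v.2), mul_eq_one_comm.1 (fac_eich_mul s he.left (hP.perp _ v.2))⟩
  have a0 : ∀ C : Subalgebra F (End F V), C.map (cjA F (θ 0)) = C := fun C => by
    rw [show θ 0 = 1 from Units.ext (by simp [θ, eE_zero]), map_cjA_one]
  have a1 : ∀ t t' (C : Subalgebra F (End F V)), C.map (cjA F (θ (t + t'))) =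
      (C.map (cjA F (θ t'))).map (cjA F (θ t)) := fun t t' C => by
    rw [show θ (t + t') = θ t * θ t' from Units.ext (by
      simp [θ, eE_add he.left (hP.perp _ t.2) (hP.perp _ t'.2)]), map_cjA_mul]
  have a2 : ∀ t, cjA F (θ t) (eE 𝔟 (S.fac s) e e) = eE 𝔟 (S.fac s) e e := fun t => by
    rw [cjA_apply, Units.mul_inv_eq_iff_eq_mul]
    simp [θ, phi_eich, add_mul, mul_add, sub_mul, mul_sub, b3, b4, b5]
  have a3 : ∀ t, cjA F (θ t) (S.fac s (sk 𝔟 e w) * D) = S.fac s (sk 𝔟 e w) * D := fun t => by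
    rw [cjA_apply, Units.mul_inv_eq_iff_eq_mul, mul_assoc]
    simp only [θ, ← hD (H79.eE Q e t), ← mul_assoc]
    simp [phi_eich, add_mul, mul_add, sub_mul, mul_sub, b1, b2, b6, b7]
  refine sum_orbits_eq_zero (fun t C => C.map (cjA F (θ t))) a0 a1 _ _ (fun C hC t => ?_) fun C hC => ?_
  all_goals rw [Finset.mem_filter] at hC
  · refine Finset.mem_filter.2 ⟨map_mem_orb ((hX.eich s he.left (hP.perp _ t.2)).mem rfl) hC.1,
      fun h => hC.2 ?_⟩
    rw [← a0 C, ← neg_add_cancel t, a1]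
    exact ⟨_, h, a2 _⟩
  have a4 : ∀ t, rho hQ.nd (C.map (cjA F (θ t))) (S.fac s (sk 𝔟 e w) * D) =
      S.fac s (H79.eE Q e t) * rho hQ.nd C (S.fac s (sk 𝔟 e w) * D) * S.fac s (H79.eE Q e (-t)) :=
    fun t => by rw [← a3 t, hX.rho_map hC.1, a3]; rfl
  by_cases h1 : ∀ t, C.map (cjA F (θ t)) = C
  · obtain ⟨S', hS, j, rfl⟩ := hX.of_orb hC.1
    refine Finset.sum_eq_zero fun b hb => ?_
    obtain ⟨t, -, rfl⟩ := Finset.mem_image.1 hb
    rcases mem_or_cm hX.og hX.bnd he hP.sp hP.perp hw hw0 fun v hv D hD =>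
      (h1 ⟨v, hv⟩).le ⟨D, hD, rfl⟩ with h | h
    · have := Subalgebra.smul_mem _ (mul_mem h h) (-(2 * Q w))⁻¹
      rw [b1 ⟨w, hw⟩, polar_self', inv_smul_smul₀ (neg_ne_zero.2 (mul_ne_zero hQ.two hw0))] at this
      exact (hC.2 this).elim
    rw [h1, rho_range, h.ptr_eq_zero ⟨3, by simp [pow_succ, b1 ⟨w, hw⟩, b6]⟩ (hD _), map_zero, zero_mul]
  generalize rho hQ.nd C (S.fac s (sk 𝔟 e w) * D) = Y at a4
  have a5 : ∀ t : P, S.fac s (H79.eE Q e t) * Y * S.fac s (H79.eE Q e (-t)) * S.fac s (sk 𝔟 e w) =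
      Y * S.fac s (sk 𝔟 e w) + (S.fac s (sk 𝔟 e t) * Y * S.fac s (sk 𝔟 e w) +
        QuadraticMap.polar Q t w • (Y * eE 𝔟 (S.fac s) e e) - (Q t * QuadraticMap.polar Q t w) •
          (eE 𝔟 (S.fac s) e e * Y * eE 𝔟 (S.fac s) e e)) +
      (QuadraticMap.polar Q t w • (S.fac s (sk 𝔟 e t) * Y * eE 𝔟 (S.fac s) e e) -
        Q t • (eE 𝔟 (S.fac s) e e * Y * S.fac s (sk 𝔟 e w))) := fun t => by
    simp only [phi_eich_neg, mul_assoc, sub_mul, b1, b6, one_mul, smul_mul_assoc, smul_zero]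
    simp only [phi_eich, sub_mul, add_mul, mul_sub, one_mul, smul_mul_assoc, mul_smul_comm,
      mul_zero]
    module
  by_cases h2 : ∀ t, C.map (cjA F (θ t)) = C → t = 0
  · rw [sum_orbit_free (fun t (C : Subalgebra F (End F V)) => C.map (cjA F (θ t))) a0 a1 h2]
    simp only [a4, a5]
    have c1 : ((Finset.univ : Finset P).card : F) = 0 := by
      obtain ⟨x, hx⟩ := exists_apply_eq_one hQ.nd (ne_zero_of_Q_ne_zero hw0)
      simpa [-polarBilin_apply_apply, hx, Finset.sum_add_distrib] using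
        Equiv.sum_comp (Equiv.addRight (⟨w, hw⟩ : P)) fun t => 𝔟 t x
    rw [Finset.sum_add_distrib, Finset.sum_add_distrib, Finset.sum_const, ← Nat.cast_smul_eq_nsmul F,
      c1, zero_smul, zero_add, sum_odd hQ.two _ fun t => ?_, zero_add]
    · refine (Module.forall_dual_apply_eq_zero_iff F _).1 fun φ => ?_
      rw [map_sum, ← hP.sum ((((polarBilin Q).flip w).smulRight ((mulRight F (Y * eE 𝔟 (S.fac s) e e) ∘ₗ
        (S.fac s).toLinearMap ∘ₗ skL 𝔟 e)) - (polarBilin Q).compr₂ (toSpanSingleton F _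
          ((2 : F)⁻¹ • (eE 𝔟 (S.fac s) e e * Y * S.fac s (sk 𝔟 e w))))).compr₂ φ)]
      simp [skL_apply, mul_assoc, mul_left_comm _ (Q _), hQ.two]
    · simp only [← skL_apply, Submodule.coe_neg, map_neg, polar_neg_left, QuadraticMap.map_neg, neg_mul]
      module
  push Not at h1 h2
  obtain ⟨t, ht⟩ := h1
  obtain ⟨v, h1, h2⟩ := h2
  have a6 := a4 0
  rw [a0] at a6
  simp only [Submodule.coe_zero, neg_zero, eE_zero, map_one, mul_one, one_mul] at a6
  have a7 : ∀ v, C.map (cjA F (θ v)) = C → S.fac s (H79.eE Q e v) * Y = Y * S.fac s (H79.eE Q e v) :=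
    fun v h => by
      have := congrArg (· * (θ v).1) ((a4 v).symm.trans (h ▸ a6))
      rwa [mul_assoc, show S.fac s (H79.eE Q e (-v)) * (θ v).1 = 1 from (θ v).inv_mul, mul_one] at this
  have a8 := a7 v h1
  have a9 := a7 (-v) (by rw [← h1, ← a1, neg_add_cancel, a0, h1])
  rw [Submodule.coe_neg, phi_eich_neg] at a9
  rw [phi_eich] at a8
  have a10 : eE 𝔟 (S.fac s) e e * Y = Y * eE 𝔟 (S.fac s) e e := by
    refine smul_right_injective _ (mul_ne_zero hQ.two fun h => h2 (Subtype.ext (hP.aniso _ v.2 h))) ?_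
    simp only [sub_mul, add_mul, mul_sub, mul_add, smul_mul_assoc, mul_smul_comm, one_mul,
      mul_one] at a8 a9
    linear_combination (norm := module) -a8 - a9
  refine sum_orbit_affine (F := F) (fun t (C : Subalgebra F (End F V)) => C.map (cjA F (θ t))) a0 a1
    hQ.two ht _ ((mulRight F (Y * S.fac s (sk 𝔟 e w)) ∘ₗ (S.fac s).toLinearMap ∘ₗ skL 𝔟 e +
      ((polarBilin Q).flip w).smulRight (Y * eE 𝔟 (S.fac s) e e)) ∘ₗ P.subtype).toAddMonoidHom
    fun t => ?_
  rw [a4, a5, a6, mul_assoc _ Y (eE _ _ _ _), mul_assoc _ Y (eE _ _ _ _), ← a10, ← mul_assoc,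
    ← mul_assoc, b4, b5, a10, mul_assoc Y, b6]
  simp [skL_apply, mul_assoc]

end Cfsg.Agent.H27
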