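import Cfsg.Agent.H27.OPK
import Cfsg.Agent.H30.DecBig

/-!
# Overgroups of tensor induced orthogonal groups: the invariant Lie algebra
-/

set_option autoImplicit false

namespace Cfsg.Agent.H27

open Module Function QuadraticMap H30 H36
open H79 (sk Big sk_apply oU)

variable {F U V τ : Type*} [Field F] [AddCommGroup U] [Module F U] [AddCommGroup V] [Module F V]
  [Fintype τ] [DecidableEq τ] {Q : QuadraticForm F U} {B : LinearMap.BilinForm F V}
  {S S' : TPow τ (polarBilin Q) B} {X : Subgroup (End F V)ˣ} {s j : τ} {e e' u u' v w x y z : U}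
  {D T g l : End F V} [FiniteDimensional F U] [FiniteDimensional F V]

local notation "𝔟" => polarBilin Q

theorem skew_self (hQ : Big Q) {a : End F U} (h : adj hQ.nd a = -a) (x : U) : polar Q (a x) x = 0 := by
  have := skew_polar h x x
  rw [polar_comm Q x, eq_neg_iff_add_eq_zero, ← two_mul] at this
  exact (mul_eq_zero.1 this).resolve_left hQ.two

theorem skew_eq_zero_of_hyp (hQ : Big Q) (he : H30.IsHyp Q e e') (hw : w ∈ hperp Q e e') (hw0 : Q w ≠ 0)
    {a : End F U} (h : adj hQ.nd a = -a) (h1 : a e = 0) (h2 : a w = 0)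
    (h3 : ∀ v ∈ hperp Q e e', Q v ≠ 0 → polar Q w v = 0 → a v = 0) : a = 0 := by
  have h4 : ∀ x ∈ hperp Q e e', a x = 0 := fun x hx => by
    have : a (x - (polar Q w x / (2 * Q w)) • w) = 0 := by_contra fun h4 => hQ.two
      (((he.nondegOn_hperp hQ.nd).inf_perp_singleton hQ.two hw hw0).mem_of_nonsingular
        (LinearMap.ker a).toAddSubgroup (fun v hv h0 => h3 v hv.1 h0 (mem_perp_singleton.1 hv.2))
        ⟨sub_mem hx (Submodule.smul_mem _ _ hw), mem_perp_singleton.2 (by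
          simp [mul_ne_zero hQ.two hw0])⟩ h4).1.two_eq_zero
    simpa [h2] using this
  have h5 : a e' = 0 := eq_zero_of_polar hQ.nd fun z => by
    obtain ⟨b, c, x, hx, rfl⟩ := he.exists_decomp z
    simp [skew_self hQ h, skew_polar h e' e, skew_polar h e' x, h1, h4 x hx]
  ext z
  obtain ⟨b, c, x, hx, rfl⟩ := he.exists_decomp z
  simp [h1, h5, h4 x hx]

omit [FiniteDimensional F U] in
theorem exists_isHyp_orth (hQ : Big Q) (he : Q e = 0) (he0 : e ≠ 0) (hw : polar Q e w = 0)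
    (hw0 : Q w ≠ 0) : ∃ e', H30.IsHyp Q e e' ∧ w ∈ hperp Q e e' := by
  obtain ⟨e', h⟩ := exists_isHyp hQ.nd he he0
  exact ⟨_, exists_isHyp_of_polar he (y := e' - (polar Q w e' / (2 * Q w)) • w) (by simp [h.pol, hw]),
    by rwa [polar_comm], by simp [mul_ne_zero hQ.two hw0, polar_comm Q w e, hw]⟩

theorem cm_of_sk {A : Type*} [Ring A] [Algebra F A] {φ : End F U →ₐ[F] A} (hQ : Big Q)
    (C : Subalgebra F A) (h : ∀ x y, φ (sk 𝔟 x y) ∈ C) (a : End F U) : φ a ∈ C :=
  ro_induction (P := (φ · ∈ C)) hQ.nd (by simp) (fun a b ha hb => by simpa using add_mem ha hb)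
    (H79.ro_mem_of_singular hQ.nd hQ.hyp (C.comap φ).toSubmodule (fun _ ha _ hb => (C.comap φ).mul_mem ha hb)
      fun u hu => by
        obtain ⟨x, hx, h4⟩ := exists_nonsingular_orth hQ.nd hQ.three hu
        have := (C.comap φ).smul_mem ((C.comap φ).mul_mem (h u x) (h u x)) (-(2 * Q x))⁻¹
        rwa [sk_mul_sk hu h4 h4, polar_self',
          inv_smul_smul₀ (neg_ne_zero.2 (mul_ne_zero hQ.two hx))] at this) a

variable [Finite F]

theorem OY.avg_sk (hX : OY S X) (s : τ) (x y : U) : avg hX.og.nd S X (S.fac s (sk 𝔟 x y)) =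
    ((finrank F V / finrank F U : ℕ) : F) • S.fac s (sk 𝔟 x y) := by
  have hQ := hX.og.toBig
  have := hX.nontrivial
  have := nontrivial_pow S hQ.nd
  obtain ⟨e, e₀, h₀⟩ := hQ.hyp
  obtain ⟨P, _, hP⟩ := exists_ps hX.og h₀.left h₀.left_ne_zero
  obtain ⟨w, hw, hw0⟩ := hP.ne
  replace hw0 : Q w ≠ 0 := fun h => hw0 (hP.aniso w hw h)
  obtain ⟨e', he, hw'⟩ := exists_isHyp_orth hQ h₀.left h₀.left_ne_zero (hP.perp w hw) hw0
  generalize hd : ((finrank F V / finrank F U : ℕ) : F) = d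
  refine LinearMap.mem_eqLocus.1 (sk_mem_of_inv hX.og (LinearMap.eqLocus (avg hX.og.nd S X ∘ₗ
    (S.fac s).toLinearMap) (d • (S.fac s).toLinearMap)) (fun u v hu hv a ha => ?_) he.left
    he.left_ne_zero (hP.perp w hw) hw0 ?_ x y)
  · obtain ⟨g, hg, h1⟩ := hX.eich s hu hv
    have h2 := hX.avg_conj hg (S.fac s a)
    simp only [cjA_apply, Units.inv_eq_of_mul_eq_one_right (h1 ▸ fac_eich_mul s hu hv), h1] at h2
    simp at ha
    simp [h2, ha]
  have h1 := hX.avg_mul (s := s) he hP hw hw0 cm_one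
  have h2 : LinearMap.trace F V (eE 𝔟 (S.fac s) e e') = d := by
    rw [(LinearMap.IsIdempotentElem.isProj_range (f := eE 𝔟 (S.fac s) e e') (by
      simp [IsIdempotentElem, eE_mul, he.pol])).trace, ← hd,
      ← mul_rk_eE hQ.nd (S.fac s) he.pol, Nat.mul_div_cancel_left _ finrank_pos]
  rw [mul_one, one_mul, h2] at h1
  obtain ⟨a, ha⟩ := exists_fac_of_cm S hQ.nd (s := s) (T := avg hX.og.nd S X (S.fac s (sk 𝔟 e w)))
    fun j hj => cm_of_omega hQ fun σ hσ => hX.avg_comm (hX.fac j σ hσ) (S.fac_comm hj _ _)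
  have inj := phi_injective hQ.nd (S.fac s)
  have h3 : (a - d • sk 𝔟 e w) * sk 𝔟 e w = 0 := inj (by simp [sub_mul, ← ha, h1])
  have h4 : adj hQ.nd (a - d • sk 𝔟 e w) = -(a - d • sk 𝔟 e w) := inj (by
    rw [← adj_fac (hB := hX.bnd), map_neg, map_sub, map_smul, ← ha, map_sub, hX.adj_avg, map_smul,
      adj_fac hQ.nd, adj_sk pb_symm, map_neg, map_neg, smul_neg, neg_sub_neg, neg_sub])
  have h5 := skew_eq_zero_of_hyp hQ he hw' hw0 h4 (by
    simpa [-LinearMap.sub_apply, hw'.1, hQ.two, hw0] using LinearMap.congr_fun h3 w) (by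
    simpa [-LinearMap.sub_apply, he.pol', polar_comm Q e' w, hw'.2] using LinearMap.congr_fun h3 e')
    fun v hv hv0 hv' => by
      have := hX.nt
      obtain ⟨j, hj⟩ := exists_ne s
      have b1 : oE Q (refl Q v) * sk 𝔟 e w = sk 𝔟 e w * oE Q (refl Q v) := by
        ext z
        simp [refl_apply, polar_comm Q e v, hv.1, hv', polar_comm Q v w]
      have b2 := hX.avg_comm (D := S.fac s (sk 𝔟 e w)) (hX.pair s j hj.symm (refl Q v)) (by
        rw [mul_assoc, S.fac_comm hj, ← mul_assoc, ← map_mul, b1, map_mul, mul_assoc])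
      have b3 := congrArg (· * S.fac j (oE Q (refl Q v))) b2
      simp only [ha, mul_assoc, S.fac_comm hj _ a, mul_eq_one_comm.1 (fac_mul_inv _), mul_one,
        ← map_mul] at b3
      have b4 := LinearMap.congr_fun (inj b3) v
      have b5 := skew_self hQ h4 v
      simp only [End.mul_apply, oE_apply, refl_apply_self hv0, map_neg] at b4
      simp [refl_apply, hv.1, polar_comm Q v w, hv'] at b4 b5 ⊢
      rw [← smul_eq_zero_iff_right hQ.two, two_smul]
      simpa [b5, eq_neg_iff_add_eq_zero] using b4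
  simp [ha, sub_eq_zero.1 h5]

/-- The Lie algebra spanned by the conjugates of the orthogonal Lie algebras of the factors. -/
def lieS (S : TPow τ (polarBilin Q) B) (X : Subgroup (End F V)ˣ) : Submodule F (End F V) :=
  Submodule.span F {D | ∃ x ∈ X, ∃ j a b, D = cjA F x (S.fac j (sk (polarBilin Q) a b))}

omit [FiniteDimensional F U] [FiniteDimensional F V] [Finite F] in
theorem sk_mem_lieS (j : τ) (a b : U) : S.fac j (sk 𝔟 a b) ∈ lieS S X :=
  Submodule.subset_span ⟨1, one_mem _, j, a, b, by simp [cjA_apply]⟩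

omit [FiniteDimensional F U] [FiniteDimensional F V] [Finite F] in
theorem lieS_conj {g' : End F V} (hg : InG X g) (h : g * g' = 1) (hD : D ∈ lieS S X) :
    g * D * g' ∈ lieS S X := by
  obtain ⟨g, hg, rfl⟩ := hg
  rw [← Units.inv_eq_of_mul_eq_one_right h]
  refine (Submodule.span_le (p := (lieS S X).comap (cjA F g).toLinearMap)).2 ?_ hD
  rintro _ ⟨x, hx, j, a, b, rfl⟩
  exact Submodule.subset_span ⟨g * x, mul_mem hg hx, j, a, b, by simp [cjA_apply, mul_assoc]⟩

omit [Finite F] [FiniteDimensional F V] in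
theorem OY.lieS_comm (hX : OY S X) (hD : D ∈ lieS S X) (hT : T ∈ lieS S X) :
    D * T - T * D ∈ lieS S X := by
  refine (Submodule.span_le (p := (lieS S X).comap
    (LinearMap.mulRight F T - LinearMap.mulLeft F T))).2 ?_ hD
  rintro _ ⟨x, hx, j, a, b, rfl⟩
  exact AInv.ad_mem (φ := (mapT S x (hX.iso _ ⟨x, hx, rfl⟩)).fac j) (fun u v hu hv _ => lieS_conj
    ((hX.map hx).eich j hu hv) (fac_eich_mul j hu hv)) hX.og.toBig hT a b

omit [Finite F] in
theorem OY.gpLie (hX : OY S X) : GP S hX.bnd X 0 (· ∈ lieS S X) where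
  zero := zero_mem _
  add x y hx hy := by simpa using add_mem hx hy
  neg x hx _ := by simpa using hx
  conj _ _ _ := lieS_conj
  comm _ _ hx hy _ _ _ _ := hX.lieS_comm hx hy
  adj D hD := by
    rw [zero_smul, add_zero]
    refine (Submodule.span_le (p := LinearMap.ker (adj hX.bnd + 1))).2 ?_ hD
    rintro _ ⟨x, hx, j, a, b, rfl⟩
    have := adj_fac (S := mapT S x (hX.iso _ ⟨x, hx, rfl⟩)) (s := j) (hB := hX.bnd) hX.og.nd (sk 𝔟 a b)
    rw [adj_sk pb_symm, map_neg] at this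
    exact add_eq_zero_iff_eq_neg.2 this
  eich s u w _ _ := by simpa using sk_mem_lieS s u w

theorem OY.avg_lieS (hX : OY S X) (hD : D ∈ lieS S X) :
    avg hX.og.nd S X D = ((finrank F V / finrank F U : ℕ) : F) • D := by
  refine LinearMap.mem_eqLocus.1 ((Submodule.span_le (p := LinearMap.eqLocus (avg hX.og.nd S X)
    (((finrank F V / finrank F U : ℕ) : F) • LinearMap.id))).2 ?_ hD)
  rintro _ ⟨x, hx, j, a, b, rfl⟩
  simp [hX.avg_conj hx, hX.avg_sk]

theorem OY.lie_nz (hX : OY S X) (hu : Q u = 0) (hu0 : u ≠ 0) (hD : D ∈ hX.gpLie.zA s hu) : D = 0 := by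
  by_contra hD0
  have hQ := hX.og.toBig
  have h := hX.gpLie.oty hX.toOX hu hu0 hD hD0 s
  obtain ⟨P, _, hP⟩ := exists_ps hX.og hu hu0
  obtain ⟨w, hw, hw1⟩ := hP.ne
  have hw0 : Q w ≠ 0 := fun h => hw1 (hP.aniso w hw h)
  obtain ⟨u', he, hw'⟩ := exists_isHyp_orth hQ hu hu0 (hP.perp w hw) hw0
  have := hX.nt
  obtain ⟨j, hj⟩ := exists_ne s
  have h1 : ∀ v x y, Q v = 0 → S.fac s (sk 𝔟 x y) * Phi S (update (fun _ => ro 𝔟 v v) s 1) ∈ lieS S X :=
    fun v x y hv => by
      rw [← Phi_update, ← one_smul F (Phi S _)]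
      exact h _ (fun i => by by_cases hi : i = s <;> simp [hi, tyL, adj_sk pb_symm, ro_mem_symS hv])
        ⟨j, by simpa, v, hv, by simp [hj]⟩ 1
  have h2 : ∀ a b : End F U, Phi S (update (fun _ => a) s 1) * Phi S (update (fun _ => b) s 1) =
      Phi S (update (fun _ => a * b) s 1) := fun a b => by
    rw [← map_mul]
    exact congrArg _ (funext fun i => by by_cases hi : i = s <;> simp [hi])
  have h3 : ∀ a : End F U, Cm (S.fac s) (Phi S (update (fun _ => a) s 1)) := fun a =>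
    cm_Phi S (update_self ..)
  have h4 : ∀ a b c d, S.fac s a * Phi S (update (fun _ => b) s 1) *
      (S.fac s c * Phi S (update (fun _ => d) s 1)) =
        S.fac s (a * c) * Phi S (update (fun _ => b * d) s 1) := fun a b c d => by
    rw [mul_assoc, ← mul_assoc (Phi S _), ← h3, mul_assoc, h2, map_mul, mul_assoc]
  have h5 := add_mem (hX.lieS_comm (h1 u u w hu) (h1 u' u u' he.right))
    (hX.lieS_comm (h1 u' u w he.right) (h1 u u u' hu))
  have h6 : sk 𝔟 u w * sk 𝔟 u u' = ro 𝔟 w u := by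
    simp [sk, sub_mul, mul_sub, ro_mul_ro, he.pol', he.left, polar_comm Q u w, polar_comm Q u' w,
      hw'.1, hw'.2]
  have h7 : sk 𝔟 u u' * sk 𝔟 u w = ro 𝔟 u w := by
    simp [sk, sub_mul, mul_sub, ro_mul_ro, he.pol, he.left, hw'.1, hw'.2]
  simp only [h4, h6, h7, ro_mul_ro, polarBilin_apply_apply, he.pol, he.pol', one_smul] at h5
  have h8 := hX.avg_mul he hP hw hw0 ((h3 (ro 𝔟 u u')).add (h3 (ro 𝔟 u' u)))
  rw [hX.avg_lieS (by
    convert h5 using 1
    simp only [sk, map_sub, mul_add, sub_mul]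
    abel), smul_mul_assoc, mul_assoc, ← (h3 _).add (h3 _), ← mul_assoc, ← map_mul,
    sk_mul_sk hu (hP.perp w hw) (hP.perp w hw), ← mul_smul_comm, ← mul_one (S.fac s _),
    ← mul_smul_comm, mul_assoc, one_mul, ← sub_eq_zero, ← mul_sub] at h8
  have h9 := ((((h3 _).add (h3 _)).smul _).sub (cm_one.smul _)).eq_zero_of_phi hQ.nd
    (smul_ne_zero (by simp [hQ.two, hw0]) (ro_ne_zero hQ.nd hu0 hu0)) h8
  have h10 : ∀ x y, polar Q x y = 1 →
      LinearMap.trace F V (Phi S (update (fun _ => ro 𝔟 x y) s 1) * eE 𝔟 (S.fac s) u u') = 1 := by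
    intro x y hxy
    rw [← (h3 _).comm_eE, eE_apply, ← Phi_update, show update (fun _ => ro 𝔟 x y) s (ro 𝔟 u u') =
      fun i => ro 𝔟 (update (fun _ => x) s u i) (update (fun _ => y) s u' i) from
        funext fun i => by by_cases hi : i = s <;> simp [hi]]
    refine mul_left_cancel₀ S.c_ne ?_
    rw [← smul_eq_mul, ← map_smul, ← ro_pt, trace_ro, S.form_update]
    simp [he.pol, hxy]
  have h11 := LinearMap.congr_fun h9 (S.pt fun _ => w)
  simp only [add_mul, map_add, h10 _ _ he.pol, h10 _ _ he.pol', LinearMap.sub_apply,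
    LinearMap.smul_apply, LinearMap.add_apply, Phi_pt] at h11
  rw [S.pt.map_coord_zero j (by simp [hj, hw'.2]), S.pt.map_coord_zero j (by simp [hj, hw'.1])] at h11
  exact pt_ne_zero S hQ.nd (fun _ => hw1) (by simpa [← two_mul, one_add_one_eq_two, hQ.two] using h11)

theorem OY.lie_decomp (hX : OY S X) (hD : D ∈ lieS S X) (j : τ) :
    ∃ n m, Cm (S.fac j) m ∧ D = S.fac j n + m := by
  have hQ := hX.og.toBig
  have hL : AInv Q (S.fac j) (lieS S X).toAddSubgroup := fun u v hu hv _ =>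
    lieS_conj (hX.eich j hu hv) (fac_eich_mul j hu hv)
  have h1 : ∀ v, Q v = 0 → co hQ.nd (S.fac j) v v D = 0 := fun v hv => by
    by_cases hv0 : v = 0
    · simp [hv0]
    obtain ⟨c, hc, h⟩ := hL.ro_mem hQ hv hD
    exact (smul_eq_zero.1 (hX.lie_nz (s := j) hv hv0 ⟨(cm_co _ _ _).smul c, by
      rwa [mul_smul_comm]⟩)).resolve_left hc
  obtain ⟨c, hc⟩ := bil_mod hQ ((co hQ.nd (S.fac j)).compr₂ ((F ∙ (1 : End F V)).mkQ ∘ₗ
    LinearMap.applyₗ D)) fun u x hu hx => by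
      by_cases hu0 : u = 0
      · simp [hu0]
      obtain ⟨w, hw0, hw⟩ := exists_nonsingular_orth hQ.nd hQ.three hu
      obtain ⟨u', h⟩ := exists_isHyp hQ.nd hu hu0
      obtain ⟨E, a1, γ, a2, a3⟩ := hL.exists_kt hQ hD h1 hu hw hw0
      obtain ⟨a, rfl⟩ := hX.gpLie.exists_fac (s := j) hX.toOX h (fun _ => hX.lie_nz hu hu0) a1
        ⟨a2.mul_eE hu _, a2.eE_mul hu _, eq_zero_of_co (hf := hQ.nd) (φ := S.fac j) fun x y => by
          rw [← map_one (S.fac j), eE_apply, eE_apply, ← map_sub, ← map_sub, co_phi_right, co_phi_left']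
          simp [a2.co, adj_one, adj_ro pb_symm, h.pol']
          module⟩
      have a4 : polar Q (reflLin Q w x) u = 0 := by simp [reflLin_apply, hx, polar_comm Q w, hw]
      have a5 := a2.co_hyp h a4
      rw [a3 _ a4, reflLin_reflLin, co_phi] at a5
      simpa using ((F ∙ (1 : End F V)).smul_mem_iff (mul_ne_zero hQ.two hw0)).1
        (a5 ▸ Submodule.smul_mem _ _ (Submodule.mem_span_singleton_self _))
  obtain ⟨e, e', he⟩ := hQ.hyp
  have h2 := cm_co (hf := hQ.nd) (φ := S.fac j) e e' D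
  obtain ⟨n, hn⟩ := exists_phi_of_co (hf := hQ.nd) (φ := S.fac j) (T := D - co hQ.nd (S.fac j) e e' D)
    fun x y => by
      have a1 := hc x y
      have a2 := hc e e'
      rw [he.pol, one_smul] at a2
      rw [← a2, ← sub_eq_zero] at a1
      simp only [LinearMap.compr₂_apply, LinearMap.comp_apply, LinearMap.applyₗ_apply_apply] at a1
      rw [← map_smul, ← map_sub, Submodule.mkQ_apply, Submodule.Quotient.mk_eq_zero,
        Submodule.mem_span_singleton] at a1
      exact a1.imp fun c hc => by rw [map_sub, h2.co_self, hc, polarBilin_apply_apply, polar_comm]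
  exact ⟨n, _, h2, by rw [← hn, sub_add_cancel]⟩

theorem OY.exists_range_le (hX : OY S X) {x : (End F V)ˣ} (hx : x ∈ X) (s : τ) :
    ∃ j, ((cjA F x).comp (S.fac s)).range ≤ (S.fac j).range := by
  have hQ := hX.og.toBig
  have := hX.nontrivial
  have := nontrivial_pow S hQ.nd
  obtain ⟨e, e', he⟩ := hQ.hyp
  have h0 : ∀ a, adj hX.bnd ((cjA F x).comp (S.fac s) a) = (cjA F x).comp (S.fac s) (adj hQ.nd a) :=
    adj_fac (S := mapT S x (hX.iso _ ⟨x, hx, rfl⟩)) hQ.nd
  have h1 : ∀ a b, (cjA F x).comp (S.fac s) (sk 𝔟 a b) ∈ lieS S X := fun a b =>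
    Submodule.subset_span ⟨x, hx, s, a, b, rfl⟩
  have h4 : ∀ D ∈ lieS S X, ∃ n m, Cm ((cjA F x).comp (S.fac s)) m ∧
      D = (cjA F x).comp (S.fac s) n + m := fun D hD => by
    obtain ⟨n, m, h4, h5⟩ := hX.lie_decomp (lieS_conj (g' := x.1) ⟨_, inv_mem hx, rfl⟩ x.inv_mul hD) s
    exact ⟨n, cjA F x m, fun a => by simp only [AlgHom.comp_apply, ← map_mul, h4 a], by
      rw [AlgHom.comp_apply, ← map_add, ← h5]
      simp [cjA_apply, mul_assoc]⟩
  generalize (cjA F x).comp (S.fac s) = ψ at *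
  have inj := phi_injective hQ.nd ψ
  have h2 : ∀ a b j c, ψ (sk 𝔟 a b) * S.fac j c - S.fac j c * ψ (sk 𝔟 a b) ∈ (S.fac j).range :=
    fun a b j c => by
      obtain ⟨n, m, h3, h4⟩ := hX.lie_decomp (h1 a b) j
      exact ⟨n * c - c * n, by simp [h4, add_mul, mul_add, h3 c]⟩
  obtain ⟨j, a, b, h3⟩ : ∃ j a b, ψ (sk 𝔟 e e') * S.fac j (sk 𝔟 a b) -
      S.fac j (sk 𝔟 a b) * ψ (sk 𝔟 e e') ≠ 0 := by
    by_contra! H
    obtain ⟨c, hc⟩ := exists_smul_of_cm S hQ.nd (T := ψ (sk 𝔟 e e')) fun j a =>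
      (cm_of_sk hQ (Subalgebra.centralizer F {ψ (sk 𝔟 e e')}) (fun a b => by
        simpa [Subalgebra.mem_centralizer_iff, sub_eq_zero] using H j a b) a _ rfl).symm
    have := inj ((eq_zero_of_skew (hB := hX.bnd) (a := ψ (sk 𝔟 e e')) hQ.two
      (by rw [h0, adj_sk pb_symm, map_neg]) (by rw [hc, map_smul, adj_one])).trans (map_zero ψ).symm)
    simpa [he.pol, he.left, he.left_ne_zero] using LinearMap.congr_fun this e
  obtain ⟨n, m, h5, h6⟩ := h4 _ (sk_mem_lieS j a b)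
  have h7 : ψ (sk 𝔟 e e' * n - n * sk 𝔟 e e') =
      ψ (sk 𝔟 e e') * S.fac j (sk 𝔟 a b) - S.fac j (sk 𝔟 a b) * ψ (sk 𝔟 e e') := by
    simp [h6, add_mul, mul_add, h5 _]
  have h8 := h2 e e' j (sk 𝔟 a b)
  rw [← h7] at h8
  refine ⟨j, ?_⟩
  rintro _ ⟨c, rfl⟩
  refine cm_of_sk hQ _ (sk_mem_of_ideal hX.og ((S.fac j).range.comap ψ).toSubmodule
    (fun a b c hc => ?_) h8 (fun h => h3 (by rw [← h7, h, map_zero])) (inj ?_)) c
  · obtain ⟨d, hd⟩ : ψ c ∈ (S.fac j).range := hc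
    simpa [← show S.fac j d = ψ c from hd] using h2 a b j d
  rw [← h0, map_neg, h7, map_sub, adj_mul, adj_mul, h0, adj_fac hQ.nd, adj_sk pb_symm,
    adj_sk pb_symm]
  simp

theorem OY.nm (hX : OY S X) (hg : InG X g) : Nm S g := by
  obtain ⟨x, hx, rfl⟩ := hg
  have hQ := hX.og.toBig
  have := hX.nontrivial
  have := nontrivial_pow S hQ.nd
  obtain ⟨e, e', he⟩ := hQ.hyp
  choose σ hσ using hX.exists_range_le hx
  refine ⟨Equiv.ofBijective σ (Finite.injective_iff_bijective.1 fun s t h => by_contra fun hst => ?_),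
    fun s a => (hσ s ⟨a, rfl⟩).imp fun b hb => ?_⟩
  · obtain ⟨a, ha⟩ := ((range_eq_of_le hQ.nd (hσ s)).trans (h ▸ (range_eq_of_le hQ.nd (hσ t)).symm)).le
      ⟨ro 𝔟 e e, rfl⟩
    obtain ⟨b, hb⟩ := ((range_eq_of_le hQ.nd (hσ s)).trans (h ▸ (range_eq_of_le hQ.nd (hσ t)).symm)).le
      ⟨ro 𝔟 e' e', rfl⟩
    have : ro 𝔟 e e * ro 𝔟 e' e' = ro 𝔟 e' e' * ro 𝔟 e e :=
      phi_injective hQ.nd ((cjA F x).comp (S.fac s)) (by
        simp only [AlgHom.toRingHom_eq_coe, RingHom.coe_coe] at hb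
        rw [map_mul, map_mul, ← hb]
        simp only [AlgHom.comp_apply, ← map_mul, S.fac_comm hst])
    simpa [he.pol, he.pol', he.left, he.left_ne_zero] using LinearMap.congr_fun this e
  · exact Units.mul_inv_eq_iff_eq_mul x |>.1 hb.symm

end Cfsg.Agent.H27
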