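import Cfsg.Agent.H27.PowTwo
import Cfsg.Agent.H79.TenSp

/-!
# Maximality of the stabilisers of tensor power decompositions with symplectic factors
-/

set_option autoImplicit false

namespace Cfsg.Agent.H27

open Module Function QuadraticMap H30 H36 H79

section Abstract

theorem alternating_le_commutator (τ : Type*) [Fintype τ] [DecidableEq τ] :
    alternatingGroup τ ≤ commutator (Equiv.Perm τ) := by
  rw [← Equiv.Perm.closure_three_cycles_eq_alternating, commutator_eq_closure]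
  exact Subgroup.closure_mono fun g hg => mem_commutatorSet_of_isConj_sq _
    (Equiv.Perm.isConj_iff_cycleType_eq.2 (by
      rw [pow_two, hg.isThreeCycle_sq.cycleType, hg.cycleType]))

variable {F U V τ : Type*} [Field F] [AddCommGroup U] [Module F U] [AddCommGroup V] [Module F V]
  [Fintype τ] [DecidableEq τ] {f : LinearMap.BilinForm F U} {B : LinearMap.BilinForm F V}
  {S : TPow τ f B} {g : End F V}

theorem exists_permHom (h : ∀ σ, ∃ g : End F V, S.Act g σ 1) :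
    ∃ π : Equiv.Perm τ →* (V ≃ₗ[F] V), ∀ σ, S.Act (π σ) σ 1 := by
  choose π hπ using h
  have h1 : π 1 = 1 := S.ext_lin fun u => hπ 1 u
  have h2 : ∀ σ ρ, π (σ * ρ) = π σ * π ρ := fun σ ρ => S.ext_lin fun u => by
    rw [End.mul_apply, hπ, hπ, hπ]
    rfl
  exact ⟨MonoidHom.mk' (fun σ => LinearEquiv.ofLinearMap (π σ) (π σ⁻¹)
    (by rw [← End.mul_eq_comp, ← h2, mul_inv_cancel, h1]; rfl)
    (by rw [← End.mul_eq_comp, ← h2, inv_mul_cancel, h1]; rfl))
    fun σ ρ => LinearEquiv.toLinearMap_injective (h2 σ ρ), hπ⟩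

theorem act_iso {σ : Equiv.Perm τ} (h : S.Act g σ 1) (p q : V) : B (g p) (g q) = B p q := by
  have : B.comp g g = B := S.ext_bilin fun u v => by
    rw [LinearMap.BilinForm.comp_apply, h, h, S.form, S.form]
    exact congrArg _ (Equiv.prod_comp σ.symm fun s => f (u s) (v s))
  exact congrArg (fun b : LinearMap.BilinForm F V => b p q) this

theorem act_nm {σ : Equiv.Perm τ} (h : S.Act g σ 1) : Nm S g :=
  ⟨σ, fun s a => ⟨a, h.conj_fac s fun _ => rfl⟩⟩

theorem not_pres {y b z z' : τ → U} {c : F} (hc : c ≠ 0) (h : g (S.pt y) = S.pt y + c • S.pt b)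
    (h1 : ∀ l, f (y l) (z l) ≠ 0) (h2 : ∀ l, f (b l) (z' l) ≠ 0) {i j : τ} (hij : j ≠ i)
    (h3 : f (b j) (z j) = 0) (h4 : f (y i) (z' i) = 0) : ¬ S.Pres g := by
  rintro ⟨σ, α, hα⟩
  have key : ∀ m, B (S.pt fun s => α s (y (σ.symm s))) (S.pt m) =
      B (S.pt y) (S.pt m) + c * B (S.pt b) (S.pt m) := fun m => by simp [← hα y, h]
  refine form_ne_zero (S := S) (u := fun s => α s (y (σ.symm s))) (v := update z i (z' i))
    (fun l e => ?_) (by
      rw [key, S.form_eq_zero i (by simpa), S.form_eq_zero j (by simpa [hij]), mul_zero, add_zero])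
  by_cases hl : l = i
  · have := key z'
    rw [S.form_eq_zero i (by simpa [hl] using e), S.form_eq_zero i h4, zero_add] at this
    exact mul_ne_zero hc (form_ne_zero h2) this.symm
  · have := key z
    rw [S.form_eq_zero l (by simpa [hl] using e), S.form_eq_zero j h3, mul_zero, add_zero] at this
    exact form_ne_zero h1 this.symm

variable [FiniteDimensional F U] [FiniteDimensional F V]

omit [FiniteDimensional F V] in
theorem fac_facts (hf : f.Nondegenerate) [Nontrivial U] (s : τ) {a : End F U}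
    (ha : ∀ x y, f (a x) (a y) = f x y) : ∃ g : V ≃ₗ[F] V, g.toLinearMap = S.fac s a ∧
      (∀ p q, B (g p) (g q) = B p q) ∧ Nm S g.toLinearMap := by
  obtain ⟨σ, rfl⟩ := exists_isom_eq hf ha
  have h1 := equiv_mul_symm σ.1
  have h2 := equiv_mul_symm σ.1.symm
  refine ⟨LinearEquiv.ofLinearMap (S.fac s σ.1.toLinearMap) (S.fac s σ.1.symm.toLinearMap)
    (by rw [← End.mul_eq_comp, ← map_mul, h1, map_one]; rfl)
    (by rw [← End.mul_eq_comp, ← map_mul]; exact (congrArg _ h2).trans (map_one _)), rfl,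
    fac_iso S s ha h2 h1, 1, fun j b => ?_⟩
  by_cases hj : j = s
  · exact ⟨σ.1.toLinearMap * b * σ.1.symm.toLinearMap, by
      simp only [hj, Equiv.Perm.one_apply, LinearEquiv.toLinearMap_ofLinearMap, ← map_mul]
      congr 1
      ext
      simp⟩
  · exact ⟨b, S.fac_comm (Ne.symm hj) _ b⟩

variable [Finite F]

theorem isCoatom_pow_sp (hf : f.Nondegenerate) (hfa : f.IsAlt) [Nontrivial U] (hB : B.Nondegenerate)
    (hA : B.IsAlt) (h2 : (2 : F) ≠ 0) (h3 : 3 ≤ finrank F U ∨ Nat.card F ≠ 3)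
    (ht : 3 ≤ Fintype.card τ) (ho : Odd (Fintype.card τ)) (hp : ∀ σ, ∃ g : End F V, S.Act g σ 1)
    {H : Subgroup (isomGroup B)} (h1 : ∀ g ∈ H, S.Pres g.1) (h4 : ∀ g, Nm S g.1.toLinearMap → g ∈ H) :
    IsCoatom H := by
  have : Nontrivial τ := Fintype.one_lt_card_iff_nontrivial.1 (by omega)
  refine isCoatom_of_forall (fun htop => ?_) fun M hM ⟨g, hg, hg'⟩ => ?_
  · obtain ⟨x, hx⟩ := exists_ne (0 : U)
    obtain ⟨y, hy⟩ := exists_apply_eq_one' hf hx
    obtain ⟨i, j, hij⟩ := exists_pair_ne τ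
    refine not_pres (S := S) (g := (isoTv hA (S.pt fun _ => x) 1).1.toLinearMap) S.c_ne
      (y := fun _ => y) (b := fun _ => x) (z := fun _ => x) (z' := fun _ => y)
      (by simp [coe_isoTv, altTv_apply, S.form, hy]) (by simp [hy]) (by simp [← hfa.neg_eq y, hy])
      hij (hfa.self_eq_zero x) (hfa.self_eq_zero y) (h1 _ (htop ▸ Subgroup.mem_top _))
  by_contra hne
  have hX : PX S (M.map (isoU B)) := ⟨hf, hfa, hB, inferInstance, by
    rintro _ ⟨_, ⟨g, -, rfl⟩, rfl⟩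
    exact g.2, fun s a ha => by
    obtain ⟨k, e, h5, h6⟩ := fac_facts (S := S) hf s ha
    exact ⟨_, ⟨⟨k, h5⟩, hM (h4 _ h6), rfl⟩, e⟩⟩
  obtain ⟨π, hπ⟩ := exists_permHom hp
  have hP : HasAlt S (M.map (isoU B)) := fun σ _ => ⟨(π σ).toLinearMap,
    ⟨_, ⟨⟨π σ, act_iso (g := (π σ).toLinearMap) (hπ σ)⟩, hM (h4 _ (act_nm (hπ σ))), rfl⟩, rfl⟩, hπ σ⟩
  refine hg' (h4 g (hX.nm_odd (by_contra fun hPM => hne ?_) h2 h3 ⟨_, ⟨g, hg, rfl⟩, rfl⟩))
  rw [← Subgroup.comap_map_eq_self_of_injective (isoU_injective B) M]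
  exact (ty_univ hX hP h2 hPM ht ho).eq_top hX hA h2

variable {Q : QuadraticForm F V}

omit [FiniteDimensional F U] [FiniteDimensional F V] [Finite F] in
theorem PQ.map_eq (hQ : PQ S Q) [Nonempty τ] (hg : ∀ p q, B (g p) (g q) = B p q)
    (h : ∀ u, ∃ u', g (S.pt u) = S.pt u') (p : V) : Q (g p) = Q p :=
  pt_add_induction (S := S) (p := fun p => Q (g p) = Q p) (by simp)
    (fun x y hx hy => by rw [map_add g, Q_add, Q_add, hx, hy, hQ.pol, hQ.pol, hg])
    (fun u => by obtain ⟨u', e⟩ := h u; rw [e, hQ.pure, hQ.pure]) p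

theorem isCoatom_pow_o (hf : f.Nondegenerate) (hfa : f.IsAlt) [Nontrivial U] (hB : B.Nondegenerate)
    (hQ : PQ S Q) (h5 : 5 ≤ finrank F V) (ht : 2 ≤ Fintype.card τ)
    (ht' : 3 ≤ Fintype.card τ ∨ 3 ≤ finrank F U)
    (hc : ((2 : F) ≠ 0 ∧ Even (Fintype.card τ) ∧ (3 ≤ finrank F U ∨ Nat.card F ≠ 3)) ∨
      ((2 : F) = 0 ∧ 6 ≤ finrank F U)) (hp : ∀ σ, ∃ g : End F V, S.Act g σ 1)
    {H : Subgroup (eichGroup Q)} (h1 : ∀ g ∈ H, S.Pres g.1.1)
    (h4 : ∀ g, Nm S g.1.1.toLinearMap → g ∈ H) : IsCoatom H := by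
  have : Nontrivial τ := Fintype.one_lt_card_iff_nontrivial.1 (by omega)
  have hQn : (polarBilin Q).Nondegenerate := by
    convert hB
    exact LinearMap.ext₂ hQ.pol
  refine isCoatom_of_forall (fun htop => ?_) fun M hM ⟨g, hg, hg'⟩ => ?_
  · have key : ∀ a b y z z' : τ → U, (∃ i, f (a i) (b i) = 0) → (∃ i, f (y i) (b i) = 0) →
        (∀ i, f (y i) (a i) ≠ 0) → (∀ l, f (y l) (z l) ≠ 0) → (∀ l, f (b l) (z' l) ≠ 0) →
        ∀ i j, j ≠ i → f (b j) (z j) = 0 → f (y i) (z' i) ≠ 0 := by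
      rintro a b y z z' ⟨i, hi⟩ ⟨j, hj⟩ a1 a2 a3 k l a4 a5 a6
      refine not_pres (S := S) (g := (eich Q (S.pt a) (S.pt b)).1.toLinearMap)
        (form_ne_zero (S := S) a1) ?_
        a2 a3 a4 a5 a6 (h1 ⟨_, eich_mem_eichGroup _ _⟩ (htop ▸ Subgroup.mem_top _))
      rw [LinearEquiv.coe_coe, eich_apply (hQ.pure a) (by rw [hQ.pol, S.form_eq_zero i hi])]
      simp [hQ.pol, hQ.pure, S.form_eq_zero j hj]
    obtain ⟨x, hx⟩ := exists_ne (0 : U)
    rcases ht' with h3 | h3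
    · obtain ⟨y, hy⟩ := exists_apply_eq_one' hf hx
      obtain ⟨i, j, l, a1, a2, a3⟩ := Fintype.two_lt_card_iff.1 h3
      refine key (fun _ => x) (update (fun _ => x) l y) (fun _ => y) (fun _ => x)
        (update (fun _ => y) l x) ⟨i, by simp [a2, hfa.self_eq_zero]⟩
        ⟨l, by simp [hfa.self_eq_zero]⟩ (by simp [hy]) (by simp [hy]) (fun r => ?_) i j a1.symm
        (by simp [a3, hfa.self_eq_zero]) (by simp [a2, hfa.self_eq_zero])
      by_cases hr : r = l <;> simp [hr, hy, ← hfa.neg_eq y x]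
    · obtain ⟨v, v', a1, a2, a3⟩ := exists_orth_pair hf hfa h3 x
      obtain ⟨z, a4, a5⟩ := exists_orth_eq_one hf hfa.isRefl (x := x) (s := {v'}) fun h => by
        obtain ⟨c, rfl⟩ := Submodule.mem_span_singleton.1 h
        exact hx (by simp [show c = 0 by simpa [← hfa.neg_eq v, a3] using a1])
      obtain ⟨i, j, hij⟩ := exists_pair_ne τ
      exact key (fun _ => v) (fun _ => x) (fun _ => v') (fun _ => v) (fun _ => z)
        ⟨i, hfa.isRefl _ _ a1⟩ ⟨i, hfa.isRefl _ _ a2⟩ (by simp [← hfa.neg_eq v, a3])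
        (by simp [← hfa.neg_eq v, a3]) (by simp [a4]) j i hij a1 (a5 _ rfl)
  by_contra hne
  set X := M.map ((oU Q).comp (eichGroup Q).subtype) with hXdef
  have hmem : ∀ k : O Q, k ∈ eichGroup Q → Nm S k.1.toLinearMap → oU Q k ∈ X := fun k hk h =>
    ⟨⟨k, hk⟩, hM (h4 _ h), rfl⟩
  have hX : PX S X := ⟨hf, hfa, hB, inferInstance, by
    rintro _ ⟨_, ⟨g, -, rfl⟩, rfl⟩ p q
    rw [← hQ.pol, ← hQ.pol]
    exact O_polar g.1 p q, fun s a ha => by
    obtain ⟨σ, rfl⟩ := exists_isom_eq hf ha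
    refine ⟨_, (eq_top_of_rootSet hf (hA := hfa) (K := X.comap
      ((Units.map (S.fac s : End F U →* End F V)).comp (isoU f))) fun u c => ?_).ge
      (Subgroup.mem_top σ), rfl⟩
    obtain ⟨k, e, h5, h6⟩ := fac_facts (S := S) hf s (isoTv hfa u c).2
    have e' : ∀ p, k p = p + c • eE f (S.fac s) u u p := fun p => by
      rw [← LinearEquiv.coe_coe, e, show (isoTv hfa u c).1.toLinearMap = 1 + c • ro f u u from
        LinearMap.ext fun x => by simp [coe_isoTv, altTv_apply, mul_smul]]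
      simp [eE_apply]
    have hk : k ∈ O Q := hQ.map_eq h5 fun w => ⟨_, by rw [e, S.fac_pt]⟩
    have h7 : oU Q ⟨k, hk⟩ = ((Units.map (S.fac s : End F U →* End F V)).comp (isoU f))
      (isoTv hfa u c) := Units.ext e
    refine Subgroup.mem_comap.2 (h7 ▸ hmem ⟨k, hk⟩ (mem_eichGroup_of_singular hQn _ fun p => ?_) h6)
    rw [e', add_sub_cancel_left, Q_smul]
    refine mul_eq_zero_of_right _ (pt_add_induction (S := S)
      (p := fun p => Q (eE f (S.fac s) u u p) = 0) (by simp) (fun x y hx hy => ?_) (fun w => ?_) p)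
    · rw [map_add, Q_add, hx, hy, hQ.pol, eE_skew S hfa, eE_eE, hfa.self_eq_zero]
      simp
    · rw [eE_apply, S.fac_pt, hQ.pure]⟩
  obtain ⟨π, hπ⟩ := exists_permHom hp
  have hP : HasAlt S X := fun σ hσ => by
    let π' : Equiv.Perm τ →* O Q := π.codRestrict _ fun σ =>
      hQ.map_eq (act_iso (g := (π σ).toLinearMap) (hπ σ)) fun u => ⟨_, hπ σ u⟩
    refine ⟨(π σ).toLinearMap, ⟨_, hmem (π' σ) ?_ (act_nm (hπ σ)), rfl⟩, hπ σ⟩
    rw [← commutator_eq_eichGroup hQn (not_isExc_of_finrank (by omega)) (by omega)]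
    have := Subgroup.mem_map_of_mem π' (alternating_le_commutator τ hσ)
    rw [commutator_def, Subgroup.map_commutator] at this
    exact Subgroup.commutator_mono le_top le_top this
  have hPM : PM S X := hQ.pm hX hP (by
    rintro _ ⟨_, ⟨g, -, rfl⟩, rfl⟩
    exact g.1.2) ht (hc.imp (fun h => ⟨h.1, h.2.1⟩) fun h => ⟨h.1, by omega⟩) fun hle =>
      hne (eq_top_iff.2 fun k _ => by
        obtain ⟨k', hk', e⟩ := hle k.2
        rwa [← Subtype.ext (oU_injective _ e)])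
  refine hg' (h4 g ?_)
  rcases hc with ⟨h2, -, h3⟩ | ⟨h2, h6⟩
  · exact hX.nm_odd hPM h2 h3 ⟨_, ⟨g, hg, rfl⟩, rfl⟩
  · refine hX.nm_two hPM h2 h6 ?_ ⟨_, ⟨g, hg, rfl⟩, rfl⟩
    rintro _ ⟨_, ⟨k, -, rfl⟩, rfl⟩ h
    exact h1 k (h4 k h)

end Abstract

section Geo

open Matrix Cfsg.Geo

variable {F : Type*} [Field F] {ι : Type} [Fintype ι] [DecidableEq ι] {k t : ℕ}
  {f₁ : (Fin k → F) → (Fin k → F) → F} (h₁ : Geo.IsBilinearForm f₁)
  {B : LinearMap.BilinForm F (ι → F)} {e : ι ≃ (Fin t → Fin k)} {P : GL ι F}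
  (hT : Geo.IsTensorPowerFormStructure id (fun x y => B x y) f₁ e P)

theorem geoTPow_perm (σ : Equiv.Perm (Fin t)) : ∃ g : End F (ι → F), (geoTPow h₁ hT).Act g σ 1 :=
  ⟨Matrix.toLin' (H25.conjT (H25.frameEquiv e P) (H25.permT (Fin k) F σ)), fun u => by
    simp only [geoTPow_pt, Matrix.toLin'_apply, H25.conjT_mulVec, permT_mulVec_pureV]
    rfl⟩

theorem mem_tw_of_nm [NeZero k] [NeZero t] {g : GL ι F}
    (h : Nm (geoTPow h₁ hT) (Matrix.toLin' g.1)) : g ∈ tensorWreathSubgroup k t e P := by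
  rw [tensorWreathSubgroup, H25.mem_map_frame_iff_pullGL]
  obtain ⟨σ, hσ⟩ := h
  set g' := H25.pullGL (H25.conjT (H25.frameEquiv e P)) g with hg'
  obtain ⟨u, hu⟩ := H25.exists_pureGL_of_normalizes ((H25.permGL (Fin k) F σ)⁻¹ * g') fun s a => by
    obtain ⟨a', ha'⟩ := hσ s (Matrix.toLin' a)
    refine ⟨LinearMap.toMatrix' a', ?_⟩
    have : H25.cj g' (H25.factorT (Fin k) F s a) =
        H25.factorT (Fin k) F (σ s) (LinearMap.toMatrix' a') := by
      apply (H25.conjT (H25.frameEquiv e P)).injective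
      rw [hg', H25.map_cj_pullGL, H25.cj_apply, Units.mul_inv_eq_iff_eq_mul]
      apply Matrix.toLinAlgEquiv'.injective
      rw [map_mul, map_mul]
      conv_lhs => rw [← LinearMap.toMatrix'_toLin' a]
      exact ha'
    rw [H25.cj_mul, this, ← H25.cj_permGL_factorT, H25.cj_inv_cj]
  rw [← mul_inv_cancel_left (H25.permGL (Fin k) F σ) g', hu]
  exact Subgroup.mul_mem _ (Subgroup.subset_closure (Or.inr ⟨σ, fun x y => rfl⟩))
    (Subgroup.subset_closure (Or.inl ⟨u, fun x y => rfl⟩))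

omit h₁ hT

theorem two_ne_zero_of_odd [Fintype F] (hodd : Odd (Fintype.card F)) : (2 : F) ≠ 0 :=
  Ring.two_ne_zero fun h => by
    have := FiniteField.even_card_of_char_two h
    obtain ⟨k, hk⟩ := hodd
    omega

/-- The stabiliser in `Sp_2m(q)`, `q` odd, of a decomposition as an odd tensor power of a symplectic
space is maximal, apart from `Sp_2(3)`. -/
theorem isMaximalIn_tensorWreath_sp [Fintype F] (m : ℕ) (hm : 0 < m) (hodd : Odd (Fintype.card F))
    (ht : Odd t) (ht3 : 3 ≤ t) (hex : ¬ (Fintype.card F = 3 ∧ k = 2))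
    (e : (Fin m ⊕ Fin m) ≃ (Fin t → Fin k)) (P : GL (Fin m ⊕ Fin m) F)
    (hf₁ : IsSymplecticForm f₁) (hT : IsTensorPowerFormStructure id (Cfsg.sympForm m F) f₁ e P) :
    IsMaximalIn (Cfsg.spGL m F) (tensorWreathSubgroup k t e P ⊓ Cfsg.spGL m F) := by
  have : NeZero t := ⟨by omega⟩
  have : NeZero k := ⟨(e (Sum.inl ⟨0, hm⟩) 0).pos.ne'⟩
  rw [sympForm_eq_fun] at hT
  have hnd := geoBilin_nondegenerate hf₁.bilinear hf₁.nondegenerate
  have hA := geoBilin_isAlt hf₁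
  obtain ⟨l, hl⟩ := even_finrank_of_alt hnd hA
  have := NeZero.pos k
  rw [finrank_fin_fun] at hl
  refine isMaximalIn_of_isCoatom_comap (isomToGL (jBilin (Fin m) F)) (range_isomToGL_jBilin m) _
    (isCoatom_pow_sp (S := geoTPow hf₁.bilinear hT) hnd hA jBilin_nondegenerate
      jBilin_isAlt (two_ne_zero_of_odd hodd)
      (by rw [finrank_fin_fun, Nat.card_eq_fintype_card]; omega) (by simpa) (by simpa)
      (geoTPow_perm _ hT) (fun g hg => ?_) fun g hg => mem_tw_of_nm hf₁.bilinear hT ?_)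
  · simpa only [isomToGL_mulVec] using geoTPow_pres hf₁.bilinear hT hg
  · rwa [toLin'_isomToGL]

/-- The stabiliser in `Ω⁺` of a decomposition as a tensor power of a symplectic space. -/
theorem isMaximalIn_tensorWreath_o [Fintype F] (hn : 5 ≤ Fintype.card ι) {Q : (ι → F) → F}
    (hQ : IsNondegenerateQuadraticForm Q) (ht : 2 ≤ t) (hqt : Odd (Fintype.card F) → Even t)
    (hex : ¬ (Fintype.card F = 3 ∧ k = 2)) (hex' : ¬ Odd (Fintype.card F) → 6 ≤ k)
    (e : ι ≃ (Fin t → Fin k)) (P : GL ι F) (hf₁ : IsSymplecticForm f₁)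
    (hT : IsTensorPowerFormStructure id (polar Q) f₁ e P)
    (hpure : ∀ xs : Fin t → (Fin k → F), Q ((P : Matrix ι ι F) *ᵥ
      ((fun a : Fin t → Fin k => ∏ i, xs i (a i)) ∘ e)) = 0) :
    IsMaximalIn (omegaGL Q) (tensorWreathSubgroup k t e P ⊓ omegaGL Q) := by
  obtain ⟨Q, hQn, rfl⟩ := exists_quadraticForm_of_geo hQ
  have : NeZero t := ⟨by omega⟩
  obtain ⟨i⟩ : Nonempty ι := Fintype.card_pos_iff.1 (by omega)
  have : NeZero k := ⟨(e i 0).pos.ne'⟩
  have hnd := geoBilin_nondegenerate hf₁.bilinear hf₁.nondegenerate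
  have hA := geoBilin_isAlt hf₁
  obtain ⟨l, hl⟩ := even_finrank_of_alt hnd hA
  have := NeZero.pos k
  rw [finrank_fin_fun] at hl
  have hT' : IsTensorPowerFormStructure id (fun x y => polarBilin Q x y) f₁ e P := hT
  have hk : 3 ≤ t ∨ 3 ≤ k := by
    by_contra! H
    rw [Fintype.card_congr e, Fintype.card_fun, Fintype.card_fin, Fintype.card_fin,
      show t = 2 by omega, show k = 2 by omega] at hn
    omega
  refine isMaximalIn_of_isCoatom_comap ((toGL Q).comp (eichGroup Q).subtype) (by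
    rw [MonoidHom.range_comp, Subgroup.range_subtype,
      omegaGL_eq_map_eichGroup hQn (not_isExc_of_finrank (by simp; omega)) (by omega)]) _
    (isCoatom_pow_o (S := geoTPow hf₁.bilinear hT') hnd hA hQn ⟨fun _ _ => rfl, fun u => ?_⟩
      (by simpa) (by simpa) (by simpa) ?_ (geoTPow_perm _ hT') (fun g hg => ?_)
      fun g hg => mem_tw_of_nm hf₁.bilinear hT' ?_)
  · rw [geoTPow_pt, H25.frameEquiv_apply]
    exact hpure u
  · rw [finrank_fin_fun, Nat.card_eq_fintype_card, Fintype.card_fin]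
    by_cases ho : Odd (Fintype.card F)
    · exact Or.inl ⟨two_ne_zero_of_odd ho, hqt ho, by omega⟩
    · refine Or.inr ⟨by_contra fun h2 => ho ?_, hex' ho⟩
      exact Nat.odd_iff.2 (FiniteField.odd_card_of_char_ne_two fun h =>
        h2 (by exact_mod_cast (ringChar.spec F 2).2 (by rw [h])))
  · simpa only [MonoidHom.comp_apply, toGL_mulVec, Subgroup.coe_subtype] using
      geoTPow_pres hf₁.bilinear hT' hg
  · convert hg
    exact LinearMap.ext fun v => toGL_mulVec _ v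

end Geo

end Cfsg.Agent.H27
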