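import Cfsg.Agent.H27.OPL
import Cfsg.Agent.H27.PowGeo
import Cfsg.Agent.H79.TenO

/-!
# Maximality of the stabilisers of tensor power decompositions with orthogonal factors
-/

set_option autoImplicit false

namespace Cfsg.Agent.H27

open Module Function QuadraticMap H30 H36
open H79 (sk Big oU)
open scoped commutatorElement

section Abstract

variable {F U V τ : Type*} [Field F] [AddCommGroup U] [Module F U] [AddCommGroup V] [Module F V]
  [Fintype τ] [DecidableEq τ] {Q : QuadraticForm F U} {R : QuadraticForm F V}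

theorem mem_O_of_iso (h2 : (2 : F) ≠ 0) {g : V ≃ₗ[F] V}
    (h : ∀ p q, polarBilin R (g p) (g q) = polarBilin R p q) : g ∈ O R := fun p =>
  mul_left_cancel₀ h2 (by simpa using h p p)

/-- The orthogonal group of a factor acting on the tensor power. -/
noncomputable def facO (S : TPow τ (polarBilin Q) (polarBilin R)) (h2 : (2 : F) ≠ 0) (s : τ) :
    O Q →* O R :=
  MonoidHom.mk' (fun σ => ⟨LinearEquiv.ofLinearMap (S.fac s (oE Q σ)) (S.fac s (oE Q σ⁻¹))
    (fac_mul_inv σ) (fac_mul_inv σ⁻¹),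
    mem_O_of_iso h2 (fac_iso S s (oE_iso σ) (oE_inv_mul σ) (oE_mul_inv σ))⟩)
    fun σ ρ => Subtype.ext (LinearEquiv.toLinearMap_injective (by
      change S.fac s (oE Q (σ * ρ)) = _
      rw [map_mul, map_mul]
      rfl))

theorem map_mem_commutator {G K : Type*} [Group G] [Group K] (φ : G →* K) {x : G}
    (hx : x ∈ commutator G) : φ x ∈ commutator K := by
  have := Subgroup.mem_map_of_mem φ hx
  rw [commutator_def, Subgroup.map_commutator] at this
  exact Subgroup.commutator_mono le_top le_top this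

variable [FiniteDimensional F U] [FiniteDimensional F V] [Finite F]

theorem isCoatom_pow_oo {f : LinearMap.BilinForm F U} (hf : polarBilin Q = f)
    {S : TPow τ f (polarBilin R)} (hQ : OG Q) (hR : (polarBilin R).Nondegenerate) [Nontrivial τ]
    (h3 : 3 ≤ finrank F V) (hp : ∀ σ, ∃ g : End F V, S.Act g σ 1) {H : Subgroup (eichGroup R)}
    (h1 : ∀ g ∈ H, S.Pres g.1.1) (h4 : ∀ g, Nm S g.1.1.toLinearMap → g ∈ H) : IsCoatom H := by
  subst hf
  have h2 := hQ.two
  obtain ⟨e, e', he⟩ := hQ.hyp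
  refine isCoatom_of_forall (fun htop => ?_) fun M hM ⟨g, hg, hg'⟩ => ?_
  · obtain ⟨w, hw, hw0⟩ := exists_hperp_ne hQ.toBig he
    obtain ⟨i, j, hij⟩ := exists_pair_ne τ
    refine not_pres (S := S) (g := (eich R (S.pt fun _ => e) (S.pt (update (fun _ => e) i w))).1.toLinearMap)
      (y := fun _ => e') (b := update (fun _ => e) i w) (z := fun _ => e) (z' := update (fun _ => e') i w)
      (form_ne_zero (S := S) (u := fun _ => e') (v := fun _ => e) fun _ => by simp [he.pol']) ?_
      (by simp [he.pol']) (fun l => ?_) hij.symm (by simp [hij.symm, he.left])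
      (by simp [polar_comm Q e', hw.2]) (h1 ⟨_, eich_mem_eichGroup _ _⟩ (htop ▸ Subgroup.mem_top _))
    · have a1 := S.form_eq_zero (u := fun _ => e) (v := update (fun _ => e) i w) j
        (by simp [hij.symm, he.left])
      have a2 := S.form_eq_zero (u := fun _ => e') (v := update (fun _ => e) i w) i
        (by simp [polar_comm Q e', hw.2])
      rw [LinearEquiv.coe_coe, eich_apply (pt_sing h2 i he.left) a1,
        pt_sing (a := update _ i w) h2 j (by simp [hij.symm, he.left])]
      simp [show polar R _ _ = 0 from a2]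
    · by_cases hl : l = i <;> simp [hl, he.pol, h2, hw0]
  by_contra hne
  set X := M.map ((oU R).comp (eichGroup R).subtype) with hXdef
  have hmem : ∀ k : O R, k ∈ commutator (O R) → Nm S k.1.toLinearMap → InG X k.1.toLinearMap :=
    fun k hk h => ⟨_, ⟨⟨k, commutator_eq_eichGroup hR (not_isExc_of_two h2) h3 ▸ hk⟩,
      hM (h4 _ h), rfl⟩, rfl⟩
  obtain ⟨π, hπ⟩ := exists_permHom hp
  let π' : Equiv.Perm τ →* O R := π.codRestrict _ fun σ =>
    mem_O_of_iso h2 (act_iso (g := (π σ).toLinearMap) (hπ σ))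
  have : Nontrivial U := ⟨e, 0, he.left_ne_zero⟩
  have hn : ∀ s σ, Nm S (S.fac s (oE Q σ)) := fun s σ => by
    obtain ⟨k, e, -, h⟩ := fac_facts (S := S) hQ.nd s (oE_iso σ)
    exact e ▸ h
  have hX : OX S X := ⟨hQ, hR, by
    rintro _ ⟨_, ⟨g, -, rfl⟩, rfl⟩
    exact O_polar g.1, fun s σ hσ => hmem (facO S h2 s σ) (map_mem_commutator _
      (commutator_eq_eichGroup hQ.nd (not_isExc_of_two h2) hQ.three ▸ hσ)) (hn s σ), fun s j _ σ => by
    have e : ⁅facO S h2 s σ, π' (Equiv.swap s j)⁆ = facO S h2 s σ * facO S h2 j σ⁻¹ := by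
      rw [commutatorElement_def, mul_assoc (facO S h2 s σ), mul_assoc, mul_right_inj, mul_inv_eq_iff_eq_mul,
        ← map_inv]
      have := (hπ (Equiv.swap s j)).conj_fac s (a := oE Q σ⁻¹) (a' := oE Q σ⁻¹) fun _ => rfl
      rw [Equiv.swap_apply_left] at this
      exact Subtype.ext (LinearEquiv.toLinearMap_injective this)
    exact hmem (facO S h2 s σ * facO S h2 j σ⁻¹) (e ▸ Subgroup.commutator_mem_commutator
      (Subgroup.mem_top _) (Subgroup.mem_top _)) ((hn s σ).mul (hn j σ⁻¹)), fun σ hσ =>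
    ⟨_, hmem (π' σ) (map_mem_commutator π' (alternating_le_commutator τ hσ)) (act_nm (hπ σ)), hπ σ⟩, inferInstance⟩
  refine hg' (h4 g (OY.nm ⟨hX, fun s u hu hu0 D hD hD' => by_contra fun hD0 => hne ?_⟩
    ⟨_, ⟨g, hg, rfl⟩, rfl⟩))
  refine eq_top_iff.2 fun k _ => ?_
  obtain ⟨k', hk', e⟩ := hX.eichGroup_le (hX.gp.oty hX hu hu0 (s := s) ⟨hD, hD'⟩ hD0) k.2
  rwa [← Subtype.ext (H79.oU_injective _ e)]

end Abstract

section Geo

open Matrix Cfsg.Geo

/-- The stabiliser in `Ω`, `q` odd, of a decomposition as a tensor power of an orthogonal space of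
dimension `k ≥ 3` is maximal unless `q = k = 3` or the factor is `O₄⁺`. -/
theorem isMaximalIn_tensorWreath_oo {F : Type*} [Field F] [Fintype F] {ι : Type} [Fintype ι]
    [DecidableEq ι] {k t : ℕ} {f₁ : (Fin k → F) → (Fin k → F) → F} (hodd : Odd (Fintype.card F))
    {R : (ι → F) → F} (hR : IsNondegenerateQuadraticForm R) (hk : 3 ≤ k) (ht : 2 ≤ t)
    (hex : ¬ (Fintype.card F = 3 ∧ k = 3)) (h4 : k = 4 → ¬ IsPlusTypeOn (fun v => f₁ v v) ⊤)
    (e : ι ≃ (Fin t → Fin k)) (P : GL ι F) (hf₁ : IsSymmetricForm f₁)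
    (hT : IsTensorPowerFormStructure id (polar R) f₁ e P) :
    IsMaximalIn (omegaGL R) (tensorWreathSubgroup k t e P ⊓ omegaGL R) := by
  obtain ⟨R, hRn, rfl⟩ := exists_quadraticForm_of_geo hR
  have h2 := two_ne_zero_of_odd hodd
  have : NeZero t := ⟨by omega⟩
  have : NeZero k := ⟨by omega⟩
  have : Nontrivial (Fin t) := Fin.nontrivial_iff_two_le.2 ht
  have hn : 3 ≤ Fintype.card ι := by
    rw [Fintype.card_congr e, Fintype.card_fun, Fintype.card_fin, Fintype.card_fin]
    exact hk.trans (Nat.le_self_pow (by omega) k)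
  have e₁ := polarBilin_halfQ (h := geoBilin hf₁.bilinear) h2 hf₁.symm
  have hv : ∀ v, halfQ (geoBilin hf₁.bilinear) v = 0 → f₁ v v = 0 := fun v hv => by
    simpa [halfQ, h2, geoBilin_apply] using hv
  generalize halfQ (geoBilin hf₁.bilinear) = Q at e₁ hv
  have hf : (polarBilin Q).Nondegenerate := e₁ ▸ geoBilin_nondegenerate hf₁.bilinear hf₁.nondegenerate
  have h3 : 3 ≤ finrank F (Fin k → F) := by simpa
  have hT' : IsTensorPowerFormStructure id (fun x y => polarBilin R x y) f₁ e P := hT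
  refine isMaximalIn_of_isCoatom_comap ((toGL R).comp (eichGroup R).subtype) (by
    rw [MonoidHom.range_comp, Subgroup.range_subtype,
      omegaGL_eq_map_eichGroup hRn (not_isExc_of_two h2) hn]) _
    (isCoatom_pow_oo e₁ (S := geoTPow hf₁.bilinear hT') ⟨⟨hf, h2, h3, ?_,
      exists_isHyp_of_three_le hf h3⟩, fun u d hu hd hud hu0 hd0 => ?_⟩ hRn (by simpa)
      (geoTPow_perm _ hT') (fun g hg => ?_) fun g hg => mem_tw_of_nm hf₁.bilinear hT' ?_)
  · by_cases hq : Fintype.card F = 3
    · left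
      rw [finrank_fin_fun]
      omega
    · exact Or.inr (H79.exists_mul_self_ne_one h2 hq)
  · have a1 : ∀ w ∈ Submodule.span F {u, d}, Q w = 0 := fun w hw => by
      obtain ⟨a, b, rfl⟩ := Submodule.mem_span_pair.1 hw
      simp [Q_add, Q_smul, hu, hd, hud]
    have a2 : finrank F (Submodule.span F {u, d}) = 2 := by
      have := finrank_span_eq_card
        ((LinearIndependent.pair_iff' hu0).2 fun a e => hd0 (Submodule.mem_span_singleton.2 ⟨a, e⟩))
      rwa [Matrix.range_cons_cons_empty] at this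
    have a3 := finrank_add_finrank_perp hf (Submodule.span F {u, d})
    have a4 := Submodule.finrank_mono (show Submodule.span F {u, d} ≤
      perp Q (Submodule.span F {u, d}) from fun a ha => mem_perp.2 fun b hb => by
        simp [polar, a1 _ ha, a1 _ hb, a1 _ (add_mem hb ha)])
    rw [finrank_fin_fun] at a3 ⊢
    by_contra a5
    exact h4 (by omega) ⟨_, le_top, fun w hw => hv w (a1 w hw), by
      rw [a2, finrank_top, finrank_fin_fun]; omega⟩
  · simpa only [MonoidHom.comp_apply, toGL_mulVec, Subgroup.coe_subtype] using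
      geoTPow_pres hf₁.bilinear hT' hg
  · convert hg
    exact LinearMap.ext fun v => toGL_mulVec _ v

end Geo

end Cfsg.Agent.H27
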