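import Cfsg.Agent.H27.FacRed
import Cfsg.Agent.H30.TPow

/-!
# Tensor powers of a symplectic space: tensor products of endomorphisms
-/

set_option autoImplicit false

namespace Cfsg.Agent.H27

open Module Function H30 H36

theorem multi_induction {τ M : Type*} [Fintype τ] [DecidableEq τ] {p : (τ → M) → Prop}
    {G L : τ → Set M} (hstep : ∀ i u, (∀ y ∈ G i, p (update u i y)) → ∀ y ∈ L i, p (update u i y))
    (hG : ∀ u, (∀ i, u i ∈ G i) → p u) (u : τ → M) (hu : ∀ i, u i ∈ L i) : p u := by
  have key : ∀ T : Finset τ, ∀ u : τ → M, (∀ i ∈ T, u i ∈ L i) → (∀ i ∉ T, u i ∈ G i) → p u := by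
    intro T
    induction T using Finset.induction_on with
    | empty => exact fun u _ h => hG u fun i => h i (by simp)
    | insert s T hs ih =>
      intro u h1 h2
      rw [← update_eq_self s u]
      refine hstep s u (fun y hy => ih _ (fun i hi => ?_) fun i hi => ?_) _ (h1 s (by simp))
      · rw [update_of_ne (by rintro rfl; exact hs hi)]
        exact h1 i (by simp [hi])
      · by_cases his : i = s
        · rwa [his, update_self]
        · rw [update_of_ne his]
          exact h2 i (by simp [hi, his])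
  exact key Finset.univ u (fun i _ => hu i) (by simp)

variable {F U V τ : Type*} [Field F] [AddCommGroup U] [Module F U] [AddCommGroup V] [Module F V]
  [Fintype τ] [DecidableEq τ] {f : LinearMap.BilinForm F U} {B : LinearMap.BilinForm F V}
  (S : TPow τ f B)

theorem multi_span {M N : Type*} [AddCommGroup M] [Module F M] [AddCommGroup N] [Module F N]
    (Ψ : (τ → M) → N) (hΨ : ∀ u i, IsLinearMap F fun y => Ψ (update u i y)) (L : Submodule F N)
    {G : τ → Set M} (hG : ∀ u, (∀ i, u i ∈ G i) → Ψ u ∈ L) (u : τ → M)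
    (hu : ∀ i, u i ∈ Submodule.span F (G i)) : Ψ u ∈ L :=
  multi_induction (p := fun u => Ψ u ∈ L) (L := fun i => Submodule.span F (G i)) (fun i u h _ hy =>
    (Submodule.span_le (p := L.comap ((hΨ u i).mk' _))).2 h hy) hG u hu

/-- The tensor product of a family of endomorphisms. -/
noncomputable def Phi : (τ → End F U) →* End F V :=
  MonoidHom.noncommPiCoprod (fun s => (S.fac s : End F U →* End F V))
    fun _ _ h a b => S.fac_comm h a b

theorem Phi_single (s : τ) (a : End F U) : Phi S (Pi.mulSingle s a) = S.fac s a :=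
  MonoidHom.noncommPiCoprod_mulSingle (N := fun _ => End F U) _ s a

theorem Phi_induction {p : End F V → Prop} (h1 : p 1) (hmul : ∀ x y, p x → p y → p (x * y))
    (n : τ → End F U) (h : ∀ s, p (S.fac s (n s))) : p (Phi S n) :=
  Submonoid.pi_mem_of_mulSingle_mem (H := Submonoid.comap (Phi S)
    { carrier := {x | p x}, mul_mem' := fun hx hy => hmul _ _ hx hy, one_mem' := h1 }) n
    fun s => by simpa [Phi_single] using h s

theorem Phi_pt (n : τ → End F U) (u : τ → U) : Phi S n (S.pt u) = S.pt fun s => n s (u s) := by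
  let H : Submonoid (τ → End F U) :=
    { carrier := {n | ∀ u, Phi S n (S.pt u) = S.pt fun s => n s (u s)}
      mul_mem' := fun {a b} ha hb u => by rw [map_mul, End.mul_apply, hb, ha]; rfl
      one_mem' := fun u => by rw [map_one]; rfl }
  refine (Submonoid.pi_mem_of_mulSingle_mem (H := H) n fun s u => ?_) u
  rw [Phi_single, S.fac_pt]
  congr 1
  funext i
  by_cases h : i = s
  · subst h; simp
  · simp [h]

theorem Phi_update (n : τ → End F U) (s : τ) (a : End F U) :
    Phi S (update n s a) = S.fac s a * Phi S (update n s 1) := by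
  rw [← Phi_single, ← map_mul]
  congr 1
  funext i
  by_cases h : i = s
  · subst h; simp
  · simp [h]

theorem Phi_update' {n : τ → End F U} {s : τ} (h : n s = 1) (a : End F U) :
    Phi S (update n s a) = S.fac s a * Phi S n := by
  rw [Phi_update, ← h, update_eq_self]

theorem Phi_linear (n : τ → End F U) (s : τ) : IsLinearMap F fun a => Phi S (update n s a) :=
  ⟨fun a b => by simp only [Phi_update S n s (a + b), Phi_update S n s a, Phi_update S n s b,
    map_add, add_mul], fun c a => by
    simp only [Phi_update S n s (c • a), Phi_update S n s a, map_smul, smul_mul_assoc]⟩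

theorem Phi_eq_zero {n : τ → End F U} {s : τ} (h : n s = 0) : Phi S n = 0 := by
  rw [← update_eq_self s n, Phi_update, h, map_zero, zero_mul]

theorem Phi_smul (c : τ → F) (n : τ → End F U) :
    Phi S (fun j => c j • n j) = (∏ j, c j) • Phi S n :=
  S.ext_lin fun u => by
    simp only [Phi_pt, LinearMap.smul_apply, ← S.pt.map_smul_univ]

theorem cm_fac {s j : τ} (h : s ≠ j) (a : End F U) : Cm (S.fac s) (S.fac j a) :=
  fun b => S.fac_comm h b a

theorem cm_Phi {n : τ → End F U} {s : τ} (h : n s = 1) : Cm (S.fac s) (Phi S n) :=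
  Phi_induction S cm_one (fun _ _ => Cm.mul) n fun j => by
    by_cases hj : s = j
    · rw [← hj, h, map_one]
      exact cm_one
    · exact cm_fac S hj _

theorem ro_pt (x y : τ → U) :
    ro B (S.pt x) (S.pt y) = S.c • Phi S fun i => ro f (x i) (y i) :=
  S.ext_lin fun u => by
    simp only [ro_apply, Phi_pt, LinearMap.smul_apply, S.pt.map_smul_univ, S.form, mul_smul]

theorem Act.conj_Phi {g : End F V} {σ : Equiv.Perm τ} (h : S.Act g σ 1) (n : τ → End F U) :
    g * Phi S n = Phi S (fun j => n (σ.symm j)) * g :=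
  S.ext_lin fun u => by
    rw [End.mul_apply, End.mul_apply, Phi_pt, h, h, Phi_pt]
    rfl

theorem eE_adj (hA : f.IsAlt) (s : τ) (x y : U) (p q : V) :
    B (eE f (S.fac s) x y p) q = -B p (eE f (S.fac s) y x q) := by
  rw [eE_apply, S.fac_adj s (a' := -ro f y x) fun a b => by simp [← hA.neg_eq b x, mul_comm]]
  simp [eE_apply]

theorem eE_skew (hA : f.IsAlt) (s : τ) (x : U) : Skew B (eE f (S.fac s) x x) := eE_adj S hA s x x

theorem fac_iso (s : τ) {g g' : End F U} (hg : ∀ x y, f (g x) (g y) = f x y) (h : g' * g = 1)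
    (h' : g * g' = 1) (p q : V) : B (S.fac s g p) (S.fac s g q) = B p q := by
  rw [S.fac_adj s (a' := g') fun x y => by rw [← hg x, ← End.mul_apply, h', End.one_apply],
    ← End.mul_apply, ← map_mul, h, map_one, End.one_apply]

theorem exists_form_ne_zero (hf : f.Nondegenerate) {x : τ → U} (hx : ∀ i, x i ≠ 0) :
    ∃ y : τ → U, (∀ i, f (y i) (x i) = 1) ∧ B (S.pt y) (S.pt x) = S.c := by
  choose y hy using fun i => exists_apply_eq_one' hf (hx i)
  exact ⟨y, hy, by simp [S.form, hy]⟩

theorem pt_ne_zero (hf : f.Nondegenerate) {x : τ → U} (hx : ∀ i, x i ≠ 0) : S.pt x ≠ 0 := fun h => by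
  obtain ⟨y, -, hy⟩ := exists_form_ne_zero S hf hx
  exact S.c_ne (by simpa [h] using hy.symm)

include S in
theorem nontrivial_pow (hf : f.Nondegenerate) [Nontrivial U] : Nontrivial V := by
  obtain ⟨x, hx⟩ := exists_ne (0 : U)
  exact ⟨⟨_, _, pt_ne_zero S hf (x := fun _ => x) fun _ => hx⟩⟩

theorem Phi_ne_zero (hf : f.Nondegenerate) {n : τ → End F U} (h : ∀ j, n j ≠ 0) : Phi S n ≠ 0 := by
  choose x hx using fun j => DFunLike.ne_iff.1 (h j)
  intro e
  exact pt_ne_zero S hf hx (by rw [← Phi_pt, e, LinearMap.zero_apply])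

theorem fac_ne_zero (hf : f.Nondegenerate) [Nontrivial U] (s : τ) {a : End F U} (h : a ≠ 0) :
    S.fac s a ≠ 0 := by
  rw [← Phi_single]
  refine Phi_ne_zero S hf fun j => ?_
  by_cases hj : j = s
  · simpa [hj]
  · simp [hj]

/-- An endomorphism commuting with all factors is scalar. -/
theorem exists_smul_of_cm (hf : f.Nondegenerate) [Nontrivial U] {T : End F V}
    (h : ∀ s, Cm (S.fac s) T) : ∃ c : F, T = c • 1 := by
  obtain ⟨x, hx⟩ := exists_ne (0 : U)
  obtain ⟨y, -, hy⟩ := exists_form_ne_zero S hf (x := fun _ => x) fun _ => hx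
  refine ⟨S.c⁻¹ * B (T (S.pt y)) (S.pt fun _ => x), S.ext_lin fun u => ?_⟩
  have h1 : ro B (S.pt u) (S.pt fun _ => x) * T = T * ro B (S.pt u) (S.pt fun _ => x) := by
    rw [ro_pt, smul_mul_assoc, mul_smul_comm, Phi_induction S (p := fun a => a * T = T * a)
      (by simp) (fun a b ha hb => by rw [mul_assoc, hb, ← mul_assoc, ha, mul_assoc]) _
      fun s => h s _]
  have := LinearMap.congr_fun h1 (S.pt y)
  simp only [End.mul_apply, ro_apply, hy, map_smul] at this
  rw [LinearMap.smul_apply, End.one_apply, mul_smul, this, inv_smul_smul₀ S.c_ne]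

variable [FiniteDimensional F U]

theorem cm_co_of_ne (hf : f.Nondegenerate) {s j : τ} (h : s ≠ j) {T : End F V}
    (hT : Cm (S.fac j) T) (x y : U) : Cm (S.fac j) (co hf (S.fac s) x y T) := fun a => by
  rw [← (cm_fac S h a).co_mul, hT, (cm_fac S h a).co_mul']

/-- An endomorphism commuting with all factors but one lies in that factor. -/
theorem exists_fac_of_cm (hf : f.Nondegenerate) [Nontrivial U] {s : τ} {T : End F V}
    (h : ∀ j, j ≠ s → Cm (S.fac j) T) : ∃ a, T = S.fac s a :=
  exists_phi_of_co (hf := hf) fun x y => exists_smul_of_cm S hf fun j => by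
    by_cases hj : j = s
    · exact hj ▸ cm_co x y T
    · exact cm_co_of_ne S hf (Ne.symm hj) (h j hj) x y

/-- A group of isometries of a tensor power of a symplectic space containing the symplectic groups
of the factors. -/
structure PX (S : TPow τ f B) (X : Subgroup (End F V)ˣ) : Prop where
  nd : f.Nondegenerate
  alt : f.IsAlt
  bnd : B.Nondegenerate
  nt : Nontrivial U
  iso : IsoG B X
  fac : ∀ (s : τ) (g : End F U), (∀ x y, f (g x) (g y) = f x y) → InG X (S.fac s g)

variable {S} {X : Subgroup (End F V)ˣ}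

omit [FiniteDimensional F U] in
theorem eE_sq (hA : f.IsAlt) {A : Type*} [Ring A] [Algebra F A] (φ : End F U →ₐ[F] A) (x : U) :
    eE f φ x x * eE f φ x x = 0 := by rw [eE_mul, hA.self_eq_zero, zero_smul]

omit [FiniteDimensional F U] in
theorem PX.qt (hX : PX S X) (s : τ) (x : U) : QT F X (eE f (S.fac s) x x) :=
  ⟨eE_sq hX.alt _ x, fun c => by simpa [eE_apply] using hX.fac s _ (tv_iso hX.alt x c)⟩

omit [FiniteDimensional F U] in
theorem PX.eE_ne_zero (hX : PX S X) (s : τ) {x y : U} (hx : x ≠ 0) (hy : y ≠ 0) :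
    eE f (S.fac s) x y ≠ 0 :=
  have := hX.nt
  fac_ne_zero S hX.nd s (ro_ne_zero hX.nd hx hy)

end Cfsg.Agent.H27
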