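import Cfsg.Agent.H27.PowM

/-!
# Overgroups of tensor induced symplectic groups: producing long root elements
-/

set_option autoImplicit false

namespace Cfsg.Agent.H27

open Module Function H30 H36

variable {F U V τ : Type*} [Field F] [AddCommGroup U] [Module F U] [AddCommGroup V] [Module F V]
  [Fintype τ] [DecidableEq τ] {f : LinearMap.BilinForm F U} {B : LinearMap.BilinForm F V}
  {S : TPow τ f B} {X : Subgroup (End F V)ˣ} {A A' J : Finset τ}

/-- `X` contains the even permutations of the factors. -/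
def HasAlt (S : TPow τ f B) (X : Subgroup (End F V)ˣ) : Prop :=
  ∀ σ ∈ alternatingGroup τ, ∃ g : End F V, InG X g ∧ S.Act g σ 1

/-- The elements of `X` with commutator space in that of `t_u ⊗ 1` are the `t_u ⊗ 1`. -/
def PM (S : TPow τ f B) (X : Subgroup (End F V)ˣ) : Prop :=
  ∀ s u, u ≠ 0 → ∀ n, InG X (1 + n) → (∀ p, n p ∈ LinearMap.range (eE f (S.fac s) u u)) →
    ∃ c : F, n = c • eE f (S.fac s) u u

theorem Ty.perm (h : Ty S X A J) {g : End F V} {σ : Equiv.Perm τ} (hg : InG X g)
    (hσ : S.Act g σ 1) : Ty S X (A.map σ.toEmbedding) (J.map σ.toEmbedding) := fun n hn => by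
  obtain ⟨g', -, h1, -⟩ := inG_exists_inv hg
  have := inG_conj hg h1 (h (fun j => n (σ j)) fun j => by simpa [tyS] using hn (σ j))
  rw [Act.conj_Phi S hσ, mul_assoc, h1, mul_one] at this
  simpa using this

theorem exists_alt_map (h : A.card = A'.card) (h2 : 2 ≤ A.card) :
    ∃ σ ∈ alternatingGroup τ, A.map σ.toEmbedding = A' := by
  obtain ⟨σ, hσ⟩ := Equiv.Perm.exists_map_finset_eq A A' h
  rcases Int.units_eq_one_or (Equiv.Perm.sign σ) with h1 | h1
  · exact ⟨σ, h1, hσ⟩
  obtain ⟨a, ha, b, hb, hab⟩ := Finset.one_lt_card.1 h2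
  refine ⟨σ * Equiv.swap a b, by simp [h1, hab], ?_⟩
  rw [← hσ]
  ext j
  simp only [Finset.mem_map_equiv, Equiv.Perm.mul_def, Equiv.symm_trans_apply, Equiv.symm_swap,
    Equiv.swap_apply_def]
  split_ifs with h3 h4 <;> simp [*]

theorem Ty.of_card (hP : HasAlt S X) (h : Ty S X A ∅) (h2 : 2 ≤ A.card) (e : A.card = A'.card) :
    Ty S X A' ∅ := by
  obtain ⟨σ, hσ, rfl⟩ := exists_alt_map e h2
  obtain ⟨g, hg, h1⟩ := hP σ hσ
  exact h.perm hg h1

variable [FiniteDimensional F U] [Finite F]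

theorem Ty.flip (hX : PX S X) (h : Ty S X A J) (d : Disjoint A J) (h3 : 3 ≤ finrank F U) {s a : τ}
    (hs : s ∈ A) (ha : a ∈ J) (hσ : (-1 : F) ^ J.card = -1) : Ty S X J {s} :=
  have d' := Finset.disjoint_left.1 d
  rule_d hX h h d d (fun _ => h3) (Or.inl ha) (Or.inl ha) (by grind) (by grind) (Or.inl ⟨hs, hs⟩)
    (d' hs) (by grind) (by grind) hσ

theorem Ty.pair (hX : PX S X) (hP : HasAlt S X) (h3 : 3 ≤ finrank F U) {s j : τ} (hsj : s ≠ j)
    (h : Ty S X {s} {j}) {s' j' : τ} (hsj' : s' ≠ j') : Ty S X {s'} {j'} := by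
  obtain ⟨σ, hσ, e⟩ := exists_alt_map (A := {s, j}) (A' := {s', j'}) (by simp [hsj, hsj'])
    (by simp [hsj])
  obtain ⟨g, hg, h1⟩ := hP σ hσ
  have h4 := h.perm hg h1
  have h5 : σ s ∈ ({s', j'} : Finset τ) := e ▸ by simp
  have h6 : σ j ∈ ({s', j'} : Finset τ) := e ▸ by simp
  have h7 := σ.injective.ne hsj
  simp only [Finset.map_singleton, Equiv.coe_toEmbedding] at h4
  by_cases h8 : σ s = s'
  · rwa [h8, show σ j = j' by grind] at h4
  · rw [show σ s = j' by grind, show σ j = s' by grind] at h4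
    exact h4.flip hX (by simp [hsj'.symm]) h3 (by simp) (Finset.mem_singleton_self _) (by simp)

theorem exists_ty (hX : PX S X) (hP : HasAlt S X) (h2 : (2 : F) ≠ 0 ∨ 3 ≤ finrank F U)
    (hM : ¬ PM S X) : (3 ≤ finrank F U ∧ ∀ s j, s ≠ j → Ty S X {s} {j}) ∨
      ∃ A : Finset τ, 2 ≤ A.card ∧ Ty S X A ∅ := by
  simp only [PM, not_forall, not_exists] at hM
  obtain ⟨s, u, hu, n, hn, hr, hM⟩ := hM
  obtain ⟨y, hy⟩ := exists_apply_eq_one' hX.nd hu
  have h1 : n * eE f (S.fac s) y u = n := LinearMap.ext fun p => by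
    have := (eE_skew S hX.alt s u).apply_eq_zero hX.bnd
      (LinearMap.congr_fun (eE_sq hX.alt (S.fac s) u))
      (hX.iso _ hn) hr (p := p - eE f (S.fac s) y u p) (by
        rw [map_sub, ← End.mul_apply, eE_mul, hy, one_smul, sub_self])
    rw [map_sub, sub_eq_zero] at this
    exact this.symm
  have h4 : eE f (S.fac s) u y * n = -n := LinearMap.ext fun p => by
    obtain ⟨q, hq⟩ := hr p
    rw [End.mul_apply, LinearMap.neg_apply, ← hq, ← End.mul_apply, eE_mul, ← hX.alt.neg_eq, hy]
    simp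
  have h5 : n = eE f (S.fac s) u u * -co hX.nd (S.fac s) y y n := by
    rw [mul_neg, eE_mul_co, h4, neg_mul, h1, neg_neg]
  have := hX.nt
  obtain ⟨A, J, a1, a2, a3, a4, a5, a6⟩ := reduce_all hX.nd hX.alt h2
    (fun j hj => inv_dSub hX hj) (D := -co hX.nd (S.fac s) y y n) ⟨(cm_co _ _ _).neg, fun x => by
      by_cases hx : x = 0
      · simpa [hx] using inG_one X
      obtain ⟨g, hg, rfl⟩ := exists_isom_apply_eq hX.nd hX.alt hu hx
      have := inG_conj (hX.fac s _ hg) (g' := S.fac s g.symm.toLinearMap)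
        (by rw [← map_mul, equiv_mul_symm, map_one]) hn
      rwa [h5, eE_apply, (cm_co _ _ _).neg.conj_mul, iso_conj_ro hg (equiv_mul_symm g)] at this⟩
    (cm_co _ _ _).neg fun c e => hM c (by rw [h5, e, mul_smul_comm, mul_one])
  have h6 : Ty S X (insert s A) J := fun m hm => by
    obtain ⟨x, hx⟩ := tyS_t (f := f) (J := J) (Finset.mem_insert_self s A) ▸ hm s
    have := (a6 (update m s 1) fun j => by
      by_cases hj : j = s
      · simp [hj, tyS_o a1 a2]
      · simpa [tyS, hj] using hm j).2 x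
    rwa [eE_apply, ← Phi_update, ← hx, update_eq_self] at this
  rcases J.eq_empty_or_nonempty with rfl | ⟨a, ha⟩
  · exact Or.inr ⟨_, by simpa [a1, Finset.one_le_card] using a4, h6⟩
  have h3 := a5 ⟨a, ha⟩
  have d : Disjoint (insert s A) J := by simp [a2, a3]
  by_cases hσ : (-1 : F) ^ J.card = -1
  · exact Or.inl ⟨h3, fun s' j' => ((h6.flip hX d h3 (Finset.mem_insert_self s A) ha hσ).flip hX
      (by simpa) h3 ha (Finset.mem_singleton_self s) (by simp)).pair hX hP h3 (by grind)⟩
  have hσ' := (neg_one_pow_eq_or F J.card).resolve_right hσ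
  have d' := Finset.disjoint_left.1 d
  exact Or.inr ⟨insert s J, by simpa [a2, Finset.one_le_card] using ⟨a, ha⟩,
    rule_t hX (fun h => hσ (by rw [hσ']; linear_combination h)) h6 h6 d d a5 (Or.inl ha)
      (Or.inl ha) (b := s) (by grind) (by grind) (by simp) (by simp) (by grind) (by grind) hσ'⟩

theorem ty_three (hX : PX S X) (hP : HasAlt S X) (h2 : (2 : F) ≠ 0) (hM : ¬ PM S X)
    (hA : A.card = 3) : Ty S X Finset.univ ∅ ∨ Ty S X A ∅ := by
  rcases exists_ty hX hP (Or.inl h2) hM with ⟨k3, h⟩ | ⟨A', h1, h⟩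
  · obtain ⟨a, a', c, h1, h4, h5, rfl⟩ := Finset.card_eq_three.1 hA
    exact Or.inr (rule_t hX h2 (h a c h4) (h a' c h5) (by simpa) (by simpa) (fun _ => k3) (a := a)
      (a' := a') (by grind) (by grind) h4 h5 (by simp) (by simp) (by grind) (C := ∅) (by grind)
      (by simp))
  by_cases h4 : A' = Finset.univ
  · exact Or.inl (h4 ▸ h)
  obtain ⟨a', ha'⟩ : ∃ a', a' ∉ A' := by simpa [Finset.eq_univ_iff_forall] using h4
  obtain ⟨a, ha, c, hc, hac⟩ := Finset.one_lt_card.1 h1
  refine Or.inr ((rule_t hX h2 h (h.of_card hP h1 (A' := insert a' (A'.erase a)) (by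
      rw [Finset.card_insert_of_notMem (by simp [ha']), Finset.card_erase_add_one ha]))
    (by simp) (by simp) (by simp) (a := a) (a' := a') (b := c) (by grind) (by grind) hac (by grind)
    (by grind) (N := {a, a', c}) (by simp) (by grind) (C := ∅) (by grind) (by simp)).of_card hP
    (by grind) (by grind))

theorem ty_odd (hX : PX S X) (h2 : (2 : F) ≠ 0)
    (h : ∀ A : Finset τ, A.card = 3 → Ty S X A ∅) (m : ℕ) (hA : A.card = 2 * m + 3) :
    Ty S X A ∅ := by
  induction m generalizing A with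
  | zero => exact h A hA
  | succ m ih =>
    obtain ⟨a', ha', a'', ha'', h1⟩ := Finset.one_lt_card.1 (show 1 < A.card by omega)
    have h4 : ((A.erase a').erase a'').card = 2 * m + 3 := by grind
    obtain ⟨a, ha, c, hc, hac⟩ := Finset.one_lt_card.1
      (show 1 < ((A.erase a').erase a'').card by omega)
    exact rule_t hX h2 (ih h4) (h {c, a', a''} (by grind)) (by simp) (by simp) (by simp) (a := a)
      (a' := a') (b := c) (by grind) (by grind) hac (by grind) (by grind) (by grind) (by grind)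
      (C := ∅) (by grind) (by simp)

theorem ty_univ (hX : PX S X) (hP : HasAlt S X) (h2 : (2 : F) ≠ 0) (hM : ¬ PM S X)
    (h3 : 3 ≤ Fintype.card τ) (ho : Odd (Fintype.card τ)) : Ty S X Finset.univ ∅ := by
  by_contra h
  obtain ⟨m, hm⟩ := ho
  exact h (ty_odd hX h2 (fun A hA => (ty_three hX hP h2 hM hA).resolve_left h) (m - 1)
    (by rw [Finset.card_univ]; omega))

theorem ty_edge_odd (hX : PX S X) (hP : HasAlt S X) (h2 : (2 : F) ≠ 0) (hM : ¬ PM S X)
    (hU : ¬ Ty S X Finset.univ ∅) (he : Even (Fintype.card τ)) :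
    (4 ≤ Fintype.card τ ∧ ∀ j, Ty S X (Finset.univ.erase j) ∅) ∨
      (3 ≤ finrank F U ∧ ∀ j, Ty S X (Finset.univ.erase j) {j}) := by
  obtain ⟨m, hm⟩ := he
  by_cases h3 : 3 ≤ Fintype.card τ
  · exact Or.inl ⟨by omega, fun j => ty_odd hX h2
      (fun A hA => (ty_three hX hP h2 hM hA).resolve_left hU) (m - 2) (by simp; omega)⟩
  rcases exists_ty hX hP (Or.inl h2) hM with ⟨k3, h⟩ | ⟨A', h1, h⟩
  · refine Or.inr ⟨k3, fun j => ?_⟩
    have := Fintype.card_pos_iff.2 ⟨j⟩
    obtain ⟨a, ha⟩ := Finset.card_eq_one.1 (show (Finset.univ.erase j).card = 1 by simp; omega)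
    exact ha ▸ h a j (Finset.ne_of_mem_erase (ha ▸ Finset.mem_singleton_self a))
  · exact absurd (Finset.eq_univ_of_card A' (by have := A'.card_le_univ; omega) ▸ h) hU

theorem ty_edge_of_erase (hX : PX S X) (h : ∀ j, Ty S X (Finset.univ.erase j) ∅)
    (h4 : 4 ≤ Fintype.card τ) (he : Even (Fintype.card τ)) (c : τ) :
    Ty S X (Finset.univ.erase c) {c} := by
  obtain ⟨a, ha, a', ha', h1⟩ := Finset.one_lt_card.1
    (show 1 < (Finset.univ.erase c).card by simp; omega)
  refine rule_d hX (h a') (h a) (by simp) (by simp) (by simp) (a := a) (a' := a') (by grind)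
    (by grind) (by grind) (by grind) (by grind) (by simp) (by grind)
    (C := ((Finset.univ.erase c).erase a).erase a') (by grind) (Odd.neg_one_pow ?_)
  rw [Finset.card_erase_of_mem (by grind), Finset.card_erase_of_mem ha,
    Finset.card_erase_of_mem (by simp), Finset.card_univ]
  obtain ⟨m, hm⟩ := he
  exact ⟨m - 2, by omega⟩

theorem ty_edge_two (hX : PX S X) (hP : HasAlt S X) (h2 : (2 : F) = 0) (h5 : 5 ≤ finrank F U)
    (hM : ¬ PM S X) (hU : ¬ Ty S X Finset.univ ∅) (ht : 2 ≤ Fintype.card τ) (c : τ) :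
    Ty S X (Finset.univ.erase c) {c} := by
  have h3 : 3 ≤ finrank F U := by omega
  have hσ : (-1 : F) ^ (∅ : Finset τ).card = -1 := by simp; linear_combination h2
  have h : ∀ s j, s ≠ j → Ty S X {s} {j} := by
    refine (exists_ty hX hP (Or.inr h3) hM).elim And.right fun ⟨A', h1, h⟩ s j => ?_
    obtain ⟨a', ha'⟩ : ∃ a', a' ∉ A' := by
      by_contra! H
      exact hU (Finset.eq_univ_iff_forall.2 H ▸ h)
    obtain ⟨a, ha, c, hc, hac⟩ := Finset.one_lt_card.1 h1
    exact ((rule_d hX h (h.of_card hP h1 (A' := insert a' (A'.erase a)) (by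
        rw [Finset.card_insert_of_notMem (by simp [ha']), Finset.card_erase_add_one ha]))
      (by simp) (by simp) (by simp) (a := a) (a' := a') (b := c) (by grind) (by grind) hac
      (by grind) (by grind) (N := {a, a'}) (by grind) (by grind) (by grind) hσ).flip hX
      (Finset.disjoint_singleton_right.2 (by grind)) h3 (s := a) (by simp) (Finset.mem_singleton_self c) (by simp)).pair hX hP h3
      hac.symm
  have key : ∀ A : Finset τ, A.Nonempty → c ∉ A → Ty S X A {c} := fun A hA => by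
    induction hA using Finset.Nonempty.cons_induction with
    | singleton a => exact fun hc => h a c (by grind)
    | cons a' A ha' hA ih =>
      intro hc
      obtain ⟨a, ha⟩ := hA
      exact rule_d hX (ih (by grind)) (h a' c (by grind)) (Finset.disjoint_singleton_right.2
        (by grind)) (Finset.disjoint_singleton_right.2 (by grind)) (fun _ => h3)
        (a := a) (a' := a') (by grind) (by grind) (by grind) (by grind) (by grind) hc (by grind)
        (by grind) hσ
  exact key _ (Finset.card_pos.1 (by simp; omega)) (by simp)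

end Cfsg.Agent.H27
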