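import Cfsg.Agent.H27.PowBasic

/-!
# Overgroups of tensor induced symplectic groups: pure quadratic elements
-/

set_option autoImplicit false

namespace Cfsg.Agent.H27

open Module Function H30 H36

variable {F U V τ : Type*} [Field F] [AddCommGroup U] [Module F U] [AddCommGroup V] [Module F V]
  [Fintype τ] [DecidableEq τ] {f : LinearMap.BilinForm F U} {B : LinearMap.BilinForm F V}
  {S : TPow τ f B} {X : Subgroup (End F V)ˣ} {A A' J N C : Finset τ}

/-- The factors allowed at position `j` for the type `(A, J)`. -/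
def tyS (f : LinearMap.BilinForm F U) (A J : Finset τ) (j : τ) : Set (End F U) :=
  if j ∈ A then tS f else if j ∈ J then dS f else {1}

omit [Fintype τ] in
theorem tyS_t {j : τ} (h : j ∈ A) : tyS f A J j = tS f := if_pos h

omit [Fintype τ] in
theorem tyS_d {j : τ} (h : j ∉ A) (h' : j ∈ J) : tyS f A J j = dS f := by
  rw [tyS, if_neg h, if_pos h']

omit [Fintype τ] in
theorem tyS_o {j : τ} (h : j ∉ A) (h' : j ∉ J) : tyS f A J j = {1} := by
  rw [tyS, if_neg h, if_neg h']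

/-- `X` contains all the elements of type `(A, J)`. -/
def Ty (S : TPow τ f B) (X : Subgroup (End F V)ˣ) (A J : Finset τ) : Prop :=
  ∀ n, (∀ j, n j ∈ tyS f A J j) → InG X (1 + Phi S n)

theorem Phi_sq (hA : f.IsAlt) {n : τ → End F U} (hn : ∀ j, n j ∈ tyS f A J j) {a : τ}
    (ha : a ∈ J ∨ a ∈ A) : Phi S n * Phi S n = 0 := by
  rw [← map_mul]
  refine Phi_eq_zero S (s := a) ?_
  have := hn a
  by_cases h : a ∈ A
  · obtain ⟨x, hx⟩ := tyS_t (f := f) (J := J) h ▸ this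
    rw [Pi.mul_apply, hx, tv_mul_tv hA]
  · obtain ⟨x, y, hxy, hx⟩ := tyS_d (f := f) h (ha.resolve_right h) ▸ this
    rw [Pi.mul_apply, hx, dd_mul_dd hA hxy]

variable [FiniteDimensional F U]

theorem reduce_all (hf : f.Nondegenerate) (hA : f.IsAlt) [Nontrivial U]
    (h2 : (2 : F) ≠ 0 ∨ 3 ≤ finrank F U) {s : τ} {L : Submodule F (End F V)}
    (hL : ∀ j, j ≠ s → Inv f (S.fac j) L) {D : End F V} (hD : D ∈ L) (hs : Cm (S.fac s) D)
    (hD' : ∀ c : F, D ≠ c • 1) : ∃ A J : Finset τ, s ∉ A ∧ s ∉ J ∧ Disjoint A J ∧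
      (A.Nonempty ∨ J.Nonempty) ∧ (J.Nonempty → 3 ≤ finrank F U) ∧
      ∀ n, (∀ j, n j ∈ tyS f A J j) → Phi S n ∈ L := by
  have key : ∀ T : Finset τ, s ∉ T → ∃ A J : Finset τ, A ⊆ T ∧ J ⊆ T ∧ Disjoint A J ∧
      (J.Nonempty → 3 ≤ finrank F U) ∧ ∃ E : End F V, E ≠ 0 ∧ (∀ i ∈ insert s T, Cm (S.fac i) E) ∧
      (∀ n, (∀ j, n j ∈ tyS f A J j) → Phi S n * E ∈ L) ∧
      ((A.Nonempty ∨ J.Nonempty) ∨ E = D) := by
    intro T
    induction T using Finset.induction_on with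
    | empty =>
      refine fun _ => ⟨∅, ∅, by simp, by simp, by simp, by simp, D, by simpa using hD' 0,
        by simpa using hs, fun n hn => ?_, Or.inr rfl⟩
      rwa [show n = 1 from funext fun j => hn j, map_one, one_mul]
    | insert j T hj ih =>
      intro hs
      rw [Finset.mem_insert, not_or] at hs
      obtain ⟨A, J, h1, h3, h4, h5, E, h6, h7, h8, h9⟩ := ih hs.2
      have hjA : j ∉ A := fun h => hj (h1 h)
      have hjJ : j ∉ J := fun h => hj (h3 h)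
      have hne : ∀ i ∈ insert s T, j ≠ i := by
        rintro i hi rfl
        simp [hj, Ne.symm hs.1] at hi
      by_cases hE : Cm (S.fac j) E
      · exact ⟨A, J, h1.trans (Finset.subset_insert _ _), h3.trans (Finset.subset_insert _ _), h4,
          h5, E, h6, by simpa [hE] using h7, h8, h9⟩
      let L' : Submodule F (End F V) :=
        { carrier := {E | (∀ i ∈ insert s T, Cm (S.fac i) E) ∧
            ∀ n, (∀ j, n j ∈ tyS f A J j) → Phi S n * E ∈ L}
          add_mem' := fun ha hb => ⟨fun i hi => (ha.1 i hi).add (hb.1 i hi), fun n hn => by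
            rw [mul_add]
            exact L.add_mem (ha.2 n hn) (hb.2 n hn)⟩
          zero_mem' := ⟨fun _ _ => cm_zero, by simp⟩
          smul_mem' := fun c a ha => ⟨fun i hi => (ha.1 i hi).smul c, fun n hn => by
            rw [mul_smul_comm]
            exact L.smul_mem c (ha.2 n hn)⟩ }
      have hc : ∀ n, (∀ j, n j ∈ tyS f A J j) → Cm (S.fac j) (Phi S n) := fun n hn =>
        cm_Phi S (by simpa [tyS_o hjA hjJ] using hn j)
      obtain ⟨a, a1, a2, a3⟩ := Inv.reduce (φ := S.fac j) (L := L') hf hA (fun g g' hg hgg' E hE =>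
        ⟨fun i hi => ((cm_fac S (hne i hi).symm g).mul (hE.1 i hi)).mul
          (cm_fac S (hne i hi).symm g'), fun n hn => by
          rw [← mul_assoc, ← mul_assoc, ← hc n hn, mul_assoc _ _ E]
          exact hL j (Ne.symm hs.1) g g' hg hgg' _ (hE.2 n hn)⟩) h2 ⟨h7, h8⟩ hE
      have step : ∀ (θ : Set (End F U)) (A' J' : Finset τ), (∃ m ∈ θ, m ≠ 0) →
          (∀ m ∈ θ, S.fac j m * a ∈ L') → tyS f A' J' j = θ →
          (∀ i, i ≠ j → tyS f A' J' i = tyS f A J i) →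
          (∀ i ∈ insert s (insert j T), Cm (S.fac i) a) ∧
            ∀ n, (∀ j, n j ∈ tyS f A' J' j) → Phi S n * a ∈ L := by
        rintro θ A' J' ⟨m, hm, hm0⟩ hθ e1 e2
        have b1 : ∀ i ∈ insert s T, Cm (S.fac i) a := fun i hi b =>
          sub_eq_zero.1 (Cm.eq_zero_of_phi hf hm0 (((cm_fac S (hne i hi) b).mul a2).sub
            (a2.mul (cm_fac S (hne i hi) b))) (by
              rw [mul_sub, ← mul_assoc, S.fac_comm (hne i hi), mul_assoc, (hθ m hm).1 i hi,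
                mul_assoc, sub_self]))
        refine ⟨by simpa [a2] using b1, fun n hn => ?_⟩
        have b2 : ∀ i, update n j 1 i ∈ tyS f A J i := fun i => by
          by_cases hi : i = j
          · simp [hi, tyS_o hjA hjJ]
          · rw [update_of_ne hi, ← e2 i hi]
            exact hn i
        rw [← update_eq_self j n, Phi_update, hc _ b2, mul_assoc]
        exact (hθ _ (e1 ▸ hn j)).2 _ b2
      obtain ⟨u, hu⟩ := exists_ne (0 : U)
      rcases a3 with a3 | ⟨a3, a4⟩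
      · obtain ⟨b1, b2⟩ := step (tS f) (insert j A) J ⟨_, ⟨u, rfl⟩, ro_ne_zero hf hu hu⟩ a3
          (tyS_t (by simp)) fun i hi => by simp [tyS, hi]
        exact ⟨insert j A, J, Finset.insert_subset_insert _ h1, h3.trans (Finset.subset_insert _ _),
          by simp [h4, hjJ], h5, a, a1, b1, b2, by simp⟩
      · obtain ⟨m, hm, m', -, e, -⟩ := pg_dd hf hA a3 True True u
        obtain ⟨b1, b2⟩ := step _ A (insert j J) ⟨m, hm, fun e' =>
          ro_ne_zero hf hu hu (by simpa [e'] using congrArg Prod.fst e)⟩ a4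
          (tyS_d hjA (by simp)) fun i hi => by simp [tyS, hi]
        exact ⟨A, insert j J, h1.trans (Finset.subset_insert _ _), Finset.insert_subset_insert _ h3,
          by simp [h4, hjA], fun _ => a3, a, a1, b1, b2, by simp⟩
  obtain ⟨A, J, h1, h3, h4, h5, E, h6, h7, h8, h9⟩ := key (Finset.univ.erase s) (by simp)
  obtain ⟨c, rfl⟩ := exists_smul_of_cm S hf fun i => h7 i (by simp)
  have hc : c ≠ 0 := by rintro rfl; simp at h6
  exact ⟨A, J, fun h => by simpa using h1 h, fun h => by simpa using h3 h, h4,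
    h9.resolve_right fun e => hD' c e.symm, h5, fun n hn => by
      simpa [L.smul_mem_iff hc] using h8 n hn⟩

variable [Finite F]

omit [FiniteDimensional F U] in
/-- The operators `D` with `1 + t_u ⊗ D ∈ X`. -/
def dSub (hX : PX S X) (s : τ) : Submodule F (End F V) where
  carrier := {D | Cm (S.fac s) D ∧ ∀ u, InG X (1 + eE f (S.fac s) u u * D)}
  add_mem' {D D'} hD hD' := ⟨hD.1.add hD'.1, fun u => by
    convert (hD.2 u).mul (hD'.2 u) using 1
    rw [add_mul, one_mul, mul_add _ 1, mul_one, mul_assoc, ← mul_assoc D, ← hD.1.comm_eE,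
      mul_assoc, eE_mul', hX.alt.self_eq_zero, zero_smul, mul_add, add_zero]
    abel⟩
  zero_mem' := ⟨cm_zero, fun u => by simpa using inG_one X⟩
  smul_mem' c D hD := ⟨hD.1.smul c, fun u => by
    obtain ⟨a, b, rfl⟩ := exists_sq_sub_sq c
    have h0 : eE f (S.fac s) u u * D * (eE f (S.fac s) u u * D) = 0 := by
      rw [mul_assoc, ← mul_assoc D, ← hD.1.comm_eE, mul_assoc, eE_mul', hX.alt.self_eq_zero,
        zero_smul]
    refine inG_of_mul_eq (hD.2 (b • u)) (hD.2 (a • u)) ?_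
    simp only [map_smul, LinearMap.smul_apply, smul_mul_assoc, mul_smul_comm, add_mul, mul_add, h0,
      one_mul, mul_one, smul_zero]
    module⟩

omit [FiniteDimensional F U] in
theorem inv_dSub (hX : PX S X) {s j : τ} (h : j ≠ s) : Inv f (S.fac j) (dSub hX s) :=
  fun g g' hg hgg' D hD => ⟨((cm_fac S h.symm g).mul hD.1).mul (cm_fac S h.symm g'), fun u => by
    have := inG_conj (hX.fac j g hg) (g' := S.fac j g') (by rw [← map_mul, hgg', map_one]) (hD.2 u)
    rwa [← mul_assoc, ← (cm_fac S h.symm g).comm_eE, mul_assoc _ _ D, mul_assoc] at this⟩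

omit [FiniteDimensional F U] in
theorem Ty.smul (hX : PX S X) (h : Ty S X A J) {s : τ} (hs : s ∈ A) {n : τ → End F U}
    (hn : ∀ j, n j ∈ tyS f A J j) (c : F) : InG X (1 + c • Phi S n) := by
  obtain ⟨x, hx⟩ := tyS_t (f := f) (J := J) hs ▸ hn s
  have h1 : Phi S (update n s 1) ∈ dSub hX s := ⟨cm_Phi S (by simp), fun u => by
    rw [eE_apply, ← Phi_update]
    refine h _ fun j => ?_
    by_cases hj : j = s
    · rw [hj, update_self, tyS_t hs]
      exact ⟨u, rfl⟩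
    · rw [update_of_ne hj]
      exact hn j⟩
  have := (Submodule.smul_mem _ c h1).2 x
  rwa [mul_smul_comm, eE_apply, ← Phi_update, ← hx, update_eq_self] at this

omit [FiniteDimensional F U] in
theorem comm_rule (hX : PX S X) {θ θ' : τ → Set (End F U)}
    (hθ : ∀ n, (∀ j, n j ∈ θ j) → InG X (1 + Phi S n) ∧ Phi S n * Phi S n = 0)
    (hθ' : ∀ n, (∀ j, n j ∈ θ' j) → InG X (1 + Phi S n) ∧ Phi S n * Phi S n = 0)
    {a j₁ j₂ : τ} {ε : F} (ha : ∀ u, (ro f u u, ε • ro f u u) ∈ PG (θ a) (θ' a) (a = j₁) (a = j₂))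
    {p p' : τ → End F U}
    (hp : ∀ j, j ≠ a → (p j, p' j) ∈ Submodule.span F (PG (θ j) (θ' j) (j = j₁) (j = j₂)))
    (h1 : p a = 1) (h2 : p' a = ε • 1) : Phi S p - Phi S p' ∈ dSub hX a := by
  refine multi_span (fun q : τ → End F U × End F U => Phi S (Prod.fst ∘ q) - Phi S (Prod.snd ∘ q))
    (fun u i => ?_) _ (G := update (fun j => PG (θ j) (θ' j) (j = j₁) (j = j₂)) a {(1, ε • 1)})
    (fun q hq => ?_) (fun j => (p j, p' j)) fun j => ?_
  · simp only [comp_update]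
    exact ⟨fun a b => by simp only [Prod.fst_add, Prod.snd_add, (Phi_linear S _ i).1]; abel,
      fun c a => by simp only [Prod.smul_fst, Prod.smul_snd, (Phi_linear S _ i).2, smul_sub]⟩
  · have ha1 : q a = (1, ε • 1) := by simpa using hq a
    have e1 : ∀ x, Phi S (update (Prod.fst ∘ q) a x) = S.fac a x * Phi S (Prod.fst ∘ q) :=
      Phi_update' S (by simp [ha1])
    have e2 : ∀ x, Phi S (update (Prod.snd ∘ q) a (ε • x)) = S.fac a x * Phi S (Prod.snd ∘ q) := by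
      intro x
      conv_rhs => rw [← update_eq_self a (Prod.snd ∘ q), Phi_update]
      simp [Phi_update S _ a (ε • x), ha1]
    refine ⟨(cm_Phi S (by simp [ha1])).sub fun x => ?_, fun u => ?_⟩
    · conv_rhs => rw [← update_eq_self a (Prod.snd ∘ q), Phi_update]
      rw [← e2, Phi_update, mul_assoc, ← cm_Phi S (by simp) x]
      simp [ha1]
    have h3 : ∀ j, update q a (ro f u u, ε • ro f u u) j ∈ PG (θ j) (θ' j) (j = j₁) (j = j₂) := by
      intro j
      by_cases hj : j = a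
      · rw [hj, update_self]
        exact ha u
      · simpa [hj] using hq j
    choose n hn n' hn' e h4 h5 using h3
    have e3 : n * n' = update (Prod.fst ∘ q) a (ro f u u) := by
      rw [← show Prod.fst ∘ update q a (ro f u u, ε • ro f u u) = _ from comp_update _ _ _ _]
      exact funext fun j => (congrArg Prod.fst (e j)).symm
    have e4 : n' * n = update (Prod.snd ∘ q) a (ε • ro f u u) := by
      rw [← show Prod.snd ∘ update q a (ro f u u, ε • ro f u u) = _ from comp_update _ _ _ _]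
      exact funext fun j => (congrArg Prod.snd (e j)).symm
    have := inG_comm (hθ n hn).1 (hθ' n' hn').1
      (by rw [← map_mul, ← map_mul]; exact Phi_eq_zero S (h4 j₁ rfl))
      (by rw [mul_assoc, (hθ' n' hn').2, mul_zero]) (by rw [mul_assoc, (hθ n hn).2, mul_zero])
      (by rw [← map_mul, ← map_mul]; exact Phi_eq_zero S (h5 j₂ rfl))
    rwa [← map_mul, ← map_mul, e3, e4, e1, e2, ← mul_sub] at this
  · by_cases hj : j = a
    · rw [hj, update_self, h1, h2]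
      exact Submodule.subset_span rfl
    · rw [update_of_ne hj]
      exact hp j hj

theorem rule (hX : PX S X) (hA : Ty S X A J) (hA' : Ty S X A' J) (dA : Disjoint A J)
    (dA' : Disjoint A' J) (h3 : J.Nonempty → 3 ≤ finrank F U) {a a' b : τ}
    (ha : a ∈ J ∨ (a ∈ A ∧ a ∉ A')) (ha' : a' ∈ J ∨ (a' ∈ A' ∧ a' ∉ A)) (hab : a ≠ b)
    (hN : ∀ j, j ≠ b → ((j ∈ J ∨ ¬ (j ∈ A ↔ j ∈ A')) → j ∈ N) ∧ (j ∈ N → j ∈ A ∨ j ∈ A' ∨ j ∈ J))
    (hC : ∀ j, j ∈ C ↔ j ≠ b ∧ j ∈ N ∧ (j ∈ J ∨ (j ∈ A ∧ j ∈ A'))) {r r' : End F U}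
    (hb : (r, r') ∈ Submodule.span F (PG (tyS f A J b) (tyS f A' J b) (b = a) (b = a')))
    {n : τ → End F U} (hn : ∀ j, j ≠ b → n j ∈ tyS f N ∅ j)
    (hnb : n b = r - (-1 : F) ^ C.card • r') : InG X (1 + Phi S n) := by
  have dA := Finset.disjoint_left.1 dA
  have dA' := Finset.disjoint_left.1 dA'
  have na : ∀ j, j ∉ J → (j ∈ A → j ∈ A') → j ≠ a := by
    rintro j h1 h2 rfl
    exact ha.elim h1 fun h => h.2 (h2 h.1)
  have na' : ∀ j, j ∉ J → (j ∈ A' → j ∈ A) → j ≠ a' := by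
    rintro j h1 h2 rfl
    exact ha'.elim h1 fun h => h.2 (h2 h.1)
  let ε : τ → F := fun j => if j ∈ C then -1 else 1
  have key : ∀ j, j ≠ b → j ∈ N → ¬ (j ∈ A ∧ j ∈ A') → ∀ u,
      (ro f u u, ε j • ro f u u) ∈ PG (tyS f A J j) (tyS f A' J j) (j = a) (j = a') := by
    intro j hj hjN hjA u
    by_cases h1 : j ∈ J
    · rw [tyS_d (fun h => dA h h1) h1, tyS_d (fun h => dA' h h1) h1]
      simpa [ε, hC, hj, hjN, h1] using pg_dd hX.nd hX.alt (h3 ⟨j, h1⟩) _ _ u
    have h4 : ε j = 1 := if_neg (by simp [hC, h1, hjA])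
    rw [h4, one_smul]
    by_cases h2 : j ∈ A
    · rw [tyS_t h2, tyS_o (fun h => hjA ⟨h2, h⟩) h1]
      exact pg_left (θ := tS f) ⟨u, rfl⟩ (tv_mul_tv hX.alt u) _ (na' j h1 fun _ => h2)
    · have h5 : j ∈ A' := (((hN j hj).2 hjN).resolve_left h2).resolve_right h1
      rw [tyS_o h2 h1, tyS_t h5]
      exact pg_right (θ := tS f) ⟨u, rfl⟩ (tv_mul_tv hX.alt u) (na j h1 fun _ => h5) _
  have haN : a ∈ N := (hN a hab).1 (ha.imp_right fun h e => h.2 (e.1 h.1))
  obtain ⟨u, hu⟩ := tyS_t (f := f) (J := ∅) haN ▸ hn a hab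
  have := (comm_rule hX (fun n hn => ⟨hA n hn, Phi_sq hX.alt hn (ha.imp_right And.left)⟩)
    (fun n hn => ⟨hA' n hn, Phi_sq hX.alt hn (ha'.imp_right And.left)⟩)
    (key a hab haN fun h => na a (dA h.1) (fun _ => h.2) rfl) (p := update (update n b r) a 1)
    (p' := fun j => ε j • update (update n b r') a 1 j) (fun j hj => ?_) (by simp) (by simp)).2 u
  · rwa [Phi_smul, mul_sub, mul_smul_comm, eE_apply, ← Phi_update, ← Phi_update, ← hu,
      ← update_of_ne hab r n, update_eq_self, update_of_ne hab, ← update_of_ne hab r' n,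
      update_eq_self, ← (Phi_linear S n b).2, ← (Phi_linear S n b).map_sub,
      show ∏ j, ε j = (-1) ^ C.card by simp [ε, Finset.prod_ite_mem], ← hnb, update_eq_self] at this
  rw [update_of_ne hj, update_of_ne hj]
  by_cases hjb : j = b
  · simpa [hjb, ε, hC] using hb
  rw [update_of_ne hjb, update_of_ne hjb]
  have h1 := hn j hjb
  by_cases hjN : j ∈ N
  · obtain ⟨x, hx⟩ := tyS_t (f := f) (J := ∅) hjN ▸ h1
    rw [hx]
    by_cases h4 : j ∈ A ∧ j ∈ A'
    · rw [tyS_t h4.1, tyS_t h4.2]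
      simpa [ε, hC, hjb, hjN, h4] using pr_tt hX.nd hX.alt hj (na' j (dA h4.1) fun _ => h4.1) x x
    · exact Submodule.subset_span (key j hjb hjN h4 x)
  · rw [tyS_o hjN (by simp)] at h1
    rw [h1, show ε j = 1 from if_neg (by simp [hC, hjN]), one_smul]
    have h2 := mt (hN j hjb).1 hjN
    rw [not_or, not_not] at h2
    by_cases h4 : j ∈ A
    · rw [tyS_t h4, tyS_t (h2.2.1 h4)]
      exact pr_tt_one hX.nd hX.alt hj (na' j h2.1 h2.2.2)
    · rw [tyS_o h4 h2.1, tyS_o (mt h2.2.2 h4) h2.1]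
      exact Submodule.subset_span (pg_one hj (na' j h2.1 h2.2.2))

theorem rule_d (hX : PX S X) (hA : Ty S X A J) (hA' : Ty S X A' J) (dA : Disjoint A J)
    (dA' : Disjoint A' J) (h3 : J.Nonempty → 3 ≤ finrank F U) {a a' b : τ}
    (ha : a ∈ J ∨ (a ∈ A ∧ a ∉ A')) (ha' : a' ∈ J ∨ (a' ∈ A' ∧ a' ∉ A)) (hab : a ≠ b)
    (hab' : a' ≠ b) (hb : (b ∈ A ∧ b ∈ A') ∨ (b ∈ J ∧ 5 ≤ finrank F U)) (hbN : b ∉ N)
    (hN : ∀ j, j ≠ b → ((j ∈ J ∨ ¬ (j ∈ A ↔ j ∈ A')) → j ∈ N) ∧ (j ∈ N → j ∈ A ∨ j ∈ A' ∨ j ∈ J))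
    (hC : ∀ j, j ∈ C ↔ j ≠ b ∧ j ∈ N ∧ (j ∈ J ∨ (j ∈ A ∧ j ∈ A')))
    (hσ : (-1 : F) ^ C.card = -1) : Ty S X N {b} := fun n hn => by
  obtain ⟨v, v', h, e⟩ := tyS_d (f := f) hbN (Finset.mem_singleton_self b) ▸ hn b
  refine rule hX hA hA' dA dA' h3 ha ha' hab hN hC (r := ro f v v') (r' := -ro f v' v) ?_
    (fun j hj => by simpa [tyS, hj] using hn j) (by simp [e, hσ, dd])
  rcases hb with hb | hb
  · rw [tyS_t hb.1, tyS_t hb.2]
    exact pr_tt hX.nd hX.alt hab.symm hab'.symm v v'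
  · rw [tyS_d (Finset.disjoint_right.1 dA hb.1) hb.1, tyS_d (Finset.disjoint_right.1 dA' hb.1) hb.1]
    exact Submodule.subset_span (pg_dd_five hX.nd hX.alt hb.2 hab.symm hab'.symm h)

theorem rule_t (hX : PX S X) (h2 : (2 : F) ≠ 0) (hA : Ty S X A J) (hA' : Ty S X A' J)
    (dA : Disjoint A J) (dA' : Disjoint A' J) (h3 : J.Nonempty → 3 ≤ finrank F U) {a a' b : τ}
    (ha : a ∈ J ∨ (a ∈ A ∧ a ∉ A')) (ha' : a' ∈ J ∨ (a' ∈ A' ∧ a' ∉ A)) (hab : a ≠ b)
    (hab' : a' ≠ b) (hb : (b ∈ A ∧ b ∈ A') ∨ b ∈ J) (hbN : b ∈ N)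
    (hN : ∀ j, j ≠ b → ((j ∈ J ∨ ¬ (j ∈ A ↔ j ∈ A')) → j ∈ N) ∧ (j ∈ N → j ∈ A ∨ j ∈ A' ∨ j ∈ J))
    (hC : ∀ j, j ∈ C ↔ j ≠ b ∧ j ∈ N ∧ (j ∈ J ∨ (j ∈ A ∧ j ∈ A')))
    (hσ : (-1 : F) ^ C.card = 1) : Ty S X N ∅ := fun n hn => by
  obtain ⟨x, e⟩ := tyS_t (f := f) hbN ▸ hn b
  refine rule hX hA hA' dA dA' h3 ha ha' hab hN hC (r := (2 : F)⁻¹ • ro f x x)
    (r' := (2 : F)⁻¹ • -ro f x x) (Submodule.smul_mem _ (2 : F)⁻¹ (x := (_, _)) ?_)
    (fun j _ => hn j) (by
      rw [e, hσ, one_smul, ← smul_sub, sub_neg_eq_add, ← two_smul F, inv_smul_smul₀ h2])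
  rcases hb with hb | hb
  · rw [tyS_t hb.1, tyS_t hb.2]
    exact pr_tt hX.nd hX.alt hab.symm hab'.symm x x
  · rw [tyS_d (Finset.disjoint_right.1 dA hb) hb, tyS_d (Finset.disjoint_right.1 dA' hb) hb]
    exact Submodule.subset_span (pg_dd hX.nd hX.alt (h3 ⟨b, hb⟩) _ _ x)

end Cfsg.Agent.H27
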