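import Cfsg.Agent.H27.PowP1
import Cfsg.Agent.H36.Dickson

/-!
# Overgroups of tensor induced symplectic groups in odd characteristic
-/

set_option autoImplicit false

namespace Cfsg.Agent.H27

open Module Function H30 H36

theorem RF.triple_eq_smul {F V : Type*} [Field F] [AddCommGroup V] [Module F V]
    [FiniteDimensional F V] {X : Subgroup (End F V)ˣ} {S : End F V → Prop} (hR : RF X S)
    (h2 : (2 : F) ≠ 0) (h3 : Nat.card F ≠ 3) {A B : End F V} (hA : Cls X S A) (hB : Cls X S B) :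
    ∃ c : F, A * B * A = c • A := by
  obtain ⟨D⟩ := exists_pairData (k := F) ⟨h2, h3, fun R _ _ _ => dickson_all h2 h3 R⟩
    (hR.cls.qt A hA) (hR.cls.qt B hB)
  have hAA := (hR.cls.qt A hA).sq
  obtain ⟨c, hc⟩ := hR.cls.m A hA (D.e * A) (by simpa using (D.qt_e_left hAA).mem 1)
    fun p => ⟨D.e p, by rw [← D.se, End.mul_apply]⟩
  by_cases hc0 : c = 0
  · exact ⟨0, by rw [zero_smul]; exact hR.triple_eq_zero h2 hA hB (D.nil_of (Or.inl (by
      rw [hc, hc0, zero_smul])))⟩
  have h1 := D.qt_left hAA D.x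
  rw [D.ψ_x, mul_assoc, hc, mul_smul_comm, z_mul_left hAA] at h1
  obtain ⟨c', hc'⟩ := hR.cls.m A hA (c • (A * B * A)) (by simpa using h1.mem 1)
    fun p => ⟨c • B (A p), by simp⟩
  exact ⟨c⁻¹ * c', by rw [mul_smul, ← hc', inv_smul_smul₀ hc0]⟩

variable {F U V τ : Type*} [Field F] [AddCommGroup U] [Module F U] [AddCommGroup V] [Module F V]
  [Fintype τ] [DecidableEq τ] {f : LinearMap.BilinForm F U} {B : LinearMap.BilinForm F V}
  {S : TPow τ f B} {X : Subgroup (End F V)ˣ} {s : τ} {u : U} {A z g : End F V}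

/-- The nilpotent parts of the transvections of the factors. -/
def bR (S : TPow τ f B) (N : End F V) : Prop := ∃ s u, u ≠ 0 ∧ N = eE f (S.fac s) u u

theorem PX.rf (hX : PX S X) (hM : PM S X) : RF X (bR S) :=
  ⟨by rintro _ ⟨s, u, -, rfl⟩; exact hX.qt s u, by
    rintro _ ⟨s, u, hu, rfl⟩; exact hX.eE_ne_zero s hu hu, by
    rintro _ ⟨s, u, hu, rfl⟩; exact hM s u hu⟩

theorem PX.cls_eq (hX : PX S X) (hM : PM S X) (hA : Cls X (bR S) A) {β : End F U}
    (h : A = S.fac s β) : ∃ (y : U) (c : F), A = c • eE f (S.fac s) y y := by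
  obtain ⟨x, hx⟩ : ∃ x, β x ≠ 0 := by
    by_contra! H
    exact (hX.rf hM).cls.ne A hA (by rw [h, show β = 0 from LinearMap.ext H, map_zero])
  obtain ⟨c, hc⟩ := (hX.rf hM).cls.m A hA _ (by simpa using (hX.qt s (β x)).mem 1)
    fun p => ⟨eE f (S.fac s) x (β x) p, by rw [h, ← End.mul_apply, phi_mul_eE]⟩
  have hc0 : c ≠ 0 := by
    rintro rfl
    exact hX.eE_ne_zero s hx hx (by rw [hc, zero_smul])
  exact ⟨β x, c⁻¹, by rw [hc, inv_smul_smul₀ hc0]⟩

theorem PX.skew_of_fac (hX : PX S X) {γ : End F U} (h : Skew B (S.fac s γ)) (x y : U) :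
    f (γ x) y = f (γ y) x := by
  have := hX.nt
  obtain ⟨a, ha⟩ := exists_ne (0 : U)
  obtain ⟨b, hb⟩ := exists_apply_eq_one hX.nd ha
  have := h (S.pt (update (fun _ => a) s x)) (S.pt (update (fun _ => b) s y))
  simp only [S.fac_pt, update_idem, update_self, S.form_update, hb, Finset.prod_const_one,
    ← hX.alt.neg_eq (γ y)] at this
  exact mul_right_cancel₀ S.c_ne (by linear_combination this)

/-- `g` permutes the factor algebras. -/
def Nm (S : TPow τ f B) (g : End F V) : Prop :=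
  ∃ σ : Equiv.Perm τ, ∀ s a, ∃ a', g * S.fac s a = S.fac (σ s) a' * g

theorem PX.not_cm (hX : PX S X) {x y : U} (hx : x ≠ 0) (hy : y ≠ 0) :
    ¬ Cm (S.fac s) (eE f (S.fac s) x y) := fun h => by
  obtain ⟨z, hz⟩ := exists_apply_eq_one' hX.nd hy
  have := h.comm_eE (f := f) z x
  rw [eE_mul, eE_mul, hX.alt.self_eq_zero, hz, zero_smul, one_smul] at this
  exact hX.eE_ne_zero s hx hx this.symm

variable [FiniteDimensional F U]

/-- `g` maps transvections of the factors to transvections of the factors. -/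
def Tv (S : TPow τ f B) (g : End F V) : Prop := ∀ s u, u ≠ 0 → ∃ (j : τ) (y : U) (c : F),
  g * eE f (S.fac s) u u = c • eE f (S.fac j) y y * g

theorem PX.nm_of_tv (hX : PX S X) {g' : End F V} (h1 : g * g' = 1) (h2 : g' * g = 1) (h : Tv S g)
    (h' : Tv S g') : Nm S g := by
  have := hX.nt
  obtain ⟨u₀, hu₀⟩ := exists_ne (0 : U)
  have key : ∀ g g', g' * g = 1 → Tv S g →
      ∃ σ : τ → τ, ∀ s a, ∃ a', g * S.fac s a = S.fac (σ s) a' * g := by
    intro g g' h2 h
    choose j y c e using h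
    have h1 : ∀ s u hu u' hu', f u u' ≠ 0 → j s u hu = j s u' hu' := by
      intro s u hu u' hu' hf
      by_contra hj
      have a1 : g * (eE f (S.fac s) u u * eE f (S.fac s) u' u') =
          g * (eE f (S.fac s) u' u' * eE f (S.fac s) u u) := by
        rw [← mul_assoc, ← mul_assoc, e s u hu, e s u' hu', mul_assoc, mul_assoc, e s u hu,
          e s u' hu', ← mul_assoc, ← mul_assoc]
        simp only [smul_mul_assoc, mul_smul_comm, eE_apply, S.fac_comm hj, smul_smul, mul_comm]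
      have a2 := congrArg (fun T => eE f (S.fac s) u u * (g' * T)) a1
      simp only [← mul_assoc g', h2, one_mul, eE_mul, mul_smul_comm, hX.alt.self_eq_zero, zero_smul,
        smul_zero, smul_smul] at a2
      exact hX.eE_ne_zero s hu hu ((smul_eq_zero.1 a2.symm).resolve_left
        (mul_ne_zero hf fun e => hf (hX.alt.isRefl _ _ e)))
    refine ⟨fun s => j s u₀ hu₀, fun s => ?_⟩
    let C : Submodule F (End F U) :=
      { carrier := {a | ∃ a', g * S.fac s a = S.fac (j s u₀ hu₀) a' * g}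
        add_mem' := fun ⟨a', ha⟩ ⟨b', hb⟩ => ⟨a' + b', by simp only [map_add, mul_add, add_mul, *]⟩
        zero_mem' := ⟨0, by simp⟩
        smul_mem' := fun c a ⟨a', ha⟩ => ⟨c • a', by
          simp only [map_smul, mul_smul_comm, smul_mul_assoc, ha]⟩ }
    refine ro_induction (P := (· ∈ C)) hX.nd C.zero_mem (fun _ _ => C.add_mem)
      (ro_mem_of_mul hX.nd C (fun a ⟨a', ha⟩ b ⟨b', hb⟩ => ⟨a' * b', by
        rw [map_mul, ← mul_assoc, ha, mul_assoc, hb, map_mul, mul_assoc]⟩) fun u => ?_)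
    by_cases hu : u = 0
    · simp [hu, ro_zero_left]
    obtain ⟨w, -, h3, h4⟩ := exists_mem_both_ne_zero ⊤ (f u) (f u₀)
      (by obtain ⟨z, hz⟩ := exists_apply_eq_one hX.nd hu; exact ⟨z, trivial, by simp [hz]⟩)
      (by obtain ⟨z, hz⟩ := exists_apply_eq_one hX.nd hu₀; exact ⟨z, trivial, by simp [hz]⟩)
    have hw : w ≠ 0 := by rintro rfl; simp at h3
    exact ⟨c s u hu • ro f (y s u hu) (y s u hu), by
      rw [h1 s u₀ hu₀ w hw h4, ← h1 s u hu w hw h3, map_smul, ← eE_apply, ← eE_apply, e]⟩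
  obtain ⟨σ, hσ⟩ := key g g' h2 h
  obtain ⟨ρ, hρ⟩ := key g' g h1 h'
  refine ⟨Equiv.ofBijective σ (Finite.injective_iff_bijective.1
    (LeftInverse.injective (g := ρ) fun s => ?_)), hσ⟩
  by_contra hs
  obtain ⟨a, ha⟩ := hσ s (ro f u₀ u₀)
  obtain ⟨b, hb⟩ := hρ (σ s) a
  refine hX.not_cm (s := s) hu₀ hu₀ ?_
  convert cm_fac S (Ne.symm hs) b using 1
  rw [eE_apply]
  linear_combination (norm := noncomm_ring) g' * ha + hb * g + (S.fac (ρ (σ s)) b) * h2 -
    h2 * S.fac s (ro f u₀ u₀)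

omit [FiniteDimensional F U] in
theorem eE_eE (φ : End F U →ₐ[F] End F V) (a b c d : U) (p : V) :
    eE f φ a b (eE f φ c d p) = f c b • eE f φ a d p :=
  LinearMap.congr_fun (eE_mul (f := f) (φ := φ) a b c d) p

theorem PX.invol_sign (hX : PX S X) (hM : PM S X) (h2 : (2 : F) ≠ 0) (h3 : 3 ≤ finrank F U)
    (hu : u ≠ 0) (hz : Invol X (eE f (S.fac s) u u) z) :
    (∀ p, z (eE f (S.fac s) u u p) = -eE f (S.fac s) u u p) ∧
      ∃ x, x ≠ 0 ∧ ∀ p, z (eE f (S.fac s) x x p) = eE f (S.fac s) x x p := by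
  obtain ⟨y, hy⟩ := exists_apply_eq_one' hX.nd hu
  obtain ⟨v, v', hv, hv', hvv'⟩ := exists_orth_pair hX.nd hX.alt h3 u
  have hzz : z * z = 1 := LinearMap.ext hz.sq
  have hk : ∀ a b p, eE f (S.fac s) a v' (z (eE f (S.fac s) v b p)) = eE f (S.fac s) a b p := by
    intro a b p
    obtain ⟨q, hq⟩ := hz.triv (eE f (S.fac s) v b p) (by simp [eE_eE, hX.alt.isRefl _ _ hv])
    have := congrArg (eE f (S.fac s) a v') hq
    simpa [eE_eE, hv', hvv', eq_comm (a := (0 : V)), sub_eq_zero] using this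
  have hc : z * eE f (S.fac s) u u = eE f (S.fac s) u u * z := LinearMap.ext hz.comm
  obtain ⟨γ, hγ⟩ := ((hX.qn_sym (s := s) hy hv).1.conj' hX.iso hz.mem hzz hc).exists_fac hX hM
    (Or.inl h2) hu (inG_conj hz.mem hzz (hX.qn_sym hy hv).2)
  have h4 : eE f (S.fac s) u u * z = S.fac s (ro f u v' * γ) := LinearMap.ext fun p => by
    have := hz.comm (eE f (S.fac s) y v (z p))
    rw [eE_eE, hy, one_smul] at this
    simp [← eE_apply, ← hγ, hk, this, eE_eE, hv']
  have h5 : ∀ p, z (eE f (S.fac s) u u p) =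
      -f ((ro f u v' * γ) y) y • eE f (S.fac s) u u p := fun p => by
    have a1 := congrArg (eE f (S.fac s) u y) (LinearMap.congr_fun h4 (eE f (S.fac s) y u p))
    rw [← End.mul_apply (S.fac s _), phi_mul_eE, End.mul_apply, eE_eE, eE_eE, ← hz.comm, eE_eE, hy,
      ← hX.alt.neg_eq, hy] at a1
    rw [neg_smul, ← a1]
    simp
  generalize -f ((ro f u v' * γ) y) y = c at h5
  have h6 : c = -1 := by
    obtain ⟨p, hp⟩ := hz.ne
    have a1 := hz.sq (eE f (S.fac s) u u p)
    rw [h5, map_smul, h5, smul_smul, ← sub_eq_zero, ← one_smul F (eE f (S.fac s) u u p), smul_smul,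
      ← sub_smul, smul_eq_zero, mul_one, sub_eq_zero, mul_self_eq_one_iff] at a1
    rw [h5] at hp
    exact (a1.resolve_right fun e => hp (by simp [e])).resolve_left fun e => hp (by simp [e])
  simp only [h6, neg_smul, one_smul] at h5
  obtain ⟨α, hα⟩ := hX.exists_fac (s := s) hM (Or.inl h2) hu (x := z * S.fac s (-1))
    (hz.mem.mul (hX.fac s _ (by simp))) (by simp [h5])
  have h7 : ∀ b p, z (eE f (S.fac s) v b p) = eE f (S.fac s) (-α v) b p := fun b p => by
    simp [← phi_mul_eE, ← hα]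
  refine ⟨h5, v + -α v, fun e => ?_, fun p => ?_⟩
  · refine hX.eE_ne_zero s hu hu (LinearMap.ext fun p => ?_)
    have a1 := hk u u p
    rw [h7, eq_neg_of_add_eq_zero_right e, eE_eE, LinearMap.map_neg₂, hvv', neg_smul, one_smul,
      neg_eq_iff_add_eq_zero, ← two_smul F] at a1
    exact (smul_eq_zero.1 a1).resolve_left h2
  · have : ∀ b, z (eE f (S.fac s) (v + -α v) b p) = eE f (S.fac s) (v + -α v) b p := fun b => by
      rw [LinearMap.map_add₂, LinearMap.add_apply, ← h7, map_add, hz.sq, add_comm]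
    exact this _

theorem PX.fac_or_cm (hX : PX S X) (hM : PM S X) (h2 : (2 : F) ≠ 0) [Finite F]
    [FiniteDimensional F V] (h3 : 3 ≤ finrank F U ∨ Nat.card F ≠ 3) (hA : Cls X (bR S) A) (s : τ) :
    (∃ β, A = S.fac s β) ∨ Cm (S.fac s) A := by
  have hR := hX.rf hM
  have hq := hR.cls.qt A hA
  have hb : ∀ u, u ≠ 0 → Cls X (bR S) (eE f (S.fac s) u u) := fun u hu => cls_self ⟨s, u, hu, rfl⟩
  have hco : ∀ u (c : F), u ≠ 0 → eE f (S.fac s) u u * A * eE f (S.fac s) u u =
      c • eE f (S.fac s) u u → co hX.nd (S.fac s) u u A = c • 1 := fun u c hu h =>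
    (cm_co u u A).cancel hX.nd hu hu (cm_one.smul c) (by rw [eE_mul_co, h, mul_smul_comm, mul_one])
  by_cases h4 : 3 ≤ finrank F U
  · by_cases hn : ∀ u, u ≠ 0 → IsNilpotent (eE f (S.fac s) u u * A + A * eE f (S.fac s) u u)
    · refine Or.inr (cm_of_tv hX.nd fun u => ?_)
      by_cases hu : u = 0
      · simp [hu]
      have h5 : ∀ x, co hX.nd (S.fac s) x x A = 0 := fun x => by
        by_cases hx : x = 0
        · simp [hx]
        simpa using hco x 0 hx (by rw [hR.triple_eq_zero h2 (hb x hx) hA (hn x hx), zero_smul])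
      have h6 := hR.triple_eq_zero h2 (hb u hu) hA (hn u hu)
      have h7 := (hX.qt s u).comm hq h6 (hR.triple_eq_zero h2 hA (hb u hu) (by
        rw [add_comm]; exact hn u hu))
      obtain ⟨γ, hγ⟩ := hX.exists_fac (s := s) hM (Or.inl h2) hu (h7.mem 1) fun p => by
        simpa [hX.sq] using LinearMap.congr_fun h6 p
      have h8 : eE f (S.fac s) u u * A - A * eE f (S.fac s) u u = S.fac s (γ - 1) := by
        simp [← hγ]
      have h9 : ∀ x, f ((γ - 1) x) x = 0 := fun x => by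
        have a1 := h5 (u + x)
        have a2 := congrArg (co hX.nd (S.fac s) x x) h8
        simp only [map_add, LinearMap.add_apply, h5, zero_add, add_zero] at a1
        rw [co_phi, map_sub, co_eE_left, co_eE_right, ← hX.alt.neg_eq u x, neg_smul,
          sub_neg_eq_add, ← smul_add, add_comm, a1, smul_zero, eq_comm, smul_eq_zero] at a2
        have := hX.nt
        have := nontrivial_pow S hX.nd
        exact a2.resolve_right one_ne_zero
      have h10 := hX.skew_of_fac (h8 ▸ hX.iso.skew h2 h7)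
      rw [← sub_eq_zero, h8, show γ - 1 = 0 from LinearMap.ext fun x => hX.nd.1 _ fun y => ?_,
        map_zero]
      have := h9 (x + y)
      simp only [map_add, LinearMap.add_apply, h9, h10 y x] at this
      exact mul_left_cancel₀ h2 (by linear_combination this)
    push Not at hn
    obtain ⟨u, hu, hn⟩ := hn
    obtain ⟨z, h5, h6, -⟩ := exists_invol h2 (hX.qt s u) hq hn
    obtain ⟨-, x, hx, h7⟩ := hX.invol_sign hM h2 h4 hu h5
    have h8 : ∀ p, z (A p) = -A p := fun p => by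
      obtain ⟨g, g', _, hg, e1, e2, ⟨j, w, hw, rfl⟩, rfl⟩ := hA
      simpa [← End.mul_apply g g', e1] using
        congrArg g ((hX.invol_sign hM h2 h4 hw (h6.conj hg e1 e2)).1 (g' p))
    obtain ⟨α, hα⟩ := hX.exists_fac (s := s) hM (Or.inl h2) hx (hq.mem 1) fun p => by
      have := h8 (eE f (S.fac s) x x p)
      rw [h6.comm, h7, eq_neg_iff_add_eq_zero, ← two_smul F] at this
      simp [(smul_eq_zero.1 this).resolve_left h2]
    exact Or.inl ⟨α - 1, by simp [← hα]⟩
  have h5 : ∀ x, ∃ c : F, co hX.nd (S.fac s) x x A = c • 1 := fun x => by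
    by_cases hx : x = 0
    · exact ⟨0, by simp [hx]⟩
    obtain ⟨c, hc⟩ := hR.triple_eq_smul h2 (h3.resolve_left h4) (hb x hx) hA
    exact ⟨c, hco x c hx hc⟩
  let A' := ∑ i, ∑ j, eE f (S.fac s) (dbas hX.nd i) (bas F U j) *
    co hX.nd (S.fac s) (dbas hX.nd j) (bas F U i) A
  have h6 : ∀ x y, co hX.nd (S.fac s) x y A' = co hX.nd (S.fac s) y x A := fun x y => by
    conv_rhs => rw [← sum_bas hX.nd x, ← sum_dbas hX.nd y]
    simp only [A', map_sum, (cm_co _ _ _).co_eE_mul, map_smul, LinearMap.sum_apply,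
      LinearMap.smul_apply, Finset.smul_sum, smul_smul, mul_comm]
  obtain ⟨α, hα⟩ := exists_phi_of_co (hf := hX.nd) (φ := S.fac s) (T := A + A') fun x y => by
    obtain ⟨a, ha⟩ := h5 x
    obtain ⟨b, hb⟩ := h5 y
    obtain ⟨c, hc⟩ := h5 (x + y)
    simp only [map_add, LinearMap.add_apply, ha, hb] at hc
    exact ⟨c - a - b, by rw [map_add, h6]; linear_combination (norm := module) hc⟩
  have h7 : Cm (S.fac s) (A - A') := cm_of_co (hf := hX.nd) fun x y hxy => by
    by_cases hx : x = 0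
    · simp [hx]
    obtain ⟨c, rfl⟩ := exists_smul_of_orth hX.nd hX.alt h4 hx (hX.alt.isRefl _ _ hxy)
    simp [h6]
  have h8 : ∀ x y, f (α x) y = f (α y) x := fun x y => by
    have := hX.nt
    have := nontrivial_pow S hX.nd
    refine smul_left_injective F (one_ne_zero (α := End F V)) ?_
    simp only [← co_phi (hf := hX.nd) (φ := S.fac s), ← hα, map_add, h6, add_comm]
  by_cases h9 : A - A' = 0
  · exact Or.inl ⟨(2 : F)⁻¹ • α, by
      rw [map_smul, ← hα, ← sub_eq_zero.1 h9, ← two_smul F, inv_smul_smul₀ h2]⟩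
  have h10 : ∀ x, f (α x) x = 0 := fun x => by
    have a1 : S.fac s (α * α) + (S.fac s α * (A - A') + S.fac s α * (A - A')) +
        (A - A') * (A - A') = 0 := by
      rw [map_mul]
      linear_combination (norm := noncomm_ring) h7 α + hq.sq + hq.sq + hq.sq + hq.sq -
        hα * (A + A' + (A - A')) - (S.fac s α + (A - A')) * hα
    have a2 := congrArg (co hX.nd (S.fac s) x x) a1
    rw [map_add, map_add, map_add, co_phi, h7.co_phi_mul, (h7.mul h7).co_self, End.mul_apply, h8,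
      hX.alt.self_eq_zero, hX.alt.self_eq_zero, zero_smul, zero_smul, zero_add, add_zero, map_zero,
      ← two_smul F, smul_smul] at a2
    exact (mul_eq_zero.1 ((smul_eq_zero.1 a2).resolve_right h9)).resolve_left h2
  have h11 : α = 0 := LinearMap.ext fun x => hX.nd.1 _ fun y => by
    have := h10 (x + y)
    simp only [map_add, LinearMap.add_apply, h10, h8 y x] at this
    exact mul_left_cancel₀ h2 (by linear_combination this)
  rw [h11, map_zero, add_eq_zero_iff_neg_eq] at hα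
  rw [← hα, sub_neg_eq_add, ← two_smul F] at h7
  exact Or.inr (inv_smul_smul₀ h2 A ▸ h7.smul 2⁻¹)

theorem PX.nm_odd (hX : PX S X) (hM : PM S X) (h2 : (2 : F) ≠ 0) [Finite F]
    [FiniteDimensional F V] (h3 : 3 ≤ finrank F U ∨ Nat.card F ≠ 3) (hg : InG X g) : Nm S g := by
  suffices h : ∀ g, InG X g → Tv S g by
    obtain ⟨g', hg', h1, h4⟩ := inG_exists_inv hg
    exact hX.nm_of_tv h1 h4 (h g hg) (h g' hg')
  intro g hg s u hu
  obtain ⟨g', -, h1, h4⟩ := inG_exists_inv hg
  have hA : Cls X (bR S) (g * eE f (S.fac s) u u * g') := (cls_self ⟨s, u, hu, rfl⟩).conj hg h1 h4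
  by_cases h5 : ∀ j, Cm (S.fac j) (g * eE f (S.fac s) u u * g')
  · have := hX.nt
    obtain ⟨c, hc⟩ := exists_smul_of_cm S hX.nd h5
    have h6 := ((hX.rf hM).cls.qt _ hA).sq
    have h7 := (hX.rf hM).cls.ne _ hA
    rw [hc] at h6 h7
    exact absurd (by simpa using h6) h7
  push Not at h5
  obtain ⟨j, hj⟩ := h5
  obtain ⟨β, hβ⟩ := (hX.fac_or_cm hM h2 h3 hA j).resolve_right hj
  obtain ⟨y, c, e⟩ := hX.cls_eq hM hA hβ
  exact ⟨j, y, c, by rw [← e, mul_assoc, h4, mul_one]⟩

end Cfsg.Agent.H27
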