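import Cfsg.Agent.H27.PowTop

/-!
# Overgroups of tensor induced symplectic groups: the pointwise stabiliser of `[V, t_u ⊗ 1]`
-/

set_option autoImplicit false

namespace Cfsg.Agent.H27

open Module Function H30 H36

section Xi

variable {F V : Type*} [Field F] [AddCommGroup V] [Module F V] {B : LinearMap.BilinForm F V}
  {X : Subgroup (End F V)ˣ} {N n m m' : End F V}

theorem QN.neg (hB : B.Nondegenerate) (hN : Skew B N) (hNN : ∀ p, N (N p) = 0) (h : QN B N n) :
    QN B N (-n + n * n) := by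
  refine ⟨fun p q => ?_, fun w => by simp [h.kill], fun p hp => ?_⟩
  · rw [← h.iso, ← End.mul_apply, ← End.mul_apply, mul_inv_of_cube (h.triple hB hN h h)]
    rfl
  · obtain ⟨q, hq⟩ := h.into p hp
    exact Submodule.add_mem _ (Submodule.neg_mem _ (h.into p hp)) (h.into _ (by rw [← hq, hNN]))

/-- `m` is congruent modulo `[V, N]` to an element of the unipotent radical lying in `X`. -/
def XiN (B : LinearMap.BilinForm F V) (X : Subgroup (End F V)ˣ) (N m : End F V) : Prop :=
  ∃ n, QN B N n ∧ InG X (1 + n) ∧ ∀ p, n p - m p ∈ LinearMap.range N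

theorem xiN_of_range (h : ∀ p, m p ∈ LinearMap.range N) : XiN B X N m :=
  ⟨0, ⟨by simp, by simp, by simp⟩, by simpa using inG_one X, fun p => by simpa using h p⟩

theorem XiN.add (hB : B.Nondegenerate) (hN : Skew B N) (hNN : ∀ p, N (N p) = 0) (h : XiN B X N m)
    (h' : XiN B X N m') : XiN B X N (m + m') := by
  obtain ⟨n, h1, h2, h3⟩ := h
  obtain ⟨n', h1', h2', h3'⟩ := h'
  refine ⟨_, h1.add hNN h1', by convert h2.mul h2' using 1; noncomm_ring, fun p => ?_⟩
  convert add_mem (add_mem (h3 p) (h3' p)) (h1.into _ (h1'.perp hB hN p)) using 1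
  simp only [LinearMap.add_apply, End.mul_apply]
  abel

theorem XiN.neg (hB : B.Nondegenerate) (hN : Skew B N) (hNN : ∀ p, N (N p) = 0) (h : XiN B X N m) :
    XiN B X N (-m) := by
  obtain ⟨n, h1, h2, h3⟩ := h
  refine ⟨_, h1.neg hB hN hNN, inG_inv h2 (mul_inv_of_cube (h1.triple hB hN h1 h1)), fun p => ?_⟩
  convert add_mem (neg_mem (h3 p)) (h1.into _ (h1.perp hB hN p)) using 1
  simp only [LinearMap.add_apply, End.mul_apply, LinearMap.neg_apply]
  abel

theorem XiN.congr (h : XiN B X N m) (e : ∀ p, m p - m' p ∈ LinearMap.range N) : XiN B X N m' := by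
  obtain ⟨n, h1, h2, h3⟩ := h
  exact ⟨n, h1, h2, fun p => by simpa using add_mem (h3 p) (e p)⟩

theorem QN.conj' (hG : IsoG B X) (h : QN B N n) {k k' : End F V} (hk : InG X k) (h1 : k * k' = 1)
    (hc : k * N = N * k) : QN B N (k * n * k') := by
  obtain ⟨k'', -, h2, h3⟩ := inG_exists_inv hk
  obtain rfl := left_inv_eq_right_inv h3 h1
  have h4 : k'' * N = N * k'' := comm_of_mul_eq' h2 h3 hc (by simp) ▸ rfl
  have h5 := LinearMap.congr_fun h4
  exact h.conj (hG _ hk) (LinearMap.congr_fun h1) (fun p => ⟨_, (LinearMap.congr_fun hc p).symm⟩)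
    (fun p => ⟨_, (h5 p).symm⟩) fun p hp => (h5 p).symm.trans (by rw [End.mul_apply, hp, map_zero])

theorem XiN.conj (hG : IsoG B X) (h : XiN B X N m) {k k' : End F V} (hk : InG X k)
    (h1 : k * k' = 1) (hc : k * N = N * k) : XiN B X N (k * m * k') := by
  obtain ⟨n, h2, h3, h4⟩ := h
  refine ⟨_, h2.conj' hG hk h1 hc, inG_conj hk h1 h3, fun p => ?_⟩
  obtain ⟨q, hq⟩ := h4 (k' p)
  exact ⟨k q, by rw [← End.mul_apply, ← hc, End.mul_apply, hq, map_sub]; rfl⟩

theorem XiN.rel (hB : B.Nondegenerate) (hN : Skew B N) (hNN : ∀ p, N (N p) = 0)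
    (hM : ∀ n, InG X (1 + n) → (∀ p, n p ∈ LinearMap.range N) → ∃ c : F, n = c • N)
    (h : XiN B X N m) (h' : XiN B X N m') :
    ∃ κ : F, ∀ p q, B (m p) (m' q) - B (m' p) (m q) = κ * B (N p) q := by
  have e : ∀ {n n' m m' : End F V}, QN B N n → QN B N n' → (∀ p, n p - m p ∈ LinearMap.range N) →
      (∀ p, n' p - m' p ∈ LinearMap.range N) → ∀ p q, B (m p) (m' q) = B (n p) (n' q) := by
    intro n n' m m' h1 h1' h3 h3' p q
    have a1 := (hN.eq_zero (h1.perp hB hN p) (h3' q)).1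
    have a2 := (hN.eq_zero (h1'.perp hB hN q) (h3 p)).2
    obtain ⟨w, hw⟩ := h3 p
    have a3 := (hN.eq_zero (hw ▸ hNN w) (h3' q)).1
    simp only [map_sub, LinearMap.sub_apply] at a1 a2 a3
    linear_combination a3 - a1 - a2
  obtain ⟨n, h1, h2, h3⟩ := h
  obtain ⟨n', h1', h2', h3'⟩ := h'
  obtain ⟨a1, a2⟩ := h1.inG_comm hB hN h1' h2 h2'
  obtain ⟨c, hc⟩ := hM _ a1 a2
  exact ⟨c, fun p q => by
    rw [e h1 h1' h3 h3', e h1' h1 h3' h3, ← h1.comm_form hB hN h1', hc]; simp⟩

end Xi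

variable {F U V τ : Type*} [Field F] [AddCommGroup U] [Module F U] [AddCommGroup V] [Module F V]
  [Fintype τ] [DecidableEq τ] {f : LinearMap.BilinForm F U} {B : LinearMap.BilinForm F V}
  {S : TPow τ f B} {X : Subgroup (End F V)ˣ} {s : τ} {u y : U} {n : End F V}

theorem PX.sq (hX : PX S X) (s : τ) (u : U) (p : V) :
    eE f (S.fac s) u u (eE f (S.fac s) u u p) = 0 :=
  LinearMap.congr_fun (eE_sq hX.alt (S.fac s) u) p

theorem eE_mem_range (hy : f y u = 1) (v : U) (p : V) :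
    eE f (S.fac s) u v p ∈ LinearMap.range (eE f (S.fac s) u u) :=
  ⟨eE f (S.fac s) y v p, by rw [← End.mul_apply, eE_mul, hy, one_smul]⟩

theorem PX.eE_of_ker (hX : PX S X) (hy : f y u = 1) {p : V} (hp : eE f (S.fac s) u u p = 0) (v : U) :
    eE f (S.fac s) v u p = 0 := by
  have := LinearMap.congr_fun (eE_mul (φ := S.fac s) (f := f) v y u u) p
  rwa [End.mul_apply, hp, map_zero, ← hX.alt.neg_eq, hy, neg_smul, one_smul, LinearMap.neg_apply,
    eq_comm, neg_eq_zero] at this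

theorem PX.qn_sym (hX : PX S X) (hy : f y u = 1) {v : U} (hv : f u v = 0) :
    QN B (eE f (S.fac s) u u) (eE f (S.fac s) v u + eE f (S.fac s) u v) ∧
      InG X (1 + (eE f (S.fac s) v u + eE f (S.fac s) u v)) := by
  have h := hX.fac s (1 + (ro f v u + ro f u v)) fun a b => by
    simp only [LinearMap.add_apply, End.one_apply, ro_apply, map_add, map_smul, hv,
      hX.alt.isRefl _ _ hv, LinearMap.smul_apply, hX.alt.self_eq_zero, smul_eq_mul,
      ← hX.alt.neg_eq b u, ← hX.alt.neg_eq b v]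
    ring
  rw [map_add, map_add, map_one] at h
  exact ⟨⟨hX.iso _ h, fun p => by
    simp [← End.mul_apply, eE_mul, hv, hX.alt.self_eq_zero], fun p hp => by
    simpa [hX.eE_of_ker hy hp] using eE_mem_range hy v p⟩, h⟩

/-- The operators `D` with `v ⊗ D` in the image of the unipotent radical. -/
def eSub (hX : PX S X) (s : τ) (u : U) : Submodule F (End F V) where
  carrier := {D | Cm (S.fac s) D ∧
    ∀ v, f u v = 0 → XiN B X (eE f (S.fac s) u u) (eE f (S.fac s) v u * D)}
  add_mem' hD hD' := ⟨hD.1.add hD'.1, fun v hv => mul_add (eE f (S.fac s) v u) _ _ ▸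
    (hD.2 v hv).add hX.bnd (eE_skew S hX.alt s u) (hX.sq s u) (hD'.2 v hv)⟩
  zero_mem' := ⟨cm_zero, fun v hv => xiN_of_range (by simp)⟩
  smul_mem' c D hD := ⟨hD.1.smul c, fun v hv => by simpa using hD.2 (c • v) (by simp [hv])⟩

theorem one_mem_eSub (hX : PX S X) (hy : f y u = 1) : 1 ∈ eSub hX s u :=
  ⟨cm_one, fun v hv => ⟨_, (hX.qn_sym hy hv).1, (hX.qn_sym hy hv).2, fun p => by
    simpa using eE_mem_range hy v p⟩⟩

theorem inv_eSub (hX : PX S X) {j : τ} (h : j ≠ s) : Inv f (S.fac j) (eSub hX s u) :=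
  fun g g' hg hgg' D hD => ⟨((cm_fac S h.symm g).mul hD.1).mul (cm_fac S h.symm g'), fun v hv => by
    have := (hD.2 v hv).conj hX.iso (hX.fac j g hg) (k' := S.fac j g')
      (by rw [← map_mul, hgg', map_one]) ((cm_fac S h.symm g).comm_eE u u).symm
    rwa [← mul_assoc, ← (cm_fac S h.symm g).comm_eE, mul_assoc _ _ D, mul_assoc] at this⟩

theorem rel_eSub (hX : PX S X) (hM : PM S X) (hy : f y u = 1) {v v' : U} (hv : f u v = 0)
    (hv' : f u v' = 0) (hvv' : f v v' = 1) {n n' : τ → End F U} (h : n s = 1) (h' : n' s = 1)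
    (hn : Phi S n ∈ eSub hX s u) (hn' : Phi S n' ∈ eSub hX s u) {j : τ} (hj : j ≠ s) {a₀ : U}
    (ha₀ : a₀ ≠ 0) (h₀ : ∀ b, f (n j a₀) (n' j b) = 0 ∧ f (n' j a₀) (n j b) = 0) (a b : τ → U) :
    ∏ i ∈ Finset.univ.erase s, f (n i (a i)) (n' i (b i)) +
      ∏ i ∈ Finset.univ.erase s, f (n' i (a i)) (n i (b i)) = 0 := by
  obtain ⟨κ, hκ⟩ := (hn.2 v hv).rel hX.bnd (eE_skew S hX.alt s u) (hX.sq s u)
    (hM s u (by rintro rfl; simp at hy)) (hn'.2 v' hv')
  have e : ∀ (n : τ → End F U) (v : U) (a : τ → U), n s = 1 → (eE f (S.fac s) v u * Phi S n)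
      (S.pt (update a s y)) = S.pt (update (fun i => n i (a i)) s v) := fun n v a h => by
    rw [End.mul_apply, Phi_pt, eE_apply, S.fac_pt]
    congr 1
    funext i
    by_cases hi : i = s <;> simp [hi, h, hy]
  have key : ∀ a b : τ → U, ∏ i ∈ Finset.univ.erase s, f (n i (a i)) (n' i (b i)) +
      ∏ i ∈ Finset.univ.erase s, f (n' i (a i)) (n i (b i)) =
      -κ * ∏ i ∈ Finset.univ.erase s, f (a i) (b i) := fun a b => by
    have := hκ (S.pt (update a s y)) (S.pt (update b s y))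
    rw [e _ _ _ h, e _ _ _ h', e _ _ _ h', e _ _ _ h, eE_apply, S.fac_pt, update_idem,
      S.form_update, S.form_update, S.form_update, hvv', ← hX.alt.neg_eq v, hvv', update_self,
      ro_apply, hy, one_smul, ← hX.alt.neg_eq, hy] at this
    exact mul_left_cancel₀ S.c_ne (by linear_combination this)
  obtain ⟨b₀, hb₀⟩ := exists_apply_eq_one hX.nd ha₀
  have := key (fun _ => a₀) fun _ => b₀
  rw [Finset.prod_eq_zero (i := j) (by simpa) (h₀ _).1,
    Finset.prod_eq_zero (i := j) (by simpa) (h₀ _).2] at this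
  rw [key, show κ = 0 by simpa [hb₀] using this, neg_zero, zero_mul]

variable [FiniteDimensional F U]

theorem co_mem_eSub (hX : PX S X) (hy : f y u = 1) (hn : QN B (eE f (S.fac s) u u) n)
    (hn' : InG X (1 + n)) {v : U} (hv : f u v = 0) : co hX.nd (S.fac s) v y n ∈ eSub hX s u := by
  have hu : u ≠ 0 := by rintro rfl; simp at hy
  have hsk := eE_skew S hX.alt s u
  by_cases hvu : v ∈ F ∙ u
  · obtain ⟨c, rfl⟩ := Submodule.mem_span_singleton.1 hvu
    rw [map_smul, LinearMap.smul_apply, LinearMap.smul_apply, (cm_co u y n).eq_zero hX.nd hu hu (by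
      rw [eE_mul_co, show eE f (S.fac s) u u * n = 0 from LinearMap.ext (hn.perp hX.bnd hsk),
        zero_mul]), smul_zero]
    exact zero_mem _
  have h1 : ∀ p ∈ LinearMap.range (eE f (S.fac s) u u), eE f (S.fac s) v v p = 0 := by
    rintro _ ⟨p, rfl⟩
    simp [← End.mul_apply, eE_mul, hv]
  have h2 : ∀ p, n (eE f (S.fac s) v v p) ∈ LinearMap.range (eE f (S.fac s) u u) := fun p =>
    hn.into _ (by simp [← End.mul_apply, eE_mul, hX.alt.isRefl _ _ hv])
  have h3 : XiN B X (eE f (S.fac s) u u) n := ⟨n, hn, hn', by simp⟩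
  have h4 : XiN B X (eE f (S.fac s) u u) (eE f (S.fac s) v u * co hX.nd (S.fac s) v y n) := by
    refine (((h3.conj hX.iso ((hX.qt s v).mem 1) (k' := 1 - eE f (S.fac s) v v) (by
      simp [mul_sub, add_mul, eE_sq hX.alt]) (by
      simp [mul_add, add_mul, eE_mul, hv, hX.alt.isRefl _ _ hv])).add hX.bnd hsk (hX.sq s u)
      (h3.neg hX.bnd hsk (hX.sq s u)))).congr fun p => ?_
    have a1 := h1 _ (hn.into (p - eE f (S.fac s) y u p) (by
      simp [← End.mul_apply, eE_mul, hy]))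
    rw [map_sub, map_sub, sub_eq_zero] at a1
    convert neg_mem (h2 p) using 1
    simp [eE_mul_co, h1 _ (h2 p), ← a1]
    abel
  refine ⟨cm_co _ _ _, fun w hw => ?_⟩
  by_cases hwu : w ∈ F ∙ u
  · obtain ⟨c, rfl⟩ := Submodule.mem_span_singleton.1 hwu
    exact xiN_of_range fun p => ⟨c • co hX.nd (S.fac s) v y n p, by simp⟩
  obtain ⟨g, hg, h5, rfl⟩ := exists_isom_fix_apply hX.nd hX.alt hvu hwu (hv.trans hw.symm)
  have := h4.conj hX.iso (hX.fac s _ hg) (k' := S.fac s g.symm.toLinearMap)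
    (by rw [← map_mul, equiv_mul_symm, map_one]) (by
      rw [phi_mul_eE, eE_mul_phi (y' := u) fun x => by rw [← hg x, h5]; rfl]
      simp [h5])
  rwa [eE_apply v u, (cm_co _ _ _).conj_mul, iso_conj_ro hg (equiv_mul_symm g),
    LinearEquiv.coe_coe, h5] at this

omit [Fintype τ] in
theorem exists_ty_pair (hf : f.Nondegenerate) (hA : f.IsAlt) (h3 : 3 ≤ finrank F U)
    (A J : Finset τ) (i : τ) : ∃ n ∈ tyS f A J i, ∃ n' ∈ tyS f A J i, ∃ a b, f (n a) (n' b) ≠ 0 := by
  obtain ⟨x, x', -, -, hx⟩ := exists_orth_pair hf hA h3 0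
  have hx' : f x' x = -1 := by rw [← hA.neg_eq, hx]
  by_cases h1 : i ∈ A
  · rw [tyS_t h1]
    exact ⟨_, ⟨x, rfl⟩, _, ⟨x', rfl⟩, x', x, by simp [hx, hx']⟩
  by_cases h2 : i ∈ J
  · obtain ⟨v, v', a1, a2, a3⟩ := exists_orth_pair hf hA h3 x
    rw [tyS_d h1 h2]
    exact ⟨_, ⟨x, v', a2, rfl⟩, _, ⟨v, x, hA.isRefl _ _ a1, rfl⟩, x', x', by
      simp [dd, hx', a1, hA.isRefl _ _ a2, hA.self_eq_zero, ← hA.neg_eq v v', a3]⟩
  · rw [tyS_o h1 h2]
    exact ⟨1, rfl, 1, rfl, x, x', by simp [hx]⟩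

theorem eSub_scalar (hX : PX S X) (hM : PM S X) (big : (2 : F) ≠ 0 ∨ 5 ≤ finrank F U)
    (h3 : 3 ≤ finrank F U) (hy : f y u = 1) {D : End F V} (hD : D ∈ eSub hX s u) :
    ∃ c : F, D = c • 1 := by
  by_contra! H
  have := hX.nt
  have hA := hX.alt
  obtain ⟨A, J, a1, a2, a3, a4, -, a6⟩ := reduce_all hX.nd hA (Or.inr h3)
    (fun j hj => inv_eSub hX hj) hD hD.1 H
  obtain ⟨v, v', hv, hv', hvv'⟩ := exists_orth_pair hX.nd hA h3 u
  choose n hn n' hn' a b hab using exists_ty_pair hX.nd hA h3 A J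
  have hs : ∀ n : τ → End F U, (∀ j, n j ∈ tyS f A J j) → n s = 1 := fun n hn => by
    simpa [tyS_o a1 a2] using hn s
  have key : ∀ j, j ≠ s → ∀ m ∈ tyS f A J j, ∀ m' ∈ tyS f A J j, ∀ a₀, a₀ ≠ 0 → m a₀ = 0 →
      m' a₀ = 0 → ∀ a b, f (m a) (m' b) ≠ 0 → f (m' a) (m b) ≠ 0 := by
    intro j hj m hm m' hm' a₀ h0 h1 h2 a₁ b₁ h4 h5
    have b1 : ∀ i, update n j m i ∈ tyS f A J i := forall_update_iff n (fun i x => x ∈ tyS f A J i)
      |>.2 ⟨hm, fun i _ => hn i⟩
    have b2 : ∀ i, update n' j m' i ∈ tyS f A J i :=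
      forall_update_iff n' (fun i x => x ∈ tyS f A J i) |>.2 ⟨hm', fun i _ => hn' i⟩
    have := rel_eSub hX hM hy hv hv' hvv' (hs _ b1) (hs _ b2) (a6 _ b1) (a6 _ b2) hj h0
      (by simp [h1, h2]) (update a j a₁) (update b j b₁)
    rw [Finset.prod_eq_zero (f := fun i => f (update n' j m' i (update a j a₁ i))
      (update n j m i (update b j b₁ i))) (i := j) (by simpa) (by simpa), add_zero] at this
    refine Finset.prod_ne_zero_iff.2 (fun i _ => ?_) this
    by_cases hi : i = j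
    · simpa [hi] using h4
    · simpa [hi] using hab i
  have hu : u ≠ 0 := by rintro rfl; simp at hy
  rcases A.eq_empty_or_nonempty with rfl | ⟨j, hj⟩
  swap
  · exact key j (by rintro rfl; exact a1 hj) _ (by rw [tyS_t hj]; exact ⟨v, rfl⟩) _
      (by rw [tyS_t hj]; exact ⟨v', rfl⟩) u hu (by simp [hv]) (by simp [hv']) v' v
      (by simp [hvv', ← hA.neg_eq v v']) (by simp [hA.self_eq_zero])
  obtain ⟨j, hj⟩ := a4.resolve_left (by simp)
  have hjs : j ≠ s := by rintro rfl; exact a2 hj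
  rcases big with h2 | h5
  · have b1 : ∀ i x y, f (n i x) y = f x (n i y) := fun i x y => by
      by_cases hi : i ∈ J
      · obtain ⟨w, w', -, e⟩ := tyS_d (f := f) (Finset.notMem_empty i) hi ▸ hn i
        simp [e, dd, ← hA.neg_eq y w, ← hA.neg_eq y w', mul_comm]
        ring
      · simp [show n i = 1 by simpa [tyS, hi] using hn i]
    obtain ⟨w, w', hw, e⟩ := tyS_d (f := f) (Finset.notMem_empty j) hj ▸ hn j
    have b2 : n j w = 0 := by simp [e, dd, hw, hA.self_eq_zero]
    have := rel_eSub hX hM hy hv hv' hvv' (hs _ hn) (n' := 1) rfl (a6 _ hn)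
      (by rw [map_one]; exact one_mem_eSub hX hy) hjs (a₀ := w)
      (fun e' => hab j (by simp [e, e', dd, ro_zero_left, ro_zero_right]))
      (by simp [← b1, b2]) a fun i => n' i (b i)
    simp only [Pi.one_apply, End.one_apply, ← b1, ← two_mul] at this
    exact mul_ne_zero h2 (Finset.prod_ne_zero_iff.2 fun i _ => hab i) this
  · obtain ⟨w, w', b1, b2, b3, b4, b5⟩ := exists_orth_pair₂ hX.nd hA h5 u v
    obtain ⟨z, b6, b7⟩ := H79.exists_orth_eq_one hX.nd hA.isRefl (x := u) (s := {v}) fun h => by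
      obtain ⟨c, rfl⟩ := Submodule.mem_span_singleton.1 h
      exact hu (by simp [show c = 0 by simpa [hvv'] using hv'])
    exact key j hjs _ (by rw [tyS_d (by simp) hj]; exact ⟨u, w', b2, rfl⟩) _
      (by rw [tyS_d (by simp) hj]; exact ⟨w, v, hA.isRefl _ _ b3, rfl⟩) u hu
      (by simp [dd, b2, hA.self_eq_zero]) (by simp [dd, b1, hv]) z v'
      (by simp [dd, b1, hv, hA.isRefl _ _ b4, ← hA.neg_eq u z, b6, ← hA.neg_eq v v', hvv',
        ← hA.neg_eq w w', b5])
      (by simp [dd, hA.isRefl _ _ (b7 v rfl), hA.isRefl _ _ hv, b4])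

/-- The unipotent radical of the stabiliser of `[V, t_u ⊗ 1]` in `X` lies in the factor. -/
theorem QN.exists_fac (hX : PX S X) (hM : PM S X) (big : (2 : F) ≠ 0 ∨ 5 ≤ finrank F U)
    (hu : u ≠ 0) (hn : QN B (eE f (S.fac s) u u) n) (hn' : InG X (1 + n)) :
    ∃ γ, n = S.fac s γ := by
  obtain ⟨y, hy⟩ := exists_apply_eq_one' hX.nd hu
  have hy' : f u y = -1 := by rw [← hX.alt.neg_eq, hy]
  have hsk := eE_skew S hX.alt s u
  by_cases h3 : 3 ≤ finrank F U
  swap
  · obtain ⟨c, hc⟩ := hM s u hu n hn' fun p => by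
      have h1 := congrArg (fun a => S.fac s a (n p)) (dd_eq_smul hX.nd hX.alt h3 y u)
      simp only [dd, map_sub, ← eE_apply, LinearMap.sub_apply, hy, one_smul, map_one,
        hX.eE_of_ker hy (hn.perp hX.bnd hsk p), End.one_apply, zero_sub] at h1
      exact h1 ▸ neg_mem (eE_mem_range hy y _)
    exact ⟨c • ro f u u, by rw [hc, map_smul, eE_apply]⟩
  obtain ⟨a, ha⟩ := exists_phi_of_co (hf := hX.nd) (φ := S.fac s)
    (T := n * eE f (S.fac s) y u + eE f (S.fac s) u y * (n * eE f (S.fac s) y u)) fun x z => by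
      obtain ⟨c, hc⟩ := eSub_scalar hX hM big h3 hy
        (co_mem_eSub hX hy hn hn' (v := x + f u x • y) (by simp [hy']))
      refine ⟨f z u * c, ?_⟩
      rw [mul_smul, ← hc]
      simp [co_eE_left, co_eE_right, smul_smul, mul_comm]
  have h1 : n * eE f (S.fac s) y u + eE f (S.fac s) u y * (n * eE f (S.fac s) y u) =
      eE f (S.fac s) (a y) u := by
    rw [← phi_mul_eE, ← ha]
    simp [add_mul, mul_assoc, eE_mul, hy]
  have h2 : f (a y) u = 0 := by
    have := congrArg (eE f (S.fac s) u u * ·) h1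
    simp only [mul_add, eE_mul, hX.alt.self_eq_zero, zero_smul, add_zero, ← mul_assoc,
      show eE f (S.fac s) u u * n = 0 from LinearMap.ext (hn.perp hX.bnd hsk), zero_mul] at this
    exact (smul_eq_zero.1 this.symm).resolve_right (hX.eE_ne_zero s hu hu)
  have h4 := hX.alt.isRefl _ _ h2
  obtain ⟨h5, h6⟩ := hX.qn_sym (s := s) hy (v := -a y) (by simp [h4])
  have h7 := hn.add (hX.sq s u) h5
  simp only [map_neg, LinearMap.neg_apply, ← neg_add] at h5 h6 h7
  set m := eE f (S.fac s) (a y) u + eE f (S.fac s) u (a y) with hm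
  obtain ⟨c, hc⟩ := hM s u hu (n + -m + n * -m) (by
    convert hn'.mul h6 using 1; noncomm_ring) fun p => by
    have a1 := h7.into (p - eE f (S.fac s) y u p) (by simp [← End.mul_apply, eE_mul, hy])
    have a2 := hn.into _ (h5.perp hX.bnd hsk (eE f (S.fac s) y u p))
    have a3 := LinearMap.congr_fun h1 p
    have a4 := LinearMap.congr_fun (eE_mul (f := f) (φ := S.fac s) (a y) u y u) p
    rw [hy, one_smul, End.mul_apply] at a4
    convert sub_mem (sub_mem (add_mem a1 a2) (eE_mem_range hy y (n (eE f (S.fac s) y u p))))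
      (eE_mem_range hy (a y) (eE f (S.fac s) y u p)) using 1
    simp only [map_sub, LinearMap.add_apply, LinearMap.neg_apply, End.mul_apply, a4, hm] at a3 ⊢
    linear_combination (norm := abel) a3
  refine ⟨ro f (a y) u + ro f u (a y) + c • ro f u u * (1 + (ro f (a y) u + ro f u (a y))), ?_⟩
  rw [eq_of_add_mul hc (by simp [hm, mul_add, add_mul, eE_mul, h2, h4, hX.alt.self_eq_zero])]
  simp [hm, eE_apply]

/-- The pointwise stabiliser of `[V, t_u ⊗ 1]` in `X` lies in the factor. -/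
theorem PX.exists_fac (hX : PX S X) (hM : PM S X) (big : (2 : F) ≠ 0 ∨ 5 ≤ finrank F U)
    (hu : u ≠ 0) {x : End F V} (hx : InG X x)
    (hfix : ∀ p, x (eE f (S.fac s) u u p) = eE f (S.fac s) u u p) : ∃ a, x = S.fac s a := by
  obtain ⟨y, hy⟩ := exists_apply_eq_one' hX.nd hu
  have hy' : f u y = -1 := by rw [← hX.alt.neg_eq, hy]
  have hsk := eE_skew S hX.alt s u
  obtain ⟨x', hx', h1, h2⟩ := inG_exists_inv hx
  have e1 : ∀ p, x (x' p) = p := LinearMap.congr_fun h1
  have e2 : ∀ p, x' (x p) = p := LinearMap.congr_fun h2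
  have hN := hsk.apply_of_fix hX.bnd (hX.iso _ hx) hfix
  have hN' : ∀ p, eE f (S.fac s) u u (x' p) = eE f (S.fac s) u u p := fun p => by rw [← hN, e1]
  have hR : ∀ p ∈ LinearMap.range (eE f (S.fac s) u u), x p = p := by
    rintro _ ⟨p, rfl⟩
    exact hfix p
  have hphi : ∀ v, f u v = 0 → ∃ w, ∀ z q, x (eE f (S.fac s) v z q) - eE f (S.fac s) w z q ∈
      LinearMap.range (eE f (S.fac s) u u) := fun v hv => by
    obtain ⟨γ, hγ⟩ := ((hX.qn_sym hy hv).1.conj' hX.iso hx h1
      (LinearMap.ext fun p => (hfix p).trans (hN p).symm)).exists_fac hX hM big hu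
      (inG_conj hx h1 (hX.qn_sym hy hv).2)
    refine ⟨γ y, fun z q => ?_⟩
    have a1 := LinearMap.congr_fun hγ (eE f (S.fac s) y z q)
    have a2 := hX.eE_of_ker hy (p := x' (eE f (S.fac s) y z q) - eE f (S.fac s) y z q)
      (by rw [map_sub, hN', sub_self]) v
    rw [map_sub, sub_eq_zero, ← End.mul_apply (eE f (S.fac s) v u) (eE f (S.fac s) y z), eE_mul,
      hy, one_smul] at a2
    rw [← End.mul_apply (S.fac s γ), phi_mul_eE] at a1
    simp only [End.mul_apply, LinearMap.add_apply, map_add, a2, hR _ (eE_mem_range hy _ _)] at a1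
    rw [← a1, sub_add_cancel_left]
    exact neg_mem (eE_mem_range hy _ _)
  have := hX.nt
  refine exists_fac_of_cm S hX.nd fun j hj => cm_of_tv hX.nd fun v => ?_
  have key : ∀ v, ∃ D, Cm (S.fac j) D ∧
      x * eE f (S.fac j) v v * x' = D + eE f (S.fac j) v v * (1 + D) := fun v => by
    have hc : Cm (S.fac s) (eE f (S.fac j) v v) := cm_fac S hj.symm _
    have hc' : ∀ a b p, eE f (S.fac j) v v (eE f (S.fac s) a b p) =
        eE f (S.fac s) a b (eE f (S.fac j) v v p) := fun a b p =>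
      (LinearMap.congr_fun (hc.comm_eE a b) p).symm
    have ht : InG X (1 + eE f (S.fac j) v v) := by simpa using (hX.qt j v).mem 1
    have ht' : InG X (1 - eE f (S.fac j) v v) := by
      simpa [sub_eq_add_neg] using (hX.qt j v).mem (-1)
    have h3 : InG X (1 + (x * (1 + eE f (S.fac j) v v) * x' * (1 - eE f (S.fac j) v v) - 1)) := by
      simpa using ((hx.mul ht).mul hx').mul ht'
    have h4 : ∀ q, eE f (S.fac s) u u q = 0 → x (eE f (S.fac j) v v q) - eE f (S.fac j) v v (x q) ∈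
        LinearMap.range (eE f (S.fac s) u u) := fun q hq => by
      have a1 : q = ∑ i, eE f (S.fac s) (dbas hX.nd i - f (dbas hX.nd i) u • y) (bas F U i) q := by
        have := hX.eE_of_ker hy hq y
        rw [← sum_bas hX.nd u] at this
        simpa [Finset.sum_sub_distrib, ← LinearMap.sum_apply, sum_eE, eq_sub_iff_add_eq] using this
      rw [a1]
      simp only [map_sum, ← Finset.sum_sub_distrib]
      refine Submodule.sum_mem _ fun i _ => ?_
      obtain ⟨w, hw⟩ := hphi (dbas hX.nd i - f (dbas hX.nd i) u • y)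
        (by simp [hy', ← hX.alt.neg_eq u])
      obtain ⟨r, hr⟩ := hw (bas F U i) q
      convert sub_mem (hw (bas F U i) (eE f (S.fac j) v v q))
        (LinearMap.mem_range_self _ (eE f (S.fac j) v v r)) using 1
      rw [← hc', ← hc', ← hc', hr, map_sub (eE f (S.fac j) v v)]
      abel
    obtain ⟨γ, hγ⟩ := QN.exists_fac (s := s) hX hM big hu ⟨hX.iso _ h3, fun p => by
      have : ∀ p, x' (eE f (S.fac s) u u p) = eE f (S.fac s) u u p := fun p => by
        rw [← hfix, e2, hfix]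
      simp [hc', this, hfix, hX.sq], fun p hp => by
      convert h4 (x' (p - eE f (S.fac j) v v p)) (by rw [hN', map_sub, ← hc', hp]; simp) using 1
      simp [e1, hX.sq]
      abel⟩ h3
    refine ⟨_, cm_fac S hj γ, ?_⟩
    rw [mul_add, (cm_fac S hj γ).comm_eE, ← hγ]
    linear_combination (norm := noncomm_ring) x * (1 + eE f (S.fac j) v v) * x' *
      eE_sq hX.alt (S.fac j) v - h1
  have key₂ : ∀ v D, Cm (S.fac j) D →
      x * eE f (S.fac j) v v * x' = D + eE f (S.fac j) v v * (1 + D) → ∀ D', D' * (1 + D) = 0 →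
      D' = 0 := fun v D hD h D' h' => by
    have a1 : D' * (1 + x * eE f (S.fac j) v v * x') = 0 := by
      rw [h, (cm_one.add hD).comm_eE]
      linear_combination (norm := noncomm_ring) h' * (1 + eE f (S.fac j) v v)
    linear_combination (norm := noncomm_ring) a1 * (1 - x * eE f (S.fac j) v v * x') +
      D' * x * eE f (S.fac j) v v * h2 * eE f (S.fac j) v v * x' +
      D' * x * eE_sq hX.alt (S.fac j) v * x'
  have key₃ : ∀ v v' D D', f v' v = 0 → Cm (S.fac j) D → Cm (S.fac j) D' →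
      x * eE f (S.fac j) v v * x' = D + eE f (S.fac j) v v * (1 + D) →
      x * eE f (S.fac j) v' v' * x' = D' + eE f (S.fac j) v' v' * (1 + D') → ∀ c,
      (f c v' * f v' c) • (D * (1 + D')) + (f c v * f v c) • ((1 + D) * D') = 0 := by
    intro v v' D D' hv hD hD' h h' c
    have a1 : eE f (S.fac j) v v * eE f (S.fac j) v' v' = 0 := by rw [eE_mul, hv, zero_smul]
    have a2 : D * D' + eE f (S.fac j) v' v' * (D * (1 + D')) +
        eE f (S.fac j) v v * ((1 + D) * D') = 0 := by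
      linear_combination (norm := noncomm_ring)
        x * eE f (S.fac j) v v * h2 * eE f (S.fac j) v' v' * x' + x * a1 * x' -
        h * (x * eE f (S.fac j) v' v' * x') - (D + eE f (S.fac j) v v * (1 + D)) * h' +
        hD.comm_eE v' v' * (1 + D') + eE f (S.fac j) v v * hD.comm_eE v' v' * (1 + D') -
        a1 * (1 + D) * (1 + D')
    have := congrArg (co hX.nd (S.fac j) c c) a2
    rwa [map_add, map_add, (hD.mul hD').co_self, (hD.mul (cm_one.add hD')).co_eE_mul,
      ((cm_one.add hD).mul hD').co_eE_mul, hX.alt.self_eq_zero, zero_smul, zero_add,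
      map_zero] at this
  by_cases hv : v = 0
  · simp [hv]
  obtain ⟨D, hD, h⟩ := key v
  have hD0 : D = 0 := by
    rcases big with h3 | h3
    · obtain ⟨c, hc⟩ := exists_apply_eq_one' hX.nd hv
      have := key₃ v v D D (hX.alt.self_eq_zero v) hD hD h h c
      rw [show (1 + D) * D = D * (1 + D) by noncomm_ring, ← two_smul F, smul_smul,
        ← hX.alt.neg_eq c v, hc] at this
      exact key₂ v D hD h D ((smul_eq_zero.1 this).resolve_left (by simpa using h3))
    · obtain ⟨v', h4, h5⟩ := exists_orth_not_mem f (show 3 ≤ finrank F U by omega) v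
      obtain ⟨c, h6, h7⟩ := H79.exists_orth_eq_one hX.nd hX.alt.isRefl h5
      obtain ⟨D', hD', h'⟩ := key v'
      have := key₃ v v' D D' (hX.alt.isRefl _ _ h4) hD hD' h h' c
      rw [h7 v rfl, mul_zero, zero_smul, add_zero, ← hX.alt.neg_eq v' c, h6] at this
      exact key₂ v' D' hD' h' D (by simpa using this)
  rw [hD0, zero_add, add_zero, mul_one] at h
  linear_combination (norm := noncomm_ring) x * eE f (S.fac j) v v * h2 - h * x

end Cfsg.Agent.H27
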