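import Cfsg.Agent.H27.PowOdd

/-!
# Elements of small rank preserving a tensor decomposition
-/

set_option autoImplicit false

namespace Cfsg.Agent.H27

open Module Function H30 H36

section Lin

variable {F U V : Type*} [Field F] [AddCommGroup U] [Module F U] [AddCommGroup V] [Module F V]

/-- The rank of an endomorphism. -/
noncomputable abbrev rk (T : End F V) : ℕ := finrank F (LinearMap.range T)

theorem rk_add_le [FiniteDimensional F V] (a b : End F V) : rk (a + b) ≤ rk a + rk b :=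
  (Submodule.finrank_mono (by
    rintro _ ⟨p, rfl⟩
    exact Submodule.add_mem_sup (LinearMap.mem_range_self a p) (LinearMap.mem_range_self b p))).trans
    (Submodule.finrank_add_le_finrank_add_finrank _ _)

theorem rk_mul_le_left [FiniteDimensional F V] (a b : End F V) : rk (a * b) ≤ rk a :=
  Submodule.finrank_mono (LinearMap.range_comp_le_range b a)

theorem rk_mul_le_right [FiniteDimensional F V] (a b : End F V) : rk (a * b) ≤ rk b := by
  rw [rk, End.mul_eq_comp, LinearMap.range_comp]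
  exact Submodule.finrank_map_le _ _

theorem exists_smul_mod (P : Submodule F U) (ρ : End F U) {v₀ v₁ : U} (h0 : ρ v₀ ∉ P)
    (h1 : ∀ c : F, ρ v₁ - c • ρ v₀ ∉ P) (h : ∀ v, ρ v ∈ P ∨ ∃ μ : F, v - μ • ρ v ∈ P) :
    ∃ μ : F, ∀ v, v - μ • ρ v ∈ P := by
  obtain ⟨μ, hμ⟩ := (h v₀).resolve_left h0
  have key : ∀ v, (∀ c : F, ρ v - c • ρ v₀ ∉ P) → v - μ • ρ v ∈ P := fun v hv => by
    obtain ⟨a, ha⟩ := (h v).resolve_left (by simpa using hv 0)
    obtain ⟨b, hb⟩ := (h (v + v₀)).resolve_left (by simpa using hv (-1))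
    have h2 : (b - a) • ρ v - (μ - b) • ρ v₀ ∈ P := by
      convert P.sub_mem (P.add_mem ha hμ) hb using 1
      rw [map_add]
      module
    have h3 : a = b := by
      by_contra h3
      have h4 := sub_ne_zero.2 (Ne.symm h3)
      refine hv ((b - a)⁻¹ * (μ - b)) ?_
      rwa [← P.smul_mem_iff h4, smul_sub, smul_smul, mul_inv_cancel_left₀ h4]
    rw [h3, sub_self, zero_smul, zero_sub, P.neg_mem_iff] at h2
    rwa [show μ = a from h3 ▸ sub_eq_zero.1 (by_contra fun h4 => h0 ((P.smul_mem_iff h4).1 h2))]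
  refine ⟨μ, fun v => ?_⟩
  by_cases hv : ∀ c : F, ρ v - c • ρ v₀ ∉ P
  · exact key v hv
  push Not at hv
  obtain ⟨c, hc⟩ := hv
  convert P.sub_mem (key (v + v₁) fun a ha => h1 (a - c) ?_) (key v₁ h1) using 1
  · rw [map_add]
    module
  · convert P.sub_mem ha hc using 1
    rw [map_add]
    module

variable [FiniteDimensional F U] {f : LinearMap.BilinForm F U}

theorem exists_eigen_pair (hf : f.Nondegenerate) (h5 : 5 ≤ finrank F U) {ρ : End F U}
    (hρ : Injective ρ) {x y : U} (h : ∀ v, ρ v ∈ Submodule.span F {x, y} ∨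
      ∃ μ : F, v - μ • ρ v ∈ Submodule.span F {x, y}) :
    ∃ (μ : F) (u u' : U), f u u' ≠ 0 ∧ u = μ • ρ u ∧ u' = μ • ρ u' := by
  classical
  have h1 : ∀ s : Finset U, s.card ≤ 3 → ∃ v, ρ v ∉ Submodule.span F (s : Set U) := fun s hs => by
    obtain ⟨w, -, hw⟩ := SetLike.exists_of_lt (span_lt_top_of_card_lt_finrank (R := F)
      (s := (s : Set U)) (by simp; omega))
    obtain ⟨v, rfl⟩ := LinearMap.injective_iff_surjective.1 hρ w
    exact ⟨v, hw⟩
  obtain ⟨v₀, h0⟩ := h1 {x, y} (Finset.card_le_two.trans (by omega))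
  obtain ⟨v₁, h2⟩ := h1 {ρ v₀, x, y} Finset.card_le_three
  simp only [Finset.coe_insert, Finset.coe_singleton] at h0 h2
  obtain ⟨μ, hμ⟩ := exists_smul_mod _ ρ h0 (v₁ := v₁)
    (fun c hc => h2 (Submodule.mem_span_insert.2 ⟨c, _, hc, by abel⟩)) h
  have h3 := LinearMap.finrank_range_add_finrank_ker (1 - μ • ρ)
  have h4 := Submodule.finrank_mono (show LinearMap.range (1 - μ • ρ) ≤ _ by
    rintro _ ⟨v, rfl⟩
    exact hμ v)
  have h6 := finrank_span_finset_le_card (R := F) ({x, y} : Finset U)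
  have h7 := Finset.card_le_two (a := x) (b := y)
  rw [Set.finrank, Finset.coe_insert, Finset.coe_singleton] at h6
  by_contra! H
  have h8 := Submodule.finrank_mono (show LinearMap.ker (1 - μ • ρ) ≤
    f.orthogonal (LinearMap.ker (1 - μ • ρ)) from fun u hu u' hu' =>
      by_contra fun e => H μ u' u e (sub_eq_zero.1 hu') (sub_eq_zero.1 hu))
  rw [LinearMap.BilinForm.finrank_orthogonal hf] at h8
  omega

theorem dbas_bas (hf : f.Nondegenerate) (i j : Fin (finrank F U)) :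
    f (dbas hf i) (bas F U j) = if j = i then 1 else 0 :=
  LinearMap.BilinForm.apply_dualBasis_left hf _ i j

end Lin

variable {F U V τ : Type*} [Field F] [AddCommGroup U] [Module F U] [AddCommGroup V] [Module F V]
  [Fintype τ] [DecidableEq τ] {f : LinearMap.BilinForm F U} {B : LinearMap.BilinForm F V}
  {S : TPow τ f B} {X : Subgroup (End F V)ˣ} {s : τ} {u y : U} {g : End F V}

theorem PX.eE_range (hX : PX S X) (hy : f y u = 1) (r : LinearMap.range (eE f (S.fac s) u u)) :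
    eE f (S.fac s) u (-y) r = r := by
  obtain ⟨_, p, rfl⟩ := r
  simp [eE_eE, ← hX.alt.neg_eq y u, hy]

variable [FiniteDimensional F U] [FiniteDimensional F V]

theorem PX.mul_rk (hX : PX S X) (s : τ) (hu : u ≠ 0) :
    finrank F U * rk (eE f (S.fac s) u u) = finrank F V := by
  obtain ⟨y, hy⟩ := exists_apply_eq_one' hX.nd hu
  let Ψ : (Fin (finrank F U) → LinearMap.range (eE f (S.fac s) u u)) →ₗ[F] V :=
    ∑ i, eE f (S.fac s) (dbas hX.nd i) (-y) ∘ₗ Submodule.subtype _ ∘ₗ LinearMap.proj i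
  have := (LinearEquiv.ofBijective Ψ ⟨(injective_iff_map_eq_zero _).2 fun r hr => funext fun j => by
    have := congrArg (eE f (S.fac s) u (bas F U j)) hr
    simpa [Ψ, eE_eE, dbas_bas, -map_neg, hX.eE_range hy] using this, fun p =>
    ⟨fun i => ⟨_, eE_mem_range hy (bas F U i) p⟩, by
      simp [Ψ, eE_eE, ← hX.alt.neg_eq y u, hy, ← LinearMap.sum_apply, sum_eE]⟩⟩).finrank_eq
  simpa [finrank_pi_fintype] using this

theorem PX.fix_of_rk (hX : PX S X) (hg : InG X g) {ι : Type} [Fintype ι] [DecidableEq ι]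
    {ρ : End F U} {d : F}
    (h : ∀ x y, g * eE f (S.fac s) x y = d • eE f (S.fac s) (ρ x) (ρ y) * g) (x z : ι → U)
    (h1 : ∀ i j, f (x i) (z j) = if i = j then 1 else 0) (h2 : ∀ i j, f (ρ (x i)) (z j) = 0)
    (hr : finrank F U * rk (g - 1) ≤ Fintype.card ι * finrank F V) {w : U}
    (hw : ∀ i, f (x i) w = 0) (hw' : ∀ i, f (ρ (x i)) w = 0) (p : V) :
    g (eE f (S.fac s) w w p) = eE f (S.fac s) w w p := by
  have := hX.nt
  obtain ⟨u, hu⟩ := exists_ne (0 : U)
  obtain ⟨y, hy⟩ := exists_apply_eq_one' hX.nd hu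
  have h' : ∀ x y p, g (eE f (S.fac s) x y p) = d • eE f (S.fac s) (ρ x) (ρ y) (g p) :=
    fun x y => LinearMap.congr_fun (h x y)
  let Ψ : (ι → LinearMap.range (eE f (S.fac s) u u)) →ₗ[F] LinearMap.range (g - 1) :=
    (g - 1).rangeRestrict ∘ₗ
      ∑ i, eE f (S.fac s) (x i) (-y) ∘ₗ Submodule.subtype _ ∘ₗ LinearMap.proj i
  have h3 : Injective Ψ := (injective_iff_map_eq_zero _).2 fun r hr => funext fun j => by
    have := congrArg (eE f (S.fac s) u (z j)) (congrArg Subtype.val hr)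
    simpa [Ψ, eE_eE, h', h1, h2, -map_neg, hX.eE_range hy] using this
  have h4 : Surjective Ψ := (LinearMap.injective_iff_surjective_of_finrank_eq_finrank
    (le_antisymm (LinearMap.finrank_le_finrank_of_injective h3) (by
      rw [← hX.mul_rk s hu, mul_left_comm] at hr
      simpa [finrank_pi_fintype] using Nat.le_of_mul_le_mul_left hr finrank_pos))).1 h3
  have h5 : ∀ p, eE f (S.fac s) w w (g p) = eE f (S.fac s) w w p := fun p => by
    obtain ⟨r, hr⟩ := h4 ⟨_, LinearMap.mem_range_self _ p⟩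
    have := congrArg (eE f (S.fac s) w w) (congrArg Subtype.val hr)
    simpa [Ψ, eE_eE, h', hw, hw', -map_neg, eq_comm (a := (0 : V)), sub_eq_zero] using this
  obtain ⟨g', -, h6, -⟩ := inG_exists_inv hg
  refine sub_eq_zero.1 (hX.bnd.1 _ fun q => ?_)
  obtain ⟨q, rfl⟩ : ∃ q', q = g q' := ⟨g' q, (LinearMap.congr_fun h6 q).symm⟩
  rw [LinearMap.map_sub₂, hX.iso _ hg, eE_skew S hX.alt, eE_skew S hX.alt, h5, sub_self]

theorem PX.eq_of_rk (hX : PX S X) (hg : InG X g) {j : τ}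
    (h : ∀ a, ∃ a', g * S.fac s a = S.fac j a' * g) (h6 : 6 ≤ finrank F U) (hr : finrank F U * rk (g - 1) ≤ 2 * finrank F V) : j = s := by
  by_contra hj
  have := hX.nt
  obtain ⟨u, hu⟩ := exists_ne (0 : U)
  obtain ⟨y, hy⟩ := exists_apply_eq_one' hX.nd hu
  obtain ⟨g', -, h1, -⟩ := inG_exists_inv hg
  have : NeZero (finrank F U) := ⟨by omega⟩
  obtain ⟨T', hT⟩ := h (∑ i, ro f (dbas hX.nd i) (bas F U (i + 1)))
  set T := S.fac s (∑ i, ro f (dbas hX.nd i) (bas F U (i + 1))) with hTdef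
  have h2 : rk (T - S.fac j T') ≤ rk (g - 1) + rk (g - 1) := by
    rw [show T - S.fac j T' = T * (g - 1) * g' + (g - 1) * (-T * g') by
      linear_combination (norm := noncomm_ring) hT * g' + S.fac j T' * h1 - T * h1]
    exact (rk_add_le _ _).trans (add_le_add ((rk_mul_le_left _ _).trans (rk_mul_le_right _ _))
      (rk_mul_le_left _ _))
  have h3 : finrank F (LinearMap.ker (T - S.fac j T')) ≤ rk (eE f (S.fac s) u u) := by
    refine LinearMap.finrank_le_finrank_of_injective (f := LinearMap.codRestrict _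
      (eE f (S.fac s) u (bas F U 0) ∘ₗ Submodule.subtype _) fun p => eE_mem_range hy _ _)
      ((injective_iff_map_eq_zero _).2 fun ⟨p, hp⟩ h0 => Subtype.ext ?_)
    have a1 : ∀ i, eE f (S.fac s) u (bas F U i) p = 0 → eE f (S.fac s) u (bas F U (i + 1)) p = 0 :=
      fun i hi => by
        have := congrArg (eE f (S.fac s) u (bas F U i)) (sub_eq_zero.1 hp)
        rw [← End.mul_apply _ (S.fac j T'), (cm_fac S (Ne.symm hj) T').comm_eE, End.mul_apply,
          hi] at this
        simpa [hTdef, ← eE_apply, eE_eE, dbas_bas] using this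
    have a2 : ∀ m : ℕ, eE f (S.fac s) u (bas F U (Fin.ofNat _ m)) p = 0 := fun m => by
      induction m with
      | zero => exact congrArg Subtype.val h0
      | succ m ih =>
        convert a1 _ ih using 4
        ext
        simp [Fin.val_add]
    have a3 : ∀ i, eE f (S.fac s) (dbas hX.nd i) (bas F U i) p = 0 := fun i => by
      simpa [eE_eE, ← hX.alt.neg_eq y u, hy] using congrArg (eE f (S.fac s) (dbas hX.nd i) y) (a2 i)
    simpa [a3] using (LinearMap.congr_fun (sum_eE (φ := S.fac s) hX.nd) p).symm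
  have h4 := LinearMap.finrank_range_add_finrank_ker (T - S.fac j T')
  have h5 : 0 < rk (eE f (S.fac s) u u) := Submodule.one_le_finrank_iff.2
    (LinearMap.range_eq_bot.not.2 (hX.eE_ne_zero s hu hu))
  rw [← hX.mul_rk s hu] at hr h4
  have := Nat.le_of_mul_le_mul_left (hr.trans_eq (mul_left_comm _ _ _)) (by omega)
  nlinarith

theorem PX.exists_sim (hX : PX S X) (hg : InG X g) (hP : S.Pres g) (h6 : 6 ≤ finrank F U)
    (hr : finrank F U * rk (g - 1) ≤ 2 * finrank F V) (s : τ) : ∃ (ρ : End F U) (d : F),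
      Injective ρ ∧ (∀ x y, f x y = d * f (ρ x) (ρ y)) ∧
      ∀ x y, g * eE f (S.fac s) x y = d • eE f (S.fac s) (ρ x) (ρ y) * g := by
  obtain ⟨σ, α, h⟩ := hP
  have := hX.nt
  obtain ⟨d, -, hd⟩ := h.sim hX.nd (hX.iso _ hg) (σ s)
  have h1 : ∀ x y, g * eE f (S.fac s) x y =
      d • eE f (S.fac (σ s)) (α (σ s) x) (α (σ s) y) * g := fun x y => by
    rw [eE_apply, eE_apply, ← map_smul]
    exact h.conj_fac s fun z => by simp [hd z y, smul_smul]
  have h2 := hX.eq_of_rk hg (s := s) (j := σ s) (ro_induction hX.nd ⟨0, by simp⟩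
    (fun a b ⟨a', ha⟩ ⟨b', hb⟩ => ⟨a' + b', by simp only [map_add, mul_add, add_mul, *]⟩)
    fun x y => ⟨_, by rw [← eE_apply, h1, eE_apply, map_smul]⟩) h6 hr
  rw [h2] at h1 hd
  exact ⟨α s, d, (injective_iff_map_eq_zero _).2 fun x hx => hX.nd.1 x fun y => by simp [hd x, hx],
    hd, h1⟩

theorem PX.exists_comm (hX : PX S X) (hg : InG X g) (hP : S.Pres g) (h6 : 6 ≤ finrank F U)
    (hr : finrank F U * rk (g - 1) ≤ 2 * finrank F V) (s : τ) :
    ∃ u, u ≠ 0 ∧ g * eE f (S.fac s) u u = eE f (S.fac s) u u * g := by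
  obtain ⟨ρ, d, h0, h1, h2⟩ := hX.exists_sim hg hP h6 hr s
  have key : ∀ x y : U, (∀ v, ρ v ∈ Submodule.span F {x, y} ∨
      ∃ μ : F, v - μ • ρ v ∈ Submodule.span F {x, y}) →
      ∃ u, u ≠ 0 ∧ g * eE f (S.fac s) u u = eE f (S.fac s) u u * g := fun x y h => by
    obtain ⟨μ, u, u', a1, a2, a3⟩ := exists_eigen_pair hX.nd (by omega) h0 h
    have a4 : d = μ * μ := by
      have := h1 u u'
      refine mul_right_cancel₀ (b := f (ρ u) (ρ u')) (fun e => a1 (by simp [this, e])) ?_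
      rw [← this, mul_assoc, ← smul_eq_mul μ (f _ _), ← map_smul, ← a3, ← smul_eq_mul,
        ← LinearMap.map_smul₂, ← a2]
    refine ⟨u, by rintro rfl; simp at a1, ?_⟩
    rw [h2, a4, mul_smul, ← map_smul, ← a2, ← LinearMap.map_smul₂, ← a2]
  by_cases h3 : ∀ x, x ∈ F ∙ ρ x
  · refine key 0 0 fun v => Or.inr ?_
    obtain ⟨μ, hμ⟩ := Submodule.mem_span_singleton.1 (h3 v)
    exact ⟨μ, by simp [hμ]⟩
  push Not at h3
  obtain ⟨x, hx⟩ := h3
  by_cases h4 : ∃ v, v ∉ Submodule.span F {ρ v, x, ρ x} ∧ x ∉ Submodule.span F {v, ρ v, ρ x}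
  · obtain ⟨v, a1, a2⟩ := h4
    obtain ⟨z, b1, b2⟩ := H79.exists_orth_eq_one hX.nd hX.alt.isRefl a1
    obtain ⟨z', b3, b4⟩ := H79.exists_orth_eq_one hX.nd hX.alt.isRefl a2
    obtain ⟨w, hw, hw0⟩ := Submodule.exists_mem_ne_zero_of_ne_bot
      (LinearMap.ker_ne_bot_of_finrank_lt (f := ((f v).prod (f x)).prod ((f (ρ v)).prod (f (ρ x))))
        (by simp; omega))
    simp only [LinearMap.mem_ker, LinearMap.prod_apply, Function.prod, Prod.mk_eq_zero] at hw
    have := hX.fix_of_rk hg h2 ![v, x] ![z, z'] (by simp [b1, b2, b3, b4]) (by simp [b2, b4])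
      (by simpa [mul_comm] using hr) (w := w) (by simp [hw]) (by simp [hw])
    exact ⟨w, hw0, LinearMap.ext fun p => (this p).trans
      ((eE_skew S hX.alt s w).apply_of_fix hX.bnd (hX.iso _ hg) this p).symm⟩
  push Not at h4
  refine key x (ρ x) fun v => ?_
  by_cases h5 : v ∈ Submodule.span F {ρ v, x, ρ x}
  · obtain ⟨μ, z, hz, e⟩ := Submodule.mem_span_insert.1 h5
    exact Or.inr ⟨μ, by rwa [sub_eq_of_eq_add' e]⟩
  left
  by_contra h7
  obtain ⟨a, b, c, e⟩ := Submodule.mem_span_triple.1 (h4 v h5)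
  have ha : a = 0 := by_contra fun ha => h5 ((Submodule.smul_mem_iff _ ha).1
    (Submodule.mem_span_triple.2 ⟨-b, 1, -c, by linear_combination (norm := module) -e⟩))
  have hb : b = 0 := by_contra fun hb => h7 ((Submodule.smul_mem_iff _ hb).1
    (Submodule.mem_span_pair.2 ⟨1, -c, by rw [ha] at e; linear_combination (norm := module) -e⟩))
  exact hx (Submodule.mem_span_singleton.2 ⟨c, by simpa [ha, hb] using e⟩)

theorem PX.fac_or_cm_of_rk (hX : PX S X) (hM : PM S X) (hg : InG X g) (hP : S.Pres g)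
    (h6 : 6 ≤ finrank F U) (hr : finrank F U * rk (g - 1) ≤ finrank F V) (s : τ) :
    (∃ a, g = S.fac s a) ∨ Cm (S.fac s) g := by
  obtain ⟨ρ, d, h0, h1, h2⟩ := hX.exists_sim hg hP h6 (by omega) s
  by_cases h3 : ∀ x, x ∈ F ∙ ρ x
  · obtain ⟨a, rfl⟩ := ρ.exists_eq_smul_id_of_forall_notLinearIndependent fun v hv => by
      obtain ⟨c, hc⟩ := Submodule.mem_span_singleton.1 (h3 v)
      simpa using (LinearIndependent.pair_iff.1 hv (-1) c (by simp [hc])).1
    have := hX.nt
    obtain ⟨u, hu⟩ := exists_ne (0 : U)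
    obtain ⟨y, hy⟩ := exists_apply_eq_one' hX.nd hu
    have h4 : d * (a * a) = 1 := by simpa [hy] using (h1 y u).symm
    exact Or.inr (cm_of_eE hX.nd fun x y => by simp [h2, smul_smul, h4])
  push Not at h3
  obtain ⟨x, hx⟩ := h3
  obtain ⟨z, b1, b2⟩ := H79.exists_orth_eq_one hX.nd hX.alt.isRefl hx
  obtain ⟨w, hw, hw0⟩ := Submodule.exists_mem_ne_zero_of_ne_bot
    (LinearMap.ker_ne_bot_of_finrank_lt (f := (f x).prod (f (ρ x))) (by simp; omega))
  simp only [LinearMap.mem_ker, LinearMap.prod_apply, Function.prod, Prod.mk_eq_zero] at hw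
  exact Or.inl (hX.exists_fac hM (Or.inr (by omega)) hw0 hg (hX.fix_of_rk hg h2 (ι := Unit)
    (fun _ => x) (fun _ => z) (by simpa) (by simpa using b2) (by simpa) (by simp [hw]) (by simp [hw])))

end Cfsg.Agent.H27
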