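import Cfsg.Agent.H27.PowGrow

/-!
# Overgroups of tensor induced symplectic groups containing long root elements
-/

set_option autoImplicit false

namespace Cfsg.Agent.H27

open Module Function QuadraticMap H30 H36 H79

variable {F U V τ : Type*} [Field F] [AddCommGroup U] [Module F U] [AddCommGroup V] [Module F V]
  [Fintype τ] [DecidableEq τ] {f : LinearMap.BilinForm F U} {B : LinearMap.BilinForm F V}
  {S : TPow τ f B} {X : Subgroup (End F V)ˣ}

theorem form_ne_zero {u v : τ → U} (h : ∀ i, f (u i) (v i) ≠ 0) : B (S.pt u) (S.pt v) ≠ 0 := by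
  rw [S.form]
  exact mul_ne_zero S.c_ne (Finset.prod_ne_zero_iff.2 fun i _ => h i)

theorem pt_mem_of_ne (hf : f.Nondegenerate) (N : AddSubgroup V) {x : τ → U} (hx : ∀ i, x i ≠ 0)
    (I : τ → Prop) (b : τ → U) (h : ∀ u : τ → U, (∀ i, I i → u i = b i) →
      (∀ i, ¬ I i → f (u i) (x i) ≠ 0) → S.pt u ∈ N) : S.pt b ∈ N := by
  refine multi_induction (p := fun u => S.pt u ∈ N)
    (G := fun i => {y | (I i → y = b i) ∧ (¬ I i → f y (x i) ≠ 0)})
    (L := fun i => {y | I i → y = b i}) (fun i u h y hy => ?_)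
    (fun u hu => h u (fun i => (hu i).1) fun i => (hu i).2) b fun i _ => rfl
  by_cases h1 : ¬ I i → f y (x i) ≠ 0
  · exact h y ⟨hy, h1⟩
  push Not at h1
  obtain ⟨z, hz⟩ := exists_apply_eq_one' hf (hx i)
  have := N.sub_mem (h (y + z) ⟨fun e => (h1.1 e).elim, fun _ => by simp [h1.2, hz]⟩)
    (h z ⟨fun e => (h1.1 e).elim, fun _ => by simp [hz]⟩)
  rwa [← S.pt.map_update_sub, add_sub_cancel_right] at this

theorem pt_add_induction [Nonempty τ] {p : V → Prop} (h0 : p 0)
    (hadd : ∀ x y, p x → p y → p (x + y)) (hp : ∀ u, p (S.pt u)) (v : V) : p v := by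
  obtain ⟨s⟩ := ‹Nonempty τ›
  simpa using S.induction (p := fun v => ∀ c : F, p (c • v)) (by simpa)
    (fun x y hx hy c => by simpa using hadd _ _ (hx c) (hy c))
    (fun a x hx c => by simpa [smul_smul] using hx (c * a))
    (fun u c => by
      rw [← update_eq_self s u, ← S.pt.map_update_smul]
      exact hp _) v 1

theorem exists_smul_of_orth [FiniteDimensional F U] (hf : f.Nondegenerate) (hA : f.IsAlt)
    (h3 : ¬ 3 ≤ finrank F U) {u x : U} (hu : u ≠ 0) (hx : f u x = 0) : ∃ c : F, x = c • u := by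
  by_contra! H
  exact h3 (three_le_of_orth hf hA ((LinearIndependent.pair_iff' hu).2 fun a e => H a e.symm) hx)

theorem dd_eq_smul [FiniteDimensional F U] (hf : f.Nondegenerate) (hA : f.IsAlt)
    (h3 : ¬ 3 ≤ finrank F U) (y a : U) : dd f y a = f y a • 1 := LinearMap.ext fun v => by
  rw [← sub_eq_zero]
  by_contra h
  obtain ⟨c₁, h1⟩ := exists_smul_of_orth hf hA h3 h (x := y) (by
    simp [dd, hA.self_eq_zero, ← hA.neg_eq y a, mul_comm])
  obtain ⟨c₂, h2⟩ := exists_smul_of_orth hf hA h3 h (x := a) (by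
    simp [dd, hA.self_eq_zero, mul_comm])
  obtain ⟨c₃, h4⟩ := exists_smul_of_orth hf hA h3 h (x := v) (by
    simp [dd, hA.self_eq_zero, ← hA.neg_eq v a, ← hA.neg_eq v y, mul_comm])
  generalize (dd f y a) v - (f y a • 1 : End F U) v = w at h1 h2 h4
  subst h1 h2 h4
  simp [dd, hA.self_eq_zero] at h

section Sp

variable [FiniteDimensional F V] [Finite F]

theorem Ty.eq_top (hX : PX S X) (hA : B.IsAlt) (h2 : (2 : F) ≠ 0) [Nonempty τ]
    (h : Ty S X Finset.univ ∅) : X.comap (isoU B) = ⊤ := by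
  obtain ⟨s⟩ := ‹Nonempty τ›
  have hK : ∀ u, S.pt u ∈ rootSet hA (X.comap (isoU B)) := fun u c =>
    (h.smul hX (Finset.mem_univ s) (n := fun i => ro f (u i) (u i))
      (fun i => by rw [tyS_t (Finset.mem_univ i)]; exact ⟨_, rfl⟩) (c * S.c)).mem (by
      rw [mul_smul, ← ro_pt]
      ext v
      simp [isoU_apply, coe_isoTv, altTv_apply, mul_smul])
  have := hX.nt
  obtain ⟨x, hx⟩ := exists_ne (0 : U)
  obtain ⟨y, -, hy⟩ := exists_form_ne_zero S hX.nd (x := fun _ => x) fun _ => hx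
  set p := S.pt fun _ => x with hp
  set q := S.pt y with hq
  have hc := S.c_ne
  have hy' : B p q = -S.c := by rw [← hA.neg_eq, hy]
  have hP : ∀ v, v ∈ B.orthogonal (Submodule.span F {p, q}) ↔ B p v = 0 ∧ B q v = 0 := fun v =>
    ⟨fun h => ⟨h p (Submodule.subset_span (by simp)), h q (Submodule.subset_span (by simp))⟩,
      fun h w hw => by
        obtain ⟨a, b, rfl⟩ := Submodule.mem_span_pair.1 hw
        simp [h]⟩
  refine eq_top_of_nondeg_root (P := Submodule.span F {p, q}) hX.bnd (hA := hA) h2 ?_ ?_ ?_ ?_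
  · rw [Submodule.disjoint_def]
    intro v hv hv'
    obtain ⟨a, b, rfl⟩ := Submodule.mem_span_pair.1 hv
    simp only [hP, map_add, map_smul, hA.self_eq_zero, hy, hy', smul_eq_mul] at hv'
    simp [show a = 0 by simpa [hc] using hv'.2, show b = 0 by simpa [hc] using hv'.1]
  · simp [pt_ne_zero S hX.nd (x := fun _ => x) fun _ => hx, hp]
  · intro v hv
    obtain ⟨a, b, rfl⟩ := Submodule.mem_span_pair.1 hv
    by_cases ha : a = 0
    · simpa [ha] using smul_mem_rootSet (hK y) b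
    · exact add_smul_mem_rootSet (smul_mem_rootSet (hK _) a) (hK y)
        (by simp [← hp, ← hq, hy', ha, hc]) b
  · intro r hr
    let ψ : V →ₗ[F] V := S.c⁻¹ • (ro B q p - ro B p q)
    have h1 : ∀ v, v - ψ v ∈ B.orthogonal (Submodule.span F {p, q}) := fun v => (hP _).2 (by
      simp only [ψ, LinearMap.smul_apply, LinearMap.sub_apply, ro_apply, map_sub, map_smul,
        hA.self_eq_zero, hy, hy', smul_eq_mul]
      rw [← hA.neg_eq v p, ← hA.neg_eq v q]
      constructor <;> field_simp <;> ring)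
    have key : ∀ v, (1 - ψ) v ∈ Submodule.span F {r | r ∈ B.orthogonal (Submodule.span F {p, q}) ∧
        ∃ p' ∈ Submodule.span F {p, q}, p' ≠ 0 ∧ p' + r ∈ rootSet hA (X.comap (isoU B))} := by
      refine S.induction (by simp) (fun a b ha hb => by simpa only [map_add] using add_mem ha hb)
        (fun a b hb => by simpa only [map_smul] using Submodule.smul_mem _ a hb) fun b => ?_
      rw [← Submodule.mem_comap, ← Submodule.mem_toAddSubgroup]
      refine pt_mem_of_ne hX.nd _ (x := fun _ => x) (fun _ => hx) (fun _ => False) b fun u _ hu => ?_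
      refine Submodule.subset_span ⟨h1 _, ψ (S.pt u),
          Submodule.mem_span_pair.2 ⟨-(S.c⁻¹ * B (S.pt u) q), S.c⁻¹ * B (S.pt u) p, by
            simp [ψ, smul_sub, smul_smul, neg_add_eq_sub]⟩, fun e => ?_, by simpa using hK u⟩
      exact form_ne_zero (S := S) (fun i => hu i id) (hA.isRefl _ _ ((hP _).1
        (by simpa [e] using h1 (S.pt u))).1)
    obtain ⟨h3, h4⟩ := (hP r).1 hr
    simpa [ψ, hA.isRefl _ _ h3, hA.isRefl _ _ h4] using key r

end Sp

section Orth

variable {Q : QuadraticForm F V} {M : Subgroup (O Q)}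

theorem eich_move {z a b w : V} (hz : Q z = 0) (hE : ∀ c : F, eich Q a (c • b) ∈ M) (ha : Q a = 0)
    (hb : Q b = 0) (hab : polar Q a b = 0) (hza : polar Q z a = 0) (hzb : polar Q z b = 0)
    (hw : w ∈ eichAddSubgroup M hz) (hwb : polar Q w b = 0) (hwa : polar Q w a ≠ 0) :
    b ∈ eichAddSubgroup M hz := by
  have h1 := eich_conj_mem (hE (polar Q w a)⁻¹) hw.2
  rw [eich_apply_of_orth hza (by simp [hzb]), eich_apply ha (by simp [hab]), Q_smul, hb,
    polar_smul_right', hwb, smul_inv_smul₀ hwa] at h1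
  simpa using AddSubgroup.sub_mem _ (show w + b ∈ eichAddSubgroup M hz from
    ⟨by rw [polar_add_right, hw.1, hzb, add_zero], by simpa using h1⟩) hw

/-- The quadratic form vanishing on pure tensors. -/
structure PQ (S : TPow τ f B) (Q : QuadraticForm F V) : Prop where
  pol : ∀ p q, polar Q p q = B p q
  pure : ∀ u, Q (S.pt u) = 0

theorem PQ.fullAt (hQ : PQ S Q) (hf : f.Nondegenerate) [Nonempty τ] {x : τ → U}
    (hx : ∀ i, x i ≠ 0)
    (h : ∀ (b : τ → U) j, f (b j) (x j) = 0 → S.pt b ∈ eichAddSubgroup M (hQ.pure x)) :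
    FullAt M (S.pt x) := by
  obtain ⟨y, hy, hy'⟩ := exists_form_ne_zero S hf hx
  have key : ∀ v, v - (S.c⁻¹ * B v (S.pt x)) • S.pt y ∈ eichAddSubgroup M (hQ.pure x) := by
    refine pt_add_induction (S := S) (by simp) (fun a b ha hb => ?_) fun u => ?_
    · convert add_mem ha hb using 1
      simp only [map_add, LinearMap.add_apply, mul_add, add_smul]
      abel
    refine multi_induction (p := fun u => S.pt u - (S.c⁻¹ * B (S.pt u) (S.pt x)) • S.pt y ∈
        eichAddSubgroup M (hQ.pure x)) (G := fun i => {v | f v (x i) = 0 ∨ ∃ c : F, v = c • y i})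
      (L := fun _ => Set.univ) (fun i u h v _ => ?_) (fun u hu => ?_) u fun _ => trivial
    · convert add_mem (h (v - f v (x i) • y i) (Or.inl (by simp [hy]))) (h _ (Or.inr ⟨f v (x i), rfl⟩))
        using 1
      simp only [S.pt.map_update_sub, map_sub, LinearMap.sub_apply, mul_sub, sub_smul]
      abel
    by_cases h1 : ∃ j, f (u j) (x j) = 0
    · obtain ⟨j, hj⟩ := h1
      simpa [S.form_eq_zero j hj] using h u j hj
    choose c hc using fun i => (hu i).resolve_left fun e => h1 ⟨i, e⟩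
    rw [show u = fun i => c i • y i from funext hc, S.pt.map_smul_univ]
    simp [hy', mul_left_comm S.c⁻¹, S.c_ne]
  exact ⟨hQ.pure x, fun w hw => by
    simpa [← hQ.pol, polar_comm Q w, hw] using (key w).2⟩

theorem PQ.move (hQ : PQ S Q) (hA : f.IsAlt) {x b w : τ → U} {j l : τ} (hl : l ≠ j) {e : U}
    (hE : ∀ c : F, eich Q (S.pt (update b j e)) (S.pt (update b j (c • b j))) ∈ M)
    (h1 : ∃ i, f (x i) (update b j e i) = 0) (h2 : ∃ i, f (x i) (b i) = 0)
    (hw : S.pt w ∈ eichAddSubgroup M (hQ.pure x)) (h3 : ∃ i, f (w i) (b i) = 0)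
    (h4 : ∀ i, f (w i) (update b j e i) ≠ 0) : S.pt b ∈ eichAddSubgroup M (hQ.pure x) :=
  eich_move _ (fun c => by simpa [S.pt.map_update_smul] using hE c) (hQ.pure _) (hQ.pure _)
    (by rw [hQ.pol, S.form_eq_zero l (by simp [hl, hA.self_eq_zero])])
    (by rw [hQ.pol, S.form_eq_zero _ h1.choose_spec]) (by rw [hQ.pol, S.form_eq_zero _ h2.choose_spec])
    hw (by rw [hQ.pol, S.form_eq_zero _ h3.choose_spec]) (by rw [hQ.pol]; exact form_ne_zero h4)

variable [FiniteDimensional F U]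

theorem PQ.fullAt_big (hQ : PQ S Q) (hf : f.Nondegenerate) (hA : f.IsAlt) [Nontrivial τ]
    (h3 : 3 ≤ finrank F U) (hE : ∀ (a : τ → U) j y, f y (a j) = 0 →
      eich Q (S.pt a) (S.pt (update a j y)) ∈ M) {x : τ → U} (hx : ∀ i, x i ≠ 0) :
    FullAt M (S.pt x) := by
  have hE' : ∀ (b : τ → U) j e, f (b j) e = 0 → ∀ c : F,
      eich Q (S.pt (update b j e)) (S.pt (update b j (c • b j))) ∈ M := fun b j e he c => by
    simpa using hE (update b j e) j (c • b j) (by simp [he])
  have L1 : ∀ (b : τ → U) j (c : F), b j = c • x j → S.pt b ∈ eichAddSubgroup M (hQ.pure x) := by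
    intro b j c hb
    refine pt_mem_of_ne hf _ hx (· = j) b fun u h1 h2 => ?_
    obtain ⟨e, e', a1, a2, a3⟩ := exists_orth_pair hf hA h3 (x j)
    obtain ⟨l, hl⟩ := exists_ne j
    have a4 : u j = c • x j := (h1 j rfl).trans hb
    refine hQ.move hA hl (w := update x j e) (hE' u j e' (by simp [a4, a2])) ⟨j, by simpa⟩
      ⟨j, by simp [a4, hA.self_eq_zero]⟩ ⟨?_, hE x j e (hA.isRefl _ _ a1)⟩
      ⟨j, by simp [a4, hA.isRefl _ _ a1]⟩ fun i => ?_
    · rw [hQ.pol, S.form_eq_zero j (by simpa)]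
    by_cases hi : i = j
    · simp [hi, a3]
    · simpa [hi] using fun h => h2 i hi (hA.isRefl _ _ h)
  refine hQ.fullAt hf hx fun b j hb => ?_
  by_cases h0 : x j ∈ F ∙ b j
  · obtain ⟨c, hc⟩ := Submodule.mem_span_singleton.1 h0
    exact L1 b j c⁻¹ (by rw [← hc, inv_smul_smul₀ (by rintro rfl; exact hx j (by simp [← hc]))])
  obtain ⟨y, a1, a2⟩ := exists_orth_eq_one hf hA.isRefl h0
  obtain ⟨l, hl⟩ := exists_ne j
  refine pt_mem_of_ne hf _ hx (· = j) b fun u h1 h2 => ?_
  have a4 : u j = b j := h1 j rfl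
  refine hQ.move hA hl (w := update x j y) (hE' u j (x j) (by rwa [a4]))
    ⟨j, by simp [hA.self_eq_zero]⟩ ⟨j, by rw [a4, hA.isRefl _ _ hb]⟩ (L1 _ l 1 (by simp [hl]))
    ⟨j, by simp [a4, hA.isRefl _ _ (a2 _ rfl)]⟩ fun i => ?_
  by_cases hi : i = j
  · simp [hi, ← hA.neg_eq (x j), a1]
  · simpa [hi] using fun h => h2 i hi (hA.isRefl _ _ h)

theorem PQ.fullAt_two (hQ : PQ S Q) (hf : f.Nondegenerate) (hA : f.IsAlt)
    (h4 : 4 ≤ Fintype.card τ) (h3 : ¬ 3 ≤ finrank F U) (hE : ∀ (a : τ → U) j y,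
      eich Q (S.pt a) (S.pt (update a j y)) ∈ M) {x : τ → U} (hx : ∀ i, x i ≠ 0) :
    FullAt M (S.pt x) := by
  have hE' : ∀ (b : τ → U) j e (c : F),
      eich Q (S.pt (update b j e)) (S.pt (update b j (c • b j))) ∈ M := fun b j e c => by
    simpa using hE (update b j e) j (c • b j)
  choose y hy using fun i => exists_apply_eq_one' hf (hx i)
  have L1 : ∀ (b : τ → U) j l (c : F), j ≠ l → b j = c • x j → b l = x l →
      S.pt b ∈ eichAddSubgroup M (hQ.pure x) := by
    intro b j l c hjl hb hb'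
    by_cases hc : c = 0
    · rw [S.pt.map_coord_zero (m := b) j (by simp [hb, hc])]
      exact zero_mem _
    refine pt_mem_of_ne hf _ hx (fun i => i = j ∨ i = l) b fun u h1 h2 => ?_
    have a4 : u j = c • x j := (h1 j (Or.inl rfl)).trans hb
    have a5 : u l = x l := (h1 l (Or.inr rfl)).trans hb'
    refine hQ.move hA hjl (w := update x j (y j)) (hE' u l (y l))
      ⟨j, by simp [hjl, a4, hA.self_eq_zero]⟩ ⟨l, by simp [a5, hA.self_eq_zero]⟩ ⟨?_, hE x j _⟩
      ⟨l, by simp [hjl.symm, a5, hA.self_eq_zero]⟩ fun i => ?_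
    · rw [hQ.pol, S.form_eq_zero l (by simp [hjl.symm, hA.self_eq_zero])]
    by_cases hi : i = j
    · simp [hi, hjl, a4, hc, hy]
    by_cases hi' : i = l
    · simp [hi', hjl.symm, ← hA.neg_eq (y l), hy]
    · simpa [hi, hi'] using fun h => h2 i (by simp [hi, hi']) (hA.isRefl _ _ h)
  have : Nonempty τ := Fintype.card_pos_iff.1 (by omega)
  refine hQ.fullAt hf hx fun b j hb => ?_
  obtain ⟨c, hc⟩ := exists_smul_of_orth hf hA h3 (hx j) (hA.isRefl _ _ hb)
  by_cases hc0 : c = 0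
  · rw [S.pt.map_coord_zero (m := b) j (by simp [hc, hc0])]
    exact zero_mem _
  obtain ⟨l, hl, i₁, h₁, i₂, h₂, a1, a2, a3⟩ := Finset.two_lt_card.1
    (show 2 < (Finset.univ.erase j).card by simp; omega)
  simp only [Finset.mem_erase, Finset.mem_univ, and_true] at hl h₁ h₂
  refine pt_mem_of_ne hf _ hx (· = j) b fun u h1 h2 => ?_
  have a4 : u j = c • x j := (h1 j rfl).trans hc
  refine hQ.move hA hl.symm (w := update (update x j (y j)) l (u l)) (hE' u l (x l))
    ⟨l, by simp [hA.self_eq_zero]⟩ ⟨j, by simp [a4, hA.self_eq_zero]⟩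
    (L1 _ i₁ i₂ 1 a3 (by simp [h₁, a1.symm]) (by simp [h₂, a2.symm]))
    ⟨l, by simp [hA.self_eq_zero]⟩ fun i => ?_
  by_cases hi : i = l
  · simpa [hi] using h2 l hl
  by_cases hi' : i = j
  · simp [hi', hl.symm, a4, hc0, hy]
  · simpa [hi, hi'] using fun h => h2 i hi' (hA.isRefl _ _ h)

omit [FiniteDimensional F U] in
theorem PQ.eich_mem (hQ : PQ S Q) (hA : f.IsAlt) [Nontrivial τ] {a : τ → U} {j : τ} {y : U}
    (h : InG X (1 + S.c • Phi S (update (fun i => ro f (a i) (a i)) j (dd f y (a j))))) :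
    eich Q (S.pt a) (S.pt (update a j y)) ∈ X.comap (oU Q) := by
  obtain ⟨l, hl⟩ := exists_ne j
  refine h.mem (LinearMap.ext fun v => ?_)
  have e1 : (fun i => ro f (update a j y i) (a i)) =
      update (fun i => ro f (a i) (a i)) j (ro f y (a j)) := funext fun i => by
    by_cases hi : i = j <;> simp [hi]
  have e2 : (fun i => ro f (a i) (update a j y i)) =
      update (fun i => ro f (a i) (a i)) j (ro f (a j) y) := funext fun i => by
    by_cases hi : i = j <;> simp [hi]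
  rw [dd, (Phi_linear S _ j).map_sub, smul_sub, ← e1, ← e2, ← ro_pt, ← ro_pt]
  refine (eich_apply (hQ.pure a) (by
    rw [hQ.pol, S.form_eq_zero l (by simp [hl, hA.self_eq_zero])]) v).trans ?_
  simp [hQ.pol, hQ.pure, add_sub_assoc]

variable [Finite F]

theorem PQ.pm (hQ : PQ S Q) (hX : PX S X) (hP : HasAlt S X)
    (hiso : ∀ g, InG X g → ∀ p, Q (g p) = Q p)
    (ht : 2 ≤ Fintype.card τ)
    (hc : ((2 : F) ≠ 0 ∧ Even (Fintype.card τ)) ∨ ((2 : F) = 0 ∧ 5 ≤ finrank F U))
    (h : ¬ eichGroup Q ≤ X.comap (oU Q)) : PM S X := by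
  by_contra hM
  have : Nontrivial τ := Fintype.one_lt_card_iff_nontrivial.1 ht
  have := hX.nt
  obtain ⟨x, hx⟩ := exists_ne (0 : U)
  obtain ⟨y, hy, hy'⟩ := exists_form_ne_zero S hX.nd (x := fun _ => x) fun _ => hx
  have hU : ¬ Ty S X Finset.univ ∅ := fun hU => by
    have := hiso _ (hU (fun _ => ro f x x) fun i => by
      rw [tyS_t (Finset.mem_univ i)]; exact ⟨_, rfl⟩) (S.pt y)
    rw [LinearMap.add_apply, End.one_apply, Phi_pt, Q_add, hQ.pure, hQ.pure, hQ.pol] at this
    exact S.c_ne (by simpa [hy, hy'] using this)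
  have hbig : (∀ j, Ty S X (Finset.univ.erase j) {j}) → 3 ≤ finrank F U →
      ∀ x : τ → U, (∀ i, x i ≠ 0) → FullAt (X.comap (oU Q)) (S.pt x) := fun h h3 x =>
    hQ.fullAt_big hX.nd hX.alt h3 fun a j y hy => by
      obtain ⟨l, hl⟩ := exists_ne j
      refine hQ.eich_mem hX.alt ((h j).smul hX (s := l) (by simpa) (fun i => ?_) _)
      by_cases hi : i = j
      · rw [hi, update_self, tyS_d (by simp) (by simp)]
        exact ⟨_, _, hy, rfl⟩
      · rw [update_of_ne hi, tyS_t (by simpa)]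
        exact ⟨_, rfl⟩
  have key : ∀ x : τ → U, (∀ i, x i ≠ 0) → FullAt (X.comap (oU Q)) (S.pt x) := by
    rcases hc with ⟨h2, he⟩ | ⟨h2, h5⟩
    · rcases ty_edge_odd hX hP h2 hM hU he with ⟨h4, h⟩ | ⟨h3, h⟩
      · by_cases h3 : 3 ≤ finrank F U
        · exact hbig (ty_edge_of_erase hX h h4 he) h3
        refine fun x => hQ.fullAt_two hX.nd hX.alt h4 h3 fun a j y => hQ.eich_mem hX.alt ?_
        obtain ⟨l, hl⟩ := exists_ne j
        rw [dd_eq_smul hX.nd hX.alt h3, (Phi_linear S _ j).2, smul_smul]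
        refine (h j).smul hX (s := l) (by simpa) (fun i => ?_) _
        by_cases hi : i = j
        · simp [hi, tyS]
        · rw [update_of_ne hi, tyS_t (by simpa)]
          exact ⟨_, rfl⟩
      · exact hbig h h3
    · exact hbig (ty_edge_two hX hP h2 h5 hM hU ht) (by omega)
  refine h ((key y fun i e => by simpa [e] using hy i).eichGroup_le ?_ (key _ fun _ => hx)
    (by rw [hQ.pol, hy']; exact S.c_ne))
  convert hX.bnd
  exact LinearMap.ext₂ hQ.pol

end Orth

end Cfsg.Agent.H27
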