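import Cfsg.Agent.H27.PowRank
import Cfsg.Agent.H27.FixCount

/-!
# Overgroups of tensor induced symplectic groups in characteristic two
-/

set_option autoImplicit false

namespace Cfsg.Agent.H27

open Module Function H30 H36

variable {F U V τ : Type*} [Field F] [AddCommGroup U] [Module F U] [AddCommGroup V] [Module F V]
  [Fintype τ] [DecidableEq τ] {f : LinearMap.BilinForm F U} {B : LinearMap.BilinForm F V}
  {S : TPow τ f B} {X : Subgroup (End F V)ˣ} {s j : τ} {u y : U} {A g g' : End F V}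

theorem Nm.mul (h : Nm S g) (h' : Nm S g') : Nm S (g * g') := by
  obtain ⟨σ, h⟩ := h
  obtain ⟨ρ, h'⟩ := h'
  refine ⟨σ * ρ, fun s a => ?_⟩
  obtain ⟨b, hb⟩ := h' s a
  obtain ⟨c, hc⟩ := h (ρ s) b
  exact ⟨c, by rw [mul_assoc, hb, ← mul_assoc, hc, mul_assoc]; rfl⟩

theorem nm_of_cm (h : ∀ s, Cm (S.fac s) g) : Nm S g := ⟨1, fun s a => ⟨a, (h s a).symm⟩⟩

/-- The group permuting the factor algebras. -/
def nmG (S : TPow τ f B) : Subgroup (End F V)ˣ where
  carrier := {g | Nm S g.1 ∧ Nm S (g⁻¹).1}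
  mul_mem' ha hb := ⟨ha.1.mul hb.1, by rw [mul_inv_rev]; exact hb.2.mul ha.2⟩
  one_mem' := ⟨nm_of_cm fun _ => cm_one, nm_of_cm fun _ => cm_one⟩
  inv_mem' ha := ⟨ha.2, ha.1⟩

/-- The elements of `X` centralising the factors in `I`. -/
def cenG (S : TPow τ f B) (X : Subgroup (End F V)ˣ) (I : Finset τ) : Subgroup (End F V)ˣ where
  carrier := {g | g ∈ X ∧ ∀ i ∈ I, Cm (S.fac i) g.1}
  mul_mem' ha hb := ⟨X.mul_mem ha.1 hb.1, fun i hi => (ha.2 i hi).mul (hb.2 i hi)⟩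
  one_mem' := ⟨X.one_mem, fun _ _ => cm_one⟩
  inv_mem' {g} ha := ⟨X.inv_mem ha.1, fun i hi => (ha.2 i hi).inv g.mul_inv g.inv_mul⟩

theorem Cls.mono {Y : Subgroup (End F V)ˣ} {T T' : End F V → Prop} (h : Cls Y T A) (hY : Y ≤ X)
    (hT : ∀ N, T N → T' N) : Cls X T' A := by
  obtain ⟨g, g', N, hg, h1, h2, hN, e⟩ := h
  exact ⟨g, g', N, hg.mono hY, h1, h2, hT N hN, e⟩

variable [FiniteDimensional F U]

theorem PX.nm_fac (hX : PX S X) (h1 : g * g' = 1) (h2 : g' * g = 1) {a : End F U}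
    (h : g = S.fac s a) : Nm S g ∧ Nm S g' := by
  have := hX.nt
  have key : ∀ {g g' : End F V} {a a'}, g' * g = 1 → g = S.fac s a → g' = S.fac s a' → Nm S g := by
    rintro _ _ a a' h2 rfl rfl
    refine ⟨1, fun j b => ?_⟩
    by_cases hj : j = s
    · exact ⟨a * b * a', by rw [hj, map_mul, mul_assoc, Equiv.Perm.one_apply, h2, mul_one, map_mul]⟩
    · exact ⟨b, S.fac_comm (Ne.symm hj) a b⟩
  obtain ⟨a', ha'⟩ := exists_fac_of_cm S hX.nd (s := s) fun j hj => (h ▸ cm_fac S hj a).inv h1 h2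
  exact ⟨key h2 h ha', key h1 ha' h⟩

variable [FiniteDimensional F V]

theorem PX.cls_rk (hX : PX S X) (hA : Cls X (bR S) A) : finrank F U * rk A ≤ finrank F V := by
  obtain ⟨g, g', _, -, -, -, ⟨s, u, hu, rfl⟩, rfl⟩ := hA
  rw [← hX.mul_rk s hu]
  exact Nat.mul_le_mul_left _ ((rk_mul_le_left _ _).trans (rk_mul_le_right _ _))

omit [FiniteDimensional F V] in
theorem PX.transport (hX : PX S X) (hM : PM S X) (h5 : 5 ≤ finrank F U) (hg : InG X g)
    (h1 : g * g' = 1) (h2 : g' * g = 1) (hy : y ≠ 0)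
    (h : g * eE f (S.fac s) u u * g' = eE f (S.fac j) y y) (v : U) :
    ∃ a, g * eE f (S.fac s) v v * g' = S.fac j a := by
  have key : ∀ {u y : U} {c : F}, y ≠ 0 → c ≠ 0 →
      g * eE f (S.fac s) u u * g' = c • eE f (S.fac j) y y → ∀ v, f u v = 0 →
      ∃ a, g * eE f (S.fac s) v v * g' = S.fac j a := fun {u y c} hy hc h v hv => by
    obtain ⟨a, ha⟩ := hX.exists_fac (s := j) hM (Or.inr h5) hy
      (inG_conj hg h1 (by simpa using (hX.qt s v).mem 1)) fun p => by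
        rw [← inv_smul_smul₀ hc (eE f (S.fac j) y y), ← h]
        simp [← End.mul_apply g' g, h2, eE_eE, hv]
    exact ⟨a - 1, by simp [← ha]⟩
  obtain ⟨w, w', a1, -, a2, -, a3⟩ := exists_orth_pair₂ hX.nd hX.alt h5 u v
  have hw : w ≠ 0 := by rintro rfl; simp at a3
  obtain ⟨a, ha⟩ := key hy one_ne_zero (by rw [h, one_smul]) w a1
  have hA : Cls X (bR S) (g * eE f (S.fac s) w w * g') := (cls_self ⟨s, w, hw, rfl⟩).conj hg h1 h2
  obtain ⟨z, c, e⟩ := hX.cls_eq hM hA ha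
  have h3 := (hX.rf hM).cls.ne _ hA
  exact key (by rintro rfl; simp [e] at h3) (by rintro rfl; simp [e] at h3) e v
    (hX.alt.isRefl _ _ a2)

variable [Finite F]

theorem PX.cls_base (hX : PX S X) (hM : PM S X) (h2 : (2 : F) = 0) (h6 : 6 ≤ finrank F U)
    (hSN : ∀ g, InG X g → Nm S g → S.Pres g) (hA : Cls X (bR S) A) (h : Nm S (1 + A)) : bR S A := by
  have hq := (hX.rf hM).cls.qt _ hA
  have h0 := (hX.rf hM).cls.ne _ hA
  have h1 : InG X (1 + A) := by simpa using hq.mem 1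
  have h3 := hX.fac_or_cm_of_rk hM h1 (hSN _ h1 h) h6 (by simpa using hX.cls_rk hA)
  by_cases h5 : ∀ j, Cm (S.fac j) (1 + A)
  · have := hX.nt
    obtain ⟨c, hc⟩ := exists_smul_of_cm S hX.nd fun j => by simpa using (h5 j).sub cm_one
    have h7 := hq.sq
    rw [hc] at h0 h7
    exact absurd (by simpa using h7) h0
  push Not at h5
  obtain ⟨j, hj⟩ := h5
  obtain ⟨β, hβ⟩ := (h3 j).resolve_right hj
  obtain ⟨y, c, e⟩ := hX.cls_eq hM hA (s := j) (β := β - 1) (by simp [← hβ])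
  obtain ⟨a, rfl⟩ := FiniteField.isSquare_of_char_two
    (CharP.ringChar_of_prime_eq_zero Nat.prime_two (by exact_mod_cast h2)) c
  have e' : A = eE f (S.fac j) (a • y) (a • y) := by simp [e, smul_smul]
  exact ⟨j, a • y, fun h => h0 (by simp [e', h]), e'⟩

theorem PX.nm_two (hX : PX S X) (hM : PM S X) (h2 : (2 : F) = 0) (h6 : 6 ≤ finrank F U)
    (hSN : ∀ g, InG X g → Nm S g → S.Pres g) (hg : InG X g) : Nm S g := by
  suffices key : ∀ I : Finset τ, cenG S X I ≤ nmG S by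
    obtain ⟨g, hg, rfl⟩ := hg
    exact (key ∅ ⟨hg, by simp⟩).1
  intro I
  induction I using WellFoundedGT.induction with | _ I ih => ?_
  by_cases hI : ∀ s, s ∈ I
  · exact fun g hg => ⟨nm_of_cm fun s => hg.2 s (hI s),
      nm_of_cm fun s => ((cenG S X I).inv_mem hg).2 s (hI s)⟩
  push Not at hI
  obtain ⟨s, hs⟩ := hI
  have : Finite V := Module.finite_of_finite F
  have : Finite (End F V) := Module.finite_of_finite F
  have hsq : ∀ {A : End F V}, A * A = 0 → (1 + A) * (1 + A) = 1 := fun {A} h => by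
    rw [add_mul, mul_add, mul_add, h, mul_one, one_mul, mul_one, add_zero, add_assoc, ← two_smul F,
      h2, zero_smul, add_zero]
  let ν : cenG S X I →* End F V := (Units.coeHom _).comp (cenG S X I).subtype
  have hν : Injective ν := fun a b h => Subtype.ext (Units.ext h)
  have hνX : ∀ g, InG X (ν g) := fun g => ⟨g, g.2.1, rfl⟩
  have hνY : ∀ g, InG (cenG S X I) (ν g) := fun g => ⟨g, g.2, rfl⟩
  have e1 : ∀ g, ν g * ν g⁻¹ = 1 := fun g => by rw [← map_mul, mul_inv_cancel, map_one]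
  have e2 : ∀ g, ν g⁻¹ * ν g = 1 := fun g => by rw [← map_mul, inv_mul_cancel, map_one]
  have hH : ∀ g, g ∈ (nmG S).subgroupOf (cenG S X I) ↔ Nm S (ν g) ∧ Nm S (ν g⁻¹) := fun g => Iff.rfl
  have hfac : ∀ g s a, ν g = S.fac s a → g ∈ (nmG S).subgroupOf (cenG S X I) := fun g s a h =>
    hX.nm_fac (e1 g) (e2 g) h
  let T : End F V → Prop := fun N => ∃ s ∉ I, ∃ u, u ≠ 0 ∧ N = eE f (S.fac s) u u
  have hT : ∀ d, Cls (cenG S X I) T (ν d - 1) → Cls X (bR S) (ν d - 1) := fun d h =>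
    h.mono (fun _ h => h.1) fun _ ⟨s, _, u, hu, e⟩ => ⟨s, u, hu, e⟩
  have hbase : ∀ s ∉ I, ∀ u, u ≠ 0 → ∃ d, ν d = 1 + eE f (S.fac s) u u ∧
      Cls (cenG S X I) T (ν d - 1) ∧ d ∈ (nmG S).subgroupOf (cenG S X I) := fun s hs u hu => by
    obtain ⟨d, hd, e⟩ := (hX.qt s u).mem 1
    rw [one_smul] at e
    exact ⟨⟨d, hd, fun i hi => e ▸ cm_one.add (cm_fac S (by rintro rfl; exact hs hi) _)⟩, e,
      cls_self ⟨s, hs, u, hu, sub_eq_of_eq_add' e⟩, hfac _ s (1 + ro f u u) (by simpa)⟩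
  have hR : ∀ d, Cls X (bR S) (ν d - 1) → d ∈ (nmG S).subgroupOf (cenG S X I) →
      ∃ s ∉ I, ∃ u, u ≠ 0 ∧ ν d = 1 + eE f (S.fac s) u u := fun d h hd => by
    obtain ⟨s, u, hu, e⟩ := hX.cls_base hM h2 h6 hSN h (by simpa using ((hH d).1 hd).1)
    exact ⟨s, fun hs => hX.not_cm hu hu (e ▸ (d.2.2 s hs).sub cm_one), u, hu, eq_add_of_sub_eq' e⟩
  have hconj : ∀ d g, ν (g * d * g⁻¹) - 1 = ν g * (ν d - 1) * ν g⁻¹ := fun d g => by
    rw [mul_sub, sub_mul, mul_one, e1, map_mul, map_mul]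
  have hTv : ∀ g, ∀ s ∉ I, ∀ j ∉ I, ∀ u y, u ≠ 0 → y ≠ 0 →
      ν g * eE f (S.fac s) u u * ν g⁻¹ = eE f (S.fac j) y y → Tv S (ν g) := by
    intro g s hs j hj u y hu hy h i v hv
    by_cases hi : i ∈ I
    · exact ⟨i, v, 1, by rw [one_smul]; exact ((g.2.2 i hi).comm_eE v v).symm⟩
    obtain ⟨d, a1, a2, -⟩ := hbase i hi v hv
    have a3 := hconj d g
    rw [a1, add_sub_cancel_left] at a3
    obtain ⟨l, -, w, -, e⟩ := hR (g * d * g⁻¹) (hT _ (hconj d g ▸ a2.conj (hνY g) (e1 g) (e2 g))) (by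
      by_cases his : i = s
      · obtain ⟨a, ha⟩ := hX.transport hM (by omega) (hνX g) (e1 g) (e2 g) hy h v
        exact hfac _ j (1 + a) (by rw [map_add, map_one, ← ha, ← his, ← a3, add_sub_cancel])
      refine ih (insert j I) (Finset.ssubset_insert hj) ⟨(g * d * g⁻¹).2.1, fun l hl => ?_⟩
      rcases Finset.mem_insert.1 hl with rfl | hl
      swap
      · exact (g * d * g⁻¹).2.2 l hl
      refine cm_of_tv hX.nd fun w => ?_
      obtain ⟨a, ha⟩ := hX.transport hM (by omega) (hνX g⁻¹) (e2 g) (e1 g) hu (j := s) (by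
        rw [← h, ← mul_assoc, ← mul_assoc, e2, one_mul, mul_assoc, e2, mul_one]) w
      change _ * ν (g * d * g⁻¹) = ν (g * d * g⁻¹) * _
      rw [eq_add_of_sub_eq' a3]
      linear_combination (norm := noncomm_ring)
        ν g * ha * eE f (S.fac i) v v * ν g⁻¹ - ν g * eE f (S.fac i) v v * ha * ν g⁻¹ -
        ν g * (cm_fac S his a).comm_eE v v * ν g⁻¹ -
        e1 g * eE f (S.fac l) w w * ν g * eE f (S.fac i) v v * ν g⁻¹ +
        ν g * eE f (S.fac i) v v * ν g⁻¹ * eE f (S.fac l) w w * e1 g)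
    exact ⟨l, w, 1, by rw [one_smul, ← sub_eq_of_eq_add' e, a3, mul_assoc, e2, mul_one]⟩
  have := hX.nt
  rw [← Subgroup.subgroupOf_eq_top]
  refine eq_top_of_unique_fix (D := fun d => Cls (cenG S X I) T (ν d - 1)) _ (fun d hd => hν ?_)
    (fun d g hd => hconj d g ▸ hd.conj (hνY g) (e1 g) (e2 g)) (fun d hd => ?_)
    (fun d g hd h1 h3 => ?_) (fun d e hd he h1 h3 h4 => hν ?_) (fun d e hd he h1 => ?_) ?_
  · simpa using hsq ((hX.rf hM).cls.qt _ (hT d hd)).sq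
  · obtain ⟨_, g', _, ⟨g, hg, rfl⟩, h1, h3, ⟨j, -, u, -, rfl⟩, e⟩ := hd
    obtain rfl := left_inv_eq_right_inv (e2 ⟨g, hg⟩) h1
    refine ⟨⟨g, hg⟩⁻¹, hfac _ j (1 + ro f u u) ?_⟩
    rw [map_add, map_one, ← eE_apply, ← sub_eq_iff_eq_add', hconj, e, inv_inv, ← mul_assoc,
      ← mul_assoc, h3, one_mul, mul_assoc]
    exact (congrArg _ h3).trans (mul_one _)
  · obtain ⟨i, hi, u, hu, a1⟩ := hR d (hT d hd) h1
    obtain ⟨j, hj, y, hy, a2⟩ := hR _ (hT _ (hconj d g ▸ hd.conj (hνY g) (e1 g) (e2 g))) h3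
    have a3 := hconj d g
    rw [a1, a2, add_sub_cancel_left, add_sub_cancel_left] at a3
    have a4 := hTv g i hi j hj u y hu hy a3.symm
    have a5 := hTv g⁻¹ j hj i hi y u hy hu (by
      rw [a3, inv_inv, ← mul_assoc, ← mul_assoc, e2, one_mul, mul_assoc, e2, mul_one])
    exact ⟨hX.nm_of_tv (e1 g) (e2 g) a4 a5, hX.nm_of_tv (e2 g) (e1 g) a5 a4⟩
  · obtain ⟨i, -, u, hu, a1⟩ := hR d (hT d hd) h1
    obtain ⟨j, -, v, hv, a2⟩ := hR e (hT e he) h3
    have a3 := congrArg ν h4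
    simp only [map_mul, a1, a2] at a3 ⊢
    have a4 : eE f (S.fac j) v v * eE f (S.fac i) u u = eE f (S.fac i) u u * eE f (S.fac j) v v := by
      by_cases hij : j = i
      swap
      · exact S.fac_comm hij _ _
      subst hij
      have a5 := congrArg (co hX.nd (S.fac j) u v) a3
      have := nontrivial_pow S hX.nd
      simp only [mul_add, add_mul, eE_mul, co_eE, cm_one.co_self, hX.alt.self_eq_zero, smul_smul,
        one_mul, mul_one, map_add, map_smul, smul_mul_assoc, mul_smul_comm, ← add_smul,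
        ← hX.alt.neg_eq u v] at a5
      have a6 : f u v = 0 := pow_eq_zero_iff (n := 5) (by simp) |>.1 (by
        linear_combination (f u v) ^ 3 * h2 - smul_left_injective F one_ne_zero a5)
      simp [eE_mul, a6, hX.alt.isRefl _ _ a6]
    linear_combination (norm := noncomm_ring) a4 * (1 + eE f (S.fac j) v v) +
      (1 + eE f (S.fac i) u u) * hsq (eE_sq hX.alt (S.fac j) v)
  · obtain ⟨u, hu, h3⟩ := hX.exists_comm (hνX (e * d)) (hSN _ (hνX _) h1.1) h6 (by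
      have a1 := hX.cls_rk (hT d hd)
      have a2 := hX.cls_rk (hT e he)
      have a3 := Nat.mul_le_mul_left (finrank F U) ((rk_add_le ((ν e - 1) * ν d) (ν d - 1)).trans
        (add_le_add_left (rk_mul_le_left _ _) _))
      rw [sub_mul, one_mul, sub_add_sub_cancel, ← map_mul, mul_add] at a3
      omega) s
    obtain ⟨z, a1, a2, a3⟩ := hbase s hs u hu
    exact ⟨z, a2, a3, hν (by rw [map_mul, map_mul ν _ z, a1, add_mul, mul_add, h3]; simp)⟩
  · obtain ⟨u, v, -, -, -, -, huv⟩ := exists_orth_pair₂ hX.nd hX.alt (by omega) 0 0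
    obtain ⟨w, w', hw, -, hw', -, hww⟩ := exists_orth_pair₂ hX.nd hX.alt (by omega) u v
    obtain ⟨d, a1, a2, a3⟩ := hbase s hs u (by rintro rfl; simp at huv)
    obtain ⟨e, b1, b2, b3⟩ := hbase s hs v (by rintro rfl; simp at huv)
    refine ⟨d, e, a2, b2, a3, b3, fun c hc => ?_⟩
    obtain ⟨a, ha⟩ := hX.exists_fac (s := s) hM (Or.inr (by omega)) (u := w)
      (by rintro rfl; simp at hww) (hνX (c * d * c⁻¹)) fun p => by
        have h1 : ν (e * d) * ν c⁻¹ = ν c⁻¹ * ν (e * d) := by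
          rw [← map_mul, ← map_mul, hν.eq_iff, eq_inv_mul_iff_mul_eq, ← mul_assoc, hc,
            mul_inv_cancel_right]
        have h3 := congrArg (eE f (S.fac s) u v) (LinearMap.congr_fun h1 (eE f (S.fac s) w w p))
        simp [a1, b1, eE_eE, hX.alt.isRefl _ _ hw, hX.alt.isRefl _ _ hw', hX.alt.self_eq_zero,
          huv] at h3
        simp [a1, h3, ← End.mul_apply (ν c), e1]
    exact hfac _ s a ha

end Cfsg.Agent.H27
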