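import Cfsg.Agent.H27.QCls

/-!
# Overgroups of `GL_k(q)` and `GU_k(q)` in `Sp_2k(q)`, `q` odd: local analysis

Both groups are centralisers of a skew operator `J` whose square is a non-zero scalar.
-/

set_option autoImplicit false

namespace Cfsg.Agent.H27

open Module H36

variable {F V : Type*} [Field F] [AddCommGroup V] [Module F V]

/-- A symplectic space in odd characteristic with a skew operator with scalar square. -/
structure JS (f : LinearMap.BilinForm F V) (J : End F V) (δ : F) : Prop where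
  alt : f.IsAlt
  nd : f.Nondegenerate
  two : (2 : F) ≠ 0
  sq : ∀ x, J (J x) = δ • x
  ne : δ ≠ 0
  skew : Skew f J

/-- The operator `y ↦ h(y, u) w` for the hermitian form `h` defined by `f` and `J`. -/
def br (f : LinearMap.BilinForm F V) (J : End F V) (w u : V) : End F V :=
  ro f w (J u) - ro f (J w) u

/-- The nilpotent part of a transvection of the centraliser of `J`. -/
def jN (f : LinearMap.BilinForm F V) (J : End F V) (u : V) : End F V := br f J (J u) u

/-- The nilpotent part of an Eichler transformation of the centraliser of `J`. -/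
noncomputable def jE (f : LinearMap.BilinForm F V) (J : End F V) (u w : V) : End F V :=
  (br f J w u - br f J u w) + (2 : F)⁻¹ • ((br f J w u - br f J u w) * (br f J w u - br f J u w))

/-- A hyperbolic pair for the hermitian form. -/
structure JP (f : LinearMap.BilinForm F V) (J : End F V) (u y : V) : Prop where
  su : f u (J u) = 0
  sy : f y (J y) = 0
  h1 : f y (J u) = 1
  h0 : f y u = 0

/-- Singular vectors which are not eigenvectors. -/
def JSing (f : LinearMap.BilinForm F V) (J : End F V) (u : V) : Prop :=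
  f u (J u) = 0 ∧ ∀ a b : F, a • u + b • J u = 0 → a = 0 ∧ b = 0

/-- A group of isometries containing the centraliser of `J`. -/
structure JG (f : LinearMap.BilinForm F V) (J : End F V) (X : Subgroup (End F V)ˣ) : Prop where
  iso : IsoG f X
  cent : ∀ g : End F V, (∀ p q, f (g p) (g q) = f p q) → g * J = J * g → InG X g

/-- The elements of `X` with commutator space in `⟨u, J u⟩` are transvections of `C(J)`. -/
def JM (f : LinearMap.BilinForm F V) (J : End F V) (X : Subgroup (End F V)ˣ) : Prop :=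
  ∀ u, JSing f J u → ∀ n, InG X (1 + n) → (∀ p, n p ∈ LinearMap.range (jN f J u)) →
    ∃ c : F, n = c • jN f J u

variable {f : LinearMap.BilinForm F V} {J : End F V} {δ : F} {X : Subgroup (End F V)ˣ}
  {u w y : V} {n x z : End F V}

theorem br_apply (w u y : V) : br f J w u y = f y (J u) • w - f y u • J w := rfl

namespace JS

variable (hS : JS f J δ)
include hS

theorem flip (x y : V) : f x y = -f y x := (hS.alt.neg_eq y x).symm

theorem symm (x y : V) : f x (J y) = f y (J x) := by rw [hS.flip x, hS.skew, neg_neg]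

theorem fJJ (x y : V) : f (J x) (J y) = -(δ * f x y) := by
  rw [hS.skew, hS.sq, map_smul, smul_eq_mul]

theorem jN_apply (u y : V) : jN f J u y = f y (J u) • J u - (δ * f y u) • u := by
  rw [jN, br_apply, hS.sq, smul_smul, mul_comm]

theorem br_comm (w u : V) : br f J w u * J = J * br f J w u := by
  ext y
  simp only [End.mul_apply, br_apply, map_sub, map_smul, hS.skew y, hS.sq, smul_eq_mul]
  module

theorem br_adj (w u x y : V) : f (br f J w u x) y = f x (br f J u w y) := by
  simp only [br_apply, map_sub, map_smul, LinearMap.sub_apply, LinearMap.smul_apply, smul_eq_mul,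
    hS.flip w y, hS.flip (J w) y]
  ring

theorem jN_comm (u : V) : jN f J u * J = J * jN f J u := hS.br_comm _ _

theorem jN_J (u p : V) : jN f J u (J p) = J (jN f J u p) := LinearMap.congr_fun (hS.jN_comm u) p

theorem jN_skew (u : V) : Skew f (jN f J u) := fun x y => by
  simp only [hS.jN_apply, map_sub, map_smul, LinearMap.sub_apply, LinearMap.smul_apply,
    smul_eq_mul, hS.flip u y, hS.flip (J u) y]
  ring

theorem jN_sq (hu : f u (J u) = 0) (p : V) : jN f J u (jN f J u p) = 0 := by
  simp [hS.jN_apply, hu, hS.alt.self_eq_zero, hS.skew u]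

theorem J_inj {p : V} (h : J p = 0) : p = 0 := by
  have := hS.sq p
  rw [h, map_zero] at this
  exact (smul_eq_zero.1 this.symm).resolve_left hS.ne

theorem J_surj (x : V) : J (δ⁻¹ • J x) = x := by rw [map_smul, hS.sq, inv_smul_smul₀ hS.ne]

theorem jN_eq_zero (hu : JSing f J u) {p : V} : jN f J u p = 0 ↔ f p u = 0 ∧ f p (J u) = 0 := by
  rw [hS.jN_apply]
  refine ⟨fun h => ?_, fun h => by simp [h.1, h.2]⟩
  obtain ⟨h1, h2⟩ := hu.2 (-(δ * f p u)) (f p (J u)) (by rw [← h]; module)
  exact ⟨by simpa [hS.ne] using h1, h2⟩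

theorem jE_comm (u w : V) : jE f J u w * J = J * jE f J u w := by
  have h : Commute (br f J w u - br f J u w) J :=
    Commute.sub_left (hS.br_comm w u) (hS.br_comm u w)
  exact (h.add_left ((h.mul_left h).smul_left _)).eq

theorem jE_apply (hu : f u (J u) = 0) (h1 : f w u = 0) (h2 : f w (J u) = 0) (y : V) :
    jE f J u w y = f y (J u) • w - f y u • J w - (f y (J w) • u - f y w • J u) +
      (2⁻¹ * f w (J w)) • (f y u • J u - f y (J u) • u) := by
  have h3 : f u w = 0 := by rw [hS.flip, h1, neg_zero]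
  have h4 : f u (J w) = 0 := by rw [hS.symm, h2]
  simp only [jE, br_apply, LinearMap.add_apply, LinearMap.sub_apply, LinearMap.smul_apply,
    End.mul_apply, map_sub, map_smul, hS.skew _, hS.sq, h1, h2, h3, h4, hu,
    hS.alt.self_eq_zero, smul_eq_mul]
  module

theorem jE_iso (hu : f u (J u) = 0) (h1 : f w u = 0) (h2 : f w (J u) = 0) (p q : V) :
    f ((1 + jE f J u w) p) ((1 + jE f J u w) q) = f p q := by
  have h3 : f u w = 0 := by rw [hS.flip, h1, neg_zero]
  have h4 : f u (J w) = 0 := by rw [hS.symm, h2]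
  refine Skew.exp_iso hS.two (fun x y => ?_) (fun p => ?_) p q
  · simp only [LinearMap.sub_apply, map_sub, hS.br_adj]
    ring
  · simp only [br_apply, LinearMap.sub_apply, map_sub, map_smul, hS.skew _, hS.sq, h1, h2, h3, h4,
      hu, hS.alt.self_eq_zero, smul_eq_mul]
    module

theorem jE_inv (hu : f u (J u) = 0) (h1 : f w u = 0) (h2 : f w (J u) = 0) :
    (1 + jE f J u (-w)) * (1 + jE f J u w) = 1 := by
  have h3 : f u w = 0 := by rw [hS.flip, h1, neg_zero]
  have h4 : f u (J w) = 0 := by rw [hS.symm, h2]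
  have := hS.two
  ext p
  simp only [End.mul_apply, LinearMap.add_apply, End.one_apply, hS.jE_apply hu h1 h2,
    hS.jE_apply (w := -w) hu (by simp [h1]) (by simp [h2]), map_add, map_sub, map_smul, map_neg,
    LinearMap.neg_apply, hS.skew _, hS.sq, h1, h2, h3,
    h4, hu, hS.alt.self_eq_zero, smul_eq_mul]
  match_scalars <;> field_simp <;> ring

end JS

namespace JP

variable (hS : JS f J δ) (h : JP f J u y)
include hS h

theorem symm : JP f J y u := ⟨h.sy, h.su, by rw [hS.symm, h.h1], by rw [hS.flip, h.h0, neg_zero]⟩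

theorem jN_left : jN f J u y = J u := by simp [hS.jN_apply, h.h0, h.h1]

theorem jN_J : jN f J u (J y) = δ • u := by rw [hS.jN_J, h.jN_left hS, hS.sq]

theorem sing : JSing f J u := ⟨h.su, fun a b hab => by
  have h1 := congrArg (f y) hab
  have h2 := congrArg (f (J y)) hab
  simp only [map_add, map_smul, h.h0, h.h1, hS.skew y, hS.sq, smul_eq_mul, map_zero] at h1 h2
  exact ⟨by simpa using h2, by simpa using h1⟩⟩

theorem mem_range (a b : F) : a • u + b • J u ∈ LinearMap.range (jN f J u) :=
  ⟨(a * δ⁻¹) • J y + b • y, by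
    rw [map_add, map_smul, map_smul, h.jN_left hS, h.jN_J hS, smul_smul,
      inv_mul_cancel_right₀ hS.ne]⟩

theorem decomp (p : V) : jN f J u (p - (f p (J u) • y - f p u • J y)) = 0 := by
  rw [map_sub, map_sub, map_smul, map_smul, h.jN_left hS, h.jN_J hS, hS.jN_apply]
  module

theorem mem_of_orth {p : V} (hp : ∀ w, jN f J u w = 0 → f p w = 0) :
    p ∈ LinearMap.range (jN f J u) := by
  convert h.mem_range hS (f p (J y)) (-f p y) using 1
  rw [← sub_eq_zero]
  refine hS.nd.1 _ fun q => ?_
  have := hp _ (h.decomp hS q)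
  simp only [map_sub, map_add, map_smul, LinearMap.sub_apply, LinearMap.add_apply,
    LinearMap.smul_apply, smul_eq_mul, hS.flip u q, hS.flip (J u) q] at this ⊢
  linear_combination this

theorem jE_qn (hw : jN f J u w = 0) : QN f (jN f J u) (jE f J u w) := by
  obtain ⟨h1, h2⟩ := (hS.jN_eq_zero (h.sing hS)).1 hw
  have h3 : f u w = 0 := by rw [hS.flip, h1, neg_zero]
  have h4 : f u (J w) = 0 := by rw [hS.symm, h2]
  refine ⟨hS.jE_iso h.su h1 h2, fun p => ?_, fun p hp => ?_⟩
  · simp [hS.jE_apply h.su h1 h2, hS.jN_apply, hS.skew _, hS.sq, h3, h4, h.su,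
      hS.alt.self_eq_zero]
  · obtain ⟨h5, h6⟩ := (hS.jN_eq_zero (h.sing hS)).1 hp
    convert h.mem_range hS (-f p (J w)) (f p w) using 1
    rw [hS.jE_apply h.su h1 h2, h5, h6]
    module

theorem jE_sub (hw : jN f J u w = 0) (p : V) :
    jE f J u w p - (f p (J u) • w - f p u • J w) ∈ LinearMap.range (jN f J u) := by
  obtain ⟨h1, h2⟩ := (hS.jN_eq_zero (h.sing hS)).1 hw
  convert h.mem_range hS (-f p (J w) - 2⁻¹ * f w (J w) * f p (J u))
    (f p w + 2⁻¹ * f w (J w) * f p u) using 1
  rw [hS.jE_apply h.su h1 h2]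
  module

omit h in
theorem J_mem {p : V} (hp : p ∈ LinearMap.range (jN f J u)) :
    J p ∈ LinearMap.range (jN f J u) := by
  obtain ⟨q, rfl⟩ := hp
  exact ⟨J q, hS.jN_J u q⟩

end JP

theorem JG.jE_mem (hS : JS f J δ) (hG : JG f J X) (h : JP f J u y) (hw : jN f J u w = 0) :
    InG X (1 + jE f J u w) :=
  hG.cent _ (h.jE_qn hS hw).iso (by rw [add_mul, mul_add, hS.jE_comm, one_mul, mul_one])

theorem JG.qt (hS : JS f J δ) (hG : JG f J X) (hu : f u (J u) = 0) : QT F X (jN f J u) :=
  ⟨LinearMap.ext (hS.jN_sq hu), fun c => hG.cent _ (fun p q => by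
      simp only [LinearMap.add_apply, End.one_apply, LinearMap.smul_apply, map_add, map_smul,
        hS.jN_skew u p, hS.jN_sq hu, map_zero, smul_eq_mul]
      ring)
    (by rw [add_mul, mul_add, smul_mul_assoc, hS.jN_comm, mul_smul_comm, one_mul, mul_one])⟩

theorem JSing.exists_jp [FiniteDimensional F V] (hS : JS f J δ) (hu : JSing f J u) :
    ∃ y, JP f J u y := by
  obtain ⟨y, hy, hy'⟩ := exists_orth_ne_zero hS.nd hS.alt.isRefl (F ∙ u) (x := J u) fun h => by
    obtain ⟨a, ha⟩ := Submodule.mem_span_singleton.1 h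
    simpa using (hu.2 a (-1) (by rw [ha]; simp)).2
  have h0 : f y u = 0 := hS.alt.isRefl _ _ (hy u (Submodule.mem_span_singleton_self u))
  have h1 : f y (J u) ≠ 0 := fun h => hy' (hS.alt.isRefl _ _ h)
  have := hS.two
  refine ⟨(f y (J u))⁻¹ • y - (2⁻¹ * (f y (J u))⁻¹ ^ 2 * f y (J y)) • u, hu.1, ?_, ?_, ?_⟩
  · simp only [map_sub, map_smul, LinearMap.sub_apply, LinearMap.smul_apply, smul_eq_mul, hu.1,
      hS.symm u y]
    field_simp
    ring
  · simp [hu.1, h1]
  · simp [h0, hS.alt.self_eq_zero]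

theorem JG.rf [FiniteDimensional F V] (hS : JS f J δ) (hG : JG f J X) (hM : JM f J X) :
    RF X fun N => ∃ u, JSing f J u ∧ N = jN f J u := by
  refine ⟨?_, ?_, ?_⟩ <;> rintro _ ⟨u, hu, rfl⟩
  · exact hG.qt hS hu.1
  · obtain ⟨y, hy⟩ := hu.exists_jp hS
    intro h
    have := hy.jN_left hS
    rw [h] at this
    simpa [← this] using hy.h1
  · exact hM u hu

/-- The unipotent radical of the stabiliser of `⟨u, J u⟩` in `X` centralises `J`. -/
theorem QN.comm_J (hS : JS f J δ) (hG : JG f J X) (hM : JM f J X) (h : JP f J u y)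
    (hn : QN f (jN f J u) n) (hX : InG X (1 + n)) : n * J = J * n := by
  have hN := hS.jN_skew u
  have hw := hn.perp hS.nd hN y
  have h1 : n (J y) - J (n y) ∈ LinearMap.range (jN f J u) := h.mem_of_orth hS fun w' hw' => by
    obtain ⟨w, rfl⟩ : ∃ w, J w = w' := ⟨_, hS.J_surj w'⟩
    rw [hS.jN_J] at hw'
    replace hw' := hS.J_inj hw'
    have hE := h.jE_qn hS hw'
    obtain ⟨h2, h3⟩ := hn.inG_comm hS.nd hN hE hX (hG.jE_mem hS h hw')
    obtain ⟨c, hc⟩ := hM u (h.sing hS) _ h2 h3
    have h4 := hn.comm_form hS.nd hN hE y y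
    have h5 := hn.comm_form hS.nd hN hE (J y) (J y)
    have h6 := (hN.eq_zero hw (h.jE_sub hS hw' y)).1
    have h7 := (hN.eq_zero (hn.perp hS.nd hN (J y)) (h.jE_sub hS hw' (J y))).1
    rw [hc, hS.flip (jE f J u w _)] at h4 h5
    simp only [LinearMap.smul_apply, h.jN_left hS, h.jN_J hS, map_smul, hS.skew _, hS.sq, h.h0,
      h.h1, (h.symm hS).h1, smul_eq_mul, map_sub, LinearMap.sub_apply] at h4 h5 h6 h7 ⊢
    refine mul_left_cancel₀ hS.two ?_
    linear_combination -h5 - δ * h4 - 2 * h7 - 2 * δ * h6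
  have hw' : jN f J u (-n y) = 0 := by rw [map_neg, hw, neg_zero]
  obtain ⟨h2, h3⟩ := (hS.jN_eq_zero (h.sing hS)).1 hw
  have hE := h.jE_qn hS hw'
  have e : (1 + n) * (1 + jE f J u (-n y)) =
      1 + (n + jE f J u (-n y) + n * jE f J u (-n y)) := by noncomm_ring
  obtain ⟨c, hc⟩ := hM u (h.sing hS) _ (e ▸ hX.mul (hG.jE_mem hS h hw')) fun p => by
    have := Submodule.add_mem _ (Submodule.add_mem _ (Submodule.sub_mem _
      (hn.into _ (h.decomp hS p)) (Submodule.smul_mem _ (f p u) h1)) (h.jE_sub hS hw' p))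
      (hn.into _ (hE.perp hS.nd hN p))
    convert this using 1
    simp only [LinearMap.add_apply, End.mul_apply, map_sub, map_smul, map_neg]
    module
  have := comm_of_mul_eq (J := J) e (hS.jE_inv h.su h2 h3)
    (by rw [add_mul, mul_add, hS.jE_comm, one_mul, mul_one])
    (by rw [hc, add_mul, mul_add, smul_mul_assoc, hS.jN_comm, mul_smul_comm, one_mul, mul_one])
  rwa [add_mul, mul_add, one_mul, mul_one, add_right_inj] at this

section Ring

variable {A : Type*} [Ring A]

theorem sqrt_comm {x x' J J' m : A} (h1 : x' * x = 1) (h1' : x * x' = 1) (h2 : J' * J = 1)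
    (h2' : J * J' = 1) (hJ : J * J * x = x * (J * J)) (hm : x' * J * x * J' = 1 + 4 * m)
    (h3 : m * m * m = 0) (h4 : ∀ a : A, 4 * a = 0 → a = 0) :
    x * (1 + (2 * m - 2 * (m * m))) * J = J * (x * (1 + (2 * m - 2 * (m * m)))) := by
  have h5 : J * x = x * (1 + 4 * m) * J := by
    rw [← hm]
    calc J * x = (x * x') * J * x * (J' * J) := by rw [h1', h2, one_mul, mul_one]
      _ = _ := by noncomm_ring
  have h6 : (1 + 4 * m) * J * (1 + 4 * m) = J := by
    calc (1 + 4 * m) * J * (1 + 4 * m)
        = (x' * x) * (1 + 4 * m) * J * (1 + 4 * m) * (J * J') := by rw [h1, h2', one_mul, mul_one]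
      _ = x' * (J * J * x) * J' := by
          linear_combination (norm := noncomm_ring) -x' * h5 * (1 + 4 * m) * J * J'
            - x' * J * h5 * J'
      _ = (x' * x) * J * (J * J') := by rw [hJ]; noncomm_ring
      _ = J := by rw [h1, h2', one_mul, mul_one]
  have h7 : J * m = (-m + 4 * (m * m)) * J := sub_eq_zero.1 (h4 _ (by
    linear_combination (norm := noncomm_ring) (1 - 4 * m + 16 * (m * m)) * h6
      - 64 * h3 * J * (1 + 4 * m)))
  linear_combination (norm := noncomm_ring) -h5 * (1 + (2 * m - 2 * (m * m)))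
    - x * (1 + 4 * m) * (2 * h7 - 2 * h7 * m - 2 * (-m + 4 * (m * m)) * h7)
    - x * (40 + 32 * m - 128 * (m * m)) * h3 * J

end Ring

end Cfsg.Agent.H27
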