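import Cfsg.Agent.H27.QJM
import Cfsg.Agent.H27.GeoSymp
import Cfsg.Agent.H26.PC2Geo

/-!
# `GL_k(q).2` and `GU_k(q).2` are maximal in `Sp_2k(q)` for `q` odd and `k ≥ 3`
-/

set_option autoImplicit false

namespace Cfsg.Agent.H27

open Module H36 Matrix Cfsg.Geo

section Abstract

variable {F V : Type*} [Field F] [AddCommGroup V] [Module F V] [FiniteDimensional F V]
variable {f : LinearMap.BilinForm F V} {J : End F V} {δ : F}

theorem JS.exists_not_comm (hS : JS f J δ) (h6 : 3 ≤ finrank F V) : ∃ g : isomGroup f,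
    ¬ ((∀ p, g.1 (J p) = J (g.1 p)) ∨ ∀ p, g.1 (J p) = -J (g.1 p)) := by
  have : Nontrivial V := Module.nontrivial_of_finrank_pos (R := F) (by omega)
  obtain ⟨v, hv⟩ := exists_ne (0 : V)
  refine ⟨isoTv hS.alt v 1, fun h => ?_⟩
  simp only [coe_isoTv, altTv_apply, one_mul, map_add, map_smul, hS.skew _ v] at h
  rcases h with h | h
  · obtain ⟨p, hp⟩ := exists_apply_eq_one' hS.nd hv
    have h1 := h p
    rw [hp, one_smul, add_right_inj] at h1
    have h2 := congrArg (f p) h1
    rw [map_smul, hp, smul_eq_mul, mul_one] at h2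
    rw [show f p (J v) = 0 from mul_left_cancel₀ hS.two (by linear_combination -h2), neg_zero,
      zero_smul] at h1
    exact hv (hS.J_inj h1.symm)
  · obtain ⟨p, hp, hp0⟩ := Submodule.exists_mem_ne_zero_of_ne_bot
      (p := LinearMap.ker ((f.flip v).prod (f.flip (J v)))) fun h0 => by
        have := finrank_le_ker_add ((f.flip v).prod (f.flip (J v)))
        rw [h0, finrank_bot, finrank_prod, finrank_self] at this
        omega
    have h1 := h p
    rw [show f p v = 0 from congrArg Prod.fst hp, show f p (J v) = 0 from congrArg Prod.snd hp,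
      neg_zero, zero_smul, zero_smul, add_zero, eq_neg_iff_add_eq_zero, ← two_smul F] at h1
    exact hp0 (hS.J_inj ((smul_eq_zero.1 h1).resolve_left hS.two))

/-- The normaliser of `F[J]` in the symplectic group is maximal. -/
theorem JS.isCoatom [Finite F] (hS : JS f J δ) (h6 : 6 ≤ finrank F V)
    (hc : (∀ l : F, l * l ≠ δ) ∨ (δ = 1 ∧ ∃ s : isomGroup f, ∀ p, s.1 (J p) = -J (s.1 p)))
    {N : Subgroup (isomGroup f)}
    (hN : ∀ g, g ∈ N ↔ (∀ p, g.1 (J p) = J (g.1 p)) ∨ ∀ p, g.1 (J p) = -J (g.1 p)) :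
    IsCoatom N := by
  refine isCoatom_of_forall (fun h => ?_) fun M hM ⟨g, hg, hg'⟩ => ?_
  · obtain ⟨g, hg⟩ := hS.exists_not_comm (by omega)
    exact hg ((hN g).1 (h ▸ Subgroup.mem_top g))
  by_contra hne
  have hG : JG f J (M.map (isoU f)) := ⟨by
      rintro _ ⟨_, ⟨g, -, rfl⟩, rfl⟩
      exact g.2,
    fun g h1 h2 => by
      have hinj : Function.Injective g := by
        rw [← LinearMap.ker_eq_bot, eq_bot_iff]
        intro p hp
        exact hS.nd.1 p fun q => by rw [← h1, LinearMap.mem_ker.1 hp, LinearMap.map_zero₂]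
      exact ⟨_, ⟨⟨LinearEquiv.ofInjectiveEndo _ hinj, h1⟩,
        hM ((hN _).2 (Or.inl (LinearMap.congr_fun h2))), rfl⟩, rfl⟩⟩
  have hX : (M.map (isoU f)).comap (isoU f) ≠ ⊤ := by
    rwa [Subgroup.comap_map_eq_self_of_injective (isoU_injective _)]
  have hJM : JM f J (M.map (isoU f)) := by
    rcases hc with hc | ⟨rfl, s, hs⟩
    · exact hG.jm_of_not_sq hS hc hX
    · exact hG.jm_of_split hS h6 ⟨_, ⟨s, hM ((hN s).2 (Or.inr hs)), rfl⟩, rfl⟩
        (LinearMap.ext hs) hX
  exact hg' ((hN g).2 ((hG.comm_or hS hJM h6 ⟨_, ⟨g, hg, rfl⟩, rfl⟩).imp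
    LinearMap.congr_fun LinearMap.congr_fun))

end Abstract

variable {ι : Type} [Fintype ι] [DecidableEq ι] {F : Type*} [Field F] [Finite F]

/-- The stabiliser in `Sp_2k(q)`, `q` odd, `k ≥ 3`, of a decomposition into two totally isotropic
subspaces is maximal. -/
theorem sp_c2_ts_three {f : (ι → F) → (ι → F) → F} (hf : IsSymplecticForm f) (h2 : (2 : F) ≠ 0)
    {k : ℕ} (h3 : 3 ≤ k) {D : Fin 2 → Submodule F (ι → F)} (hD : IsMDecomposition k D)
    (hts : ∀ i, IsTotallySingularFor f (D i)) :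
    IsMaximalIn (preserving (glToMat ι F) f)
      (decompositionStabilizer D ⊓ preserving (glToMat ι F) f) := by
  have hc := H26.isCompl_of_isMDecomposition hD
  have hT : (H26.sympP hf).TSPair (D 0) (D 1) := ⟨fun _ _ => trivial, fun _ _ => trivial,
    fun u hu v hv => hts 0 u hu v hv, fun u hu v hv => hts 1 u hu v hv, hc,
    by rw [hD.finrank_eq, hD.finrank_eq]⟩
  obtain ⟨s, hs, hs0, hs1⟩ := hT.exists_swap (Or.inl top_ne_bot)
  obtain ⟨J, hA, hB⟩ : ∃ J : End F (ι → F), (∀ a ∈ D 0, J a = a) ∧ ∀ b ∈ D 1, J b = -b :=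
    ⟨LinearMap.ofIsCompl hc (D 0).subtype (-(D 1).subtype),
      fun a ha => LinearMap.ofIsCompl_apply_left hc ⟨a, ha⟩,
      fun b hb => LinearMap.ofIsCompl_apply_right hc ⟨b, hb⟩⟩
  have hv : ∀ v, ∃ a ∈ D 0, ∃ b ∈ D 1, a + b = v := fun v =>
    Submodule.mem_sup.1 (hc.sup_eq_top ▸ Submodule.mem_top)
  have hA' : ∀ v, v ∈ D 0 ↔ J v = v := fun v => ⟨hA v, fun h => by
    obtain ⟨a, ha, b, hb, rfl⟩ := hv v
    rw [map_add, hA a ha, hB b hb, add_right_inj, neg_eq_iff_add_eq_zero, ← two_smul F] at h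
    rwa [(smul_eq_zero.1 h).resolve_left h2, add_zero]⟩
  have hB' : ∀ v, v ∈ D 1 ↔ J v = -v := fun v => ⟨hB v, fun h => by
    obtain ⟨a, ha, b, hb, rfl⟩ := hv v
    rw [map_add, hA a ha, hB b hb, neg_add, add_left_inj, eq_neg_iff_add_eq_zero,
      ← two_smul F] at h
    rwa [(smul_eq_zero.1 h).resolve_left h2, zero_add]⟩
  have hS : JS (geoBilin hf.bilinear) J 1 := ⟨geoBilin_isAlt hf,
    geoBilin_nondegenerate hf.bilinear hf.nondegenerate, h2, fun v => by
      obtain ⟨a, ha, b, hb, rfl⟩ := hv v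
      simp [hA a ha, hB b hb], one_ne_zero, fun p q => by
      obtain ⟨a, ha, b, hb, rfl⟩ := hv p
      obtain ⟨a', ha', b', hb', rfl⟩ := hv q
      simp only [map_add, hA a ha, hB b hb, hA a' ha', hB b' hb', map_neg, LinearMap.add_apply,
        LinearMap.neg_apply]
      simp [geoBilin_apply, hts 0 a ha a' ha', hts 1 b hb b' hb', add_comm]⟩
  have hswap : ∀ g : (ι → F) ≃ₗ[F] (ι → F), (∀ a ∈ D 0, g a ∈ D 1) → (∀ b ∈ D 1, g b ∈ D 0) →
      ∀ p, g (J p) = -J (g p) := fun g h3 h4 p => by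
    obtain ⟨a, ha, b, hb, rfl⟩ := hv p
    simp [hA a ha, hB b hb, hA _ (h4 b hb), hB _ (h3 a ha), add_comm]
  refine isMaximalIn_of_isCoatom_comap _ (range_isomToGL (geoBilin hf.bilinear)) _
    (hS.isCoatom ?_ (Or.inr ⟨rfl, ⟨s, H26.PForm.isom_f (H26.PForm.E_le_isom hs)⟩,
      hswap s hs0 hs1⟩) fun g => ?_)
  · rw [← Submodule.finrank_add_eq_of_isCompl hc, hD.finrank_eq, hD.finrank_eq]
    omega
  rw [Subgroup.mem_comap, H26.mem_decompositionStabilizer_two,
    show H26.gl (isomToGL _ g) = g.1 from LinearEquiv.ext (isomToGL_mulVec g)]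
  refine or_congr ⟨fun h p => ?_, fun h => ?_⟩ ⟨fun h => hswap g.1 (fun a => (h.1 a).1)
    fun b => (h.2 b).1, fun h => ?_⟩
  · obtain ⟨a, ha, b, hb, rfl⟩ := hv p
    simp [hA a ha, hB b hb, hA _ ((h.1 a).1 ha), hB _ ((h.2 b).1 hb)]
  · simp only [hA', hB', ← h, ← map_neg, EmbeddingLike.apply_eq_iff_eq, implies_true, and_self]
  · simp only [hA', hB']
    refine ⟨fun x => ?_, fun x => ?_⟩
    · rw [← neg_eq_iff_eq_neg, ← h, EmbeddingLike.apply_eq_iff_eq]
    · rw [← neg_inj (a := J (g.1 x)), ← h, ← map_neg, EmbeddingLike.apply_eq_iff_eq]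

/-- The normaliser in `Sp_2k(q)`, `q` odd, `k ≥ 3`, of a quadratic field extension for which the
form comes from a unitary form is maximal. -/
theorem sp_c3_unitary_six (h2 : (2 : F) ≠ 0) {f : (ι → F) → (ι → F) → F}
    (hf : IsSymplecticForm f) (h6 : 6 ≤ Fintype.card ι) {K : Subalgebra F (Matrix ι ι F)}
    (hK : IsFieldSubalgebra 2 K) (hac : IsAdjointClosedFor f K) (hns : ¬ IsSelfAdjointFor f K) :
    IsMaximalIn (preserving (glToMat ι F) f)
      (subalgebraNormalizer K ⊓ preserving (glToMat ι F) f) := by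
  have hA := geoBilin_isAlt hf
  have hnd := geoBilin_nondegenerate hf.bilinear hf.nondegenerate
  obtain ⟨j, hj, hsk, u, v, huv⟩ : ∃ j ∈ K, Skew (geoBilin hf.bilinear) (toLin' j) ∧
      ∃ u v, geoBilin hf.bilinear (toLin' j u) v ≠ 0 := by
    simp only [IsSelfAdjointFor, not_forall] at hns
    obtain ⟨k, hk, u, v, h⟩ := hns
    obtain ⟨k', hk', h'⟩ := hac k hk
    have h1 : ∀ p q, f (k' *ᵥ p) q = f p (k *ᵥ q) := fun p q => by
      rw [hf.skew, ← h', ← hf.skew]
    refine ⟨k - k', K.sub_mem hk hk', fun p q => ?_, u, v, ?_⟩ <;>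
      simp only [map_sub, LinearMap.sub_apply, toLin'_apply, geoBilin_apply, h', h1]
    · ring
    · rwa [sub_ne_zero, ← h']
  have hind : ∀ a b : F, a • (1 : Matrix ι ι F) + b • j = 0 → a = 0 ∧ b = 0 := fun a b h => by
    have h1 := congrArg (fun x => geoBilin hf.bilinear (toLin' x u) v) h
    have h3 := congrArg (fun x => geoBilin hf.bilinear u (toLin' x v)) h
    have h4 := hsk u v
    simp only [map_add, map_smul, toLin'_one, LinearMap.add_apply, LinearMap.smul_apply,
      LinearMap.id_apply, map_zero, LinearMap.zero_apply, smul_eq_mul] at h1 h3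
    have hb : b = 0 := (mul_eq_zero.1 (mul_left_cancel₀ h2 (by
      linear_combination h1 - h3 + b * h4 : 2 * (b * _) = 2 * 0))).resolve_right huv
    have : Nonempty ι := Fintype.card_pos_iff.1 (by omega)
    exact ⟨by simpa [hb] using h, hb⟩
  have hspan : ∀ x ∈ K, ∃ a b : F, x = a • (1 : Matrix ι ι F) + b • j := fun x hx => by
    have h1 : LinearIndependent F ![(1 : K), ⟨j, hj⟩] :=
      LinearIndependent.pair_iff.2 fun a b h => hind a b (congrArg Subtype.val h)
    have h3 := h1.span_eq_top_of_card_eq_finrank' (by rw [hK.finrank_eq]; rfl)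
    rw [Matrix.range_cons_cons_empty] at h3
    obtain ⟨a, b, h⟩ := Submodule.mem_span_pair.1 (h3 ▸ Submodule.mem_top (x := (⟨x, hx⟩ : K)))
    exact ⟨a, b, (congrArg Subtype.val h).symm⟩
  obtain ⟨δ, hδ⟩ : ∃ δ : F, j * j = δ • 1 := by
    obtain ⟨a, b, h⟩ := hspan _ (K.mul_mem hj hj)
    have h1 := congrArg (fun x => geoBilin hf.bilinear (toLin' x u) v) h
    have h3 := congrArg (fun x => geoBilin hf.bilinear u (toLin' x v)) h
    have h4 := hsk u v
    have h5 := hsk u (toLin' j v)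
    simp only [map_add, map_smul, toLin'_one, LinearMap.add_apply, LinearMap.smul_apply,
      LinearMap.id_apply, smul_eq_mul, toLin'_mul, LinearMap.comp_apply,
      hsk (toLin' j u)] at h1 h3
    have hb : b = 0 := (mul_eq_zero.1 (mul_left_cancel₀ h2 (by
      linear_combination -h1 + h3 + b * h4 - h5 : 2 * (b * _) = 2 * 0))).resolve_right huv
    exact ⟨a, by rw [h, hb, zero_smul, add_zero]⟩
  have hns : ∀ l : F, l * l ≠ δ := fun l hl => by
    obtain ⟨y, -, hy⟩ := hK.inv (l • 1 + (1 : F) • j)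
      (K.add_mem (K.smul_mem K.one_mem l) (K.smul_mem hj 1)) fun h => by simpa using (hind _ _ h).2
    have h1 : ((-l) • 1 + (1 : F) • j) * (l • 1 + (1 : F) • j) = 0 := by
      simp only [add_mul, mul_add, smul_mul_assoc, mul_smul_comm, one_mul, mul_one, hδ, ← hl]
      module
    have h3 := congrArg (· * y) h1
    simp only [mul_assoc, hy, mul_one, zero_mul] at h3
    simpa using (hind _ _ h3).2
  have hS : JS (geoBilin hf.bilinear) (toLin' j) δ := ⟨hA, hnd, h2, fun x => by
    rw [← LinearMap.comp_apply, ← toLin'_mul, hδ]; simp, fun h => hns 0 (by simp [h]), hsk⟩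
  refine isMaximalIn_of_isCoatom_comap _ (range_isomToGL (geoBilin hf.bilinear)) _
    (hS.isCoatom (by simpa using h6) (Or.inl hns) fun g => ?_)
  simp only [← isomToGL_mulVec, toLin'_apply, mulVec_mulVec, ← neg_mulVec, ← ext_iff_mulVec,
    Subgroup.mem_comap]
  generalize isomToGL _ g = g
  have key : ∀ g : GL ι F, ((g : Matrix ι ι F) * j = j * g ∨ (g : Matrix ι ι F) * j = -(j * g)) →
      ∀ k ∈ K, (g : Matrix ι ι F) * k * ((g⁻¹ : GL ι F) : Matrix ι ι F) ∈ K := fun g h k hk => by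
    obtain ⟨a, b, rfl⟩ := hspan k hk
    rw [mul_add, add_mul, mul_smul_comm, mul_smul_comm, smul_mul_assoc, smul_mul_assoc, mul_one,
      Units.mul_inv]
    refine K.add_mem (K.smul_mem K.one_mem a) (K.smul_mem ?_ b)
    rcases h with h | h
    · rwa [h, Units.mul_inv_cancel_right]
    · rw [h, neg_mul, Units.mul_inv_cancel_right]
      exact K.neg_mem hj
  refine ⟨fun h => ?_, fun h k => ⟨key g h k, fun hk => ?_⟩⟩
  · obtain ⟨a, b, hab⟩ := hspan _ ((h j).1 hj)
    have h1 : (a • 1 + b • j) * (a • 1 + b • j) = δ • (1 : Matrix ι ι F) := by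
      simp only [← hab, mul_assoc, Units.inv_mul_cancel_left]
      rw [← mul_assoc j j, hδ]
      simp
    obtain ⟨h3, h4⟩ := hind (a * a + b * b * δ - δ) (2 * (a * b)) (by
      rw [← sub_eq_zero] at h1
      rw [← h1]
      simp only [add_mul, mul_add, smul_mul_assoc, mul_smul_comm, one_mul, mul_one, hδ]
      module)
    have hb : b ≠ 0 := fun hb => hns a (by rw [hb] at h3; linear_combination h3)
    have ha : a = 0 := by simpa [h2, hb] using h4
    rw [ha, zero_smul, zero_add, Units.mul_inv_eq_iff_eq_mul] at hab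
    rcases mul_self_eq_one_iff.1 (mul_right_cancel₀ hS.ne (by
      rw [ha] at h3; linear_combination h3 : b * b * δ = 1 * δ)) with rfl | rfl
    · exact Or.inl (by rw [hab, one_smul])
    · exact Or.inr (by rw [hab, neg_smul, one_smul, neg_mul])
  · have := key g⁻¹ (h.imp (fun h => ?_) fun h => ?_) _ hk
    · simpa [mul_assoc] using this
    · rw [Units.inv_mul_eq_iff_eq_mul, ← mul_assoc, h, Units.mul_inv_cancel_right]
    · rw [Units.inv_mul_eq_iff_eq_mul, mul_neg, ← mul_assoc, h, neg_mul, neg_neg,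
        Units.mul_inv_cancel_right]

end Cfsg.Agent.H27
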