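import Cfsg.Agent.H27.QJMain

/-!
# Overgroups of `GL_k(q).2` and `GU_k(q)` in `Sp_2k(q)`: the property `JM`
-/

set_option autoImplicit false

namespace Cfsg.Agent.H27

open Module H36

variable {F V : Type*} [Field F] [AddCommGroup V] [Module F V]
variable {f : LinearMap.BilinForm F V} {J : End F V} {δ : F} {X : Subgroup (End F V)ˣ}
  {u w y : V} {n g : End F V}

/-- All transvections with centre `v` lie in `X`. -/
def Root (f : LinearMap.BilinForm F V) (X : Subgroup (End F V)ˣ) (v : V) : Prop :=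
  ∀ c : F, InG X (1 + c • ro f v v)

theorem root_iff (hA : f.IsAlt) {v : V} : v ∈ rootSet hA (X.comap (isoU f)) ↔ Root f X v := by
  have e : ∀ c, (isoU f (isoTv hA v c) : End F V) = 1 + c • ro f v v := fun c =>
    LinearMap.ext fun x => by simp [isoU_apply, coe_isoTv, altTv_apply, mul_smul]
  exact forall_congr' fun c => ⟨fun h => ⟨_, h, e c⟩, fun h => h.mem (e c)⟩

theorem conj_ro {g' : End F V} (hg : ∀ p q, f (g p) (g q) = f p q) (h : g * g' = 1) (a b : V) :
    g * ro f a b * g' = ro f (g a) (g b) := LinearMap.ext fun p => by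
  rw [End.mul_apply, End.mul_apply, ro_apply, ro_apply, map_smul, ← hg, ← End.mul_apply, h,
    End.one_apply]

theorem Root.map (hG : IsoG f X) {v : V} (h : Root f X v) (hg : InG X g) : Root f X (g v) :=
  fun c => by
    obtain ⟨g', -, h1, -⟩ := inG_exists_inv hg
    have := inG_conj hg h1 (h c)
    rwa [mul_smul_comm, smul_mul_assoc, conj_ro (hG _ hg) h1] at this

/-- The antilinear operator attached to `u` and `v`. -/
def an (f : LinearMap.BilinForm F V) (J : End F V) (u v : V) : End F V :=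
  ro f v (J u) + ro f (J v) u

theorem an_apply (u v p : V) : an f J u v p = f p (J u) • v + f p u • J v := rfl

theorem JP.exists_an (hS : JS f J δ) (h : JP f J u y)
    (hn : ∀ p q, f ((1 + n) p) ((1 + n) q) = f p q) (hr : ∀ p, n p ∈ LinearMap.range (jN f J u)) :
    ∃ c a b : F, n = c • jN f J u + an f J u (a • u + b • J u) := by
  have h1 := fun p => (hS.jN_skew u).apply_eq_zero hS.nd (hS.jN_sq h.su) hn hr (h.decomp hS p)
  obtain ⟨q, hq⟩ := hr y
  obtain ⟨q', hq'⟩ := hr (J y)
  have h2 := skew3 hn y (J y)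
  rw [hS.jN_apply] at hq hq'
  generalize f q (J u) = b, δ * f q u = a, f q' (J u) = d, δ * f q' u = c at hq hq'
  simp only [← hq, ← hq', map_sub, map_smul, LinearMap.sub_apply, LinearMap.smul_apply,
    hS.skew _, hS.sq, h.h0, h.h1, (h.symm hS).h0, (h.symm hS).h1, h.su, hS.alt.self_eq_zero,
    smul_eq_mul] at h2
  refine ⟨2⁻¹ * (b - δ⁻¹ * c), -a, 2⁻¹ * (b + δ⁻¹ * c), LinearMap.ext fun p => ?_⟩
  have h3 := h1 p
  rw [map_sub, sub_eq_zero, map_sub, map_smul, map_smul, ← hq, ← hq',
    show d = a by linear_combination h2] at h3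
  have := hS.two
  have := hS.ne
  simp only [h3, LinearMap.add_apply, LinearMap.smul_apply, hS.jN_apply, an_apply, map_add,
    map_smul, hS.sq]
  match_scalars <;> field_simp <;> ring

theorem JP.gram (hS : JS f J δ) (h : JP f J u y) {w w' : V}
    (hw : f w u = 0 ∧ f w (J u) = 0 ∧ f w y = 0 ∧ f w (J y) = 0)
    (hw' : f w' u = 0 ∧ f w' (J u) = 0 ∧ f w' y = 0 ∧ f w' (J y) = 0) (a b c d a' b' c' d' : F) :
    f (w + (a • u - b • J u) + (c • y - d • J y)) (w' + (a' • u - b' • J u) + (c' • y - d' • J y)) =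
      f w w' - a * d' + b * c' - c * b' + d * a' := by
  simp only [map_add, map_sub, map_smul, LinearMap.add_apply, LinearMap.sub_apply,
    LinearMap.smul_apply, hS.skew _, hS.sq, h.h0, h.h1, (h.symm hS).h0, (h.symm hS).h1, h.su, h.sy,
    hS.alt.self_eq_zero, smul_eq_mul, hw.1, hw.2.1, hw.2.2.1, hw.2.2.2, hS.flip u w',
    hS.flip y w', hS.symm u w', hS.symm y w', hw'.1, hw'.2.1, hw'.2.2.1, hw'.2.2.2]
  ring

theorem JP.proj (hS : JS f J δ) (h : JP f J u y) (p : V) :
    f (p - br f J u y p - br f J y u p) u = 0 ∧ f (p - br f J u y p - br f J y u p) (J u) = 0 ∧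
      f (p - br f J u y p - br f J y u p) y = 0 ∧
      f (p - br f J u y p - br f J y u p) (J y) = 0 := by
  simp [br_apply, hS.skew _, hS.sq, h.h0, h.h1, (h.symm hS).h0, (h.symm hS).h1, h.su, h.sy,
    hS.alt.self_eq_zero]

theorem JG.exists_map (hS : JS f J δ) (hG : JG f J X) (h : JP f J u y) {u' y' : V}
    (h' : JP f J u' y') (hD : ∀ w, f w u = 0 ∧ f w (J u) = 0 ∧ f w y = 0 ∧ f w (J y) = 0 →
      f w u' = 0 ∧ f w (J u') = 0 ∧ f w y' = 0 ∧ f w (J y') = 0) :
    ∃ g, InG X g ∧ g u = u' ∧ g (J u) = J u' := by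
  refine ⟨1 + br f J (u' - u) y + br f J (y' - y) u, hG.cent _ (fun p q => ?_) (by
    simp only [add_mul, mul_add, hS.br_comm, one_mul, mul_one]), ?_, ?_⟩
  · have e : ∀ p, (1 + br f J (u' - u) y + br f J (y' - y) u) p =
        (p - br f J u y p - br f J y u p) + (f p (J y) • u' - f p y • J u') +
          (f p (J u) • y' - f p u • J y') := fun p => by
      simp only [LinearMap.add_apply, End.one_apply, br_apply, map_sub]
      module
    have e' : ∀ p, p = (p - br f J u y p - br f J y u p) + (f p (J y) • u - f p y • J u) +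
          (f p (J u) • y - f p u • J y) := fun p => by
      simp only [br_apply]
      abel
    rw [e, e, h'.gram hS (hD _ (h.proj hS p)) (hD _ (h.proj hS q)),
      ← h.gram hS (h.proj hS p) (h.proj hS q), ← e', ← e']
  · simp [br_apply, (h.symm hS).h0, (h.symm hS).h1, h.su, hS.alt.self_eq_zero]
  · simp [br_apply, hS.skew u, hS.sq, (h.symm hS).h0, (h.symm hS).h1, h.su, hS.alt.self_eq_zero]

theorem JG.an_mem (hS : JS f J δ) (hG : JG f J X) (h : JP f J u y) (hn : InG X (1 + n))
    {c a b : F} (e : n = c • jN f J u + an f J u (a • u + b • J u)) :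
    InG X (1 + an f J u (a • u + b • J u)) := by
  convert ((hG.qt hS h.su).mem (-c)).mul hn using 1
  ext p
  simp [e, an_apply, hS.jN_apply, hS.skew u, hS.sq, h.su, hS.alt.self_eq_zero]
  abel

variable [FiniteDimensional F V]

theorem JG.eq_top_of_root (hS : JS f J δ) (hG : JG f J X) (h : JP f J u y)
    (hu : ∀ a b : F, Root f X (a • u + b • J u)) : X.comap (isoU f) = ⊤ := by
  obtain ⟨g, hg, h1, h2⟩ := hG.exists_map hS h (h.symm hS) fun w hw => ⟨hw.2.2.1, hw.2.2.2, hw.1, hw.2.1⟩
  have hy : ∀ a b : F, Root f X (a • y + b • J y) := fun a b => by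
    simpa [h1, h2] using (hu a b).map hG.iso hg
  simp only [← root_iff hS.alt] at hu hy
  let P : Submodule F V := (F ∙ J u) ⊔ F ∙ y
  have hP : ∀ p, p ∈ P ↔ ∃ a b : F, a • J u + b • y = p := fun p => by
    simp [P, Submodule.mem_sup, Submodule.mem_span_singleton]
  have hP' : ∀ p, p ∈ f.orthogonal P ↔ f p (J u) = 0 ∧ f p y = 0 := fun p =>
    ⟨fun hp => ⟨hS.alt.isRefl _ _ (hp _ ((hP _).2 ⟨1, 0, by simp⟩)),
      hS.alt.isRefl _ _ (hp _ ((hP _).2 ⟨0, 1, by simp⟩))⟩, fun hp q hq => by
      obtain ⟨a, b, rfl⟩ := (hP q).1 hq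
      exact hS.alt.isRefl _ _ (by simp [hp.1, hp.2])⟩
  have hy0 : y ≠ 0 := by rintro rfl; simpa using h.h1
  have hu0 : J u ≠ 0 := fun h0 => by simpa [h0] using h.h1
  refine eq_top_of_nondeg_root (P := P) hS.nd (hA := hS.alt) hS.two ?_ ?_ ?_ ?_
  · rw [Submodule.disjoint_def]
    intro p hp hp'
    obtain ⟨a, b, rfl⟩ := (hP p).1 hp
    obtain ⟨h3, h4⟩ := (hP' _).1 hp'
    simp only [map_add, map_smul, LinearMap.add_apply, LinearMap.smul_apply, hS.alt.self_eq_zero,
      h.h1, hS.skew u y, (h.symm hS).h1, smul_eq_mul] at h3 h4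
    rw [show a = 0 by linear_combination -h4, show b = 0 by linear_combination h3]
    simp
  · exact fun h0 => hy0 ((Submodule.mem_bot F).1 (h0 ▸ (hP _).2 ⟨0, 1, by simp⟩))
  · intro p hp
    obtain ⟨a, b, rfl⟩ := (hP p).1 hp
    by_cases ha : a = 0
    · simpa [ha] using hy b 0
    by_cases hb : b = 0
    · simpa [hb] using hu 0 a
    exact add_mem_rootSet (by simpa using hu 0 a) (by simpa using hy b 0)
      (by simp [hS.skew u y, (h.symm hS).h1, ha, hb])
  · intro r hr
    obtain ⟨h3, h4⟩ := (hP' _).1 hr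
    obtain ⟨h5, h6, h7, h8⟩ := h.proj hS r
    have k1 : u ∈ Submodule.span F {r | r ∈ f.orthogonal P ∧
        ∃ p ∈ P, p ≠ 0 ∧ p + r ∈ rootSet hS.alt (X.comap (isoU f))} :=
      Submodule.subset_span ⟨(hP' _).2 ⟨h.su, (h.symm hS).h0⟩, J u, (hP _).2 ⟨1, 0, by simp⟩, hu0,
        by simpa [add_comm] using hu 1 1⟩
    have k2 : J y ∈ Submodule.span F {r | r ∈ f.orthogonal P ∧
        ∃ p ∈ P, p ≠ 0 ∧ p + r ∈ rootSet hS.alt (X.comap (isoU f))} :=
      Submodule.subset_span ⟨(hP' _).2 ⟨by simp [hS.fJJ, h.h0], by simp [hS.skew y, h.sy]⟩, y,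
        (hP _).2 ⟨0, 1, by simp⟩, hy0, by simpa using hy 1 1⟩
    set w := r - br f J u y r - br f J y u r with hw
    have k3 : w - (2⁻¹ * f w (J w)) • u ∈ Submodule.span F {r | r ∈ f.orthogonal P ∧
        ∃ p ∈ P, p ≠ 0 ∧ p + r ∈ rootSet hS.alt (X.comap (isoU f))} := by
      refine Submodule.subset_span ⟨(hP' _).2 ⟨by simp [h6, h.su], by simp [h7, (h.symm hS).h0]⟩, y,
        (hP _).2 ⟨0, 1, by simp⟩, hy0, ?_⟩
      have := ((root_iff hS.alt).1 (hy 1 0)).map hG.iso
        (hG.jE_mem hS h ((hS.jN_eq_zero (h.sing hS)).2 ⟨h5, h6⟩))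
      rw [root_iff]
      convert this using 1
      simp only [one_smul, zero_smul, add_zero, LinearMap.add_apply, End.one_apply,
        hS.jE_apply h.su h5 h6, h.h0, h.h1, hS.symm y w, h8, hS.flip y w, h7]
      module
    convert Submodule.sub_mem _ (Submodule.add_mem _ k3
      (Submodule.smul_mem _ (2⁻¹ * f w (J w) + f r (J y)) k1)) (Submodule.smul_mem _ (f r u) k2)
      using 1
    simp only [hw, br_apply, h3, h4]
    module

/-- The property `JM` in the unitary case. -/
theorem JG.jm_of_not_sq (hS : JS f J δ) (hG : JG f J X) (hδ : ∀ l : F, l * l ≠ δ)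
    (hX : X.comap (isoU f) ≠ ⊤) : JM f J X := by
  intro u hu n hn hr
  obtain ⟨y, h⟩ := hu.exists_jp hS
  obtain ⟨c, a, b, e⟩ := h.exists_an hS (hG.iso _ hn) hr
  by_cases hab : a = 0 ∧ b = 0
  · exact ⟨c, by rw [e, hab.1, hab.2]; ext p; simp [an_apply]⟩
  have h2 := hS.two
  have hN : ∀ s t : F, ¬ (s = 0 ∧ t = 0) → s * s - δ * (t * t) ≠ 0 := fun s t hst h0 => by
    by_cases ht : t = 0
    · exact hst ⟨mul_self_eq_zero.1 (by simpa [ht] using h0), ht⟩
    · exact hδ (s / t) (by field_simp; linear_combination h0)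
  have h1 := hG.an_mem hS h hn e
  have h3 : ∀ s t : F, InG X (1 + an f J u (((s * s + δ * (t * t)) * a + δ * (2 * s * t) * b) • u +
      ((s * s + δ * (t * t)) * b + 2 * s * t * a) • J u)) := fun s t => by
    by_cases hst : s = 0 ∧ t = 0
    · convert inG_one X using 1
      ext p
      simp [hst.1, hst.2, an_apply]
    have h4 := hN s t hst
    obtain ⟨g, hg, h5, h6⟩ := hG.exists_map hS h (u' := s • u + t • J u)
      (y' := (s * s - δ * (t * t))⁻¹ • (s • y + t • J y))
      ⟨by simp [hS.skew u, hS.sq, h.su, hS.alt.self_eq_zero],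
        by simp [hS.skew y, hS.sq, h.sy, hS.alt.self_eq_zero],
        by
          simp only [map_add, map_smul, LinearMap.add_apply, LinearMap.smul_apply, hS.skew y, hS.sq,
            h.h0, h.h1, smul_eq_mul]
          linear_combination inv_mul_cancel₀ h4,
        by simp [hS.skew y, hS.sq, h.h0, h.h1]; ring⟩
      fun w hw => by simp [hS.sq, hw.1, hw.2.1, hw.2.2.1, hw.2.2.2]
    obtain ⟨g', -, h7, -⟩ := inG_exists_inv hg
    convert inG_conj hg h7 h1 using 2
    simp only [an, mul_add, add_mul, conj_ro (hG.iso _ hg) h7, map_add, map_smul, hS.sq, h5, h6]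
    ext p
    simp only [LinearMap.add_apply, ro_apply, map_add, map_smul, smul_eq_mul]
    module
  have h4 : ∀ a' b' : F, InG X (1 + an f J u (a' • u + b' • J u)) := fun a' b' => by
    have h5 := hN a b hab
    obtain ⟨k₁, k₂, rfl, rfl⟩ : ∃ k₁ k₂ : F, a' = k₁ * a + δ * k₂ * b ∧ b' = k₁ * b + k₂ * a :=
      ⟨(a * a - δ * (b * b))⁻¹ * (a' * a - δ * b' * b), (a * a - δ * (b * b))⁻¹ * (b' * a - a' * b),
        by linear_combination -a' * inv_mul_cancel₀ h5,
        by linear_combination -b' * inv_mul_cancel₀ h5⟩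
    refine inG_of_mul_eq (h3 ((k₁ - 1) / 2) (k₂ / 2)) (h3 ((k₁ + 1) / 2) (k₂ / 2)) ?_
    ext p
    simp only [End.mul_apply, LinearMap.add_apply, End.one_apply, an_apply, map_add, map_smul,
      hS.skew u, hS.sq, h.su, hS.alt.self_eq_zero]
    match_scalars <;> field_simp <;> ring
  refine absurd (hG.eq_top_of_root hS h fun a' b' c' => ?_) hX
  obtain ⟨c, a, b, e⟩ := h.exists_an hS (n := c' • ro f (a' • u + b' • J u) (a' • u + b' • J u))
    (fun p q => by
      generalize a' • u + b' • J u = v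
      simp only [LinearMap.add_apply, End.one_apply, LinearMap.smul_apply, ro_apply, map_add,
        map_smul, hS.alt.self_eq_zero, smul_eq_mul, hS.flip v q]
      ring)
    fun p => Submodule.smul_mem _ _ (Submodule.smul_mem _ _ (h.mem_range hS a' b'))
  convert ((hG.qt hS h.su).mem c).mul (h4 a b) using 1
  rw [e]
  ext p
  simp [an_apply, hS.jN_apply, hS.skew u, hS.sq, h.su, hS.alt.self_eq_zero]
  abel

omit [FiniteDimensional F V] in
theorem JS.neg (hS : JS f J δ) : JS f (-J) δ :=
  ⟨hS.alt, hS.nd, hS.two, fun x => by simp [hS.sq], hS.ne, fun p q => by simp [hS.skew p]⟩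

omit [FiniteDimensional F V] in
theorem JG.neg (hG : JG f J X) : JG f (-J) X :=
  ⟨hG.iso, fun g h1 h2 => hG.cent g h1 (by simpa using h2)⟩

theorem JS.exists_dual (hS : JS f J 1) {e e' : V} (he : J e = -e) (he' : J e' = -e')
    (h : e ∉ F ∙ e') : ∃ x, J x = x ∧ f e x = 1 ∧ f e' x = 0 := by
  obtain ⟨v, hv, hv'⟩ := exists_orth_ne_zero hS.nd hS.alt.isRefl _ h
  have h1 : f e' v = 0 := hv e' (Submodule.mem_span_singleton_self e')
  have h2 := hS.skew e v
  have h3 := hS.skew e' v
  simp only [he, he', map_neg, LinearMap.neg_apply, neg_inj] at h2 h3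
  refine ⟨(2 * f e v)⁻¹ • (v + J v), by simp [hS.sq, add_comm], ?_, by simp [← h3, h1]⟩
  rw [map_smul, map_add, ← h2, ← two_mul, smul_eq_mul, inv_mul_cancel₀ (mul_ne_zero hS.two hv')]

theorem JG.exists_move (hS : JS f J 1) (hG : JG f J X) {e e' : V} (he : J e = -e) (he' : J e' = -e')
    (h : e ∉ F ∙ e') : ∃ g g', InG X g ∧ g * g' = 1 ∧ g e = e + e' ∧
      ∀ a, J a = a → f a e' = 0 → g a = a := by
  obtain ⟨x, h1, h2, h3⟩ := hS.exists_dual he he' h
  have h4 : ∀ a b, J a = a → J b = b → f a b = 0 := fun a b ha hb => by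
    have := hS.skew a b
    rw [ha, hb] at this
    exact mul_left_cancel₀ hS.two (by linear_combination this)
  have h5 : f e e' = 0 := by
    have := hS.skew e e'
    simp only [he, he', map_neg, LinearMap.neg_apply] at this
    exact mul_left_cancel₀ hS.two (by linear_combination -this)
  have hg : InG X (1 + (ro f x e' + ro f e' x)) := hG.cent _ (fun p q => by
      simp only [LinearMap.add_apply, End.one_apply, ro_apply, map_add, map_smul,
        LinearMap.smul_apply, hS.alt.self_eq_zero, hS.flip x e', h3, smul_eq_mul, hS.flip x q,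
        hS.flip e' q]
      ring)
    (LinearMap.ext fun p => by simp [hS.skew p, h1, he'])
  obtain ⟨g', -, h6, -⟩ := inG_exists_inv hg
  exact ⟨_, g', hg, h6, by simp [h2, h5], fun a ha ha' => by simp [ha', h4 a x ha h1]⟩

theorem JG.eq_top_of_split (hS : JS f J 1) (hG : JG f J X) (h6 : 6 ≤ finrank F V) {s : End F V}
    (hs : InG X s) (hsJ : s * J = -(J * s)) {e e' : V} (he : J e = e) (he' : J e' = -e')
    (he0 : e' ≠ 0) (h0 : f e e' = 0) {α β : F} (hβ : β ≠ 0)
    (h : InG X (1 + (α • ro f e e + β • ro f e' e'))) : X.comap (isoU f) = ⊤ := by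
  have h2 := hS.two
  have hm : ∀ a b, J a = -a → J b = -b → f a b = 0 := fun a b ha hb => by
    have := hS.skew a b
    simp only [ha, hb, map_neg, LinearMap.neg_apply] at this
    exact mul_left_cancel₀ hS.two (by linear_combination -this)
  obtain ⟨y, hy, hy'⟩ : ∃ y ∈ LinearMap.range (J - (1 : F) • 1) ⊓ LinearMap.ker (f e),
      y ∉ F ∙ e' := by
    by_contra! H
    have h1 := Submodule.finrank_mono (show _ ≤ F ∙ e' from H)
    have h3 := hS.finrank_eigen (l := 1) (mul_one 1)
    have h4 := (J - (1 : F) • 1).finrank_range_add_finrank_ker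
    have h5 := Submodule.finrank_sup_add_finrank_inf_eq (LinearMap.range (J - (1 : F) • 1))
      (LinearMap.ker (f e))
    have h7 := finrank_le_ker_add (f e)
    have h8 := (LinearMap.range (J - (1 : F) • 1) ⊔ LinearMap.ker (f e)).finrank_le
    rw [finrank_span_singleton he0] at h1
    rw [finrank_self] at h7
    omega
  have hyJ : J y = -y := by
    obtain ⟨v, rfl⟩ := hy.1
    simp [hS.sq]
  have hye : f e y = 0 := hy.2
  have hind : ∀ a b : F, a • e' + b • y = 0 → a = 0 ∧ b = 0 := fun a b hab => by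
    have hb : b = 0 := by
      by_contra hb
      exact hy' (Submodule.mem_span_singleton.2 ⟨-(b⁻¹ * a), by
        rw [neg_smul, mul_smul, ← smul_neg, eq_comm, eq_inv_smul_iff₀ hb, eq_neg_iff_add_eq_zero,
          add_comm, hab]⟩)
    exact ⟨by simpa [hb, he0] using hab, hb⟩
  have h1 : ∀ c : F, InG X (1 + (α • ro f e e + β • ro f (e' + c • y) (e' + c • y))) := fun c => by
    obtain ⟨g, g', hg, h3, h4, h5⟩ := hG.exists_move hS he' (e' := c • y) (by simp [hyJ]) fun h => by
      obtain ⟨d, hd⟩ := Submodule.mem_span_singleton.1 h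
      simpa using (hind (-1) (d * c) (by rw [mul_smul, hd]; simp)).1
    have := inG_conj hg h3 h
    rwa [mul_add, add_mul, mul_smul_comm, mul_smul_comm, smul_mul_assoc, smul_mul_assoc,
      conj_ro (hG.iso _ hg) h3, conj_ro (hG.iso _ hg) h3, h4, h5 e he (by simp [hye])] at this
  have h3 : InG X (1 + (2 * β) • ro f y y) := by
    refine inG_of_mul_eq (h.mul h) ((h1 1).mul (h1 (-1))) ?_
    ext p
    simp only [End.mul_apply, LinearMap.add_apply, End.one_apply, LinearMap.smul_apply, ro_apply,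
      map_add, map_smul, hS.alt.self_eq_zero, h0, hye, hS.flip e' e, hS.flip y e, hm _ _ he' hyJ,
      hm _ _ hyJ he', smul_eq_mul]
    module
  have step : ∀ a b, J a = -a → J b = -b → a ∉ F ∙ (b - a) → InG X (1 + (2 * β) • ro f a a) →
      InG X (1 + (2 * β) • ro f b b) := fun a b ha hb hab h4 => by
    obtain ⟨g, g', hg, h5, h7, -⟩ := hG.exists_move hS ha (e' := b - a) (by simp [ha, hb]; abel) hab
    have := inG_conj hg h5 h4
    rwa [mul_smul_comm, smul_mul_assoc, conj_ro (hG.iso _ hg) h5, h7, add_sub_cancel] at this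
  have h4 : ∀ b, J b = -b → InG X (1 + (2 * β) • ro f b b) := fun b hb => by
    by_cases hby : y ∈ F ∙ (b - y)
    swap
    · exact step y b hyJ hb hby h3
    by_cases hb0 : b = 0
    · simpa [hb0, show ro f 0 0 = 0 from LinearMap.ext fun x => by simp] using inG_one X
    obtain ⟨c, hc⟩ := Submodule.mem_span_singleton.1 hby
    refine step e' b he' hb (fun h => ?_) (step y e' hyJ he' (fun h => ?_) h3)
    · obtain ⟨d, hd⟩ := Submodule.mem_span_singleton.1 h
      obtain ⟨h5, h7⟩ := hind (c * (1 + d)) (-(d * (1 + c)))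
        (by linear_combination (norm := module) d • hc - c • hd)
      have hc0 : c ≠ 0 := by
        rintro rfl
        rw [zero_smul] at hc
        exact hy' (hc ▸ Submodule.zero_mem _)
      have hd1 : d = -1 := by simpa [hc0, add_eq_zero_iff_eq_neg'] using h5
      have hc1 : c = -1 := by simpa [hd1, add_eq_zero_iff_eq_neg'] using h7
      exact hb0 (by rw [hc1] at hc; linear_combination (norm := module) -hc)
    · obtain ⟨d, hd⟩ := Submodule.mem_span_singleton.1 h
      obtain ⟨h5, h7⟩ := hind d (-(1 + d)) (by linear_combination (norm := module) hd)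
      simp [h5] at h7
  have h5 : ∀ b, J b = -b → Root f X b := fun b hb c => by
    refine inG_of_mul_eq (h4 (((c / (2 * β) - 1) / 2) • b) (by simp [hb]))
      (h4 (((c / (2 * β) + 1) / 2) • b) (by simp [hb])) ?_
    ext p
    simp only [End.mul_apply, LinearMap.add_apply, End.one_apply, LinearMap.smul_apply, ro_apply,
      map_add, map_smul, hS.alt.self_eq_zero, smul_eq_mul]
    match_scalars <;> field_simp <;> ring
  have h7 : ∀ a, J a = a → Root f X a := fun a ha => by
    obtain ⟨s', -, h7, h8⟩ := inG_exists_inv hs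
    have h9 : s (s' a) = a := LinearMap.congr_fun h7 a
    have h10 := congrArg s' (LinearMap.congr_fun hsJ (s' a))
    rw [End.mul_apply, ← End.mul_apply s', h8, End.one_apply, LinearMap.neg_apply, End.mul_apply,
      h9, ha, map_neg] at h10
    exact h9 ▸ (h5 _ h10).map hG.iso hs
  simp only [← root_iff hS.alt] at h5 h7
  refine eq_top_of_rootSet hS.nd (hA := hS.alt) fun v => ?_
  have ha : J ((2 : F)⁻¹ • (v + J v)) = (2 : F)⁻¹ • (v + J v) := by simp [hS.sq, add_comm]
  have hb : J ((2 : F)⁻¹ • (v - J v)) = -((2 : F)⁻¹ • (v - J v)) := by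
    simp only [map_smul, map_sub, hS.sq]; module
  have hv : v = (2 : F)⁻¹ • (v - J v) + (2 : F)⁻¹ • (v + J v) := by
    match_scalars <;> field_simp <;> ring
  generalize (2 : F)⁻¹ • (v + J v) = a, (2 : F)⁻¹ • (v - J v) = b at ha hb hv
  subst hv
  by_cases hb0 : b = 0
  · simpa [hb0] using h7 a ha
  by_cases hab : f b a = 0
  swap
  · exact add_mem_rootSet (h5 b hb) (h7 a ha) hab
  obtain ⟨x, hx, hx', -⟩ := hS.exists_dual hb (e' := 0) (by simp) (by simpa using hb0)
  have h8 : f x a = 0 := by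
    have := hS.skew x a
    rw [hx, ha] at this
    exact mul_left_cancel₀ hS.two (by linear_combination this)
  simpa using add_mem_rootSet (add_mem_rootSet (h5 b hb) (h7 x hx) (by simp [hx']))
    (h7 (a - x) (by simp [ha, hx])) (by simp [hab, hx', h8, hS.alt.self_eq_zero])

/-- The property `JM` in the split case. -/
theorem JG.jm_of_split (hS : JS f J 1) (hG : JG f J X) (h6 : 6 ≤ finrank F V) {s : End F V}
    (hs : InG X s) (hsJ : s * J = -(J * s)) (hX : X.comap (isoU f) ≠ ⊤) : JM f J X := by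
  intro u hu n hn hr
  obtain ⟨y, h⟩ := hu.exists_jp hS
  obtain ⟨c, a, b, e⟩ := h.exists_an hS (hG.iso _ hn) hr
  have h1 := hG.an_mem hS h hn e
  have h2 := hS.two
  have h3 : an f J u (a • u + b • J u) = (2⁻¹ * (a + b)) • ro f (u + J u) (u + J u) +
      (2⁻¹ * (b - a)) • ro f (u - J u) (u - J u) := by
    ext p
    simp only [an_apply, LinearMap.add_apply, LinearMap.smul_apply, ro_apply, map_add, map_sub,
      map_smul, hS.sq]
    match_scalars <;> field_simp <;> ring
  rw [h3] at h1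
  have h4 : J (u + J u) = u + J u := by simp [hS.sq, add_comm]
  have h5 : J (u - J u) = -(u - J u) := by simp [hS.sq]
  have h7 : f (u + J u) (u - J u) = 0 := by
    simp [hS.skew u, hS.sq, h.su, hS.alt.self_eq_zero]
  by_cases hβ : 2⁻¹ * (b - a) = 0
  swap
  · exact absurd (hG.eq_top_of_split hS h6 hs hsJ h4 h5
      (fun h => by simpa using (hu.2 1 (-1) (by rw [← h]; module)).1) h7 hβ h1) hX
  by_cases hα : 2⁻¹ * (a + b) = 0
  swap
  · exact absurd (hG.neg.eq_top_of_split hS.neg h6 hs (by simp [hsJ]) (e := u - J u)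
      (by rw [LinearMap.neg_apply, h5, neg_neg]) (by rw [LinearMap.neg_apply, h4])
      (fun h => by simpa using (hu.2 1 1 (by rw [← h]; module)).1) (hS.alt.isRefl _ _ h7) hα
      (by rwa [add_comm (_ • _)])) hX
  exact ⟨c, by rw [e, h3, hα, hβ, zero_smul, zero_smul, add_zero, add_zero]⟩

end Cfsg.Agent.H27
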