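import Cfsg.Agent.H27.QJ

/-!
# Overgroups of `GL_k(q)` and `GU_k(q)` in `Sp_2k(q)`, `q` odd, `k ≥ 3`: they normalise `F[J]`
-/

set_option autoImplicit false

namespace Cfsg.Agent.H27

open Module H36

variable {F V : Type*} [Field F] [AddCommGroup V] [Module F V]
variable {f : LinearMap.BilinForm F V} {J : End F V} {δ : F} {X : Subgroup (End F V)ˣ}
  {u w y : V} {n x z B : End F V}

theorem sqrt_mul {A : Type*} [Ring A] {m : A} (h3 : m * m * m = 0) :
    (1 + (2 * (-m + 4 * (m * m)) - 2 * ((-m + 4 * (m * m)) * (-m + 4 * (m * m))))) *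
      (1 + (2 * m - 2 * (m * m))) = 1 ∧ (1 + (2 * m - 2 * (m * m))) *
      (1 + (2 * (-m + 4 * (m * m)) - 2 * ((-m + 4 * (m * m)) * (-m + 4 * (m * m))))) = 1 ∧
      (1 + 4 * m) * (1 + 4 * (-m + 4 * (m * m))) = 1 :=
  ⟨by linear_combination (norm := noncomm_ring) (32 - 12 * m - 96 * (m * m) + 64 * (m * m * m)) * h3,
    by linear_combination (norm := noncomm_ring) (32 - 12 * m - 96 * (m * m) + 64 * (m * m * m)) * h3,
    by linear_combination (norm := noncomm_ring) 64 * h3⟩

/-- The pointwise stabiliser of `⟨u, J u⟩` in `X` centralises `J`. -/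
theorem JG.comm_of_fix (hS : JS f J δ) (hG : JG f J X) (hM : JM f J X) (h : JP f J u y)
    (hx : InG X x) (hfix : ∀ p, x (jN f J u p) = jN f J u p) : x * J = J * x := by
  have hN := hS.jN_skew u
  obtain ⟨x', hx', h1', h1⟩ := inG_exists_inv hx
  have e1 : ∀ p, x (x' p) = p := LinearMap.congr_fun h1'
  have e2 : ∀ p, x' (x p) = p := LinearMap.congr_fun h1
  have hfix' : ∀ p, x' (jN f J u p) = jN f J u p := fun p => by rw [← hfix, e2, hfix]
  have hr : ∀ p ∈ LinearMap.range (jN f J u), x p = p := by rintro _ ⟨p, rfl⟩; exact hfix p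
  have hr' : ∀ p ∈ LinearMap.range (jN f J u), x' p = p := by rintro _ ⟨p, rfl⟩; exact hfix' p
  have hk' := hN.apply_of_fix hS.nd (hG.iso _ hx') hfix'
  have h2 : ∀ w, jN f J u w = 0 → x (J w) - J (x w) ∈ LinearMap.range (jN f J u) := fun w hw => by
    have hE := h.jE_qn hS hw
    have h3 := (hE.conj (hG.iso _ hx) e1 (fun p => ⟨p, (hfix p).symm⟩)
      (fun p => ⟨p, (hfix' p).symm⟩) fun p hp => by rw [hk', hp]).comm_J hS hG hM h
      (inG_conj hx h1' (hG.jE_mem hS h hw))
    have h4 : ∀ p, x (jE f J u w (x' p)) - x (f p (J u) • w - f p u • J w) ∈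
        LinearMap.range (jN f J u) := fun p => by
      have h5 := Submodule.add_mem _ (hE.into (x' p - p) (by rw [map_sub, hk', sub_self]))
        (h.jE_sub hS hw p)
      rw [← hr _ h5] at h5
      convert h5 using 1
      simp only [map_sub, map_add]
      abel
    have h5 := Submodule.sub_mem _ (JP.J_mem hS (h4 y)) (h4 (J y))
    have h6 := LinearMap.congr_fun h3 y
    simp only [End.mul_apply] at h6
    simpa [h6, h.h0, h.h1, hS.skew y, hS.sq] using h5
  have h4 : (4 : F) ≠ 0 := by
    rw [show (4 : F) = 2 * 2 by norm_num]; exact mul_ne_zero hS.two hS.two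
  set J' := δ⁻¹ • J with hJ'
  have hJ1 : J' * J = 1 := LinearMap.ext fun p => by simp [hJ', hS.sq, hS.ne]
  have hJ2 : J * J' = 1 := LinearMap.ext hS.J_surj
  set m := (4 : F)⁻¹ • (x' * J * x * J' - 1) with hm
  have h4e : ∀ a : End F V, 4 * a = (4 : F) • a := fun a => by
    rw [Algebra.smul_def, map_ofNat]
  have h2e : ∀ a : End F V, 2 * a = (2 : F) • a := fun a => by
    rw [Algebra.smul_def, map_ofNat]
  have hm' : x' * J * x * J' = 1 + 4 * m := by
    rw [h4e, hm, smul_inv_smul₀ h4, add_sub_cancel]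
  have hq : QN f (jN f J u) (4 * m) := by
    refine ⟨fun p q => ?_, fun p => ?_, fun p hp => ?_⟩
    · simp only [← hm', End.mul_apply, hG.iso _ hx', hS.fJJ, hG.iso _ hx, hJ', LinearMap.smul_apply,
        map_smul, smul_eq_mul]
      have := hS.ne
      field_simp
    · rw [← add_sub_cancel_left 1 (4 * m), ← hm']
      simp only [LinearMap.sub_apply, End.mul_apply, hJ', LinearMap.smul_apply, ← hS.jN_J, map_smul,
        hfix, hfix', End.one_apply, hS.sq, inv_smul_smul₀ hS.ne, sub_self]
    · have h5 := Submodule.neg_mem _ (h2 (J' p) (by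
        rw [hJ', LinearMap.smul_apply, map_smul, hS.jN_J, hp, map_zero, smul_zero]))
      rw [← hr' _ h5] at h5
      rw [← add_sub_cancel_left 1 (4 * m), ← hm']
      simpa [e2, show J (J' p) = p from hS.J_surj p] using h5
  have h3 : m * m * m = 0 := by
    have := hq.triple hS.nd hN hq hq
    simp only [h4e, smul_mul_assoc, mul_smul_comm, smul_eq_zero, h4, false_or] at this
    exact this
  obtain ⟨k1, k2, k3⟩ := sqrt_mul h3
  have hadj : ∀ p q, f (m p) q = f p ((-m + 4 * (m * m)) q) := fun p q => by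
    have h5 := hq.iso p ((1 + 4 * (-m + 4 * (m * m))) q)
    rw [← End.mul_apply (1 + 4 * m) (1 + _), k3, h4e, h4e] at h5
    simp only [LinearMap.add_apply, End.one_apply, map_add, LinearMap.smul_apply, map_smul,
      smul_eq_mul, add_right_inj] at h5
    rw [LinearMap.add_apply, map_add]
    exact mul_left_cancel₀ h4 h5
  set s := 2 * m - 2 * (m * m) with hs
  have hsq : QN f (jN f J u) s := by
    have h5 : ∀ p, m (jN f J u p) = 0 := fun p => by
      simpa [h4e, h4] using hq.kill p
    refine ⟨fun p q => ?_, fun p => by simp [hs, h5], fun p hp => ?_⟩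
    · have h6 : ∀ p q, f ((1 + s) p) q = f p ((1 + (2 * (-m + 4 * (m * m)) -
          2 * ((-m + 4 * (m * m)) * (-m + 4 * (m * m))))) q) := fun p q => by
        generalize -m + 4 * (m * m) = m' at hadj
        simp only [hs, h2e, LinearMap.add_apply, End.one_apply, LinearMap.sub_apply,
          LinearMap.smul_apply, End.mul_apply, map_add, map_sub, map_smul, hadj]
      rw [h6, ← End.mul_apply, k1, End.one_apply]
    · have h6 := hq.into p hp
      rw [h4e, LinearMap.smul_apply, Submodule.smul_mem_iff _ h4] at h6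
      obtain ⟨q, hq⟩ := h6
      exact ⟨(2 : F) • q, by simp [hs, h2e, ← hq, h5]⟩
  have h5 := sqrt_comm h1 h1' hJ1 hJ2 (LinearMap.ext fun p => by simp [hS.sq]) hm' h3
    fun a ha => by simpa [h4e, h4] using ha
  have h6 := hG.cent _ (fun p q => by rw [End.mul_apply, End.mul_apply, hG.iso _ hx, hsq.iso]) h5
  have h7 := hsq.comm_J hS hG hM h (by
    have := hx'.mul h6
    rwa [← mul_assoc, h1, one_mul] at this)
  exact comm_of_mul_eq rfl k2 (by rw [add_mul, mul_add, h7, one_mul, mul_one]) h5

theorem JP.map (h : JP f J u y) {k : End F V} (hk : ∀ p q, f (k p) (k q) = f p q)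
    (hJ : ∀ p, k (J p) = J (k p)) : JP f J (k u) (k y) :=
  ⟨by rw [← hJ, hk, h.su], by rw [← hJ, hk, h.sy], by rw [← hJ, hk, h.h1], by rw [hk, h.h0]⟩

theorem JG.neg_mem (hG : JG f J X) (hx : InG X x) : InG X (-x) := by
  simpa using (hG.cent (-1) (fun p q => by simp) (by simp)).mul hx

theorem Invol.neg_J (hS : JS f J δ) (hG : JG f J X) (hM : JM f J X) (h : JP f J u y)
    (hw : jN f J u w = 0) (hQ : f w (J w) ≠ 0) (hz : Invol X (jN f J u) z) :
    (∀ p, z (jN f J u p) = -jN f J u p) ∧ z * J = J * z := by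
  have hN := hS.jN_skew u
  have hE := h.jE_qn hS hw
  have hr : ∀ p ∈ LinearMap.range (jN f J u), z p ∈ LinearMap.range (jN f J u) := by
    rintro _ ⟨p, rfl⟩
    exact ⟨z p, (hz.comm p).symm⟩
  have h3 := (hE.conj (hG.iso _ hz.mem) hz.sq (fun p => hr _ ⟨p, rfl⟩) (fun p => hr _ ⟨p, rfl⟩)
    fun p hp => by rw [← hz.comm, hp, map_zero]).comm_J hS hG hM h
    (inG_conj hz.mem (LinearMap.ext hz.sq) (hG.jE_mem hS h hw))
  have hw' : jN f J u (J w) = 0 := by rw [hS.jN_J, hw, map_zero]
  have h4 : ∀ p, z (jE f J u w (z p)) - (f (z p) (J u) • w - f (z p) u • J w) ∈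
      LinearMap.range (jN f J u) := fun p => by
    convert Submodule.add_mem _ (hr _ (h.jE_sub hS hw (z p))) (Submodule.sub_mem _
      (Submodule.smul_mem _ (f (z p) (J u)) (hz.triv w hw))
      (Submodule.smul_mem _ (f (z p) u) (hz.triv _ hw'))) using 1
    simp only [map_sub, map_smul]
    module
  have h5 := Submodule.sub_mem _ (JP.J_mem hS (h4 y)) (h4 (J y))
  have h6 := LinearMap.congr_fun h3 y
  simp only [End.mul_apply] at h6
  have h7 := (hN.eq_zero hw h5).1
  have h8 := (hN.eq_zero hw' h5).1
  simp only [h6, map_sub, map_smul, hS.sq, hS.skew w, hS.alt.self_eq_zero, smul_eq_mul] at h7 h8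
  have h9 : f (z (J y)) u = -f (z y) (J u) := mul_right_cancel₀ hQ (by linear_combination -h7)
  have h10 : f (z (J y)) (J u) = -(δ * f (z y) u) :=
    mul_right_cancel₀ hQ (by linear_combination -h8)
  have h11 := hz.comm y
  have h12 := hz.comm (J y)
  rw [h.jN_left hS, hS.jN_apply] at h11
  rw [h.jN_J hS, hS.jN_apply, h9, h10, map_smul] at h12
  replace h12 : z u = f (z y) (J u) • u - f (z y) u • J u :=
    smul_right_injective V hS.ne (by simp only [h12]; module)
  have h13 := hG.iso _ hz.mem y (J u)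
  have h14 := congrArg (f y) (hz.sq (J u))
  rw [h11, map_sub, map_smul, map_smul, h12, h11] at h14
  rw [h11] at h13
  simp only [map_sub, map_smul, h.h0, h.h1, smul_eq_mul, mul_zero, mul_one] at h13 h14
  have h15 : f (z y) u = 0 := mul_self_eq_zero.1
    (mul_left_cancel₀ (mul_ne_zero hS.two hS.ne) (by linear_combination h14 - h13))
  rw [h15] at h11 h12 h13
  have h16 : ∀ p, z (jN f J u p) = f (z y) (J u) • jN f J u p := fun p => by
    rw [hS.jN_apply, map_sub, map_smul, map_smul, h11, h12]
    module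
  rcases mul_self_eq_one_iff.1 (show f (z y) (J u) * f (z y) (J u) = 1 by linear_combination h13)
    with h17 | h17
  · obtain ⟨p, hp⟩ := hz.ne
    exact absurd (by rw [h16, h17, one_smul]) hp
  · rw [h17] at h16
    refine ⟨fun p => by simp [h16], ?_⟩
    simpa using hG.comm_of_fix hS hM h (hG.neg_mem hz.mem) fun p => by simp [h16]

variable [FiniteDimensional F V]

theorem JS.exists_nonsing (hS : JS f J δ) (T T' : Submodule F V)
    (hT : ∀ t ∈ T, ∀ v ∈ T', f t (J v) = 0) (h : finrank F V < finrank F T + finrank F ↥(T ⊔ T')) :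
    ∃ t ∈ T, f t (J t) ≠ 0 := by
  by_contra! H
  have h1 : (T ⊔ T').map J ≤ f.orthogonal T := by
    rintro _ ⟨p, hp, rfl⟩ t ht
    obtain ⟨a, ha, b, hb, rfl⟩ := Submodule.mem_sup.1 hp
    have := H _ (T.add_mem ha ht)
    simp only [map_add, LinearMap.add_apply, H a ha, H t ht, hS.symm a t] at this
    change f t _ = 0
    rw [map_add, map_add, hT t ht b hb, add_zero]
    exact mul_left_cancel₀ hS.two (by linear_combination this)
  have h2 := Submodule.finrank_mono h1
  rw [LinearMap.BilinForm.finrank_orthogonal hS.nd,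
    ← (Submodule.equivMapOfInjective J ((injective_iff_map_eq_zero _).2 fun _ => hS.J_inj)
      _).finrank_eq] at h2
  have := T.finrank_le
  omega

theorem finrank_le_ker_add {W : Type*} [AddCommGroup W] [Module F W] [FiniteDimensional F W]
    (φ : V →ₗ[F] W) : finrank F V ≤ finrank F (LinearMap.ker φ) + finrank F W := by
  have := φ.finrank_range_add_finrank_ker
  have := (LinearMap.range φ).finrank_le
  omega

omit [FiniteDimensional F V] in
theorem JS.finrank_range_jN (hS : JS f J δ) (u : V) :
    finrank F (LinearMap.range (jN f J u)) ≤ 2 := by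
  have h1 := Submodule.finrank_mono (show LinearMap.range (jN f J u) ≤ (F ∙ J u) ⊔ F ∙ u by
    rintro _ ⟨p, rfl⟩
    rw [hS.jN_apply]
    exact Submodule.sub_mem _
      (Submodule.mem_sup_left (Submodule.smul_mem _ _ (Submodule.mem_span_singleton_self _)))
      (Submodule.mem_sup_right (Submodule.smul_mem _ _ (Submodule.mem_span_singleton_self _))))
  have h2 := Submodule.finrank_add_le_finrank_add_finrank (F ∙ J u) (F ∙ u)
  have h3 := finrank_span_le_card (R := F) ({J u} : Set V)
  have h4 := finrank_span_le_card (R := F) ({u} : Set V)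
  simp only [Set.toFinset_singleton, Finset.card_singleton] at h3 h4
  omega

theorem finrank_range_mul_le (A B : End F V) :
    finrank F (LinearMap.range (A * B)) ≤ finrank F (LinearMap.range A) ∧
      finrank F (LinearMap.range (A * B)) ≤ finrank F (LinearMap.range B) :=
  ⟨Submodule.finrank_mono (LinearMap.range_comp_le_range B A),
    by rw [End.mul_eq_comp, LinearMap.range_comp]; exact Submodule.finrank_map_le _ _⟩

theorem JS.exists_ker_nonsing (hS : JS f J δ) (h6 : 6 ≤ finrank F V) (u : V) :
    ∃ w, jN f J u w = 0 ∧ f w (J w) ≠ 0 := by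
  have h1 := hS.finrank_range_jN u
  have h2 := (jN f J u).finrank_range_add_finrank_ker
  exact hS.exists_nonsing (LinearMap.ker (jN f J u)) ⊥ (by simp) (by rw [sup_bot_eq]; omega)

omit [FiniteDimensional F V] in
theorem exists_sq_sub [Finite F] (h2 : (2 : F) ≠ 0) (hδ : δ ≠ 0) (c : F) :
    ∃ a b : F, a * a - δ * (b * b) = c := by
  have := Fintype.ofFinite F
  obtain ⟨a, b, h⟩ := FiniteField.exists_root_sum_quadratic (R := F) (f := Polynomial.X ^ 2)
    (g := Polynomial.C (-δ) * Polynomial.X ^ 2 + Polynomial.C 0 * Polynomial.X + Polynomial.C (-c))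
    (Polynomial.degree_X_pow 2) (Polynomial.degree_quadratic (neg_ne_zero.2 hδ))
    (FiniteField.odd_card_of_char_ne_two fun h => h2 (by
      simpa [h] using (ringChar.spec F 2).2 (h ▸ dvd_rfl)))
  refine ⟨a, b, ?_⟩
  simp only [Polynomial.eval_add, Polynomial.eval_mul, Polynomial.eval_pow, Polynomial.eval_X,
    Polynomial.eval_C] at h
  linear_combination h

omit [FiniteDimensional F V] in
theorem JS.exists_add_sing [Finite F] (hS : JS f J δ) (hw : f w (J w) ≠ 0) {p : V} (h1 : f p w = 0)
    (h2 : f p (J w) = 0) (hp : f p (J p) ≠ 0) : ∃ a b : F, JSing f J (p + (a • w + b • J w)) ∧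
      f (a • w + b • J w) (J (a • w + b • J w)) ≠ 0 := by
  obtain ⟨a, b, h⟩ := exists_sq_sub hS.two hS.ne (-f p (J p) / f w (J w))
  have h3 : f (a • w + b • J w) (J (a • w + b • J w)) = -f p (J p) := by
    simp only [map_add, map_smul, LinearMap.add_apply, LinearMap.smul_apply, hS.skew _, hS.sq,
      smul_eq_mul, hS.alt.self_eq_zero]
    rw [eq_div_iff hw] at h
    linear_combination h
  have h4 : f p (a • w + b • J w) = 0 := by simp [h1, h2]
  have h5 : f p (J (a • w + b • J w)) = 0 := by simp [h1, h2, hS.sq]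
  refine ⟨a, b, ?_, by rwa [h3, neg_ne_zero]⟩
  generalize a • w + b • J w = w' at h3 h4 h5 ⊢
  refine ⟨?_, fun c d hcd => ?_⟩
  · simp [h3, h5, hS.symm w' p]
  · have h6 := congrArg (f p) hcd
    have h7 := congrArg (f (J p)) hcd
    simp only [map_add, map_smul, hS.skew _, hS.sq, h4, h5, hS.alt.self_eq_zero, map_zero] at h6 h7
    exact ⟨by simpa [hp] using h7, by simpa [hp] using h6⟩

theorem JS.finrank_eigen (hS : JS f J δ) {l : F} (hl : l * l = δ) :
    2 * finrank F (LinearMap.ker (J - l • 1)) ≤ finrank F V := by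
  have h3 : LinearMap.ker (J - l • 1) ≤ f.orthogonal (LinearMap.ker (J - l • 1)) := by
    intro a ha b hb
    have := hS.skew b a
    rw [show J a = l • a from sub_eq_zero.1 ha, show J b = l • b from sub_eq_zero.1 hb] at this
    simp only [map_smul, LinearMap.smul_apply, smul_eq_mul] at this
    exact mul_left_cancel₀ (mul_ne_zero hS.two fun h => hS.ne (by rw [← hl, h, mul_zero]) :
      2 * l ≠ 0) (by linear_combination this)
  have h5 := Submodule.finrank_mono h3
  rw [LinearMap.BilinForm.finrank_orthogonal hS.nd] at h5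
  omega

/-- All conjugates under `X` of the transvections of `C(J)` centralise `J`. -/
theorem Cls.comm_J [Finite F] (hS : JS f J δ) (hG : JG f J X) (hM : JM f J X)
    (h6 : 6 ≤ finrank F V) (hB : Cls X (fun N => ∃ u, JSing f J u ∧ N = jN f J u) B) :
    B * J = J * B := by
  by_contra hne
  have hR := hG.rf hS hM
  have hq := hR.cls.qt B hB
  have hsk := hG.iso.skew hS.two hq
  have hBB : ∀ p, B (B p) = 0 := LinearMap.congr_fun hq.sq
  have hfix : ∀ u, JSing f J u → B u = 0 → B (J u) = 0 → False := fun u hu h1 h2 => by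
    obtain ⟨y, hy⟩ := hu.exists_jp hS
    have := hG.comm_of_fix hS hM hy (x := 1 + B) (by simpa using hq.mem 1) fun p => by
      simp [hS.jN_apply, h1, h2]
    rw [add_mul, mul_add, one_mul, mul_one, add_right_inj] at this
    exact hne this
  have hdich : ∀ u, JSing f J u → f (B u) u = 0 ∨
      ∀ p, J (B p) ∈ LinearMap.range (jN f J u) ⊔ LinearMap.range B := fun u hu => by
    obtain ⟨y, hy⟩ := hu.exists_jp hS
    by_cases hn : IsNilpotent (jN f J u * B + B * jN f J u)
    · have := LinearMap.congr_fun (hR.triple_eq_zero hS.two (cls_self ⟨u, hu, rfl⟩) hB hn) (J y)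
      rw [End.mul_apply, End.mul_apply, hy.jN_J hS, LinearMap.zero_apply, hS.jN_eq_zero hu] at this
      exact Or.inl (by simpa [hS.ne] using this.1)
    obtain ⟨z, h1, h2, h3⟩ := exists_invol hS.two (hG.qt hS hu.1) hq hn
    obtain ⟨w, hw, hw'⟩ := hS.exists_ker_nonsing h6 u
    have h4 := LinearMap.congr_fun (h1.neg_J hS hG hM hy hw hw').2
    obtain ⟨g, g', _, hg, e1, e2, ⟨u', hu', rfl⟩, rfl⟩ := hB
    obtain ⟨y', hy'⟩ := hu'.exists_jp hS
    obtain ⟨w', hw, hw'⟩ := hS.exists_ker_nonsing h6 u'
    have h5 := ((h2.conj hg e1 e2).neg_J hS hG hM hy' hw hw').1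
    refine Or.inr fun p => ?_
    have h7 := congrArg g (h5 (g' p))
    rw [End.mul_apply, End.mul_apply, ← End.mul_apply g, e1, End.one_apply, map_neg] at h7
    have h8 := h3 (J ((g * jN f J u' * g') p))
    simp only [End.mul_apply] at h4 h8 ⊢
    rwa [h4, h7, map_neg, ← neg_add', ← two_smul F, Submodule.neg_mem_iff,
      Submodule.smul_mem_iff _ hS.two] at h8
  have eig : ∀ e, e ≠ 0 → B e = 0 → B (J e) = 0 → f e (J e) = 0 →
      ∃ l : F, J e = l • e ∧ l * l = δ := fun e he h1 h2 h3 => by
    have h4 := fun h => hfix e h h1 h2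
    simp only [JSing, h3, true_and, not_forall, imp_false] at h4
    obtain ⟨a, b, h4, h5⟩ := h4
    have hb : b ≠ 0 := by
      rintro rfl
      exact h5 (by simpa [he] using h4)
    have h7 : J e = (-(b⁻¹ * a)) • e := by
      rw [neg_smul, mul_smul, ← smul_neg, eq_inv_smul_iff₀ hb, eq_neg_iff_add_eq_zero, add_comm, h4]
    refine ⟨_, h7, smul_left_injective F he ?_⟩
    simp only [mul_smul, ← h7, ← map_smul, hS.sq]
  have eig2 : ∀ (e e' : V) (l : F), e ≠ 0 → l * l = δ → J e = l • e → J e' = -l • e' → B e = 0 →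
      B e' = 0 → f (e + e') (J (e + e')) = 0 → e' = 0 := fun e e' l he hl h1 h2 h3 h4 h5 => by
    by_contra he'
    have hl2 : 2 * l ≠ 0 := mul_ne_zero hS.two fun h => hS.ne (by rw [← hl, h, mul_zero])
    refine hfix (e + e') ⟨h5, fun a b hab => ?_⟩ (by simp [h3, h4]) (by simp [h1, h2, h3, h4])
    have h7 := congrArg J hab
    simp only [map_add, map_smul, h1, h2, map_zero] at hab h7
    have h8 : (2 * l * (a + b * l)) • e = 0 := by linear_combination (norm := module) h7 + l • hab
    have h9 : (2 * l * (a - b * l)) • e' = 0 := by linear_combination (norm := module) l • hab - h7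
    simp only [smul_eq_zero, he, he', or_false, mul_eq_zero (a := 2 * l), hl2, false_or] at h8 h9
    exact ⟨mul_left_cancel₀ hS.two (by linear_combination h8 + h9),
      mul_left_cancel₀ hl2 (by linear_combination h8 - h9)⟩
  by_cases hA : ∃ w, B w = 0 ∧ B (J w) = 0 ∧ f w (J w) ≠ 0
  · obtain ⟨w, h1, h2, hw⟩ := hA
    by_cases hinv : ∀ p, J (B p) ∈ LinearMap.range B
    · obtain ⟨p, hp⟩ : ∃ p, B p ≠ 0 := by
        by_contra! H
        exact hR.cls.ne B hB (LinearMap.ext H)
      obtain ⟨q, hq⟩ := hinv p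
      obtain ⟨l, h3, hl⟩ := eig _ hp (hBB p) (by rw [← hq, hBB]) (by rw [← hq, hsk, hBB]; simp)
      have h4 : J (J w - l • w) = -l • (J w - l • w) := by
        rw [map_sub, map_smul, hS.sq, ← hl]; module
      have h5 : B (J w - l • w) = 0 := by simp [h1, h2]
      have h7 := eig2 _ _ l hp hl h3 h4 (hBB p) h5 (by
        simp only [map_add, h3, h4, map_smul, LinearMap.add_apply, hS.alt.self_eq_zero,
          hS.flip _ (B p), hsk p, h5]
        simp)
      exact hw (by rw [sub_eq_zero.1 h7, map_smul, hS.alt.self_eq_zero, smul_zero])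
    have key : ∀ p, f p w = 0 → f p (J w) = 0 → f p (J p) ≠ 0 → f (B p) p = 0 := by
      intro p h3 h4 hp
      obtain ⟨a, b, h5, h7⟩ := hS.exists_add_sing hw h3 h4 hp
      have h8 : B (a • w + b • J w) = 0 := by simp [h1, h2]
      have h9 : B (J (a • w + b • J w)) = 0 := by simp [h1, h2, hS.sq]
      have h10 : f p (a • w + b • J w) = 0 := by simp [h3, h4]
      have h11 : f p (J (a • w + b • J w)) = 0 := by simp [h3, h4, hS.sq]
      generalize a • w + b • J w = w' at h5 h7 h8 h9 h10 h11
      rcases hdich _ h5 with h12 | h12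
      · simpa [h8, hsk p w'] using h12
      refine absurd (fun p' => ?_) hinv
      obtain ⟨_, ⟨q, rfl⟩, _, ⟨q', rfl⟩, h13⟩ := Submodule.mem_sup.1 (h12 p')
      have h14 := congrArg (fun v => f v w') h13
      have h15 := congrArg (fun v => f v (J w')) h13
      rw [hS.jN_apply] at h13 h14 h15
      generalize f q (J (p + w')) = α at h13 h14 h15
      generalize δ * f q (p + w') = β at h13 h14 h15
      simp only [map_add, map_sub, map_smul, LinearMap.add_apply, LinearMap.sub_apply,
        LinearMap.smul_apply, hS.skew _, hsk _, hS.sq, h8, h9, h10, h11, map_zero,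
        hS.alt.self_eq_zero, smul_eq_mul] at h14 h15
      rw [show α = 0 by simpa [h7] using h14, show β = 0 by simpa [h7] using h15] at h13
      exact ⟨q', by simpa using h13⟩
    have key2 : ∀ p, f p w = 0 → f p (J w) = 0 → f (B p) p = 0 := fun p h3 h4 => by
      by_cases hp : f p (J p) = 0
      swap
      · exact key p h3 h4 hp
      let T := LinearMap.ker (((f.flip w).prod (f.flip (J w))).prod (f.flip (J p)))
      have hT : ∀ t, t ∈ T ↔ (f t w = 0 ∧ f t (J w) = 0) ∧ f t (J p) = 0 := fun t => by simp [T]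
      have h5 : finrank F V ≤ finrank F T + 3 := by
        simpa using finrank_le_ker_add (((f.flip w).prod (f.flip (J w))).prod (f.flip (J p)))
      have h7 := Submodule.finrank_lt_finrank_of_lt (show T < T ⊔ F ∙ w from
        left_lt_sup.2 fun h => hw ((hT w).1 ((Submodule.span_singleton_le_iff_mem _ _).1 h)).1.2)
      obtain ⟨t, ht, ht'⟩ := hS.exists_nonsing T (F ∙ w) (fun t ht v hv => by
        obtain ⟨c, rfl⟩ := Submodule.mem_span_singleton.1 hv
        simp [((hT t).1 ht).1.2]) (by omega)
      obtain ⟨⟨h8, h9⟩, h10⟩ := (hT t).1 ht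
      have h11 := key (t + p) (by simp [h3, h8]) (by simp [h4, h9])
        (by simpa [hp, h10, hS.symm p t] using ht')
      have h12 := key (t - p) (by simp [h3, h8]) (by simp [h4, h9])
        (by simpa [hp, h10, hS.symm p t] using ht')
      simp only [map_add, map_sub, LinearMap.add_apply, LinearMap.sub_apply,
        key t h8 h9 ht'] at h11 h12
      exact mul_left_cancel₀ hS.two (by linear_combination h11 + h12)
    have key3 : ∀ v, f (B v) v = 0 := fun v => by
      have := key2 (v - (f w (J w))⁻¹ • (f v (J w) • w - f v w • J w))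
        (by simp [hS.skew w, hS.alt.self_eq_zero, mul_comm _ (f w (J w)), hw])
        (by simp [hS.alt.self_eq_zero, mul_comm _ (f w (J w)), hw])
      simpa [h1, h2, hsk v w, hsk v (J w)] using this
    refine hR.cls.ne B hB (LinearMap.ext fun p => hS.nd.1 _ fun q => ?_)
    have := key3 (p + q)
    simp only [map_add, LinearMap.add_apply, key3, hsk q p, hS.flip q (B p)] at this
    exact mul_left_cancel₀ hS.two (by linear_combination this)
  push Not at hA
  have hr : finrank F (LinearMap.range B) ≤ 2 := by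
    obtain ⟨g, g', _, -, -, -, ⟨u', -, rfl⟩, rfl⟩ := hB
    exact (finrank_range_mul_le _ _).1.trans
      ((finrank_range_mul_le _ _).2.trans (hS.finrank_range_jN u'))
  obtain ⟨e, he, he0⟩ := Submodule.exists_mem_ne_zero_of_ne_bot
    (p := LinearMap.ker B ⊓ LinearMap.ker (B * J)) fun h => by
      have h1 := Submodule.finrank_sup_add_finrank_inf_eq (LinearMap.ker B) (LinearMap.ker (B * J))
      have h2 := B.finrank_range_add_finrank_ker
      have h3 := (B * J).finrank_range_add_finrank_ker
      have h4 := (finrank_range_mul_le B J).1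
      have h5 := (LinearMap.ker B ⊔ LinearMap.ker (B * J)).finrank_le
      rw [h, finrank_bot] at h1
      omega
  obtain ⟨l, h1, hl⟩ := eig e he0 he.1 he.2 (hA e he.1 he.2)
  have h2 : LinearMap.ker (B * (J - l • 1)) ≤ LinearMap.ker (J - l • 1) := fun v hv => by
    have h4 : J ((J - l • 1 : End F V) v) = -l • (J - l • 1 : End F V) v := by
      simp only [LinearMap.sub_apply, LinearMap.smul_apply, End.one_apply, map_sub, map_smul, hS.sq,
        ← hl]
      module
    have h5 : B ((J - l • 1 : End F V) v) = 0 := hv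
    have h7 : B e = 0 := he.1
    exact eig2 e _ l he0 hl h1 h4 h7 h5
      (hA _ (by rw [map_add, h7, h5, add_zero]) (by simp only [map_add, h1, h4, map_smul, h7, h5]; simp))
  have h4 := Submodule.finrank_mono h2
  have h5 := hS.finrank_eigen hl
  have h7 := (B * (J - l • 1)).finrank_range_add_finrank_ker
  have h8 := (finrank_range_mul_le B (J - l • 1)).1
  omega

/-- Every element of `X` centralises or inverts `J`. -/
theorem JG.comm_or [Finite F] (hS : JS f J δ) (hG : JG f J X) (hM : JM f J X)
    (h6 : 6 ≤ finrank F V) {g : End F V} (hg : InG X g) : g * J = J * g ∨ g * J = -(J * g) := by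
  obtain ⟨g', hg', h1, h2⟩ := inG_exists_inv hg
  have e1 : ∀ p, g (g' p) = p := LinearMap.congr_fun h1
  have e2 : ∀ p, g' (g p) = p := LinearMap.congr_fun h2
  set T := g' * J * g with hT
  have hTs : Skew f T := fun p q => by
    simp only [hT, End.mul_apply]
    rw [← hG.iso _ hg, e1, hS.skew, ← hG.iso _ hg p, e1]
  have hTT : ∀ p, T (T p) = δ • p := fun p => by simp [hT, e1, e2, hS.sq]
  have hTN : ∀ u, JSing f J u → ∀ p, T (jN f J u p) = jN f J u (T p) := fun u hu p => by
    have := congrArg g' (LinearMap.congr_fun (((cls_self ⟨u, hu, rfl⟩).conj hg h1 h2).comm_J hS hG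
      hM h6) (g p))
    simpa only [hT, End.mul_apply, e2] using this.symm
  have key : ∀ u, JSing f J u → ∃ ε : F, (ε = 1 ∨ ε = -1) ∧ T u = ε • J u ∧
      T (J u) = ε • J (J u) := fun u hu => by
    obtain ⟨y, hy⟩ := hu.exists_jp hS
    have h3 := hTN u hu y
    have h4 := hTN u hu (J y)
    rw [hy.jN_left hS, hS.jN_apply] at h3
    rw [hy.jN_J hS, hS.jN_apply, map_smul] at h4
    have h5 := hTs y u
    have h7 := hTs y (J u)
    have h8 := hTs (J y) u
    have h9 := congrArg (f y) h4
    have h10 := congrArg (f (J y)) h4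
    rw [h3] at h7
    simp only [map_sub, map_smul, hy.h0, hy.h1, smul_eq_mul, hS.skew y, hS.sq] at h7 h8 h9 h10
    have h11 : f (T y) (J u) = 0 := mul_left_cancel₀ hS.two (by linear_combination h7)
    have h12 : f (T (J y)) u = 0 :=
      mul_left_cancel₀ (mul_ne_zero hS.two hS.ne) (by linear_combination δ * h8 - h10)
    have h13 : T u = -f (T y) u • J u := smul_right_injective V hS.ne (by
      simp only [h4, h12, show f (T (J y)) (J u) = -(δ * f (T y) u) by
        linear_combination -h9 + δ * h5]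
      module)
    have h14 : T (J u) = -f (T y) u • J (J u) := by rw [h3, h11, hS.sq]; module
    refine ⟨_, mul_self_eq_one_iff.1 (mul_left_cancel₀ hS.ne ?_), h13, h14⟩
    have h15 := congrArg (f (J y)) (hTT u)
    rw [h13, map_smul, h14] at h15
    simp only [map_smul, hS.sq, hS.skew y, hy.h1, smul_eq_mul] at h15
    linear_combination -h15
  have key2 : ∀ u, JSing f J u → ∀ u', JSing f J u' → T u = J u → T (J u) = J (J u) →
      T u' = -J u' → False := fun u hu u' hu' h3 h4 h5 => by
    have h7 : jN f J u u' = 0 := by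
      have h7 := hTN u hu u'
      have h8 : T (jN f J u u') = J (jN f J u u') := by
        simp only [hS.jN_apply, map_sub, map_smul, h3, h4]
      rw [h5, map_neg, hS.jN_J, h8, eq_neg_iff_add_eq_zero, ← two_smul F] at h7
      exact hS.J_inj ((smul_eq_zero.1 h7).resolve_left hS.two)
    obtain ⟨h8, h9⟩ := (hS.jN_eq_zero hu).1 h7
    obtain ⟨ε', -, h5', h6'⟩ := key u' hu'
    have h10 : ε' = -1 := by
      simpa [add_eq_zero_iff_eq_neg] using (hu'.2 0 (ε' + 1) (by rw [add_smul, ← h5', h5]; simp)).2
    obtain ⟨ε, hε, h11, -⟩ := key (u + u') ⟨by simp [hu.1, hu'.1, h9, hS.symm u u'], fun a b hab => by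
      have h11 := congrArg T hab
      have h12 := congrArg J hab
      simp only [map_add, map_smul, h3, h4, h5, h6', h10, map_zero] at h11 h12
      exact hu.2 a b (hS.J_inj ((smul_eq_zero.1 (show (2 : F) • J (a • u + b • J u) = 0 by
        simp only [map_add, map_smul]
        linear_combination (norm := module) h11 + h12)).resolve_left hS.two))⟩
    rw [map_add, map_add, h3, h5] at h11
    rcases hε with rfl | rfl
    · exact hS.two (hu'.2 0 2 (by linear_combination (norm := module) -h11)).2
    · exact hS.two (hu.2 0 2 (by linear_combination (norm := module) h11)).2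
  obtain ⟨w, -, hw⟩ := hS.exists_ker_nonsing h6 0
  obtain ⟨p, hp, hp'⟩ := hS.exists_nonsing (LinearMap.ker ((f.flip w).prod (f.flip (J w)))) ⊥
    (by simp) (by
      have := finrank_le_ker_add ((f.flip w).prod (f.flip (J w)))
      simp only [finrank_prod, finrank_self] at this
      rw [sup_bot_eq]
      omega)
  obtain ⟨a, b, hu, -⟩ := hS.exists_add_sing hw (p := p) (congrArg Prod.fst hp)
    (congrArg Prod.snd hp) hp'
  generalize p + (a • w + b • J w) = u at hu
  obtain ⟨ε, hε, h3, h4⟩ := key u hu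
  have h5 : ∀ u', JSing f J u' → T u' = ε • J u' ∧ T (J u') = ε • J (J u') := fun u' hu' => by
    obtain ⟨ε', hε', h7, h8⟩ := key u' hu'
    rcases hε with rfl | rfl <;> rcases hε' with rfl | rfl
    · exact ⟨h7, h8⟩
    · exact (key2 u hu u' hu' (by simpa using h3) (by simpa using h4) (by simpa using h7)).elim
    · exact (key2 u' hu' u hu (by simpa using h7) (by simpa using h8) (by simpa using h3)).elim
    · exact ⟨h7, h8⟩
  obtain ⟨y, hy⟩ := hu.exists_jp hS
  have h7 := h5 y ((hy.symm hS).sing hS)
  have h8 : ∀ w, jN f J u w = 0 → T w = ε • J w := fun w hw => by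
    have h8 := (hy.jE_qn hS hw).iso
    have h9 : ∀ p, (1 + jE f J u w) (J p) = J ((1 + jE f J u w) p) := fun p => by
      simpa using LinearMap.congr_fun (hS.jE_comm u w) p
    have h10 := (h5 _ (((hy.symm hS).map h8 h9).sing hS)).1
    obtain ⟨q, hq⟩ := hy.jE_sub hS hw y
    have h11 : T (jN f J u q) = ε • J (jN f J u q) := by
      simp only [hS.jN_apply, map_sub, map_smul, h3, h4]
      module
    rw [hy.h0, hy.h1, one_smul, zero_smul, sub_zero, eq_sub_iff_add_eq] at hq
    simp only [LinearMap.add_apply, End.one_apply, ← hq, map_add, h7.1, h11] at h10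
    linear_combination (norm := module) h10
  have h9 : T = ε • J := LinearMap.ext fun p => by
    have := h8 _ (hy.decomp hS p)
    simp only [map_sub, map_smul, h7.1, h7.2] at this
    rw [LinearMap.smul_apply]
    linear_combination (norm := module) this
  have h10 : J * g = ε • (g * J) := by
    rw [← mul_smul_comm, ← h9, hT, ← mul_assoc, ← mul_assoc, h1, one_mul]
  rcases hε with rfl | rfl
  · exact Or.inl (by rw [h10, one_smul])
  · exact Or.inr (by rw [h10, neg_smul, one_smul, neg_neg])

end Cfsg.Agent.H27
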