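import Cfsg.Agent.H35.RfQ

/-! Project RF: identification of `W` and `Q V` in the cocode case. -/

set_option autoImplicit false

namespace Cfsg.Agent.H27.RfId

open Cfsg Subgroup Cfsg.Agent.H18.Rf Cfsg.Agent.H35.RF Cfsg.Agent.H18.MaxOff
open scoped commutatorElement

universe u

theorem idq : IdStmt.{u} := by
  intro G _ _ V z W R Q W' ω vc ta te lc cQ cW'
  have pP : IsPGroup 2 (R ⊔ Q : Subgroup G) :=
    pg_sup (IsPGroup.of_card cQ) (IsPGroup.of_card ta.cR) (vc.RM.trans lc.mq)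
  have triv : ∀ y ∈ R ⊔ Q, y ∈ zpowers ω → y = 1 := fun y hy hy' => by
    obtain ⟨k, hk⟩ := IsPGroup.iff_orderOf.1 pP ⟨y, hy⟩
    rw [orderOf_mk] at hk
    have h3 := orderOf_dvd_of_mem_zpowers hy'
    rw [ta.o3, hk] at h3
    rw [← orderOf_eq_one_iff, hk]
    exact Nat.Coprime.eq_one_of_dvd (Nat.Coprime.pow_left k (by decide)) h3
  have QR : Q ≤ R := by
    rcases te.nH (R ⊔ Q) le_sup_left (sup_le vc.RM lc.qm)
      ((le_inf vc.nR lc.mq).trans (normalizer_inf_normalizer_le_normalizer_sup R Q)) with h | h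
    · intro q hq
      obtain ⟨y, hy, r, hr, e⟩ := mem_sup_prod (zpowers_le.2 (vc.nR ta.om))
        (sup_comm R _ ▸ h (mem_sup_right hq))
      rwa [e, triv y (by
        rw [eq_mul_inv_of_mul_eq e.symm]
        exact mul_mem (mem_sup_right hq) (inv_mem (mem_sup_left hr))) hy, one_mul]
    · have := triv ω (h ω ta.om (by rw [commutatorElement_self]; exact one_mem _)) (mem_zpowers ω)
      have h3 := ta.o3
      rw [this, orderOf_one] at h3
      omega
  have QV : Q ≤ NN V := lc.qm.trans inf_le_left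
  have sup : Q ⊔ V = R := by
    refine eq_of_le_of_card_ge (sup_le QR vc.VR) ?_
    have := H3.card_sup_mul_card_inf_of_le_normalizer QV
    rw [lc.qv, cW', cQ, vc.cV] at this
    rw [ta.cR]
    omega
  refine ⟨?_, sup, lc.mq⟩
  rcases vc.iW (W ⊓ (Q ⊓ V)) ⟨vc.zW, lc.xs.mem, lc.zV⟩ inf_le_left (fun m hm =>
    inf_normalizer_le_normalizer_inf ⟨vc.nW hm,
      inf_normalizer_le_normalizer_inf ⟨lc.mq hm, hm.1⟩⟩) with h | h
  · have VW : V ≤ W := fun v hv => vc.cv v hv fun r hr => by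
      obtain ⟨q, hq, v', hv', e⟩ := mem_sup_prod QV (sup ▸ hr)
      have e' : ⁅r, v⁆ = (v * q * v⁻¹ * q⁻¹)⁻¹ := by
        rw [e, commutatorElement_def, mul_assoc q, comm_of_sq vc.el hv' hv]; group
      rw [← h, lc.qv]
      exact ⟨vc.RV r hr v hv, e' ▸ W'.inv_mem (lc.vq v hv q hq)⟩
    have := card_le_of_le VW
    rw [vc.cV, ta.cW] at this
    omega
  · exact (eq_of_le_of_card_ge (inf_eq_left.1 h) (by rw [lc.qv, cW', ta.cW])).symm

end Cfsg.Agent.H27.RfId
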