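import Cfsg.Agent.H18.RfSc

/-! Project RF: the parabolic case of an extremal pair of extraspecial groups. -/

set_option autoImplicit false
set_option linter.unusedSectionVars false

namespace Cfsg.Agent.H27.RfXs3

open Cfsg Subgroup Cfsg.Agent.H18.Rf
open Cfsg.Agent.H49 (XS csign csign_eq_one)

universe u

variable {G : Type u} [Group G] {Q Q' X Y : Subgroup G} {z : G}

theorem card_two {W X : Subgroup G} (le : W ≤ X) {w : G} (hw : w ∈ X)
    (hn : w ∉ W) (h : ∀ u ∈ X, u ∈ W ∨ u * w ∈ W) : Nat.card W * 2 = Nat.card X := by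
  have h2 : (W.subgroupOf X).index = 2 := by
    rw [index_eq_two_iff]
    refine ⟨⟨w, hw⟩, fun b => ?_⟩
    simp only [mem_subgroupOf, coe_mul]
    rcases h b b.2 with hb | hb
    · exact Or.inr ⟨hb, fun e => hn ((W.mul_mem_cancel_left hb).1 e)⟩
    · exact Or.inl ⟨hb, fun e => hn ((W.mul_mem_cancel_left e).1 hb)⟩
  rw [← h2, ← Nat.card_congr (subgroupOfEquivOfLe le).toEquiv, card_mul_index]

theorem csign_adj (u x y : G) : csign u (y * x⁻¹ * y⁻¹) = csign (y⁻¹ * u⁻¹ * y) x := by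
  have k : u * (y * x⁻¹ * y⁻¹) = y * x⁻¹ * y⁻¹ * u ↔ y⁻¹ * u⁻¹ * y * x = x * (y⁻¹ * u⁻¹ * y) := by
    constructor <;> intro e
    · calc y⁻¹ * u⁻¹ * y * x = y⁻¹ * (y * x⁻¹ * y⁻¹ * u)⁻¹ * y := by group
        _ = x * (y⁻¹ * u⁻¹ * y) := by rw [← e]; group
    · calc u * (y * x⁻¹ * y⁻¹) = y * (x * (y⁻¹ * u⁻¹ * y))⁻¹ * y⁻¹ := by group
        _ = y * x⁻¹ * y⁻¹ * u := by rw [← e]; group
  classical
  unfold csign
  exact if_congr k rfl rfl

section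
variable (c : Cfg Q Q' z X Y)
include c

theorem yq {y : G} (hy : y ∈ Y) : y ∈ Q' := (c.hY ▸ hy).1

theorem yn {y : G} (hy : y ∈ Y) {u : G} (hu : u ∈ Q) : y * u * y⁻¹ ∈ Q :=
  (mem_normalizer_iff.1 (c.hY ▸ hy).2 u).1 hu

theorem zY : z ∈ Y := c.hY ▸ ⟨c.xs'.mem, le_normalizer c.xs.mem⟩

theorem zR : z ∈ RR Q Y := ⟨⟨c.xs.mem, zY c⟩, fun x hx => c.xs.cen x hx.1⟩

theorem ZR : zpowers z ≤ RR Q Y := zpowers_le.2 (zR c)

variable (r : Rad0 Q z X Y)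
include r

theorem XQ {x : G} (hx : x ∈ X) : x ∈ Q := (r.xr ▸ hx).1

theorem XR {x a : G} (hx : x ∈ X) (ha : a ∈ RR Q Y) : a * x = x * a := (r.xr ▸ hx).2 a ha

omit c r in
theorem RR_comm {a b : G} (ha : a ∈ RR Q Y) (hb : b ∈ RR Q Y) : a * b = b * a := hb.2 a ha.1

/-- the commutator map -/
def ph {y : G} (hy : y ∈ Y) : X →* RR Q Y where
  toFun x := ⟨x * y * (x : G)⁻¹ * y⁻¹, r.cm x x.2 y hy⟩
  map_one' := Subtype.ext (by simp)
  map_mul' a b := Subtype.ext (by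
    have h1 := XR c r a.2 (r.cm b b.2 y hy)
    have h2 := RR_comm (r.cm a a.2 y hy) (r.cm b b.2 y hy)
    show (a * b : G) * y * (a * b : G)⁻¹ * y⁻¹ =
      a * y * (a : G)⁻¹ * y⁻¹ * (b * y * (b : G)⁻¹ * y⁻¹)
    rw [h2]
    calc _ = (a * (b * y * (b : G)⁻¹ * y⁻¹)) * y * (a : G)⁻¹ * y⁻¹ := by group
      _ = _ := by rw [← h1]; group)

omit r in
theorem nZ : ((zpowers z).subgroupOf (RR Q Y)).Normal := ⟨fun n hn g => by
  rw [show g * n * g⁻¹ = n from Subtype.ext (by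
    rw [coe_mul, coe_mul, RR_comm g.2 n.2, coe_inv, mul_inv_cancel_right])]
  exact hn⟩

variable [Finite G]

theorem perpX : Q ⊓ CC X = RR Q Y := by
  have := c.xs.centralizer_centralizer (U := RR Q Y) (fun _ h => h.1.1) (zR c)
  rwa [← r.xr] at this

theorem sup_top {y : G} (hy : y ∈ Y) (hq : y ∉ Q) :
    (ph c r hy).range ⊔ (zpowers z).subgroupOf (RR Q Y) = ⊤ := by
  set S := (ph c r hy).range ⊔ (zpowers z).subgroupOf (RR Q Y) with hS
  have h1 : S.map (RR Q Y).subtype ≤ RR Q Y := map_subtype_le _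
  have h2 : Q ⊓ CC (S.map (RR Q Y).subtype) ≤ X := fun u hu => by
    by_contra hn
    refine hq ((Q.inv_mem_iff).1 (c.inj u hu.1 hn y⁻¹ (inv_mem hy) ?_))
    have hv : y⁻¹ * u⁻¹ * y ∈ Q := by simpa using yn c (inv_mem hy) (inv_mem hu.1)
    have : u * (y⁻¹ * u⁻¹ * y) ∈ Q ⊓ CC X := ⟨mul_mem hu.1 hv, fun x hx => by
      have hx' := XQ c r hx
      have e := hu.2 _ ⟨_, mem_sup_left ⟨⟨x, hx⟩, rfl⟩, rfl⟩
      have e' : csign u (x * (y * x⁻¹ * y⁻¹)) = 1 := csign_eq_one.2 (by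
        rw [← mul_assoc x, ← mul_assoc x]; exact e.symm)
      rw [c.xs.csign_mul_right hx' (yn c hy (inv_mem hx')) hu.1, csign_adj,
        ← c.xs.csign_mul_left hu.1 hv hx'] at e'
      exact (csign_eq_one.1 e').symm⟩
    rw [perpX c r] at this
    simpa [mul_assoc] using this.1.2
  have h3 := c.xs.centralizer_centralizer (U := S.map (RR Q Y).subtype) (fun _ h => (h1 h).1.1)
    ⟨⟨z, zR c⟩, mem_sup_right (mem_zpowers z), rfl⟩
  refine eq_top_iff.2 fun a _ => ?_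
  have : (a : G) ∈ S.map (RR Q Y).subtype := by
    rw [← h3]
    exact ⟨a.2.1.1, fun x hx => (XR c r (h2 hx) a.2).symm⟩
  obtain ⟨b, hb, e⟩ := this
  rwa [← Subtype.ext e]

theorem sx {y : G} (hy : y ∈ Y) (hq : y ∉ Q) {a : G} (ha : a ∈ RR Q Y) :
    ∃ x ∈ X, (x * y * x⁻¹ * y⁻¹)⁻¹ * a ∈ zpowers z := by
  have := nZ c
  have h : (⟨a, ha⟩ : RR Q Y) ∈ (ph c r hy).range ⊔ (zpowers z).subgroupOf (RR Q Y) := by
    rw [sup_top c r hy hq]; trivial
  obtain ⟨_, ⟨x, rfl⟩, e, he, h1⟩ := mem_sup_of_normal_right.1 h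
  refine ⟨x, x.2, ?_⟩
  have h2 : x * y * (x : G)⁻¹ * y⁻¹ * e = a := congrArg Subtype.val h1
  rw [← h2, inv_mul_cancel_left]
  exact he

theorem cardRX : Nat.card (RR Q Y) * Nat.card X = 2 * Nat.card Q := by
  have := c.xs.card_mul_card_centralizer_of_mem (U := RR Q Y) (fun _ h => h.1.1) (zR c)
  rwa [← r.xr] at this

theorem rk {y : G} (hy : y ∈ Y) (hq : y ∉ Q) :
    4 * Nat.card Q = Nat.card ↥(Q ⊓ CM {y} (zpowers z)) * Nat.card (RR Q Y) ^ 2 := by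
  have := nZ c
  have h1 : Q ⊓ CM {y} (zpowers z) =
      (((zpowers z).subgroupOf (RR Q Y)).comap (ph c r hy)).map X.subtype := by
    ext u
    constructor
    · rintro ⟨h, -, h'⟩
      have h2 := h' y rfl
      exact ⟨⟨u, by_contra fun hn => hq (c.inj u h hn y hy (ZR c h2).1.2)⟩, h2, rfl⟩
    · rintro ⟨x, hx, rfl⟩
      refine ⟨XQ c r x.2, centralizer_le_normalizer _ fun a ha => XR c r x.2 (ZR c ha), ?_⟩
      rintro _ rfl
      exact hx
  have h2 := card_mul_index (((zpowers z).subgroupOf (RR Q Y)).comap (ph c r hy))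
  have h3 := card_mul_index ((zpowers z).subgroupOf (RR Q Y))
  rw [index_comap, ← relIndex_sup_right, sup_top c r hy hq, relIndex_top_right] at h2
  rw [Nat.card_congr (subgroupOfEquivOfLe (ZR c)).toEquiv, c.xs.card_Z] at h3
  have h4 := cardRX c r
  rw [h1, card_map_of_injective X.subtype_injective]
  rw [← h2] at h4
  calc 4 * Nat.card Q = 2 * (2 * Nat.card Q) := by ring
    _ = _ := by rw [← h4, pow_two, ← mul_assoc _ (Nat.card (RR Q Y)), ← h3]; ring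

theorem inverts {y : G} (hy : y ∈ Y) (hq : y ∉ Q) {a : G} (ha : a ∈ RR Q Y) :
    y * a * y⁻¹ = a⁻¹ := by
  obtain ⟨x, hx, h⟩ := sx c r hy hq ha
  have h1 : y * y * x⁻¹ = x⁻¹ * (y * y) := by
    rcases c.xs'.sq (yq c hy) with e | e <;> rw [e]
    · simp
    · exact (c.xs.cen _ (inv_mem (XQ c r hx))).symm
  have h2 : y * (x * y * x⁻¹ * y⁻¹) * y⁻¹ = (x * y * x⁻¹ * y⁻¹)⁻¹ := by
    calc _ = y * x * y⁻¹ * (y * y * x⁻¹) * y⁻¹ * y⁻¹ := by group
      _ = _ := by rw [h1]; group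
  have h3 := c.xs.cen _ (inv_mem (r.cm x hx y hy).1.1)
  rcases c.xs.mem_Z.1 h with e | e <;> rw [inv_mul_eq_iff_eq_mul] at e <;> rw [e]
  · rw [mul_one, h2]
  · calc _ = y * (x * y * x⁻¹ * y⁻¹) * y⁻¹ * (y * z * y⁻¹) := by group
      _ = _ := by rw [h2, c.xs'.cen y (yq c hy), mul_inv_cancel_right, h3, mul_inv_rev _ z,
        c.xs.inv_z]

theorem three : ∃ y ∈ Y, ∃ y' ∈ Y, y ∉ Q ∧ y' ∉ Q ∧ y' * y ∉ Q := by
  by_contra! h
  obtain ⟨y, hy, hq⟩ := SetLike.not_le_iff_exists.1 c.ny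
  have h1 := card_two (W := Q ⊓ Y) inf_le_right hy (fun e => hq e.1) fun u hu =>
    (em (u ∈ Q)).imp (fun e => ⟨e, hu⟩) fun e => ⟨h y hy u hu hq e, mul_mem hu hy⟩
  have h2 := c.xs.card_mul_card_centralizer_of_mem (U := Q ⊓ Y) inf_le_left (zR c).1
  have h3 := cardRX c r
  have le : RR Q Y ≤ Q ⊓ CC (Q ⊓ Y) := fun _ h => ⟨h.1.1, h.2⟩
  have h4 := card_mul_index ((RR Q Y).subgroupOf (Q ⊓ CC (Q ⊓ Y)))
  rw [Nat.card_congr (subgroupOfEquivOfLe le).toEquiv] at h4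
  have h5 : ((RR Q Y).subgroupOf (Q ⊓ CC (Q ⊓ Y))).index = 2 := by
    rw [c.card, ← h1, ← h2, ← h4] at h3
    have p1 : 0 < Nat.card ↥(Q ⊓ Y) * Nat.card (RR Q Y) := Nat.mul_pos Nat.card_pos Nat.card_pos
    exact Nat.eq_of_mul_eq_mul_left p1 (by rw [mul_assoc, ← h3]; ring)
  refine r.nd fun a ha => ⟨?_, ha.2⟩
  rw [← c.xs.centralizer_centralizer (U := Q ⊓ Y) inf_le_left (zR c).1]
  refine ⟨ha.1, fun b hb => ?_⟩
  by_cases e : a ∈ RR Q Y
  · exact (XR c r (r.dp hb) e).symm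
  by_cases e' : b ∈ RR Q Y
  · exact XR c r (r.dp ha) e'
  have h6 : a⁻¹ * b ∈ RR Q Y := (mul_mem_iff_of_index_two h5 (a := ⟨a, ha⟩⁻¹) (b := ⟨b, hb⟩)).2
    (iff_of_false (fun k => e ((RR Q Y).inv_mem_iff.1 k)) e')
  have h7 := XR c r (r.dp ha) h6
  calc b * a = a * (a⁻¹ * b * a) := by group
    _ = a * b := by rw [h7]; group

theorem re {a : G} (ha : a ∈ RR Q Y) : a * a = 1 := by
  obtain ⟨y, hy, y', hy', h1, h2, h3⟩ := three c r
  have e := inverts c r (mul_mem hy' hy) h3 ha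
  have e' : y' * y * a * (y' * y)⁻¹ = a := by
    calc _ = y' * (y * a * y⁻¹) * y'⁻¹ := by group
      _ = a := by rw [inverts c r hy h1 ha, inverts c r hy' h2 (inv_mem ha), inv_inv]
  exact mul_eq_one_iff_eq_inv.2 (e'.symm.trans e)

end

theorem xsIII : XsIIIStmt.{u} := by
  intro G _ _ Q Q' z X Y c r
  refine ⟨r, fun y hy hq a ha => sx c r hy hq ha, fun y hy hq => rk c r hy hq,
    fun a ha => re c r ha, fun y hy a ha => ?_⟩
  by_cases hq : y ∈ Q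
  · exact (ha.2 y ⟨hq, hy⟩).symm
  · have := inverts c r hy hq ha
    rw [inv_eq_of_mul_eq_one_right (re c r ha)] at this
    exact (mul_inv_eq_iff_eq_mul.1 this).symm

end Cfsg.Agent.H27.RfXs3
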