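import Cfsg.Agent.H26.PC5Geo

/-!
# Maximality of subfield subgroups of symplectic groups in dimension at least four
-/

set_option autoImplicit false
set_option linter.unusedSectionVars false

namespace Cfsg.Agent.H27

open Module H26 H26.PForm

variable {K F : Type*} [Field K] [Field F] [Algebra K F] {V₀ V : Type*} [AddCommGroup V₀]
  [Module K V₀] [AddCommGroup V] [Module F V] [Module K V] [IsScalarTower K F V]

/-- A rational structure on a symplectic space of dimension at least four. -/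
structure SR (P₀ : PForm K V₀) (P : PForm F V) (j : V₀ →ₗ[K] V) : Prop extends Rat P₀ P j where
  σ : ∀ c, P.σ c = c
  ε : P.ε = -1
  Λ : P.Λ = ⊤
  four : 4 ≤ finrank K V₀
  d_le : P₀.d + 2 ≤ finrank K V₀

variable {P₀ : PForm K V₀} {P : PForm F V} {j : V₀ →ₗ[K] V} {M : Subgroup (V ≃ₗ[F] V)}

theorem mem_range_of_sq [Finite F] (h2 : (2 : F) = 0) {c : F}
    (h : c * c ∈ Set.range (algebraMap K F)) : c ∈ Set.range (algebraMap K F) := by
  by_contra hc
  obtain ⟨θ, hθ⟩ := exists_algEquiv_ne hc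
  obtain ⟨k, hk⟩ := h
  have := θ.commutes k
  rw [hk, map_mul] at this
  exact hθ (sub_eq_zero.1 (mul_self_eq_zero.1 (by
    linear_combination this + (c * c - θ c * c) * h2)))

namespace SR

variable (R : SR P₀ P j)
include R

theorem mem (a : F) : a ∈ P.Λ := R.Λ ▸ AddSubgroup.mem_top a

theorem sing (x : V) : P.Sing x := R.mem _

theorem sing₀ (x : V₀) : P₀.Sing x := (R.Λ_alg _).1 (R.mem _)

theorem ev {e y : V} (h : P.f y e = 0) (ν : F) : P.EV e y ν := ⟨R.sing e, h, R.mem _⟩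

theorem ev₀ {e y : V₀} (h : P₀.f y e = 0) (ν : K) : P₀.EV e y ν :=
  ⟨R.sing₀ e, h, (R.Λ_alg _).1 (R.mem _)⟩

theorem skew (x y : V) : P.f y x = -P.f x y := by rw [P.herm, R.σ, R.ε, neg_one_mul]

theorem self (x : V) : P.f x x = 0 := (R.sing x).f_self

theorem smul_right (c : F) (x y : V) : P.f x (c • y) = c * P.f x y := by rw [f_smul_right, R.σ]

theorem eich_apply (e y : V) (ν : F) (x : V) :
    P.eich e y ν x = x + P.f x e • y + (P.f x y + ν * P.f x e) • e := by
  rw [PForm.eich_apply, R.ε]; module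

theorem semi_ext {θ : F → F} {A B : V →+ V} (hA : ∀ (c : F) x, A (c • x) = θ c • A x)
    (hB : ∀ (c : F) x, B (c • x) = θ c • B x) (h : ∀ x, A (j x) = B (j x)) (x : V) : A x = B x := by
  have hx : x ∈ Submodule.span F (Set.range j) := R.span ▸ Submodule.mem_top
  induction hx using Submodule.span_induction with
  | mem _ hx => obtain ⟨x, rfl⟩ := hx; exact h x
  | zero => simp
  | add x y _ _ hx hy => rw [map_add, map_add, hx, hy]
  | smul c x _ hx => rw [hA, hB, hx]

variable [FiniteDimensional K V₀] [Finite F]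

/-- A product of two transvections in the subfield group is rational. -/
theorem rat_of_two {d t : V ≃ₗ[F] V} (hg : t⁻¹ * d ∈ ratNorm F j) (hgi : t⁻¹ * d ∈ P.isom)
    {u v : V} {κ : F} (hd : ∀ x, d x = x - (κ * P.f x v) • v)
    (ht : ∀ x, t x = x - (κ * P.f x u) • u) (x : V₀) : ∃ y, j y = (t⁻¹ * d) (j x) := by
  have := R.toRat.finiteDimensional
  obtain ⟨c, hc0, hc⟩ := exists_of_mem_ratNorm hg
  by_cases h : c ∈ Set.range (algebraMap K F)
  · obtain ⟨c, rfl⟩ := h
    obtain ⟨y, hy⟩ := hc x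
    exact ⟨c⁻¹ • y, by rw [j_smul (F := F), hy, map_inv₀, smul_smul, inv_mul_cancel₀ hc0, one_smul]⟩
  exfalso
  have hsq : c * c ∈ Set.range (algebraMap K F) := by
    have : Nontrivial V₀ := Module.nontrivial_of_finrank_pos (R := K) (by have := R.four; omega)
    obtain ⟨x, hx⟩ := exists_ne (0 : V₀)
    obtain ⟨x', hx'⟩ := P₀.exists_f_right_eq hx 1
    obtain ⟨y, hy⟩ := hc x
    obtain ⟨y', hy'⟩ := hc x'
    exact ⟨P₀.f y y', by rw [← R.f_alg, hy, hy', P.f_smul_left, R.smul_right, isom_f hgi, R.f_alg,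
      hx', map_one, mul_one]⟩
  have h2 : (2 : F) ≠ 0 := fun h2 => h (mem_range_of_sq h2 hsq)
  obtain ⟨θ, hθ⟩ := exists_algEquiv_ne h
  obtain ⟨Θ, h1, h3⟩ := R.toRat.exists_semilinear θ
  obtain ⟨Θ', h1', h3'⟩ := R.toRat.exists_semilinear θ.symm
  have hθc : θ c = -c := by
    obtain ⟨k, hk⟩ := hsq
    have := θ.commutes k
    rw [hk, map_mul] at this
    exact (mul_self_eq_mul_self_iff.1 this).resolve_left hθ
  have h4 : ∀ z, Θ' (Θ z) = z := R.semi_ext (A := Θ'.comp Θ) (B := AddMonoidHom.id V) (θ := id)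
    (fun c x => by simp [h1, h1']) (fun _ _ => rfl) fun x => by simp [h3, h3']
  have h5 : ∀ z, Θ ((t⁻¹ * d) z) = -(t⁻¹ * d) (Θ z) := R.semi_ext (θ := θ)
    (A := Θ.comp (t⁻¹ * d).toLinearMap.toAddMonoidHom)
    (B := -(t⁻¹ * d).toLinearMap.toAddMonoidHom.comp Θ)
    (fun c x => by simp [h1]) (fun c x => by simp [h1]) fun x => by
      obtain ⟨y, hy⟩ := hc x
      have h6 := congrArg Θ hy
      rw [h3, h1, hθc, hy, neg_smul, ← smul_neg] at h6
      have h7 := smul_right_injective V hc0 h6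
      simp only [AddMonoidHom.comp_apply, LinearMap.toAddMonoidHom_coe, LinearEquiv.coe_coe,
        AddMonoidHom.neg_apply, h3]
      rw [h7, neg_neg]
      exact congrArg Θ h7.symm
  have h6 : P.perp ((F ∙ u) ⊔ F ∙ v) ≤ F ∙ Θ' (v - (κ * P.f u v / 2) • u) := fun z hz => by
    rw [mem_perp_sup_span, mem_perp_span_singleton] at hz
    have h7 : (t⁻¹ * d) z = z := t.injective (by
      rw [mul_apply', apply_inv_apply, hd, ht, hz.1, hz.2]; simp)
    have h8 := congrArg t (h5 z)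
    rw [h7, map_neg, mul_apply', apply_inv_apply, hd, ht] at h8
    have h9 := congrArg (P.f · u) h8
    simp only [f_sub_left, f_neg_left, P.f_smul_left, R.self, R.skew u v] at h9
    have h10 : Θ z = (κ * P.f (Θ z) v / 2) • (v - (κ * P.f u v / 2) • u) := by
      have h10 : P.f (Θ z) u = -(κ * P.f (Θ z) v * P.f u v / 2) := by
        field_simp; linear_combination h9
      rw [h10] at h8
      refine smul_right_injective V h2 ?_
      simp only [two_smul]
      rw [← sub_eq_zero, ← sub_eq_zero.2 h8]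
      match_scalars <;> field_simp <;> ring
    rw [← h4 z, h10, h1']
    exact Submodule.smul_mem _ _ (Submodule.mem_span_singleton_self _)
  have h7 := Submodule.finrank_mono h6
  have h8 := P.finrank_perp ((F ∙ u) ⊔ F ∙ v)
  have h9 := finrank_sup_span_le (F ∙ u) v
  have h10 := finrank_span_singleton_le (F := F) u
  have h11 := finrank_span_singleton_le (F := F) (Θ' (v - (κ * P.f u v / 2) • u))
  have h12 := R.toRat.finrank_eq
  have h13 := R.four
  omega

theorem not_E_le (hne : ∃ c : F, c ∉ Set.range (algebraMap K F)) : ¬ P.E ≤ ratNorm F j := by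
  intro h
  have := R.toRat.finiteDimensional
  have h4 := R.four
  obtain ⟨c, hc⟩ := hne
  have : Nontrivial V₀ := Module.nontrivial_of_finrank_pos (R := K) (by omega)
  obtain ⟨e, he⟩ := exists_ne (0 : V₀)
  have hv := R.ev (P.f_zero_left (j e)) c
  obtain ⟨x, hx⟩ := P₀.exists_f_left_eq he 1
  obtain ⟨w, hw⟩ := R.toRat.rat_of_rank (h hv.equiv_mem_E) (I := F ∙ j e) (fun x => by
    rw [EV.equiv_apply, eich_zero_apply, sub_sub_cancel_left]
    exact neg_mem (Submodule.smul_mem _ _ (Submodule.mem_span_singleton_self _))) (by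
      have := finrank_span_singleton_le (F := F) (j e)
      omega) x
  have h1 := congrArg (P.f (j x)) hw
  simp only [EV.equiv_apply, R.eich_apply, f_add_right, R.smul_right, R.f_alg, hx, f_zero_right,
    map_one] at h1
  exact hc ⟨P₀.f x w - P₀.f x x, by rw [map_sub]; linear_combination h1⟩

end SR

variable (P₀ P j M) in
/-- The parameters of the short root elements of `M` in rational position. -/
def SY (c : F) : Prop := ∀ e, e ≠ 0 → ∀ x, P₀.f x e = 0 → ∃ ν, P.Ei M (j e) (c • j x) ν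

variable (P j M) in
/-- The parameters of the transvections of `M` in rational position. -/
def SZ (ν : F) : Prop := ∀ e, e ≠ 0 → P.Ei M (j e) 0 ν

/-- The standing hypotheses on an overgroup of a subfield subgroup of a symplectic group. -/
structure S5 (P₀ : PForm K V₀) (P : PForm F V) (j : V₀ →ₗ[K] V) (M : Subgroup (V ≃ₗ[F] V)) :
    Prop extends SR P₀ P j where
  le : ratNorm F j ⊓ P.E ≤ M
  le_E : M ≤ P.E
  not_le : ¬ P.E ≤ M
  simple : ∀ L : Subalgebra K F, L = ⊥ ∨ L = ⊤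

namespace S5

variable [FiniteDimensional K V₀] [Finite V] [Finite F] (C : S5 P₀ P j M)
include C

theorem le_isom : M ≤ P.isom := C.le_E.trans E_le_isom

theorem ei {e y : V₀} (h : P₀.f y e = 0) (ν : K) : P.Ei M (j e) (j y) (algebraMap K F ν) :=
  C.toRat.ei C.le (C.toSR.ev₀ h ν)

theorem Z_alg (ν : K) : SZ P j M (algebraMap K F ν) := fun e _ => by
  simpa using C.ei (P₀.f_zero_left e) ν

theorem Z_of {e : V₀} (he : e ≠ 0) {ν : F} (h : P.Ei M (j e) 0 ν) : SZ P j M ν := fun e' he' => by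
  refine trans_sing C.d_le (p := fun z => P.Ei M (j z) 0 ν) ?_ he he' (C.toSR.sing₀ _)
    (C.toSR.sing₀ _) h
  intro a b μ hv z hz
  have := (C.toRat.ei C.le hv).conj_ei hz
  rwa [map_zero, C.toRat.eich_j] at this

theorem diff {e y a : V} {ν s : F} (h : P.Ei M e y ν) (hs : P.Ei M a 0 s) (ha : P.f e a = 0) :
    P.Ei M e ((s * P.f y a) • a) (s * P.f y a * P.f y a) := by
  have h1 := hs.conj_ei h
  rw [eich_apply_of_orth₂ _ _ ha (P.f_zero_right _)] at h1
  have h2 := h1.neg.add h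
  simp only [C.toSR.eich_apply, f_zero_right, f_add_right, C.toSR.smul_right, C.toSR.self, C.σ,
    C.ε, f_neg_right] at h2
  convert h2.neg using 1
  · module
  · rw [C.σ, C.ε]; ring

theorem Y_of {e a : V₀} (he : e ≠ 0) (hae : P₀.f a e = 0) (ha : a ∉ K ∙ e) {c ν : F}
    (h : P.Ei M (j e) (c • j a) ν) : SY P₀ P j M c := by
  have key : ∀ x, P₀.f x e = 0 → P₀.f a x ≠ 0 → ∃ ν, P.Ei M (j e) (c • j x) ν := fun x hx hax => by
    have h1 := (C.ei (P₀.f_zero_left (x - a)) (P₀.f a x)⁻¹).conj_ei h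
    rw [map_smul, C.toRat.eich_j, C.toRat.eich_j, eich_apply_of_orth₂ _ _ (by
      rw [f_sub_right, f_symm_zero hx, f_symm_zero hae, sub_self]) (P₀.f_zero_right _)] at h1
    refine ⟨ν, ?_⟩
    convert h1 using 3
    have : P₀.ε = -1 := (algebraMap K F).injective (by rw [← C.ε_alg, C.ε, map_neg, map_one])
    rw [eich_zero_apply, f_sub_right, (C.toSR.sing₀ a).f_self, sub_zero, inv_mul_cancel₀ hax, this]
    module
  have h1 : ∀ x, P₀.f x e = 0 → ∃ ν, P.Ei M (j e) (c • j x) ν := fun x hx => by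
    by_cases hax : P₀.f a x = 0
    swap
    · exact key x hx hax
    obtain ⟨y, hy, h2⟩ := P₀.exists_perp_f_right ha 1
    rw [mem_perp_span_singleton] at hy
    obtain ⟨_, h3⟩ := key y hy (by simp [h2])
    obtain ⟨_, h4⟩ := key (x - y) (by rw [f_sub_left, hx, hy, sub_zero])
      (by simp [f_sub_right, hax, h2])
    exact ⟨_, by convert h3.add h4 using 1; rw [map_sub]; module⟩
  intro e' he'
  refine trans_sing C.d_le (p := fun z => ∀ x, P₀.f x z = 0 → ∃ ν, P.Ei M (j z) (c • j x) ν) ?_ he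
    he' (C.toSR.sing₀ _) (C.toSR.sing₀ _) h1
  intro a b μ hv z hz x hx
  obtain ⟨ν, h1⟩ := hz (hv.equiv⁻¹ x) (by rw [← isom_f_right hv.equiv_mem_isom]; exact hx)
  have := (C.toRat.ei C.le hv).conj_ei h1
  rw [map_smul, C.toRat.eich_j, C.toRat.eich_j, ← hv.equiv_apply (hv.equiv⁻¹ x),
    apply_inv_apply] at this
  exact ⟨ν, this⟩

theorem exists_pair : ∃ e a x : V₀, e ≠ 0 ∧ a ≠ 0 ∧ P₀.f a e = 0 ∧ a ∉ K ∙ e ∧ P₀.f x e = 0 ∧
    P₀.f x a = 1 := by
  have : Nontrivial V₀ := Module.nontrivial_of_finrank_pos (R := K) (by have := C.four; omega)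
  obtain ⟨e, he⟩ := exists_ne (0 : V₀)
  obtain ⟨a, -, hae, ha⟩ := exists_sing_orth C.d_le e
  obtain ⟨x, hx, h⟩ := P₀.exists_perp_f_left ha 1
  exact ⟨e, a, x, he, by rintro rfl; exact ha (zero_mem _), hae, ha,
    mem_perp_span_singleton.1 hx, h⟩

theorem not_forall_Y : ¬ ∀ c, SY P₀ P j M c := by
  intro h
  have R := C.toRat
  have := R.finiteDimensional
  have hY : ∀ e, e ≠ 0 → ∀ y, P.f y (j e) = 0 → ∃ ν, P.Ei M (j e) y ν := by
    intro e he0 y hy
    obtain ⟨e', h1⟩ := P₀.exists_f_left_eq he0 1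
    have h2 : ∀ z ∈ Submodule.span F (Set.range j), ∀ c : F,
        ∃ ν, P.Ei M (j e) (c • (z - P.f z (j e) • j e')) ν := by
      intro z hz
      induction hz using Submodule.span_induction with
      | mem z hz =>
        obtain ⟨x, rfl⟩ := hz
        intro c
        have := h c e he0 (x - P₀.f x e • e')
          (by rw [f_sub_left, P₀.f_smul_left, h1, mul_one, sub_self])
        rwa [map_sub, j_smul (F := F), ← R.f_alg] at this
      | zero => exact fun c => ⟨0, by simpa [f_zero_left] using Ei.zero (C.toSR.sing _)⟩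
      | add x y _ _ hx hy =>
        intro c
        obtain ⟨_, hx⟩ := hx c
        obtain ⟨_, hy⟩ := hy c
        exact ⟨_, by convert hx.add hy using 1; rw [P.f_add_left]; module⟩
      | smul a x _ hx =>
        intro c
        obtain ⟨_, hx⟩ := hx (c * a)
        exact ⟨_, by convert hx using 1; rw [P.f_smul_left]; module⟩
    simpa [hy] using h2 y (by rw [R.span]; trivial) 1
  have move : ∀ a, a ≠ 0 → ∀ z, P.f z (j a) = 0 → z ∉ F ∙ j a → ∀ k : F,
      ∃ g ∈ M, g z = z + k • j a := by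
    intro a ha0 z hz hza k
    obtain ⟨y, hy, h1⟩ := P.exists_perp_f_right hza k
    obtain ⟨ν, h2⟩ := hY a ha0 y (mem_perp_span_singleton.1 hy)
    exact ⟨_, h2.mem, by rw [EV.equiv_apply, C.toSR.eich_apply, hz, h1]; simp⟩
  obtain ⟨e, b, x, he0, hb0, hbe, hb', hx, hxb⟩ := C.exists_pair
  have hZ : ∀ ν, SZ P j M ν := fun ν => C.Z_of he0 (by
    by_cases h2 : (2 : F) = 0
    swap
    · obtain ⟨_, h3⟩ := h (ν / 2) e he0 x hx
      convert h3.comm (C.ei hbe 0) using 1
      rw [C.toSR.skew _ (j b), P.f_smul_left, R.f_alg, hxb, map_one]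
      field_simp
      ring
    have : CharP F 2 := CharTwo.of_one_ne_zero_of_two_eq_zero one_ne_zero h2
    obtain ⟨c, rfl⟩ := FiniteField.isSquare_of_char_two (ringChar.eq F 2) ν
    have hs := C.toSR.sing (j e)
    by_cases hc : c = 0
    · simpa [hc] using Ei.zero hs
    have k1 := R.notMem_span_singleton hb'
    have k2 := R.notMem_span_singleton (notMem_span_symm he0 hb')
    have k3 := R.f_eq_zero.2 hbe
    obtain ⟨g₁, hg₁, e1⟩ := move b hb0 (j e) (f_symm_zero k3) k2 1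
    obtain ⟨g₂, hg₂, e2⟩ := move e he0 (j e + (1 : F) • j b)
      (by rw [P.f_add_left, P.f_smul_left, k3, hs.f_self]; simp)
      (fun h => k1 (by simpa using sub_mem h (Submodule.mem_span_singleton_self _))) (c - 1)
    obtain ⟨g₃, hg₃, e3⟩ := move b hb0 (c • j e + j b)
      (by rw [P.f_add_left, P.f_smul_left, f_symm_zero k3, C.toSR.self]; simp)
      (fun h => k2 ((Submodule.smul_mem_iff _ hc).1
        (by simpa using sub_mem h (Submodule.mem_span_singleton_self _)))) (-1)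
    have k4 : (g₃ * (g₂ * g₁)) (j e) = c • j e := by
      rw [mul_apply', mul_apply', e1, e2, show j e + (1 : F) • j b + (c - 1) • j e = c • j e + j b
        by module, e3]
      module
    have k5 := M.mul_mem hg₃ (M.mul_mem hg₂ hg₁)
    have k6 := (C.Z_alg 1 e he0).conj k5 (C.le_isom k5)
    rw [k4, map_zero] at k6
    simpa [C.σ] using k6.smul_left c hs)
  have hF : ∀ e, e ≠ 0 → P.Full M (j e) := fun e he => ⟨C.toSR.sing _, fun y ν hv => by
    obtain ⟨ν', h1⟩ := hY e he y hv.orth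
    simpa using h1.add_zero (hZ (ν - ν') e he)⟩
  refine C.not_le ((hF b hb0).E_le (hF x ?_) (by rw [R.f_alg, hxb, map_one]; exact one_ne_zero))
  rintro rfl
  rw [f_zero_left] at hxb
  exact zero_ne_one hxb

theorem Y_of_Z {s : F} (hs : SZ P j M s) : SY P₀ P j M s := by
  obtain ⟨e, a, -, he, ha0, hae, ha, -⟩ := C.exists_pair
  have h1 := hs (e + a) fun h => ha (by
    rw [eq_neg_of_add_eq_zero_right h]
    exact neg_mem (Submodule.mem_span_singleton_self e))
  rw [map_add] at h1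
  have := (hs e he).of_tv_add (hs a ha0) h1 (C.toRat.f_eq_zero.2 hae)
  rw [C.ε, neg_one_mul, neg_neg] at this
  exact C.Y_of he hae ha this

theorem ei_of_Y {s c : F} (hs : SZ P j M s) (hc : SY P₀ P j M c) {e a : V₀} (he : e ≠ 0)
    (hae : P₀.f a e = 0) (ha : a ∉ K ∙ e) : P.Ei M (j e) ((s * c) • j a) (s * c * c) := by
  obtain ⟨x, hx, h⟩ := P₀.exists_perp_f_left ha 1
  obtain ⟨_, h1⟩ := hc e he x (mem_perp_span_singleton.1 hx)
  have := C.diff h1 (hs a (by rintro rfl; exact ha (zero_mem _)))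
    (C.toRat.f_eq_zero.2 (f_symm_zero hae))
  rwa [P.f_smul_left, C.f_alg, h, map_one, mul_one] at this

theorem ei_swap {c β : F} {e a : V₀} (he : e ≠ 0) (hae : P₀.f a e = 0) (ha : a ∉ K ∙ e)
    (h : P.Ei M (j e) (c • j a) β) : P.Ei M (j a) (β • j e) (β + 2 * c) := by
  obtain ⟨y, hy, h1⟩ := P₀.exists_perp_f_right (notMem_span_symm he ha) 1
  have h2 := C.toRat.f_eq_zero.2 hae
  have h3 := f_symm_zero h2
  have h4 := (C.ei (mem_perp_span_singleton.1 hy) 0).conj_ei h
  rw [map_smul, eich_apply_of_orth₂ _ _ (C.toSR.self _) (C.toRat.f_eq_zero.2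
    (f_symm_zero (mem_perp_span_singleton.1 hy))), C.toSR.eich_apply, h3, C.f_alg, h1] at h4
  refine Ei.of_eq (C.toSR.ev (by rw [P.f_smul_left, h3, mul_zero]) _)
    (M.mul_mem h4.mem h.neg.mem) fun x => ?_
  simp only [mul_apply', EV.equiv_apply, C.toSR.eich_apply, P.f_add_left, P.f_smul_left,
    f_add_right, C.toSR.smul_right, f_neg_left, f_neg_right, h2, h3, C.toSR.self, C.σ, C.ε, map_one]
  module

theorem mem_of_Y {c : F} (hc : SY P₀ P j M c) : c ∈ Set.range (algebraMap K F) := by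
  obtain ⟨e, a, x, he, ha0, hae, ha, hx, hxa⟩ := C.exists_pair
  have hadd : ∀ a b, SY P₀ P j M a → SY P₀ P j M b → SY P₀ P j M (a + b) :=
    fun a b ha hb e he x hx => by
      obtain ⟨_, h1⟩ := ha e he x hx
      obtain ⟨_, h2⟩ := hb e he x hx
      exact ⟨_, by rw [add_smul]; exact h1.add h2⟩
  have hmul : ∀ (k : K) c, SY P₀ P j M c → SY P₀ P j M (algebraMap K F k * c) :=
    fun k c hc => C.Y_of he hae ha (C.ei_of_Y (C.Z_alg k) hc he hae ha)
  have hone : SY P₀ P j M 1 := C.Y_of_Z (by simpa using C.Z_alg 1)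
  let L : Subalgebra K F :=
    { carrier := {t | ∀ c, SY P₀ P j M c → SY P₀ P j M (t * c)}
      add_mem' := fun ha hb c hc => by rw [add_mul]; exact hadd _ _ (ha c hc) (hb c hc)
      mul_mem' := fun ha hb c hc => by rw [mul_assoc]; exact ha _ (hb c hc)
      algebraMap_mem' := hmul }
  have hZ : ∀ s, SZ P j M s → s ∈ Set.range (algebraMap K F) := fun s hs => by
    rcases C.simple L with h | h
    · exact Algebra.mem_bot.1 (h ▸ show s ∈ L from fun c hc =>
        C.Y_of he hae ha (C.ei_of_Y hs hc he hae ha))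
    · exact absurd (fun t => by simpa using (h ▸ Algebra.mem_top : t ∈ L) 1 hone) C.not_forall_Y
  by_cases h2 : (2 : F) = 0
  swap
  · obtain ⟨_, h3⟩ := hc e he x hx
    have h4 := h3.comm (C.ei hae 0)
    rw [C.toSR.skew _ (j a), P.f_smul_left, C.f_alg, hxa, map_one] at h4
    obtain ⟨k, hk⟩ := hZ _ (C.Z_of he h4)
    exact ⟨k / 2, by rw [map_div₀, hk, map_ofNat]; field_simp; ring⟩
  have he' := notMem_span_symm he ha
  have h1 : SZ P j M 1 := by simpa using C.Z_alg 1
  have h3 := C.ei_swap ha0 (f_symm_zero hae) he' (C.ei_of_Y h1 hc ha0 (f_symm_zero hae) he')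
  have h4 := (C.ei_of_Y h1 (C.Y_of he hae ha h3) he hae ha).sub_same (by rwa [one_mul (_ * _)])
  obtain ⟨k, hk⟩ := mem_range_of_sq (K := K) h2 (c := c * c + c) (by
    convert hZ _ (C.Z_of he h4) using 1
    linear_combination (c * c * c + c * c + c) * h2)
  let L' : Subalgebra K F :=
    { carrier := {t | ∃ a b : K, t = algebraMap K F a + algebraMap K F b * c}
      add_mem' := by
        rintro _ _ ⟨a, b, rfl⟩ ⟨a', b', rfl⟩
        exact ⟨a + a', b + b', by simp only [map_add]; ring⟩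
      mul_mem' := by
        rintro _ _ ⟨a, b, rfl⟩ ⟨a', b', rfl⟩
        exact ⟨a * a' + b * b' * k, a * b' + b * a' - b * b', by
          simp only [map_add, map_mul, map_sub, hk]; ring⟩
      algebraMap_mem' := fun a => ⟨a, 0, by simp⟩ }
  rcases C.simple L' with h | h
  · exact Algebra.mem_bot.1 (h ▸ show c ∈ L' from ⟨0, 1, by simp⟩)
  · refine absurd (fun t => ?_) C.not_forall_Y
    obtain ⟨a, b, rfl⟩ := (h ▸ Algebra.mem_top : t ∈ L')
    exact hadd _ _ (C.Y_of_Z (C.Z_alg a)) (hmul b c hc)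

theorem mem_of_ei_zero {e : V₀} (he : e ≠ 0) {ν : F} (h : P.Ei M (j e) 0 ν) :
    ν ∈ Set.range (algebraMap K F) := C.mem_of_Y (C.Y_of_Z (C.Z_of he h))

theorem exists_eq_of_ei {e : V₀} (he0 : e ≠ 0) {y : V} {ν : F}
    (h : P.Ei M (j e) y ν) : ∃ (x : V₀) (k : F), y = j x + k • j e := by
  have R := C.toRat
  have h1 : ∀ a, P₀.f a e = 0 → P.f y (j a) ∈ Set.range (algebraMap K F) := fun a hae => by
    by_cases h1 : a ∈ K ∙ e
    · obtain ⟨c, rfl⟩ := Submodule.mem_span_singleton.1 h1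
      exact ⟨0, by rw [j_smul (F := F), f_smul_right, h.ev.orth, mul_zero, map_zero]⟩
    have := C.diff h (C.Z_alg 1 a (by rintro rfl; exact h1 (zero_mem _)))
      (R.f_eq_zero.2 (f_symm_zero hae))
    rw [map_one, one_mul] at this
    exact C.mem_of_Y (C.Y_of he0 hae h1 this)
  obtain ⟨e', h2⟩ := P₀.exists_f_right_eq he0 1
  obtain ⟨x, hx⟩ := R.dual' (x := y - P.f y (j e') • j e) fun x => by
    have h3 : P₀.f (x - (P₀.ε * P₀.f x e) • e') e = 0 := by
      rw [f_sub_left, P₀.f_smul_left, f_symm_one h2]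
      linear_combination (-P₀.f x e) * P₀.ε_sq
    obtain ⟨c, hc⟩ := h1 _ h3
    refine ⟨c, hc.trans ?_⟩
    rw [map_sub, j_smul (F := F), f_sub_left, f_sub_right, P.f_smul_left, f_smul_right, R.σ_alg,
      R.f_alg, P₀.herm x e, map_mul P₀.σ, σ_ε, mul_comm]
  exact ⟨x, P.f y (j e'), by rw [hx, sub_add_cancel]⟩

theorem rat_of_ei {e : V₀} (he0 : e ≠ 0) {y : V} {ν : F}
    (h : P.Ei M (j e) y ν) (x : V₀) : ∃ z, j z = P.eich (j e) y ν (j x) := by
  have R := C.toRat
  obtain ⟨y, k, rfl⟩ := C.exists_eq_of_ei he0 h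
  have h1 := h.of_add_smul_self
  obtain ⟨c, hc⟩ := C.mem_of_ei_zero he0 (h1.sub_same (C.ei (R.f_eq_zero.1 h1.ev.orth) 0))
  rw [map_zero, sub_zero] at hc
  rw [eich_add_smul_self, ← hc, R.eich_j]
  exact ⟨_, rfl⟩

/-- An element of `M` mapping a rational point to a rational point lies in the subfield group. -/
theorem mem_of_map {g : V ≃ₗ[F] V} (hg : g ∈ M) {e e₂ : V₀} (he0 : e ≠ 0) {c : F}
    (h : g (j e) = c • j e₂) : g ∈ ratNorm F j := by
  have R := C.toRat
  have hgi := C.le_isom hg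
  have h0 : c • j e₂ ≠ 0 := by
    rw [← h]
    exact fun h0 => he0 (R.j_eq_zero.1 (g.map_eq_zero_iff.1 h0))
  have hc : c ≠ 0 := left_ne_zero_of_smul h0
  have he₂0 : e₂ ≠ 0 := fun h1 => right_ne_zero_of_smul h0 (R.j_eq_zero.2 h1)
  have hs₂ := C.toSR.sing (j e₂)
  have h1 : ∀ y, P₀.f y e = 0 → ∃ (x : V₀) (k : F), P.f (j x) (j e₂) = 0 ∧
      P.σ c • g (j y) = j x + k • j e₂ := by
    intro y hy
    have h2 := (C.ei hy 0).conj hg hgi
    rw [h] at h2
    have h3 := h2.smul_left c hs₂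
    obtain ⟨x, k, h4⟩ := C.exists_eq_of_ei he₂0 h3
    refine ⟨x, k, ?_, h4⟩
    simpa [h4, P.f_add_left, P.f_smul_left, hs₂.f_self] using h3.ev.orth
  obtain ⟨N, hN⟩ : P.σ c * c ∈ Set.range (algebraMap K F) := by
    have h2 := (C.Z_alg 1 e he0).conj hg hgi
    rw [h, map_zero] at h2
    have h3 := h2.smul_left c hs₂
    rw [smul_zero, map_one, mul_one, mul_comm] at h3
    exact C.mem_of_ei_zero he₂0 h3
  obtain ⟨e', h2⟩ := P₀.exists_f_left_eq he0 1
  obtain ⟨e₃, h3⟩ := P₀.exists_f_left_eq he₂0 1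
  have h4 : P.f (j e₃) (j e₂) = 1 := by rw [R.f_alg, h3, map_one]
  obtain ⟨hv, h5⟩ := exists_eich_map hs₂ (C.toSR.sing (P.σ c • g (j e'))) (C.toSR.sing _)
    (by rw [P.f_smul_left, ← f_smul_right, ← h, isom_f hgi, R.f_alg, h2, map_one]) h4
  rw [← hv.equiv_apply] at h5
  have h6 : hv.equiv * g ∈ ratNorm F j := by
    refine mem_ratNorm_of (P.σ_ne_zero hc) fun x => ?_
    obtain ⟨y, k, h6, h7⟩ := h1 (x - P₀.f x e • e')
      (by rw [f_sub_left, P₀.f_smul_left, h2, mul_one, sub_self])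
    obtain ⟨k', h8⟩ : ∃ k' : F, hv.equiv (P.σ c • g (j (x - P₀.f x e • e'))) = j y + k' • j e₂ := by
      rw [h7, map_add, map_smul, EV.equiv_apply, EV.equiv_apply, hv.eich_self,
        eich_apply_of_orth _ _ h6, sub_eq_add_neg, ← neg_smul, add_assoc, ← add_smul]
      exact ⟨_, rfl⟩
    have h9 := isom_f hv.equiv_mem_isom (P.σ c • g (j (x - P₀.f x e • e'))) (P.σ c • g (j e'))
    rw [h8, h5, P.f_add_left, P.f_smul_left, P.f_smul_left, f_smul_right, isom_f hgi, P.σσ,
      ← mul_assoc, ← hN, f_symm_one h4, R.f_alg, R.f_alg, R.ε_alg] at h9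
    have h10 : k' = algebraMap K F (P₀.ε * (N * P₀.f (x - P₀.f x e • e') e' - P₀.f y e₃)) := by
      have := congrArg (algebraMap K F) P₀.ε_sq
      rw [map_mul, map_one] at this
      rw [map_mul, map_sub, map_mul]
      linear_combination algebraMap K F P₀.ε * h9 - k' * this
    rw [h10, ← j_smul, ← map_add] at h8
    generalize y + (P₀.ε * (N * P₀.f (x - P₀.f x e • e') e' - P₀.f y e₃)) • e₂ = w at h8
    refine ⟨w + P₀.f x e • e₃, ?_⟩
    generalize hv.equiv = t at h5 h8
    rw [map_add, ← h8, j_smul (F := F), ← h5, mul_apply', map_sub, j_smul (F := F)]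
    simp only [map_smul, map_sub]
    module
  have h7 : P.Ei M _ _ _ := ⟨hv, (M.mul_mem_cancel_right hg).1
    (C.le ⟨h6, P.E.mul_mem hv.equiv_mem_E (C.le_E hg)⟩)⟩
  refine ((ratNorm F j).mul_mem_cancel_left (mem_ratNorm_of one_ne_zero fun x => ?_)).1 h6
  rw [one_smul]
  exact C.rat_of_ei he₂0 h7 x

theorem mem_of_smul {g : V ≃ₗ[F] V} (hg : g ∈ M) {e w : V₀}
    (he0 : e ≠ 0) {c : F} (hc : c ≠ 0) (h : j w = c • g (j e)) : g ∈ ratNorm F j :=
  C.mem_of_map hg he0 (c := c⁻¹) (e₂ := w) (by rw [h, smul_smul, inv_mul_cancel₀ hc, one_smul])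

theorem le_ratNorm : M ≤ ratNorm F j := by
  have R := C.toRat
  have := R.finiteDimensional
  have : Finite (V ≃ₗ[F] V) := DFunLike.finite _
  have h5 := C.four
  have hd := C.d_le
  obtain ⟨e, -, -, he0, -⟩ := C.exists_pair
  have hs := R.ei le_rfl (C.toSR.ev₀ (P₀.f_zero_left e) 1)
  rw [map_zero, map_one] at hs
  have hje : j e ≠ 0 := fun h => he0 (R.j_eq_zero.1 h)
  have hc : ∀ g ∈ M, ∀ x, (g * hs.ev.equiv * g⁻¹) x =
      x - (P.ε * P.f x (g (j e))) • g (j e) := fun g hg x => by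
    rw [hs.ev.conj_equiv (C.le_isom hg), EV.equiv_apply, map_zero, eich_zero_apply, one_mul]
  refine (le_of_counting _ M C.le hs.ev.equiv hs.mem ?_ ?_ ?_).trans inf_le_left
  · intro g hg h
    refine ⟨?_, C.le_E hg⟩
    obtain ⟨x, hx⟩ := R.exists_f_ne_zero (g.map_ne_zero_iff.2 hje)
    obtain ⟨z, hz⟩ := R.rat_of_rank h.1 (I := F ∙ g (j e)) (fun x => by
      rw [hc g hg, sub_sub_cancel_left]
      exact neg_mem (Submodule.smul_mem _ _ (Submodule.mem_span_singleton_self _))) (by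
        have := finrank_span_singleton_le (F := F) (g (j e))
        omega) x
    exact C.mem_of_smul hg he0 (mul_ne_zero P.ε_ne_zero hx) (w := x - z)
      (by rw [map_sub, hz, hc g hg, sub_sub_cancel])
  · intro g hg k hk hgk h
    have hdM := M.mul_mem (M.mul_mem hg (C.le hs.mem)) (M.inv_mem hg)
    refine ⟨?_, C.le_E hdM⟩
    have hdH : g ∈ ratNorm F j → g * hs.ev.equiv * g⁻¹ ∈ ratNorm F j :=
      fun h => mul_mem (mul_mem h hs.mem.1) (inv_mem h)
    have h1 := hc g hg
    have h2 := hc k hk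
    generalize g * hs.ev.equiv * g⁻¹ = d at *
    generalize k * hs.ev.equiv * k⁻¹ = t at *
    have h3 : ∀ I : Submodule F V, g (j e) ∈ I → k (j e) ∈ I → ∀ x, (t⁻¹ * d) x - x ∈ I :=
      fun I ha hb => inv_mul_sub_mem
        (fun x => by rw [h1, sub_sub_cancel_left]; exact neg_mem (I.smul_mem _ ha))
        (fun x => by rw [h2, sub_sub_cancel_left]; exact neg_mem (I.smul_mem _ hb))
    have h4 := h3 ((F ∙ g (j e)) ⊔ F ∙ k (j e))
      (Submodule.mem_sup_left (Submodule.mem_span_singleton_self _))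
      (Submodule.mem_sup_right (Submodule.mem_span_singleton_self _))
    have h6 := finrank_sup_span_le (F ∙ g (j e)) (k (j e))
    have h7 := finrank_span_singleton_le (F := F) (g (j e))
    have h8 : ∀ x, ∃ y, j y = (t⁻¹ * d) (j x) - j x := fun x => by
      obtain ⟨y, hy⟩ := C.toSR.rat_of_two h.1 (E_le_isom h.2) h1 h2 x
      exact ⟨y - x, by rw [map_sub, hy]⟩
    obtain ⟨u, hu0, -, h9⟩ := R.exists_sing_ker ((t⁻¹ * d).toLinearMap - LinearMap.id) h8 h4
      (by omega)
    have h10 : d (j u) = t (j u) := by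
      rw [← apply_inv_apply t (d (j u))]
      exact congrArg t (sub_eq_zero.1 h9)
    by_cases h11 : P.f (j u) (g (j e)) = 0
    · exact C.mem_of_map hdM hu0 (c := 1) (e₂ := u) (by rw [h1, h11]; simp)
    rw [h1, h2, sub_right_inj] at h10
    have h12 : P.ε * P.f (j u) (k (j e)) ≠ 0 := fun h => by
      rw [h, zero_smul, smul_eq_zero] at h10
      exact h10.elim (mul_ne_zero P.ε_ne_zero h11) (g.map_ne_zero_iff.2 hje)
    obtain ⟨x, hx⟩ := R.exists_apply_ne hgk
    obtain ⟨w, hw⟩ := h8 x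
    obtain ⟨c, hc⟩ := Submodule.mem_span_singleton.1 (h3 (F ∙ g (j e))
      (Submodule.mem_span_singleton_self _) ((Submodule.smul_mem_iff _ h12).1
        (h10 ▸ Submodule.smul_mem _ _ (Submodule.mem_span_singleton_self _))) (j x))
    exact hdH (C.mem_of_smul hg he0 (c := c) (by rintro rfl; exact hx (by simpa using hc.symm))
      (hw.trans hc.symm))
  · obtain ⟨e', h1⟩ := P₀.exists_f_left_eq he0 1
    obtain ⟨h, hh, h2⟩ := R.exists_map hd (C.toSR.sing₀ e) he0 (C.toSR.sing₀ e') (by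
      rintro rfl; rw [f_zero_left] at h1; exact zero_ne_one h1)
    refine ⟨h, hh, fun h3 => ?_⟩
    have h4 := congrArg (fun g : V ≃ₗ[F] V => g (j e)) h3
    simp only [mul_apply', EV.equiv_apply, hs.ev.eich_self, h2, eich_zero_apply, R.f_alg, h1,
      map_one] at h4
    rw [eq_comm, sub_eq_self] at h4
    simp [P.ε_ne_zero, hje] at h4

end S5

section Geo

variable {ι : Type} [Fintype ι] [DecidableEq ι] {F : Type*} [Field F] [Fintype F] {F₀ : Subfield F}

theorem sp_c5_four_aux {r : ℕ} (hr : r.Prime) (hcard : Fintype.card F = Nat.card F₀ ^ r)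
    {f : (ι → F) → (ι → F) → F} (hf : Geo.IsSymplecticForm f) (h4 : 4 ≤ Fintype.card ι)
    {P : GL ι F} (hP : ∀ u v, f (jmap F₀ P u) (jmap F₀ P v) ∈ F₀) :
    Geo.IsMaximalIn (preserving (glToMat ι F) f)
      (Geo.subfieldSubgroup F₀ P ⊓ preserving (glToMat ι F) f) := by
  have hf₀ : Geo.IsSymplecticForm (restF (sympP hf) hP) :=
    ⟨restF_bilin _ _ fun _ _ => rfl, fun v w => Subtype.ext (hf.skew _ _),
      fun v => Subtype.ext (hf.alternating _), restF_nondeg _ _⟩
  rw [← finrank_pi_card (F := F₀)] at h4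
  have R : SR (sympP hf₀) (sympP hf) (jmap F₀ P) :=
    ⟨⟨fun _ => rfl, by change -1 = algebraMap F₀ F (-1); simp, fun _ _ => rfl, fun _ => trivial,
      fun _ => Iff.rfl, jmap_span P⟩, fun _ => rfl, rfl, rfl, h4, by change 1 + 2 ≤ _; omega⟩
  refine isMaximalIn_of_E _ (mem_preserving_iff_sympP hf) _ (mem_subfieldSubgroup_iff P)
    (R.not_E_le ?_) fun M h1 h2 => or_iff_not_imp_right.2 fun h =>
      S5.le_ratNorm ⟨R, h1, h2, h, subalgebra_eq_bot_or_top hr hcard⟩
  obtain ⟨c, hc⟩ := exists_notMem_subfield hr hcard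
  exact ⟨c, fun ⟨x, hx⟩ => hc (hx ▸ x.2)⟩

/-- Subfield subgroups of prime index are maximal in `Sp_n(q)`, `n ≥ 4`. -/
theorem sp_c5_four {r : ℕ} (hr : r.Prime) (hcard : Fintype.card F = Nat.card F₀ ^ r)
    {f : (ι → F) → (ι → F) → F} (hf : Geo.IsSymplecticForm f) (h4 : 4 ≤ Fintype.card ι)
    {P : GL ι F} {ζ : F} (hζ : ζ ≠ 0) (hP : Geo.IsFormRationalStructure f F₀ ζ P) :
    Geo.IsMaximalIn (preserving (glToMat ι F) f)
      (Geo.subfieldSubgroup F₀ P ⊓ preserving (glToMat ι F) f) := by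
  have hf' : Geo.IsSymplecticForm fun u v => ζ * f u v :=
    ⟨⟨fun x y v => by rw [hf.bilinear.add_left, mul_add],
      fun c x v => by rw [hf.bilinear.smul_left, mul_left_comm],
      fun x y v => by rw [hf.bilinear.add_right, mul_add],
      fun c x v => by rw [hf.bilinear.smul_right, mul_left_comm]⟩,
      fun v w => by rw [hf.skew, mul_neg], fun v => by rw [hf.alternating, mul_zero],
      fun v hv => by simpa [hζ] using hf.nondegenerate v hv⟩
  have h : preserving (glToMat ι F) f = preserving (glToMat ι F) fun u v => ζ * f u v := by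
    ext g
    exact forall₂_congr fun u v => (mul_right_inj' hζ).symm
  rw [h]
  exact sp_c5_four_aux hr hcard hf' h4 fun u v => hP _ _ (fun i => (u i).2) fun i => (v i).2

end Geo

end Cfsg.Agent.H27
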