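import Cfsg.Agent.H27.AltDecomp
import Cfsg.Agent.H36.QuadPair

/-!
# Tensor products of two spaces with non-degenerate bilinear forms: contraction calculus
-/

set_option autoImplicit false

namespace Cfsg.Agent.H27

open Module TensorProduct

section Basic

variable {F U W : Type*} [Field F] [AddCommGroup U] [Module F U] [AddCommGroup W] [Module F W]

/-- Contraction of the left factor: `x ⊗ w ↦ f x y • w`. -/
def cL (f : LinearMap.BilinForm F U) (W : Type*) [AddCommGroup W] [Module F W] :
    U →ₗ[F] (U ⊗[F] W →ₗ[F] W) where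
  toFun y := TensorProduct.lift ((LinearMap.lsmul F W).comp (f.flip y))
  map_add' y y' := TensorProduct.ext' fun x w => by simp
  map_smul' c y := TensorProduct.ext' fun x w => by simp [mul_smul]

/-- Contraction of the right factor: `x ⊗ w ↦ h w w' • x`. -/
def cR (h : LinearMap.BilinForm F W) (U : Type*) [AddCommGroup U] [Module F U] :
    W →ₗ[F] (U ⊗[F] W →ₗ[F] U) where
  toFun w' := TensorProduct.lift ((LinearMap.lsmul F U).comp (h.flip w')).flip
  map_add' y y' := TensorProduct.ext' fun x w => by simp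
  map_smul' c y := TensorProduct.ext' fun x w => by simp [mul_smul]

/-- The tensor product form. -/
def tB (f : LinearMap.BilinForm F U) (h : LinearMap.BilinForm F W) :
    LinearMap.BilinForm F (U ⊗[F] W) := f.tmul h

/-- The rank one operator `v ↦ f v y • x`. -/
def ro (f : LinearMap.BilinForm F U) (x y : U) : End F U := (f.flip y).smulRight x

variable {f : LinearMap.BilinForm F U} {h : LinearMap.BilinForm F W}

@[simp] theorem cL_tmul (y x : U) (w : W) : cL f W y (x ⊗ₜ w) = f x y • w := by simp [cL]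

@[simp] theorem cR_tmul (w' : W) (x : U) (w : W) : cR h U w' (x ⊗ₜ w) = h w w' • x := by simp [cR]

@[simp] theorem tB_tmul (x y : U) (w w' : W) : tB f h (x ⊗ₜ w) (y ⊗ₜ w') = f x y * h w w' := by
  simp [tB, mul_comm]

@[simp] theorem ro_apply (x y v : U) : ro f x y v = f v y • x := rfl

theorem tB_cL (p : U ⊗[F] W) (y : U) (w' : W) : tB f h p (y ⊗ₜ w') = h (cL f W y p) w' := by
  induction p using TensorProduct.induction_on with
  | zero => simp
  | add a b ha hb => simp [ha, hb]
  | tmul x w => simp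

theorem tB_cR (p : U ⊗[F] W) (y : U) (w' : W) : tB f h p (y ⊗ₜ w') = f (cR h U w' p) y := by
  induction p using TensorProduct.induction_on with
  | zero => simp
  | add a b ha hb => simp [ha, hb]
  | tmul x w => simp [mul_comm]

theorem cL_cR (p : U ⊗[F] W) (y : U) (w' : W) : h (cL f W y p) w' = f (cR h U w' p) y := by
  rw [← tB_cL, tB_cR]

theorem rTensor_ro (x y : U) (p : U ⊗[F] W) : (ro f x y).rTensor W p = x ⊗ₜ cL f W y p := by
  induction p using TensorProduct.induction_on with
  | zero => simp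
  | add a b ha hb => simp [ha, hb, tmul_add]
  | tmul x w => simp [smul_tmul]

theorem lTensor_ro (w w' : W) (p : U ⊗[F] W) : (ro h w w').lTensor U p = cR h U w' p ⊗ₜ w := by
  induction p using TensorProduct.induction_on with
  | zero => simp
  | add a b ha hb => simp [ha, hb, add_tmul]
  | tmul x w => simp [smul_tmul]

theorem cL_lTensor (β : End F W) (y : U) (p : U ⊗[F] W) :
    cL f W y (β.lTensor U p) = β (cL f W y p) := by
  induction p using TensorProduct.induction_on with
  | zero => simp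
  | add a b ha hb => simp [ha, hb]
  | tmul x w => simp

theorem cR_rTensor (α : End F U) (w' : W) (p : U ⊗[F] W) :
    cR h U w' (α.rTensor W p) = α (cR h U w' p) := by
  induction p using TensorProduct.induction_on with
  | zero => simp
  | add a b ha hb => simp [ha, hb]
  | tmul x w => simp

theorem cL_rTensor {α : End F U} {y y' : U} (hy : ∀ x, f (α x) y = f x y') (p : U ⊗[F] W) :
    cL f W y (α.rTensor W p) = cL f W y' p := by
  induction p using TensorProduct.induction_on with
  | zero => simp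
  | add a b ha hb => simp [ha, hb]
  | tmul x w => simp [hy]

theorem cR_lTensor {β : End F W} {w w' : W} (hw : ∀ x, h (β x) w = h x w') (p : U ⊗[F] W) :
    cR h U w (β.lTensor U p) = cR h U w' p := by
  induction p using TensorProduct.induction_on with
  | zero => simp
  | add a b ha hb => simp [ha, hb]
  | tmul x w => simp [hw]

theorem rTensor_mul_lTensor (α : End F U) (β : End F W) :
    α.rTensor W * β.lTensor U = β.lTensor U * α.rTensor W :=
  TensorProduct.ext' fun x w => by simp

theorem tB_iso_rTensor {α : End F U} (hα : ∀ x y, f (α x) (α y) = f x y) (p q : U ⊗[F] W) :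
    tB f h (α.rTensor W p) (α.rTensor W q) = tB f h p q := by
  induction q using TensorProduct.induction_on with
  | zero => simp
  | add a b ha hb => simp [ha, hb]
  | tmul y w => rw [LinearMap.rTensor_tmul, tB_cR, tB_cR, cR_rTensor, hα]

theorem tB_iso_lTensor {β : End F W} (hβ : ∀ x y, h (β x) (β y) = h x y) (p q : U ⊗[F] W) :
    tB f h (β.lTensor U p) (β.lTensor U q) = tB f h p q := by
  induction q using TensorProduct.induction_on with
  | zero => simp
  | add a b ha hb => simp [ha, hb]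
  | tmul y w => rw [LinearMap.lTensor_tmul, tB_cL, tB_cL, cL_lTensor, hβ]

theorem tB_flip {ε : F} (hε : ∀ x y w w', f x y * h w w' = ε * (f y x * h w' w)) (p q : U ⊗[F] W) :
    tB f h p q = ε * tB f h q p := by
  induction p using TensorProduct.induction_on with
  | zero => simp
  | add a b ha hb => simp [ha, hb, mul_add]
  | tmul x w =>
    induction q using TensorProduct.induction_on with
    | zero => simp
    | add a b ha hb => simp [ha, hb, mul_add]
    | tmul y w' => simp [hε x y w w']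

theorem exists_apply_eq_one (hf : f.Nondegenerate) {u : U} (hu : u ≠ 0) : ∃ y, f u y = 1 := by
  obtain ⟨y, hy⟩ : ∃ y, f u y ≠ 0 := by
    by_contra! H
    exact hu (hf.1 u H)
  exact ⟨(f u y)⁻¹ • y, by simp [hy]⟩

theorem exists_apply_eq_one' (hf : f.Nondegenerate) {u : U} (hu : u ≠ 0) : ∃ y, f y u = 1 := by
  obtain ⟨y, hy⟩ : ∃ y, f y u ≠ 0 := by
    by_contra! H
    exact hu (hf.2 u H)
  exact ⟨(f y u)⁻¹ • y, by simp [hy]⟩

theorem tmul_left_inj (hf : f.Nondegenerate) {u : U} (hu : u ≠ 0) {w w' : W}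
    (e : u ⊗ₜ[F] w = u ⊗ₜ w') : w = w' := by
  obtain ⟨y, hy⟩ := exists_apply_eq_one hf hu
  simpa [hy] using congrArg (cL f W y) e

theorem tmul_right_inj (hh : h.Nondegenerate) {w : W} (hw : w ≠ 0) {u u' : U}
    (e : u ⊗ₜ[F] w = u' ⊗ₜ w) : u = u' := by
  obtain ⟨y, hy⟩ := exists_apply_eq_one hh hw
  simpa [hy] using congrArg (cR h U y) e

theorem tmul_ne_zero (hf : f.Nondegenerate) {u : U} (hu : u ≠ 0) {w : W} (hw : w ≠ 0) :
    u ⊗ₜ[F] w ≠ 0 := fun e => hw (tmul_left_inj hf hu (by rw [e, tmul_zero]))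

/-- Products of rank one operators `ro x x` give all rank one operators. -/
theorem ro_mem_of_mul (hf : f.Nondegenerate) (C : Submodule F (End F U))
    (hmul : ∀ a ∈ C, ∀ b ∈ C, a * b ∈ C) (hC : ∀ x, ro f x x ∈ C) (x y : U) : ro f x y ∈ C := by
  have key : ∀ y, f y x ≠ 0 → ro f x y ∈ C := fun y hy => by
    have := C.smul_mem (f y x)⁻¹ (hmul _ (hC x) _ (hC y))
    convert this using 1
    ext v
    simp only [ro_apply, LinearMap.smul_apply, End.mul_apply, map_smul, smul_smul]
    congr 1
    field_simp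
  by_cases hx : x = 0
  · convert C.zero_mem
    ext v
    simp [hx]
  by_cases hy : f y x = 0
  · obtain ⟨y', hy'⟩ := exists_apply_eq_one' hf hx
    have := C.sub_mem (key (y + y') (by simp [hy, hy'])) (key y' (by simp [hy']))
    convert this using 1
    ext v
    simp [add_smul]
  · exact key y hy

variable [FiniteDimensional F U] [FiniteDimensional F W]

theorem tB_nondegenerate (hf : f.Nondegenerate) (hh : h.Nondegenerate) :
    (tB f h).Nondegenerate := by
  let b₁ := Module.finBasis F U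
  let b₂ := Module.finBasis F W
  rw [LinearMap.BilinForm.nondegenerate_iff_det_ne_zero (b₁.tensorProduct b₂)]
  rw [LinearMap.BilinForm.nondegenerate_iff_det_ne_zero b₁] at hf
  rw [LinearMap.BilinForm.nondegenerate_iff_det_ne_zero b₂] at hh
  have : LinearMap.BilinForm.toMatrix (b₁.tensorProduct b₂) (tB f h) =
      Matrix.kroneckerMap (· * ·) (LinearMap.BilinForm.toMatrix b₁ f)
        (LinearMap.BilinForm.toMatrix b₂ h) := by
    ext ⟨i, j⟩ ⟨k, l⟩
    simp [LinearMap.BilinForm.toMatrix_apply, Basis.tensorProduct_apply]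
  rw [this, Matrix.det_kronecker]
  exact mul_ne_zero (pow_ne_zero _ hf) (pow_ne_zero _ hh)

theorem eq_zero_of_tB (hf : f.Nondegenerate) (hh : h.Nondegenerate) {p : U ⊗[F] W}
    (hp : ∀ y w, tB f h p (y ⊗ₜ w) = 0) : p = 0 :=
  (tB_nondegenerate hf hh).1 p fun q => by
    induction q using TensorProduct.induction_on with
    | zero => simp
    | add a b ha hb => simp [ha, hb]
    | tmul y w => exact hp y w

theorem eq_zero_of_cL (hf : f.Nondegenerate) (hh : h.Nondegenerate) {p : U ⊗[F] W}
    (hp : ∀ y, cL f W y p = 0) : p = 0 :=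
  eq_zero_of_tB hf hh fun y w => by rw [tB_cL, hp]; simp

theorem eq_zero_of_cR (hf : f.Nondegenerate) (hh : h.Nondegenerate) {p : U ⊗[F] W}
    (hp : ∀ w, cR h U w p = 0) : p = 0 :=
  eq_zero_of_tB hf hh fun y w => by rw [tB_cR, hp]; simp

theorem eq_tmul_cL (hf : f.Nondegenerate) (hh : h.Nondegenerate) {u y₀ : U} (hu : f u y₀ = 1)
    {p : U ⊗[F] W} (hp : ∀ y, f u y = 0 → cL f W y p = 0) : p = u ⊗ₜ cL f W y₀ p := by
  rw [← sub_eq_zero]
  refine eq_zero_of_cL hf hh fun y => ?_
  have := hp (y - f u y • y₀) (by simp [hu])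
  simpa using this

theorem eq_cR_tmul (hf : f.Nondegenerate) (hh : h.Nondegenerate) {w w₀ : W} (hw : h w w₀ = 1)
    {p : U ⊗[F] W} (hp : ∀ y, h w y = 0 → cR h U y p = 0) : p = cR h U w₀ p ⊗ₜ w := by
  rw [← sub_eq_zero]
  refine eq_zero_of_cR hf hh fun y => ?_
  have := hp (y - h w y • w₀) (by simp [hw])
  simpa using this

/-- A linear map `W → U ⊗ W` all of whose left contractions are scalars is `w ↦ y ⊗ w`. -/
theorem exists_eq_tmul_of_cL (hf : f.Nondegenerate) (hh : h.Nondegenerate) (ξ : W →ₗ[F] U ⊗[F] W)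
    (hξ : ∀ y, ∃ c : F, ∀ w, cL f W y (ξ w) = c • w) : ∃ y, ∀ w, ξ w = y ⊗ₜ w := by
  rcases subsingleton_or_nontrivial W with hW | hW
  · exact ⟨0, fun w => by rw [Subsingleton.elim w 0]; simp⟩
  obtain ⟨w₀, hw₀⟩ := exists_ne (0 : W)
  obtain ⟨w₁, hw₁⟩ := exists_apply_eq_one hh hw₀
  refine ⟨cR h U w₁ (ξ w₀), fun w => ?_⟩
  rw [← sub_eq_zero]
  refine eq_zero_of_cL hf hh fun y => ?_
  obtain ⟨c, hc⟩ := hξ y
  rw [map_sub, cL_tmul, ← cL_cR, hc, hc]
  simp [hw₁]

/-- A linear map `U → U ⊗ W` all of whose right contractions are scalars is `x ↦ x ⊗ v`. -/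
theorem exists_eq_tmul_of_cR (hf : f.Nondegenerate) (hh : h.Nondegenerate) (ξ : U →ₗ[F] U ⊗[F] W)
    (hξ : ∀ w, ∃ c : F, ∀ x, cR h U w (ξ x) = c • x) : ∃ v, ∀ x, ξ x = x ⊗ₜ v := by
  rcases subsingleton_or_nontrivial U with hU | hU
  · exact ⟨0, fun w => by rw [Subsingleton.elim w 0]; simp⟩
  obtain ⟨x₀, hx₀⟩ := exists_ne (0 : U)
  obtain ⟨x₁, hx₁⟩ := exists_apply_eq_one hf hx₀
  refine ⟨cL f W x₁ (ξ x₀), fun x => ?_⟩
  rw [← sub_eq_zero]
  refine eq_zero_of_cR hf hh fun w => ?_
  obtain ⟨c, hc⟩ := hξ w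
  rw [map_sub, cR_tmul, cL_cR, hc, hc]
  simp [hx₁]

omit [FiniteDimensional F U] [FiniteDimensional F W] in
/-- An endomorphism commuting with all `ro y y ⊗ 1` is `1 ⊗ β`. -/
theorem exists_eq_lTensor (hf : f.Nondegenerate) (g : End F (U ⊗[F] W))
    (hg : ∀ y, g * (ro f y y).rTensor W = (ro f y y).rTensor W * g) :
    ∃ β : End F W, g = β.lTensor U := by
  rcases subsingleton_or_nontrivial U with hU | hU
  · exact ⟨0, TensorProduct.ext' fun x w => by rw [Subsingleton.elim x 0]; simp⟩
  let C : Submodule F (End F U) :=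
    { carrier := {γ | g * γ.rTensor W = γ.rTensor W * g}
      add_mem' := fun {a b} ha hb => by
        simp only [Set.mem_ofPred_eq, LinearMap.rTensor_add, mul_add, add_mul] at ha hb ⊢
        rw [ha, hb]
      zero_mem' := by simp
      smul_mem' := fun c a ha => by
        simp only [Set.mem_ofPred_eq, LinearMap.rTensor_smul, mul_smul_comm, smul_mul_assoc] at ha ⊢
        rw [ha] }
  have hC := ro_mem_of_mul hf C (fun a ha b hb => by
    change g * _ = _ * g at ha hb ⊢
    rw [LinearMap.rTensor_mul, ← mul_assoc, ha, mul_assoc, hb, mul_assoc]) hg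
  obtain ⟨x₀, hx₀⟩ := exists_ne (0 : U)
  obtain ⟨x₁, hx₁⟩ := exists_apply_eq_one hf hx₀
  refine ⟨cL f W x₁ ∘ₗ g ∘ₗ TensorProduct.mk F U W x₀, TensorProduct.ext' fun x w => ?_⟩
  have := LinearMap.congr_fun (show g * _ = _ * g from hC x x₁) (x₀ ⊗ₜ w)
  simpa [rTensor_ro, hx₁] using this

omit [FiniteDimensional F U] [FiniteDimensional F W] in
/-- An endomorphism commuting with all `1 ⊗ ro w w` is `α ⊗ 1`. -/
theorem exists_eq_rTensor (hh : h.Nondegenerate) (g : End F (U ⊗[F] W))
    (hg : ∀ w, g * (ro h w w).lTensor U = (ro h w w).lTensor U * g) :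
    ∃ α : End F U, g = α.rTensor W := by
  rcases subsingleton_or_nontrivial W with hU | hU
  · exact ⟨0, TensorProduct.ext' fun x w => by rw [Subsingleton.elim w 0]; simp⟩
  let C : Submodule F (End F W) :=
    { carrier := {γ | g * γ.lTensor U = γ.lTensor U * g}
      add_mem' := fun {a b} ha hb => by
        simp only [Set.mem_ofPred_eq, LinearMap.lTensor_add, mul_add, add_mul] at ha hb ⊢
        rw [ha, hb]
      zero_mem' := by simp
      smul_mem' := fun c a ha => by
        simp only [Set.mem_ofPred_eq, LinearMap.lTensor_smul, mul_smul_comm, smul_mul_assoc] at ha ⊢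
        rw [ha] }
  have hC := ro_mem_of_mul hh C (fun a ha b hb => by
    change g * _ = _ * g at ha hb ⊢
    rw [LinearMap.lTensor_mul, ← mul_assoc, ha, mul_assoc, hb, mul_assoc]) hg
  obtain ⟨x₀, hx₀⟩ := exists_ne (0 : W)
  obtain ⟨x₁, hx₁⟩ := exists_apply_eq_one hh hx₀
  refine ⟨cR h U x₁ ∘ₗ g ∘ₗ (TensorProduct.mk F U W).flip x₀, TensorProduct.ext' fun x w => ?_⟩
  have := LinearMap.congr_fun (show g * _ = _ * g from hC w x₁) (x ⊗ₜ x₀)
  simpa [lTensor_ro, hx₁] using this

omit [FiniteDimensional F U] [FiniteDimensional F W] in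
/-- An injective endomorphism normalising the operators `ro u u ⊗ 1` is a tensor product. -/
theorem exists_eq_map (hf : f.Nondegenerate) (hh : h.Nondegenerate) [Nontrivial U] [Nontrivial W]
    (g : End F (U ⊗[F] W)) (hinj : Function.Injective g)
    (hg : ∀ u, ∃ (y : U) (c : F), g * (ro f u u).rTensor W = c • (ro f y y).rTensor W * g) :
    ∃ (α : End F U) (β : End F W), g = TensorProduct.map α β := by
  let C : Submodule F (End F U) :=
    { carrier := {γ | ∃ γ' : End F U, g * γ.rTensor W = γ'.rTensor W * g}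
      add_mem' := fun {a b} ⟨a', ha⟩ ⟨b', hb⟩ => ⟨a' + b', by
        simp only [LinearMap.rTensor_add, mul_add, add_mul, ha, hb]⟩
      zero_mem' := ⟨0, by simp⟩
      smul_mem' := fun c a ⟨a', ha⟩ => ⟨c • a', by
        simp only [LinearMap.rTensor_smul, mul_smul_comm, smul_mul_assoc, ha]⟩ }
  have hC := ro_mem_of_mul hf C (fun a ⟨a', ha⟩ b ⟨b', hb⟩ => ⟨a' * b', by
    rw [LinearMap.rTensor_mul, ← mul_assoc, ha, mul_assoc, hb, LinearMap.rTensor_mul, mul_assoc]⟩)
    (fun u => by
      obtain ⟨y, c, e⟩ := hg u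
      exact ⟨c • ro f y y, by rw [e, LinearMap.rTensor_smul]⟩)
  obtain ⟨u, hu⟩ := exists_ne (0 : U)
  obtain ⟨u₁, hu₁⟩ := exists_apply_eq_one hf hu
  obtain ⟨u₂, hu₂⟩ := exists_apply_eq_one' hf hu
  obtain ⟨y, c, e⟩ := hg u
  let β : End F W := c • cL f W y ∘ₗ g ∘ₗ TensorProduct.mk F U W u₂
  have hβ : ∀ w, g (u ⊗ₜ w) = y ⊗ₜ β w := fun w => by
    have := LinearMap.congr_fun e (u₂ ⊗ₜ w)
    simpa [rTensor_ro, hu₂, β] using this
  obtain ⟨w₀, hw₀⟩ := exists_ne (0 : W)
  obtain ⟨w₁, hw₁⟩ := exists_apply_eq_one hh (u := β w₀) fun h0 => tmul_ne_zero hf hu hw₀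
    (hinj (by rw [hβ, h0, tmul_zero, map_zero]))
  refine ⟨cR h U w₁ ∘ₗ g ∘ₗ (TensorProduct.mk F U W).flip w₀, β, TensorProduct.ext' fun x w => ?_⟩
  obtain ⟨a, ha⟩ := hC x u₁
  have h1 : ∀ w, g (x ⊗ₜ w) = a y ⊗ₜ β w := fun w => by
    have := LinearMap.congr_fun ha (u ⊗ₜ w)
    simpa [hu₁, hβ] using this
  simp [h1, hw₁]

omit [FiniteDimensional F U] in
theorem finrank_range_lTensor (β : End F W) :
    finrank F (LinearMap.range (β.lTensor U)) = finrank F U * finrank F (LinearMap.range β) := by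
  have : LinearMap.range (β.lTensor U) =
      LinearMap.range ((LinearMap.range β).subtype.lTensor U) := by
    conv_lhs => rw [← LinearMap.subtype_comp_codRestrict β (LinearMap.range β)
      (LinearMap.mem_range_self β), LinearMap.lTensor_comp]
    exact LinearMap.range_comp_of_range_eq_top _ (LinearMap.range_eq_top.2
      (LinearMap.lTensor_surjective U β.surjective_rangeRestrict))
  rw [this, LinearMap.finrank_range_of_inj
    (Module.Flat.lTensor_preserves_injective_linearMap _ (Submodule.injective_subtype _)),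
    Module.finrank_tensorProduct]

end Basic

end Cfsg.Agent.H27
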