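import Cfsg.Agent.H27.TenOrth

/-!
# Overgroups of `Sp(U) ⊗ O(W)` in `Sp(U ⊗ W)`: the centre of the unipotent radical of `u ⊗ W`
-/

set_option autoImplicit false

namespace Cfsg.Agent.H27

open Module TensorProduct QuadraticMap H30 H36

section InG

variable {A : Type*} [Ring A] {X : Subgroup Aˣ}

theorem inG_inv {a b : A} (ha : InG X a) (h : a * b = 1) : InG X b := by
  obtain ⟨g, hg, rfl⟩ := ha
  exact ⟨g⁻¹, X.inv_mem hg, Units.inv_eq_of_mul_eq_one_right h⟩

theorem inG_exists_inv {a : A} (ha : InG X a) : ∃ b, InG X b ∧ a * b = 1 ∧ b * a = 1 := by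
  obtain ⟨g, hg, rfl⟩ := ha
  exact ⟨_, ⟨g⁻¹, X.inv_mem hg, rfl⟩, g.mul_inv, g.inv_mul⟩

theorem inG_of_mul_eq {a b c : A} (ha : InG X a) (hc : InG X c) (h : b * a = c) : InG X b := by
  obtain ⟨a', ha', h1, -⟩ := inG_exists_inv ha
  have := hc.mul ha'
  rwa [← h, mul_assoc, h1, mul_one] at this

theorem inG_conj {g g' n : A} (hg : InG X g) (hgg' : g * g' = 1) (hn : InG X (1 + n)) :
    InG X (1 + g * n * g') := by
  have := (hg.mul hn).mul (inG_inv hg hgg')
  rwa [mul_add, add_mul, mul_one, hgg'] at this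

/-- The commutator of two elements of a unipotent radical of class two. -/
theorem inG_comm {n n' : A} (hn : InG X (1 + n)) (hn' : InG X (1 + n')) (h1 : n * n' * n = 0)
    (h2 : n * n' * n' = 0) (h3 : n' * n * n = 0) (h4 : n' * n * n' = 0) :
    InG X (1 + (n * n' - n' * n)) := by
  refine inG_of_mul_eq (hn'.mul hn) (hn.mul hn') ?_
  linear_combination (norm := noncomm_ring) h1 + h2 * (1 + n) - h3 - h4 * (1 + n)

end InG

section RootTop

variable {F V : Type*} [Field F] [AddCommGroup V] [Module F V] [FiniteDimensional F V]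
  {B : LinearMap.BilinForm F V}

/-- If a non-degenerate subspace `P` consists of roots and the projections of roots span `P^⊥`,
then every vector is a root. -/
theorem eq_top_of_nondeg_root (hB : B.Nondegenerate) {hA : B.IsAlt} (h2 : (2 : F) ≠ 0)
    {K : Subgroup (isomGroup B)} {P : Submodule F V} (hP : Disjoint P (B.orthogonal P))
    (hP0 : P ≠ ⊥) (hPK : ∀ w ∈ P, w ∈ rootSet hA K)
    (hsp : B.orthogonal P ≤ Submodule.span F
      {r | r ∈ B.orthogonal P ∧ ∃ p ∈ P, p ≠ 0 ∧ p + r ∈ rootSet hA K}) : K = ⊤ := by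
  obtain ⟨p₀, hp₀, hp₀0⟩ := Submodule.exists_mem_ne_zero_of_ne_bot hP0
  obtain ⟨p₁, hp₁, hp₀₁⟩ : ∃ z ∈ P, B p₀ z ≠ 0 := by
    by_contra! H
    exact hp₀0 (disjoint_orthogonal_iff.1 hP p₀ hp₀ fun v hv => hA.isRefl _ _ (H v hv))
  have hadd : ∀ p ∈ P, ∀ p' ∈ P, ∀ r ∈ B.orthogonal P, ∀ r' ∈ B.orthogonal P,
      B (p + r) (p' + r') = B p p' + B r r' := fun p hp p' hp' r hr r' hr' => by
    have h1 : B p r' = 0 := hr' p hp
    have h3 : B r p' = 0 := hA.isRefl _ _ (hr p' hp')
    simp [h1, h3]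
  have hE : ∀ r ∈ B.orthogonal P, ∀ p ∈ P, p ≠ 0 → p + r ∈ rootSet hA K := by
    intro r hr
    have := Submodule.span_induction (p := fun r _ => r ∈ B.orthogonal P ∧
      ∀ p ∈ P, p ≠ 0 → p + r ∈ rootSet hA K) ?_ ?_ ?_ ?_ (hsp hr)
    · exact this.2
    · rintro r ⟨hr, p, hp, hp0, h⟩
      exact ⟨hr, fun p' hp' hp0' => replace_mem_rootSet hP hPK hp hp0 hp' hp0' hr h⟩
    · exact ⟨Submodule.zero_mem _, fun p hp _ => by simpa using hPK p hp⟩
    · rintro r r' - - ⟨hr, h⟩ ⟨hr', h'⟩
      refine ⟨Submodule.add_mem _ hr hr', fun p hp hp0 => ?_⟩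
      have key : ∀ c : F, c ≠ 0 → c * B p₀ p₁ + B r r' ≠ 0 → p + (r + r') ∈ rootSet hA K := by
        intro c hc hne
        have hc1 : B p₀ (c • p₁) ≠ 0 := by simp [hc, hp₀₁]
        have h1 := add_mem_rootSet (h p₀ hp₀ hp₀0) (h' (c • p₁) (P.smul_mem c hp₁)
          (fun h0 => hc1 (by simp [h0])))
          (by rw [hadd _ hp₀ _ (P.smul_mem c hp₁) _ hr _ hr']; simpa using hne)
        refine replace_mem_rootSet hP hPK (P.add_mem hp₀ (P.smul_mem c hp₁)) (fun h0 => hc1 ?_) hp
          hp0 (Submodule.add_mem _ hr hr') (by convert h1 using 1; abel)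
        have := congrArg (B p₀) h0
        rwa [map_add, hA.self_eq_zero, zero_add, map_zero] at this
      by_cases h1 : 1 * B p₀ p₁ + B r r' = 0
      · exact key (-1) (by simp) fun h3 => mul_ne_zero h2 hp₀₁ (by linear_combination h1 - h3)
      · exact key 1 one_ne_zero h1
    · rintro c r - ⟨hr, h⟩
      refine ⟨Submodule.smul_mem _ c hr, fun p hp hp0 => ?_⟩
      by_cases hc : c = 0
      · simpa [hc] using hPK p hp
      · have := smul_mem_rootSet (h (c⁻¹ • p) (P.smul_mem _ hp) (by simp [hc, hp0])) c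
        rwa [smul_add, smul_inv_smul₀ hc] at this
  have hc : IsCompl P (B.orthogonal P) :=
    LinearMap.BilinForm.isCompl_orthogonal_of_restrict_nondegenerate hA.isRefl
      (B.nondegenerate_restrict_of_disjoint_orthogonal hA.isRefl hP)
  refine eq_top_of_rootSet hB (hA := hA) fun v => ?_
  obtain ⟨p, r, rfl⟩ := exists_add_of_isCompl hc v
  by_cases hp : (p : V) = 0
  · by_cases hr : (r : V) = 0
    · simpa [hp, hr] using zero_mem_rootSet hA K
    obtain ⟨y, hy⟩ := exists_apply_eq_one' hB hr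
    obtain ⟨p', r', rfl⟩ := exists_add_of_isCompl hc y
    have h1 : B r' r = 1 := by simpa [r.2 p' p'.2] using hy
    have := add_mem_rootSet (hE _ r'.2 p₀ hp₀ hp₀0) (hE _ (Submodule.sub_mem _ r.2 r'.2) (-p₀)
      (P.neg_mem hp₀) (by simpa using hp₀0)) (by
        rw [hadd _ hp₀ _ (P.neg_mem hp₀) _ r'.2 _ (Submodule.sub_mem _ r.2 r'.2)]
        simp [hA.self_eq_zero, h1])
    convert this using 1
    rw [hp]
    abel
  · exact hE _ r.2 _ p.2 hp

end RootTop

section Setting

variable {F U W : Type*} [Field F] [AddCommGroup U] [Module F U] [AddCommGroup W] [Module F W]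

/-- Isometries as units of the endomorphism ring. -/
def isoU {V : Type*} [AddCommGroup V] [Module F V] (B : LinearMap.BilinForm F V) :
    isomGroup B →* (End F V)ˣ where
  toFun g := ⟨g.1.toLinearMap, g.1.symm.toLinearMap, LinearMap.ext g.1.apply_symm_apply,
    LinearMap.ext g.1.symm_apply_apply⟩
  map_one' := rfl
  map_mul' _ _ := rfl

theorem isoU_apply {V : Type*} [AddCommGroup V] [Module F V] {B : LinearMap.BilinForm F V}
    (g : isomGroup B) (v : V) : (isoU B g : End F V) v = g.1 v := rfl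

theorem isoU_injective {V : Type*} [AddCommGroup V] [Module F V] (B : LinearMap.BilinForm F V) :
    Function.Injective (isoU B) := fun _ _ h =>
  Subtype.ext (LinearEquiv.ext fun v => LinearMap.congr_fun (congrArg Units.val h) v)

theorem polar_symm_left {Q : QuadraticForm F W} (ρ : O Q) (x y : W) :
    polar Q (ρ.1.symm x) y = polar Q x (ρ.1 y) := by
  rw [← O_polar ρ, LinearEquiv.apply_symm_apply]

/-- A symplectic space and an orthogonal space of dimension at least three in odd
characteristic. -/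
structure TS (f : LinearMap.BilinForm F U) (Q : QuadraticForm F W) : Prop where
  alt : f.IsAlt
  nd : f.Nondegenerate
  qnd : (polarBilin Q).Nondegenerate
  two : (2 : F) ≠ 0
  nt : Nontrivial U
  three : 3 ≤ finrank F W

/-- The nilpotent part of `t_u ⊗ 1`. -/
def tN (f : LinearMap.BilinForm F U) (W : Type*) [AddCommGroup W] [Module F W] (u : U) :
    End F (U ⊗[F] W) := (ro f u u).rTensor W

/-- A group of isometries of `U ⊗ W` containing `Sp(U) ⊗ O(W)`. -/
structure TG (f : LinearMap.BilinForm F U) (Q : QuadraticForm F W)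
    (X : Subgroup (End F (U ⊗[F] W))ˣ) : Prop where
  iso : ∀ g, InG X g → ∀ p q, tB f (polarBilin Q) (g p) (g q) = tB f (polarBilin Q) p q
  left : ∀ α : End F U, (∀ x y, f (α x) (α y) = f x y) → InG X (α.rTensor W)
  right : ∀ ρ : O Q, InG X (ρ.1.toLinearMap.lTensor U)

/-- The elements of `X` in the centre of the unipotent radical of the stabiliser of `u ⊗ W` are
the `t_u ⊗ 1`. -/
def TM (f : LinearMap.BilinForm F U) (X : Subgroup (End F (U ⊗[F] W))ˣ) : Prop :=
  ∀ u : U, u ≠ 0 → ∀ n, InG X (1 + n) → (∀ p, ∃ w, n p = u ⊗ₜ w) → ∃ c : F, n = c • tN f W u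

variable {f : LinearMap.BilinForm F U} {Q : QuadraticForm F W} {X : Subgroup (End F (U ⊗[F] W))ˣ}

theorem tN_apply (u : U) (p : U ⊗[F] W) : tN f W u p = u ⊗ₜ cL f W u p := rTensor_ro u u p

theorem TS.flip (hS : TS f Q) (p q : U ⊗[F] W) :
    tB f (polarBilin Q) p q = -tB f (polarBilin Q) q p := by
  rw [tB_flip (ε := -1) (fun x y w w' => by
    rw [← hS.alt.neg_eq, polarBilin_apply_apply, polarBilin_apply_apply, polar_comm]; ring),
    neg_one_mul]

theorem TS.isAlt (hS : TS f Q) : (tB f (polarBilin Q)).IsAlt := fun p =>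
  (mul_eq_zero.1 (by linear_combination hS.flip p p : 2 * tB f (polarBilin Q) p p = 0)).resolve_left
    hS.two

theorem TS.nontrivial (hS : TS f Q) : Nontrivial W :=
  Module.nontrivial_of_finrank_pos (R := F) (by have := hS.three; omega)

theorem TS.exists_pair (hS : TS f Q) {u : U} (hu : u ≠ 0) : ∃ y, f y u = 1 ∧ f u y = -1 := by
  obtain ⟨y, hy⟩ := exists_apply_eq_one' hS.nd hu
  exact ⟨y, hy, by rw [← hS.alt.neg_eq, hy]⟩

theorem TS.tN_sq (hS : TS f Q) (u : U) : tN f W u * tN f W u = 0 :=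
  LinearMap.ext fun p => by simp [tN_apply, hS.alt.self_eq_zero]

theorem TS.tN_ne_zero (hS : TS f Q) {u : U} (hu : u ≠ 0) : tN f W u ≠ 0 := fun h => by
  obtain ⟨y, hy, -⟩ := hS.exists_pair hu
  have := hS.nontrivial
  obtain ⟨w, hw⟩ := exists_ne (0 : W)
  exact tmul_ne_zero hS.nd hu hw (by simpa [tN_apply, hy] using LinearMap.congr_fun h (y ⊗ₜ w))

theorem TG.tN_mem (hS : TS f Q) (hG : TG f Q X) (u : U) (c : F) : InG X (1 + c • tN f W u) := by
  have := hG.left (1 + c • ro f u u) fun x y => by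
    simp only [LinearMap.add_apply, End.one_apply, LinearMap.smul_apply, ro_apply, map_add,
      map_smul, hS.alt.self_eq_zero, smul_eq_mul, ← hS.alt.neg_eq y u]
    ring
  rwa [LinearMap.rTensor_add, LinearMap.rTensor_smul, End.one_eq_id, LinearMap.rTensor_id] at this

theorem TG.qt (hS : TS f Q) (hG : TG f Q X) (u : U) : QT F X (tN f W u) :=
  ⟨hS.tN_sq u, hG.tN_mem hS u⟩

theorem TG.skew (hG : TG f Q X) {n : End F (U ⊗[F] W)} (hn : InG X (1 + n)) (p q : U ⊗[F] W) :
    tB f (polarBilin Q) (n p) q + tB f (polarBilin Q) p (n q) +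
      tB f (polarBilin Q) (n p) (n q) = 0 := by
  have := hG.iso _ hn p q
  simp only [LinearMap.add_apply, End.one_apply, map_add] at this
  linear_combination this

variable [FiniteDimensional F U] [FiniteDimensional F W]

/-- An element with `[V, g] ≤ u ⊗ W` fixes `(u ⊗ W)^⊥` pointwise. -/
theorem TG.apply_eq_zero (hS : TS f Q) (hG : TG f Q X) {n : End F (U ⊗[F] W)} (hn : InG X (1 + n))
    {u : U} (hr : ∀ p, ∃ w, n p = u ⊗ₜ w) {p : U ⊗[F] W} (hp : cL f W u p = 0) : n p = 0 := by
  refine (tB_nondegenerate hS.nd hS.qnd).1 _ fun q => ?_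
  have := hG.skew hn p q
  obtain ⟨w, hw⟩ := hr p
  obtain ⟨w', hw'⟩ := hr q
  rw [hw', tB_cL, hp, hw] at this
  rw [hw]
  simpa [hS.alt.self_eq_zero] using this

omit [FiniteDimensional F U] [FiniteDimensional F W] in
theorem TS.tmul_add_mem (hS : TS f Q) {K : Subgroup (isomGroup (tB f (polarBilin Q)))}
    (hK : ∀ u z, Q z = 0 → u ⊗ₜ z ∈ rootSet hS.isAlt K) {z z' : W} (h : H30.IsHyp Q z z')
    (x y : U) :
    x ⊗ₜ z + y ⊗ₜ z' ∈ rootSet hS.isAlt K := by
  by_cases hx : x = 0
  · simpa [hx] using hK y z' h.right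
  by_cases hy : y = 0
  · simpa [hy] using hK x z h.left
  by_cases hxy : f x y = 0
  · obtain ⟨e, he⟩ := exists_apply_eq_one' hS.nd hy
    have h1 := add_mem_rootSet (hK e z h.left) (hK y z' h.right) (by simp [he, h.pol])
    have := add_mem_rootSet h1 (hK (x - e) z h.left) (by
      simp [h.polar_left, h.pol', ← hS.alt.neg_eq x y, ← hS.alt.neg_eq e y, hxy, he])
    convert this using 1
    rw [sub_tmul]
    abel
  · exact add_mem_rootSet (hK x z h.left) (hK y z' h.right) (by simp [hxy, h.pol])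

/-- If all `u ⊗ z` with `z` singular are roots then the group is everything. -/
theorem TS.eq_top_of_root [Finite F] (hS : TS f Q)
    {K : Subgroup (isomGroup (tB f (polarBilin Q)))}
    (hK : ∀ u z, Q z = 0 → u ⊗ₜ z ∈ rootSet hS.isAlt K) : K = ⊤ := by
  obtain ⟨z, z', h⟩ := exists_isHyp_of_three_le hS.qnd hS.three
  let P : Submodule F (U ⊗[F] W) := LinearMap.range ((TensorProduct.mk F U W).flip z) ⊔
    LinearMap.range ((TensorProduct.mk F U W).flip z')
  have hP : ∀ p, p ∈ P ↔ ∃ x y : U, x ⊗ₜ z + y ⊗ₜ z' = p := fun p => by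
    simp [P, Submodule.mem_sup]
  have hP' : ∀ p, p ∈ (tB f (polarBilin Q)).orthogonal P ↔
      cR (polarBilin Q) U z p = 0 ∧ cR (polarBilin Q) U z' p = 0 := fun p => by
    constructor
    · intro hp
      constructor
      · refine hS.nd.1 _ fun y => ?_
        rw [← tB_cR, hS.flip, hp _ ((hP _).2 ⟨y, 0, by simp⟩), neg_zero]
      · refine hS.nd.1 _ fun y => ?_
        rw [← tB_cR, hS.flip, hp _ ((hP _).2 ⟨0, y, by simp⟩), neg_zero]
    · rintro ⟨h1, h2⟩ q hq
      obtain ⟨x, y, rfl⟩ := (hP q).1 hq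
      change tB f _ _ _ = 0
      rw [hS.flip, map_add, tB_cR, tB_cR, h1, h2]
      simp
  have := hS.nt
  obtain ⟨u, hu⟩ := exists_ne (0 : U)
  refine eq_top_of_nondeg_root (P := P) (tB_nondegenerate hS.nd hS.qnd) (hA := hS.isAlt) hS.two
    ?_ ?_ ?_ ?_
  · rw [Submodule.disjoint_def]
    intro p hp hp'
    obtain ⟨x, y, rfl⟩ := (hP p).1 hp
    obtain ⟨h1, h2⟩ := (hP' _).1 hp'
    simp only [map_add, cR_tmul, polarBilin_apply_apply, h.polar_left, h.polar_right, h.pol, h.pol',
      zero_smul, one_smul, zero_add, add_zero] at h1 h2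
    simp [h1, h2]
  · exact fun h0 => tmul_ne_zero hS.nd hu h.left_ne_zero
      ((Submodule.mem_bot F).1 (h0 ▸ (hP _).2 ⟨u, 0, by simp⟩))
  · intro p hp
    obtain ⟨x, y, rfl⟩ := (hP p).1 hp
    exact hS.tmul_add_mem hK h x y
  · intro r hr
    obtain ⟨h1, h2⟩ := (hP' _).1 hr
    have key : ∀ p, p - cR (polarBilin Q) U z' p ⊗ₜ z - cR (polarBilin Q) U z p ⊗ₜ z' ∈
        Submodule.span F {r | r ∈ (tB f (polarBilin Q)).orthogonal P ∧
          ∃ p ∈ P, p ≠ 0 ∧ p + r ∈ rootSet hS.isAlt K} := fun p => by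
      induction p using TensorProduct.induction_on with
      | zero => simp
      | add a b ha hb =>
        convert Submodule.add_mem _ ha hb using 1
        simp only [map_add, add_tmul]
        abel
      | tmul x w =>
        by_cases hx : x = 0
        · simp [hx]
        have e : x ⊗ₜ[F] w - cR (polarBilin Q) U z' (x ⊗ₜ w) ⊗ₜ z -
            cR (polarBilin Q) U z (x ⊗ₜ w) ⊗ₜ z' = x ⊗ₜ hproj Q z z' w := by
          simp [hproj, tmul_sub, smul_tmul]
        have hw := h.hproj_mem w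
        rw [e]
        refine Submodule.subset_span ⟨(hP' _).2 (by simp [hw.1, hw.2]),
          (-Q (hproj Q z z' w) • x) ⊗ₜ z + x ⊗ₜ z', (hP _).2 ⟨_, _, rfl⟩, fun h0 => hx ?_, ?_⟩
        · simpa [h.polar_left, h.pol'] using congrArg (cR (polarBilin Q) U z) h0
        · have := hK x ((-Q (hproj Q z z' w)) • z + (1 : F) • z' + hproj Q z z' w)
            (by rw [h.Q_comb _ _ hw]; ring)
          convert this using 1
          rw [tmul_add, tmul_add, one_smul, smul_tmul]
    simpa [h1, h2] using key r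

/-- The self-adjoint operators `D` with `1 + u u^* ⊗ D ∈ X`. -/
def mSp (hS : TS f Q) (X : Subgroup (End F (U ⊗[F] W))ˣ) : Submodule F (End F W) where
  carrier := {D | (∀ x y, polar Q (D x) y = polar Q x (D y)) ∧
    ∀ u, InG X (1 + tN f W u * D.lTensor U)}
  add_mem' {D D'} hD hD' := ⟨fun x y => by simp [polar_add_left, polar_add_right, hD.1, hD'.1],
    fun u => by
      convert (hD.2 u).mul (hD'.2 u) using 1
      ext x w
      simp [tN_apply, hS.alt.self_eq_zero, tmul_add, add_comm, add_left_comm]⟩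
  zero_mem' := ⟨by simp, fun u => by simpa using inG_one X⟩
  smul_mem' c D hD := ⟨fun x y => by simp [hD.1], fun u => by
      have h1 : InG X (1 - tN f W (((c - 1) / 2) • u) * D.lTensor U) :=
        inG_inv (hD.2 (((c - 1) / 2) • u)) (by
          ext x w
          simp [tN_apply, hS.alt.self_eq_zero])
      convert (hD.2 (((c + 1) / 2) • u)).mul h1 using 1
      ext x w
      have h2 := hS.two
      simp only [AlgebraTensorModule.curry_apply, curry_apply, LinearMap.coe_restrictScalars,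
        LinearMap.add_apply, End.one_apply, End.mul_apply, LinearMap.lTensor_tmul,
        LinearMap.smul_apply, tN_apply, cL_tmul, map_smul, LinearMap.sub_apply, map_sub,
        hS.alt.self_eq_zero, ← smul_tmul', tmul_smul, zero_smul, tmul_zero]
      match_scalars <;> field_simp
      ring⟩

omit [FiniteDimensional F U] [FiniteDimensional F W] in
theorem mSp_conj (hS : TS f Q) (hG : TG f Q X) {D : End F W} (hD : D ∈ mSp hS X) (ρ : O Q) :
    ρ.1.toLinearMap * D * (ρ⁻¹).1.toLinearMap ∈ mSp hS X := by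
  refine ⟨fun x y => ?_, fun u => ?_⟩
  · simp only [End.mul_apply, LinearEquiv.coe_coe]
    rw [O_polar_inv, hD.1, ← O_polar ρ, O_apply_inv]
  · convert inG_conj (hG.right ρ) (g' := (ρ⁻¹).1.toLinearMap.lTensor U) (by
      ext x w
      simp) (hD.2 u) using 2
    ext x w
    simp [tN_apply]

omit [FiniteDimensional F U] in
theorem ro_mem_mSp (hS : TS f Q) (hG : TG f Q X)
    (hex : (∃ t : F, t ≠ 0 ∧ t ≠ -1 ∧ t ≠ -2) ∨
      (4 ≤ finrank F W ∧ ∀ t : F, t = 0 ∨ t = 1 ∨ t = -1))
    {D : End F W} (hD : D ∈ mSp hS X) {z w : W} (hz0 : z ≠ 0) (hz : Q z = 0) (hw : Q w ≠ 0)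
    (hzw : polar Q z w = 0) (hDw : ∀ a : F, D w ≠ a • w) :
    ∃ z', z' ≠ 0 ∧ Q z' = 0 ∧ ro (polarBilin Q) z' z' ∈ mSp hS X := by
  have h2 := hS.two
  let N : Submodule F W :=
    { carrier := {v | polar Q v w = 0 ∧ ro (polarBilin Q) w v + ro (polarBilin Q) v w ∈ mSp hS X}
      add_mem' := fun {a b} ha hb => ⟨by simp [polar_add_left, ha.1, hb.1], by
        convert Submodule.add_mem _ ha.2 hb.2 using 1
        ext x
        simp only [LinearMap.add_apply, ro_apply, map_add, add_smul, smul_add]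
        abel⟩
      zero_mem' := ⟨by simp, by
        convert Submodule.zero_mem _
        ext x
        simp⟩
      smul_mem' := fun c a ha => ⟨by simp [ha.1], by
        convert Submodule.smul_mem _ c ha.2 using 1
        ext x
        simp only [LinearMap.add_apply, ro_apply, map_smul, LinearMap.smul_apply, smul_add,
          smul_smul, smul_eq_mul, mul_comm]⟩ }
  have hconj : ∀ (a b : W) (ρ : O Q), ro (polarBilin Q) a b + ro (polarBilin Q) b a ∈ mSp hS X →
      ro (polarBilin Q) (ρ.1 a) (ρ.1 b) + ro (polarBilin Q) (ρ.1 b) (ρ.1 a) ∈ mSp hS X := by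
    intro a b ρ h
    convert mSp_conj hS hG h ρ using 1
    ext x
    simp [polar_symm_left]
  set v := D w - ((2 * Q w)⁻¹ * polar Q (D w) w) • w with hv
  have hvw : polar Q v w = 0 := by
    rw [hv, polar_sub_left, polar_smul_left', polar_self']
    field_simp
    ring
  have hvN : v ∈ N := by
    refine ⟨hvw, ?_⟩
    convert Submodule.smul_mem _ (Q w) (Submodule.sub_mem _ hD (mSp_conj hS hG hD (refl Q w)))
      using 1
    ext x
    simp only [LinearMap.add_apply, ro_apply, polarBilin_apply_apply, hv, refl_inv,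
      LinearMap.smul_apply, LinearMap.sub_apply, End.mul_apply, LinearEquiv.coe_coe, refl_apply,
      map_sub, map_smul, smul_eq_mul, hD.1 x w]
    match_scalars <;> field_simp <;> ring
  obtain ⟨z', hz'N, hz'0, hz'⟩ := exists_singular_mem_of_closed hS.qnd h2 hex hz0 hz hzw N hvN
    (fun h0 => hDw _ (sub_eq_zero.1 h0)) hvw fun x hx hQx hvx => by
      have h1 : (refl Q x).1 v ∈ N := ⟨by
        rw [refl_apply, polar_sub_left, polar_smul_left', hx, hvw, mul_zero, sub_zero], by
        have := hconj w v (refl Q x) hvN.2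
        rwa [refl_apply_of_orth (by rwa [polar_comm])] at this⟩
      rw [refl_apply] at h1
      simpa [N.smul_mem_iff (mul_ne_zero (inv_ne_zero hQx) hvx)] using N.sub_mem hvN h1
  refine ⟨z', hz'0, hz', ?_⟩
  have h1 := hconj w z' (refl Q (w - -(w + z'))) hz'N.2
  have h3 : Q (w + z') = Q w := by rw [Q_add, hz', polar_comm, hz'N.1, add_zero, add_zero]
  rw [refl_sub_apply (by rw [QuadraticMap.map_neg, h3]) (by
      rw [Q_sub, QuadraticMap.map_neg, h3, polar_neg_right, polar_add_right, polar_self',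
        polar_comm, hz'N.1]
      exact fun h0 => mul_ne_zero (mul_ne_zero h2 h2) hw (by linear_combination h0)),
    refl_apply_of_orth (by
      rw [polar_sub_right, polar_neg_right, polar_add_right, hz'N.1, polar_self', hz']; simp)] at h1
  convert Submodule.smul_mem _ (-(2 : F)⁻¹) (Submodule.add_mem _ h1 hz'N.2) using 1
  ext x
  simp only [ro_apply, LinearMap.smul_apply, LinearMap.add_apply, map_neg, map_add]
  match_scalars <;> field_simp <;> ring

/-- The key property `TM` holds for every proper overgroup. -/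
theorem TG.tm [Finite F] (hS : TS f Q) (hG : TG f Q X)
    (hex : (∃ t : F, t ≠ 0 ∧ t ≠ -1 ∧ t ≠ -2) ∨
      (4 ≤ finrank F W ∧ ∀ t : F, t = 0 ∨ t = 1 ∨ t = -1))
    (hX : X.comap (isoU (tB f (polarBilin Q))) ≠ ⊤) : TM f X := by
  intro u hu n hn hr
  obtain ⟨y, hy, hy'⟩ := hS.exists_pair hu
  let D : End F W := -cL f W y ∘ₗ n ∘ₗ TensorProduct.mk F U W y
  have hD : ∀ w, n (y ⊗ₜ w) = u ⊗ₜ D w := fun w => by
    obtain ⟨w', hw'⟩ := hr (y ⊗ₜ w)
    simp [D, hw', hy']
  have hnD : n = tN f W u * D.lTensor U := LinearMap.ext fun p => by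
    have := hG.apply_eq_zero hS hn hr (p := p - y ⊗ₜ cL f W u p) (by simp [hy])
    rw [map_sub, sub_eq_zero, hD] at this
    rw [this, End.mul_apply, tN_apply, cL_lTensor]
  have hDM : D ∈ mSp hS X := by
    refine ⟨fun x x' => ?_, fun u' => ?_⟩
    · have := hG.skew hn (y ⊗ₜ x) (y ⊗ₜ x')
      simp only [hD, tB_tmul, hy, hy', hS.alt.self_eq_zero, polarBilin_apply_apply] at this
      linear_combination -this
    · by_cases hu' : u' = 0
      · simpa [hu', tN, show ro f 0 0 = 0 from LinearMap.ext fun x => by simp] using inG_one X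
      obtain ⟨α, hα, hαu⟩ := exists_isom_apply_eq hS.nd hS.alt hu hu'
      convert inG_conj (hG.left α.toLinearMap hα) (g' := α.symm.toLinearMap.rTensor W) (by
        ext x w
        simp) hn using 2
      rw [hnD]
      ext x w
      simp [tN_apply, hαu, ← hα (α.symm x)]
  by_cases h : ∀ z w, z ≠ 0 → Q z = 0 → Q w ≠ 0 → polar Q z w = 0 → ∃ a : F, D w = a • w
  · obtain ⟨a, ha⟩ := exists_eq_smul_of_eigen hS.qnd hS.two hS.three D hDM.1 h
    exact ⟨a, by rw [hnD, ha, LinearMap.lTensor_smul, End.one_eq_id, LinearMap.lTensor_id,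
      ← End.one_eq_id, mul_smul_comm, mul_one]⟩
  push Not at h
  obtain ⟨z, w, hz0, hz, hw, hzw, hDw⟩ := h
  obtain ⟨z', hz0', hz', hM⟩ := ro_mem_mSp hS hG hex hDM hz0 hz hw hzw hDw
  refine absurd (hS.eq_top_of_root fun x z₁ hz₁ => ?_) hX
  by_cases hz₁0 : z₁ = 0
  · simpa [hz₁0] using zero_mem_rootSet hS.isAlt _
  obtain ⟨ρ, hρ⟩ := witt_one hS.qnd hz0' hz₁0 (hz'.trans hz₁.symm)
  intro c
  refine ((Submodule.smul_mem _ c (mSp_conj hS hG hM ρ)).2 x).mem ?_
  ext x' w'
  simp [isoU_apply, coe_isoTv, altTv_apply, tN_apply, hρ, polar_symm_left, smul_smul, mul_comm]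

end Setting

end Cfsg.Agent.H27
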