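import Cfsg.Agent.H27.TenBasic
import Cfsg.Agent.H30.OrthForms

/-!
# Lemmas on quadratic spaces in odd characteristic used for tensor decompositions
-/

set_option autoImplicit false

namespace Cfsg.Agent.H27

open Module QuadraticMap H30

variable {F W : Type*} [Field F] [AddCommGroup W] [Module F W] {Q : QuadraticForm F W}

theorem reflLin_eq_ro (w : W) : reflLin Q w = 1 - (Q w)⁻¹ • ro (polarBilin Q) w w := by
  ext x
  simp [reflLin_apply, smul_smul]

/-- A subspace containing a non-singular vector is spanned by its non-singular vectors. -/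
theorem mem_of_nonsingular_mem (h2 : (2 : F) ≠ 0) (D E : Submodule F W) {w : W} (hw : w ∈ D)
    (hQw : Q w ≠ 0) (hE : ∀ x ∈ D, Q x ≠ 0 → x ∈ E) : D ≤ E := by
  intro z hz
  by_cases hQz : Q z = 0
  · by_cases h1 : Q (z + w) = 0
    · have h3 : Q (z - w) ≠ 0 := fun h3 => by
        rw [Q_add] at h1
        rw [Q_sub] at h3
        exact mul_ne_zero h2 hQw (by linear_combination h1 + h3 - 2 * hQz)
      simpa using E.add_mem (hE _ (D.sub_mem hz hw) h3) (hE _ hw hQw)
    · simpa using E.sub_mem (hE _ (D.add_mem hz hw) h1) (hE _ hw hQw)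
  · exact hE z hz hQz

variable [FiniteDimensional F W]

theorem exists_nonsingular_orth (hQ : (polarBilin Q).Nondegenerate) (h3 : 3 ≤ finrank F W) {z : W}
    (hz : Q z = 0) : ∃ w, Q w ≠ 0 ∧ polar Q z w = 0 := by
  by_cases hz0 : z = 0
  · obtain ⟨w, -, hw⟩ := (nondegOn_top hQ).exists_Q_ne_zero fun h => by
      have := congrArg (fun S : Submodule F W => finrank F S) h
      simp only [finrank_top, finrank_bot] at this
      omega
    exact ⟨w, hw, by simp [hz0]⟩
  obtain ⟨z', h⟩ := exists_isHyp hQ hz hz0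
  obtain ⟨w, hw, hQw⟩ := (h.nondegOn_hperp hQ).exists_Q_ne_zero fun h' => by
    have := h.finrank_hperp
    rw [h', finrank_bot] at this
    omega
  exact ⟨w, hQw, by rw [polar_comm]; exact hw.1⟩

theorem exists_nonsingular (hQ : (polarBilin Q).Nondegenerate) (h3 : 3 ≤ finrank F W) :
    ∃ w, Q w ≠ 0 :=
  (exists_nonsingular_orth hQ h3 (map_zero Q)).imp fun _ h => h.1

theorem ro_mem_of_nonsingular (hQ : (polarBilin Q).Nondegenerate) (h2 : (2 : F) ≠ 0)
    (h3 : 3 ≤ finrank F W) (C : Submodule F (End F W))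
    (hC : ∀ w, Q w ≠ 0 → ro (polarBilin Q) w w ∈ C) (z : W) : ro (polarBilin Q) z z ∈ C := by
  by_cases hz : Q z = 0
  · obtain ⟨w, hw, hzw⟩ := exists_nonsingular_orth hQ h3 hz
    have := C.smul_mem (2 : F)⁻¹ (C.sub_mem (C.add_mem (hC (z + w) (by rwa [Q_add, hz, hzw, zero_add, add_zero]))
      (hC (z - w) (by rwa [Q_sub, hz, hzw, zero_add, sub_zero]))) (C.smul_mem 2 (hC w hw)))
    convert this using 1
    ext x
    simp only [ro_apply, polarBilin_apply_apply, LinearMap.smul_apply, LinearMap.sub_apply,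
      LinearMap.add_apply, polar_add_right, polar_sub_right]
    match_scalars <;> field_simp <;> ring
  · exact hC z hz

omit [FiniteDimensional F W] in
/-- A vector of `w^⊥` orthogonal to all non-singular vectors of `w^⊥` vanishes. -/
theorem eq_zero_of_orth_nonsingular (hQ : (polarBilin Q).Nondegenerate) (h2 : (2 : F) ≠ 0)
    {w b : W} (hw : Q w ≠ 0) (hb : polar Q b w = 0) (hQb : Q b = 0)
    (h : ∀ x, polar Q x w = 0 → Q x ≠ 0 → polar Q b x = 0) : b = 0 := by
  by_contra hb0
  obtain ⟨y, hy⟩ := exists_polar_eq_one hQ hb0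
  have hx : polar Q (y - ((2 * Q w)⁻¹ * polar Q y w) • w) w = 0 := by
    rw [polar_sub_left, polar_smul_left', polar_self']
    field_simp
    ring
  have hbx : polar Q b (y - ((2 * Q w)⁻¹ * polar Q y w) • w) = 1 := by
    rw [polar_sub_right, polar_smul_right', hb, hy, mul_zero, sub_zero]
  set x := y - ((2 * Q w)⁻¹ * polar Q y w) • w
  have := h (x + (1 - Q x) • b) (by rw [polar_add_left, polar_smul_left', hx, hb]; ring) (by
    rw [Q_add, Q_smul, polar_smul_right', polar_comm, hbx, hQb]
    simp)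
  rw [polar_add_right, polar_smul_right', polar_self', hQb, hbx] at this
  simp at this

/-- A skew operator `s` such that `s s' + s' s` is scalar for `s' = s` and all conjugates of `s`
by reflections vanishes. -/
theorem skew_eq_zero (hQ : (polarBilin Q).Nondegenerate) (h2 : (2 : F) ≠ 0)
    (h3 : 3 ≤ finrank F W) (s : End F W) (hs : ∀ x y, polar Q (s x) y = -polar Q x (s y))
    (h : ∀ ρ : O Q, ∃ κ : F, ∀ x y, polar Q (s x) (ρ.1 (s ((ρ⁻¹).1 y))) +
      polar Q (s y) (ρ.1 (s ((ρ⁻¹).1 x))) = κ * polar Q x y) : s = 0 := by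
  obtain ⟨σ, hσ⟩ := h 1
  simp only [inv_one, O_one_apply] at hσ
  have hss : ∀ x, polar Q (s x) x = 0 := fun x => by
    have := hs x x
    rw [polar_comm Q x] at this
    exact (mul_eq_zero.1 (by linear_combination this : 2 * polar Q (s x) x = 0)).resolve_left h2
  have key : ∀ w, Q w ≠ 0 → s w = 0 := fun w hw => by
    obtain ⟨κ, hκ⟩ := h (refl Q w)
    have e : ∀ x y, polar Q (s x) ((refl Q w).1 (s (((refl Q w)⁻¹).1 y))) =
        polar Q (s x) (s y) - (Q w)⁻¹ * polar Q y w * polar Q (s x) (s w) -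
          (Q w)⁻¹ * polar Q (s y) w * polar Q (s x) w := fun x y => by
      rw [refl_inv, refl_apply, refl_apply]
      simp only [map_sub, map_smul, polar_sub_right, polar_sub_left, polar_smul_right',
        polar_smul_left', hss]
      ring
    simp only [e] at hκ
    obtain ⟨x, hx0, hx⟩ : ∃ x : W, x ≠ 0 ∧ x ∈ perp Q (Submodule.span F {w, s w}) := by
      have h1 := finrank_add_finrank_perp hQ (Submodule.span F {w, s w})
      have h4 : finrank F (Submodule.span F ({w, s w} : Set W)) ≤ 2 := by
        classical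
        refine (finrank_span_le_card _).trans ?_
        rw [Set.toFinset_insert, Set.toFinset_singleton]
        exact Finset.card_le_two
      obtain ⟨x, hx, hx0⟩ := Submodule.exists_mem_ne_zero_of_ne_bot
        (p := perp Q (Submodule.span F {w, s w})) fun h' => by
          rw [h', finrank_bot] at h1
          omega
      exact ⟨x, hx0, hx⟩
    rw [mem_perp_span] at hx
    have hx1 := hx w (by simp)
    have hx2 := hx (s w) (by simp)
    obtain ⟨y, hy⟩ := exists_polar_eq_one hQ hx0
    have hx3 : polar Q (s x) w = 0 := by rw [hs, polar_comm, hx2, neg_zero]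
    have hsx : ∀ y, 2 * polar Q (s y) (s w) = σ * polar Q y w := fun y => by
      rw [← hσ, polar_comm Q (s w)]; ring
    have hκσ : κ = σ := by
      have h1 := hκ x y
      have h4 := hσ x y
      have h5 := hsx x
      rw [polar_comm Q x w, hx1, mul_zero] at h5
      rw [hx3, polar_comm Q x w, hx1, hy, (mul_eq_zero.1 h5).resolve_left h2] at h1
      rw [hy] at h4
      linear_combination h4 - h1
    subst hκσ
    have h6 : κ = 0 := by
      have h1 := hκ w w
      have h4 := hσ w w
      rw [hss, polar_self' Q w] at h1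
      rw [polar_self' Q w] at h4
      have : κ * (4 * Q w) = 0 := by
        linear_combination -h1 - h4 - 4 * polar Q (s w) (s w) * inv_mul_cancel₀ hw
      exact (mul_eq_zero.1 this).resolve_right (mul_ne_zero (by
        rw [show (4 : F) = 2 * 2 by norm_num]; exact mul_ne_zero h2 h2) hw)
    refine eq_zero_of_polar hQ fun y => ?_
    have h1 := hκ y y
    have h4 := hσ y y
    have h5 := hsx y
    rw [h6, zero_mul] at h1 h4 h5
    rw [(mul_eq_zero.1 h5).resolve_left h2] at h1
    have h7 : 2 * (Q w)⁻¹ * (polar Q (s y) w) ^ 2 = 0 := by linear_combination h4 - h1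
    rw [hs, polar_comm, neg_eq_zero]
    exact pow_eq_zero_iff two_ne_zero |>.1
      ((mul_eq_zero.1 h7).resolve_left (mul_ne_zero h2 (inv_ne_zero hw)))
  obtain ⟨w, hw⟩ := exists_nonsingular hQ h3
  exact LinearMap.ker_eq_top.1 (eq_top_iff.2 (mem_of_nonsingular_mem h2 ⊤ _ Submodule.mem_top hw
    fun x _ hx => key x hx))

variable [Finite F]

/-- A self-adjoint operator for which all non-singular vectors orthogonal to a non-zero singular
vector are eigenvectors is a scalar. -/
theorem exists_eq_smul_of_eigen (hQ : (polarBilin Q).Nondegenerate) (h2 : (2 : F) ≠ 0)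
    (h3 : 3 ≤ finrank F W) (D : End F W) (hD : ∀ x y, polar Q (D x) y = polar Q x (D y))
    (h : ∀ z w, z ≠ 0 → Q z = 0 → Q w ≠ 0 → polar Q z w = 0 → ∃ a : F, D w = a • w) :
    ∃ a : F, D = a • 1 := by
  have h1 : ∀ z, Q z = 0 → ∃ a : F, D z = a • z := fun z hz => by
    by_cases hz0 : z = 0
    · exact ⟨0, by simp [hz0]⟩
    obtain ⟨w, hw, hzw⟩ := exists_nonsingular_orth hQ h3 hz
    obtain ⟨a, ha⟩ := h z w hz0 hz hw hzw
    obtain ⟨a', ha'⟩ := h z (w + z) hz0 hz (by rwa [Q_add, hz, polar_comm, hzw, add_zero, add_zero])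
      (by rw [polar_add_right, hzw, polar_self', hz]; simp)
    have h4 := hD (w + z) w
    rw [ha', ha, polar_smul_left', polar_smul_right', polar_add_left, hzw, polar_self'] at h4
    have h5 : a' = a := mul_right_cancel₀ (by rw [add_zero]; exact mul_ne_zero h2 hw) h4
    refine ⟨a, ?_⟩
    rw [map_add, ha, h5, smul_add] at ha'
    exact add_left_cancel ha'
  obtain ⟨e, e', he⟩ := exists_isHyp_of_three_le hQ h3
  obtain ⟨a, ha⟩ := h1 e he.left
  have h4 : ∀ z, Q z = 0 → polar Q e z = 1 → D z = a • z := fun z hz hez => by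
    obtain ⟨a', ha'⟩ := h1 z hz
    have := hD e z
    rw [ha, ha', polar_smul_left', polar_smul_right', hez, mul_one, mul_one] at this
    rw [ha', this]
  have h5 := h4 e' he.right he.pol
  refine ⟨a, LinearMap.ext fun x => ?_⟩
  obtain ⟨s, t, w, hw, rfl⟩ := he.exists_decomp x
  have h6 := h4 ((-Q w) • e + (1 : F) • e' + w) (by rw [he.Q_comb _ _ hw]; ring)
    (by rw [polar_comm, he.polar_comb_left _ _ hw])
  simp only [map_add, map_smul, ha, h5, smul_add, LinearMap.smul_apply, End.one_apply,
    smul_comm a] at h6 ⊢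
  rw [add_left_cancel h6]

omit [Finite F] in
/-- A non-zero subspace `N` of `w^⊥` that is closed under the reflections of `w^⊥` contains a
non-zero singular vector, if `w^⊥` does and we are not in dimension three over the field with three
elements. -/
theorem exists_singular_mem_of_closed (hQ : (polarBilin Q).Nondegenerate) (h2 : (2 : F) ≠ 0)
    (hex : (∃ t : F, t ≠ 0 ∧ t ≠ -1 ∧ t ≠ -2) ∨
      (4 ≤ finrank F W ∧ ∀ t : F, t = 0 ∨ t = 1 ∨ t = -1))
    {w z v : W} (hz0 : z ≠ 0) (hz : Q z = 0) (hzw : polar Q z w = 0)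
    (N : Submodule F W) (hv : v ∈ N) (hv0 : v ≠ 0) (hvw : polar Q v w = 0)
    (hN : ∀ x, polar Q x w = 0 → Q x ≠ 0 → polar Q v x ≠ 0 → x ∈ N) :
    ∃ z' ∈ N, z' ≠ 0 ∧ Q z' = 0 := by
  by_cases hQv : Q v = 0
  · exact ⟨v, hv, hv0, hQv⟩
  have key : ∀ e, polar Q e w = 0 → polar Q v e = 0 → Q v + Q e ≠ 0 → e ∈ N := fun e h1 h3 h4 => by
    have := hN (v + e) (by rw [polar_add_left, hvw, h1, add_zero])
      (by rwa [Q_add, h3, add_zero]) (by
        rw [polar_add_right, h3, add_zero, polar_self']; exact mul_ne_zero h2 hQv)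
    simpa using N.sub_mem this hv
  by_cases hex' : ∃ z₁, z₁ ≠ 0 ∧ Q z₁ = 0 ∧ polar Q z₁ w = 0 ∧ polar Q v z₁ = 0
  · obtain ⟨z₁, h0, h1, h3, h4⟩ := hex'
    exact ⟨z₁, key z₁ h3 h4 (by rwa [h1, add_zero]), h0, h1⟩
  push Not at hex'
  have hvz := hex' z hz0 hz hzw
  rcases hex with ⟨t, ht0, ht1, ht2⟩ | ⟨h4, hF⟩
  · refine ⟨z, ?_, hz0, hz⟩
    have hc : t * Q v * (polar Q v z)⁻¹ ≠ 0 := mul_ne_zero (mul_ne_zero ht0 hQv) (inv_ne_zero hvz)
    have := hN (v + (t * Q v * (polar Q v z)⁻¹) • z)
      (by rw [polar_add_left, polar_smul_left', hvw, hzw]; simp) (by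
        rw [Q_add, Q_smul, hz, polar_smul_right', inv_mul_cancel_right₀ hvz, mul_zero, add_zero]
        exact fun h => mul_ne_zero (add_eq_zero_iff_eq_neg.not.2 ht1) hQv (by linear_combination h))
      (by
        rw [polar_add_right, polar_smul_right', inv_mul_cancel_right₀ hvz, polar_self']
        exact fun h => mul_ne_zero (add_eq_zero_iff_eq_neg.not.2 ht2) hQv (by linear_combination h))
    simpa [N.smul_mem_iff hc] using N.sub_mem this hv
  have hperp : ∀ s : Finset W, s.card ≤ 3 → ∃ x, x ≠ 0 ∧ ∀ y ∈ s, polar Q y x = 0 := fun s hs => by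
    have h1 := finrank_add_finrank_perp hQ (Submodule.span F (s : Set W))
    have h5 := finrank_span_finset_le_card (R := F) s
    obtain ⟨x, hx, hx0⟩ := Submodule.exists_mem_ne_zero_of_ne_bot
      (p := perp Q (Submodule.span F (s : Set W))) fun h' => by
        rw [h', finrank_bot] at h1
        unfold Set.finrank at h5
        omega
    exact ⟨x, hx0, mem_perp_span.1 hx⟩
  classical
  obtain ⟨e, he0, he⟩ := hperp {w, v} (Finset.card_le_two.trans (by norm_num))
  obtain ⟨e', he0', he'⟩ := hperp {w, v, e} Finset.card_le_three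
  have e1 : polar Q e w = 0 := by rw [polar_comm]; exact he w (by simp)
  have e2 : polar Q v e = 0 := he v (by simp)
  have e3 : polar Q e' w = 0 := by rw [polar_comm]; exact he' w (by simp)
  have e4 : polar Q v e' = 0 := he' v (by simp)
  have e5 : polar Q e e' = 0 := he' e (by simp)
  have h3 : (3 : F) = 0 := by
    rcases hF 2 with h | h | h
    · exact absurd h h2
    · exact absurd (by linear_combination h) (one_ne_zero (α := F))
    · linear_combination h
  have hsq : ∀ a b : F, a ≠ 0 → b ≠ 0 → a = b ∨ a = -b := fun a b ha hb => by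
    rcases hF a with h | h | h <;> rcases hF b with h' | h' | h' <;> simp_all
  have hQe : Q e ≠ 0 := fun h => hex' e he0 h e1 e2
  have hQe' : Q e' ≠ 0 := fun h => hex' e' he0' h e3 e4
  have hee : Q e' = Q e := (hsq _ _ hQe' hQe).resolve_right fun h => hex' (e + e') (fun h0 => by
      have := congrArg (polar Q e) h0
      rw [polar_add_right, e5, polar_self', add_zero, polar_zero_right] at this
      exact mul_ne_zero h2 hQe this)
    (by rw [Q_add, e5, h]; ring) (by rw [polar_add_left, e1, e3, add_zero])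
    (by rw [polar_add_right, e2, e4, add_zero])
  have fin : ∀ x y, polar Q x w = 0 → polar Q v x = 0 → polar Q y w = 0 → polar Q v y = 0 →
      polar Q x y = 0 → Q x = Q v → Q y = Q v → ∃ z' ∈ N, z' ≠ 0 ∧ Q z' = 0 := by
    intro x y a1 a2 a3 a4 a5 a6 a7
    have h5 : Q v + Q v ≠ 0 := by rw [← two_mul]; exact mul_ne_zero h2 hQv
    refine ⟨v + x + y, N.add_mem (N.add_mem hv (key x a1 a2 (by rwa [a6])))
      (key y a3 a4 (by rwa [a7])), fun h0 => ?_, ?_⟩
    · have := congrArg (polar Q v) h0
      rw [polar_add_right, polar_add_right, a2, a4, polar_self', polar_zero_right] at this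
      exact h5 (by linear_combination this)
    · rw [Q_add, Q_add, polar_add_left, a2, a4, a5, a6, a7]
      linear_combination Q v * h3
  rcases hsq _ _ hQe hQv with h | h
  · exact fin e e' e1 e2 e3 e4 e5 h (hee.trans h)
  · refine fin (e + e') (e - e') (by rw [polar_add_left, e1, e3, add_zero])
      (by rw [polar_add_right, e2, e4, add_zero]) (by rw [polar_sub_left, e1, e3, sub_zero])
      (by rw [polar_sub_right, e2, e4, sub_zero]) ?_ ?_ ?_
    · rw [polar_add_left, polar_sub_right, polar_sub_right, e5, polar_comm Q e' e, e5, polar_self',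
        polar_self', hee]
      ring
    · rw [Q_add, e5, hee, h]
      linear_combination -Q v * h3
    · rw [Q_sub, e5, hee, h]
      linear_combination -Q v * h3

end Cfsg.Agent.H27
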