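import Cfsg.Agent.H27.TenM

/-!
# Overgroups of `Sp(U) ⊗ O(W)` in `Sp(U ⊗ W)`: the pointwise stabiliser of `u ⊗ W`
-/

set_option autoImplicit false

namespace Cfsg.Agent.H27

open Module TensorProduct QuadraticMap H30 H36

section Ring

variable {F A : Type*} [Field F] [Ring A] [Algebra F A]

theorem mul_inv_of_cube {n : A} (h : n * n * n = 0) : (1 + n) * (1 + (-n + n * n)) = 1 := by
  linear_combination (norm := noncomm_ring) h

theorem eq_of_add_mul {n m t : A} (h : n + -m + n * -m = t) (hm : m * m = 0) :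
    n = m + t * (1 + m) := by
  rw [← h]
  linear_combination (norm := noncomm_ring) (1 + n) * hm

theorem comm_of_unipotent (h2 : (2 : F) ≠ 0) {x x' r : A} (h1 : x * x' = 1) (h1' : x' * x = 1)
    (hrr : r * r = 1) (h5 : (x * r * x' * r - 1) * (x * r * x' * r - 1) * (x * r * x' * r - 1) = 0)
    (h6 : (x * r * x' * r - 1) * r = r * (x * r * x' * r - 1)) : x * r = r * x := by
  have h7 : x * r * x' * r * (x * r * x' * r) = 1 := by
    have h8 : x * r * x' * r * r = r * (x * r * x' * r) := by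
      linear_combination (norm := noncomm_ring) h6
    calc x * r * x' * r * (x * r * x' * r) = x * r * x' * (r * (x * r * x' * r)) := by
          noncomm_ring
      _ = x * r * (x' * x) * r * x' * (r * r) := by rw [← h8]; noncomm_ring
      _ = 1 := by rw [h1', hrr, mul_one, mul_one, mul_assoc x r r, hrr, mul_one, h1]
  set k := x * r * x' * r with hk
  have h8 : (4 : F) • (k - 1) = 0 := by
    rw [show (4 : F) = ((4 : ℕ) : F) by norm_num, Nat.cast_smul_eq_nsmul]
    linear_combination (norm := noncomm_ring) h5 - k * h7 + h7 + h7 + h7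
  have h9 : k = 1 := sub_eq_zero.1 ((smul_eq_zero.1 h8).resolve_left (by
    rw [show (4 : F) = 2 * 2 by norm_num]; exact mul_ne_zero h2 h2))
  calc x * r = x * r * (x' * (r * r) * x) := by rw [hrr, mul_one, h1', mul_one]
    _ = k * (r * x) := by rw [hk]; noncomm_ring
    _ = r * x := by rw [h9, one_mul]

end Ring

variable {F U W : Type*} [Field F] [AddCommGroup U] [Module F U] [AddCommGroup W] [Module F W]

/-- The subspace `u ⊗ W`. -/
def sL (F W : Type*) {U : Type*} [Field F] [AddCommGroup U] [Module F U] [AddCommGroup W]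
    [Module F W] (u : U) : Submodule F (U ⊗[F] W) := LinearMap.range (TensorProduct.mk F U W u)

theorem mem_sL {u : U} {p : U ⊗[F] W} : p ∈ sL F W u ↔ ∃ w, p = u ⊗ₜ w :=
  ⟨fun ⟨w, h⟩ => ⟨w, h.symm⟩, fun ⟨w, h⟩ => ⟨w, h.symm⟩⟩

theorem tmul_mem_sL (u : U) (w : W) : u ⊗ₜ w ∈ sL F W u := ⟨w, rfl⟩

/-- `1 + n` lies in `X` and in the unipotent radical of the stabiliser of `u ⊗ W`. -/
structure QL (f : LinearMap.BilinForm F U) (X : Subgroup (End F (U ⊗[F] W))ˣ) (u : U)
    (n : End F (U ⊗[F] W)) : Prop where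
  mem : InG X (1 + n)
  kill : ∀ w, n (u ⊗ₜ w) = 0
  into : ∀ p, cL f W u p = 0 → n p ∈ sL F W u

variable {f : LinearMap.BilinForm F U} {Q : QuadraticForm F W} {X : Subgroup (End F (U ⊗[F] W))ˣ}
  {u : U} {n n' : End F (U ⊗[F] W)}

theorem QL.kill' (h : QL f X u n) {p : U ⊗[F] W} (hp : p ∈ sL F W u) : n p = 0 := by
  obtain ⟨w, rfl⟩ := mem_sL.1 hp
  exact h.kill w

theorem TS.cL_sL (hS : TS f Q) {p : U ⊗[F] W} (hp : p ∈ sL F W u) : cL f W u p = 0 := by
  obtain ⟨w, rfl⟩ := mem_sL.1 hp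
  simp [hS.alt.self_eq_zero]

theorem tB_sL {p q : U ⊗[F] W} (hp : cL f W u p = 0) (hq : q ∈ sL F W u) :
    tB f (polarBilin Q) p q = 0 := by
  obtain ⟨w, rfl⟩ := mem_sL.1 hq
  simp [tB_cL, hp]

theorem TS.tB_sL' (hS : TS f Q) {p q : U ⊗[F] W} (hp : cL f W u p = 0) (hq : q ∈ sL F W u) :
    tB f (polarBilin Q) q p = 0 := by rw [hS.flip, tB_sL hp hq, neg_zero]

theorem QL.perp (hS : TS f Q) (hG : TG f Q X) (h : QL f X u n) (p : U ⊗[F] W) :
    cL f W u (n p) = 0 := hS.qnd.1 _ fun w => by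
  simpa [h.kill, tB_cL] using hG.skew h.mem p (u ⊗ₜ w)

theorem QL.triple (hS : TS f Q) (hG : TG f Q X) {n'' : End F (U ⊗[F] W)} (h : QL f X u n)
    (h' : QL f X u n') (h'' : QL f X u n'') : n * n' * n'' = 0 :=
  LinearMap.ext fun p => h.kill' (h'.into _ (h''.perp hS hG p))

theorem QL.conj (h : QL f X u n) {k k' : End F (U ⊗[F] W)} (hk : InG X k) (hkk' : k * k' = 1)
    (h1 : ∀ w, k (u ⊗ₜ w) ∈ sL F W u) (h2 : ∀ w, k' (u ⊗ₜ w) ∈ sL F W u)
    (h3 : ∀ p, cL f W u p = 0 → cL f W u (k' p) = 0) : QL f X u (k * n * k') := by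
  refine ⟨inG_conj hk hkk' h.mem, fun w => by simp [h.kill' (h2 w)], fun p hp => ?_⟩
  obtain ⟨w, hw⟩ := mem_sL.1 (h.into _ (h3 p hp))
  simpa [hw] using h1 w

theorem QL.add (hS : TS f Q) (h : QL f X u n) (h' : QL f X u n') :
    QL f X u (n + n' + n * n') := by
  refine ⟨by convert h.mem.mul h'.mem using 1; noncomm_ring, fun w => by simp [h.kill, h'.kill],
    fun p hp => ?_⟩
  exact Submodule.add_mem _ (Submodule.add_mem _ (h.into p hp) (h'.into p hp))
    (h.into _ (hS.cL_sL (h'.into p hp)))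

theorem QL.neg (hS : TS f Q) (hG : TG f Q X) (h : QL f X u n) : QL f X u (-n + n * n) := by
  refine ⟨inG_inv h.mem ?_, fun w => by simp [h.kill], fun p hp => ?_⟩
  · exact mul_inv_of_cube (h.triple hS hG h h)
  · exact Submodule.add_mem _ (Submodule.neg_mem _ (h.into p hp))
      (h.into _ (hS.cL_sL (h.into p hp)))

/-- The element `(E_y - 1) ⊗ 1` of the unipotent radical. -/
theorem TG.ql_sym (hS : TS f Q) (hG : TG f Q X) {y : U} (hy : f u y = 0) :
    QL f X u ((ro f y u + ro f u y).rTensor W) := by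
  have hy' : f y u = 0 := hS.alt.isRefl _ _ hy
  refine ⟨?_, fun w => by simp [hy, hS.alt.self_eq_zero], fun p hp => ?_⟩
  · have := hG.left (1 + (ro f y u + ro f u y)) fun a b => by
      simp only [LinearMap.add_apply, End.one_apply, ro_apply, map_add, map_smul, hy, hy',
        LinearMap.smul_apply, hS.alt.self_eq_zero, smul_eq_mul, ← hS.alt.neg_eq b u,
        ← hS.alt.neg_eq b y]
      ring
    rwa [LinearMap.rTensor_add, End.one_eq_id, LinearMap.rTensor_id] at this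
  · simpa [rTensor_ro, hp] using tmul_mem_sL u _

/-- The images of the elements of the unipotent radical in `Hom(W, (u ⊗ W)^⊥ / u ⊗ W)`. -/
def XiL (f : LinearMap.BilinForm F U) (X : Subgroup (End F (U ⊗[F] W))ˣ) (u y₁ : U)
    (ξ : W →ₗ[F] U ⊗[F] W) : Prop := ∃ n, QL f X u n ∧ ∀ w, ξ w - n (y₁ ⊗ₜ w) ∈ sL F W u

variable {y₁ : U} {ξ ξ' : W →ₗ[F] U ⊗[F] W}

theorem XiL.add (hS : TS f Q) (hG : TG f Q X) (h : XiL f X u y₁ ξ) (h' : XiL f X u y₁ ξ') :
    XiL f X u y₁ (ξ + ξ') := by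
  obtain ⟨n, hn, h⟩ := h
  obtain ⟨n', hn', h'⟩ := h'
  refine ⟨_, hn.add hS hn', fun w => ?_⟩
  convert Submodule.sub_mem _ (Submodule.add_mem _ (h w) (h' w))
    (hn.into _ (hn'.perp hS hG (y₁ ⊗ₜ w))) using 1
  simp only [LinearMap.add_apply, End.mul_apply]
  abel

theorem XiL.neg (hS : TS f Q) (hG : TG f Q X) (h : XiL f X u y₁ ξ) : XiL f X u y₁ (-ξ) := by
  obtain ⟨n, hn, h⟩ := h
  refine ⟨_, hn.neg hS hG, fun w => ?_⟩
  convert Submodule.sub_mem _ (Submodule.neg_mem _ (h w))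
    (hn.into _ (hn.perp hS hG (y₁ ⊗ₜ w))) using 1
  simp only [LinearMap.add_apply, End.mul_apply, LinearMap.neg_apply]
  abel

theorem TG.xiL_mk (hS : TS f Q) (hG : TG f Q X) (hy₁ : f y₁ u = 1) {y : U} (hy : f u y = 0) :
    XiL f X u y₁ (TensorProduct.mk F U W y) :=
  ⟨_, hG.ql_sym hS hy, fun w => by
    simpa [hy₁, add_tmul, ← smul_tmul'] using Submodule.smul_mem _ _ (tmul_mem_sL u w)⟩

theorem XiL.left (hG : TG f Q X) (h : XiL f X u y₁ ξ) {α : End F U}
    (hα : ∀ x y, f (α x) (α y) = f x y) (hu : α u = u) : XiL f X u y₁ (α.rTensor W ∘ₗ ξ) := by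
  obtain ⟨n, hn, h⟩ := h
  obtain ⟨k', -, h1, h2⟩ := inG_exists_inv (hG.left α hα)
  have h3 : ∀ p, cL f W u (k' p) = cL f W u p := fun p => by
    rw [← cL_rTensor (α := α) (y := u) (y' := u) (fun x => by rw [← hα x, hu]), ← End.mul_apply, h1,
      End.one_apply]
  have h4 : ∀ p ∈ sL F W u, α.rTensor W p ∈ sL F W u := fun p hp => by
    obtain ⟨w, rfl⟩ := mem_sL.1 hp
    simpa [hu] using tmul_mem_sL u w
  refine ⟨_, hn.conj (hG.left α hα) h1 (fun w => h4 _ (tmul_mem_sL u w)) (fun w => ?_)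
    (fun p hp => by rw [h3, hp]), fun w => ?_⟩
  · have := LinearMap.congr_fun h2 (u ⊗ₜ w)
    simp only [End.mul_apply, LinearMap.rTensor_tmul, hu, End.one_apply] at this
    rw [this]
    exact tmul_mem_sL u w
  · convert Submodule.sub_mem _ (h4 _ (h w))
      (h4 _ (hn.into (k' (y₁ ⊗ₜ w) - y₁ ⊗ₜ w) (by rw [map_sub, h3, sub_self]))) using 1
    simp

theorem XiL.right (hG : TG f Q X) (h : XiL f X u y₁ ξ) (ρ : O Q) :
    XiL f X u y₁ (ρ.1.toLinearMap.lTensor U ∘ₗ ξ ∘ₗ (ρ⁻¹).1.toLinearMap) := by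
  obtain ⟨n, hn, h⟩ := h
  refine ⟨_, hn.conj (hG.right ρ) (k' := (ρ⁻¹).1.toLinearMap.lTensor U) (by ext; simp)
    (fun w => tmul_mem_sL u _) (fun w => tmul_mem_sL u _)
    (fun p hp => by rw [cL_lTensor, hp, map_zero]), fun w => ?_⟩
  obtain ⟨w', hw'⟩ := mem_sL.1 (h ((ρ⁻¹).1 w))
  have := congrArg (ρ.1.toLinearMap.lTensor U) hw'
  rw [map_sub] at this
  exact mem_sL.2 ⟨_, this⟩

theorem XiL.rel (hS : TS f Q) (hG : TG f Q X) (hM : TM f X) (hy₁ : f y₁ u = 1)
    (h : XiL f X u y₁ ξ) (h' : XiL f X u y₁ ξ') : ∃ κ : F, ∀ w w',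
      tB f (polarBilin Q) (ξ w) (ξ' w') + tB f (polarBilin Q) (ξ w') (ξ' w) = κ * polar Q w w' := by
  obtain ⟨n, hn, h⟩ := h
  obtain ⟨n', hn', h'⟩ := h'
  have hu : u ≠ 0 := by rintro rfl; simp at hy₁
  obtain ⟨κ, hκ⟩ := hM u hu _ (inG_comm hn.mem hn'.mem (hn.triple hS hG hn' hn)
    (hn.triple hS hG hn' hn') (hn'.triple hS hG hn hn) (hn'.triple hS hG hn hn')) fun p =>
      mem_sL.1 (Submodule.sub_mem _ (hn.into _ (hn'.perp hS hG p)) (hn'.into _ (hn.perp hS hG p)))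
  have e : ∀ w w', tB f (polarBilin Q) (ξ w) (ξ' w') =
      tB f (polarBilin Q) (n (y₁ ⊗ₜ w)) (n' (y₁ ⊗ₜ w')) := fun w w' => by
    have h1 := tB_sL (Q := Q) (hn.perp hS hG (y₁ ⊗ₜ w)) (h' w')
    have h2 := hS.tB_sL' (hn'.perp hS hG (y₁ ⊗ₜ w')) (h w)
    have h3 := tB_sL (Q := Q) (hS.cL_sL (h w)) (h' w')
    simp only [map_sub, LinearMap.sub_apply] at h1 h2 h3
    linear_combination h1 + h2 + h3
  refine ⟨-κ, fun w w' => ?_⟩
  have h1 := congrArg (fun m : End F (U ⊗[F] W) => tB f (polarBilin Q) (m (y₁ ⊗ₜ w)) (y₁ ⊗ₜ w')) hκ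
  have h2 := hG.skew hn.mem (n' (y₁ ⊗ₜ w)) (y₁ ⊗ₜ w')
  have h3 := hG.skew hn'.mem (n (y₁ ⊗ₜ w)) (y₁ ⊗ₜ w')
  rw [hS.tB_sL' (hn.perp hS hG _) (hn.into _ (hn'.perp hS hG _))] at h2
  rw [hS.tB_sL' (hn'.perp hS hG _) (hn'.into _ (hn.perp hS hG _))] at h3
  simp only [LinearMap.sub_apply, End.mul_apply, map_sub, LinearMap.smul_apply, tN_apply, cL_tmul,
    hy₁, one_smul, map_smul, tB_tmul, ← hS.alt.neg_eq y₁ u, polarBilin_apply_apply,
    smul_eq_mul] at h1
  rw [e, e, hS.flip (n (y₁ ⊗ₜ w'))]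
  linear_combination h1 - h2 + h3

variable [FiniteDimensional F U] [FiniteDimensional F W]

/-- The unipotent radical of the stabiliser of `u ⊗ W` in `X` lies in `Sp(U) ⊗ 1`. -/
theorem QL.exists_eq (hS : TS f Q) (hG : TG f Q X) (hM : TM f X) (hu : u ≠ 0) (hn : QL f X u n) :
    ∃ γ : End F U, n = γ.rTensor W := by
  obtain ⟨y₁, hy₁, hy₁'⟩ := hS.exists_pair hu
  have hξ : XiL f X u y₁ (n ∘ₗ TensorProduct.mk F U W y₁) := ⟨n, hn, fun w => by simp⟩
  have key : ∀ y, f u y = 0 → ∃ c : F, ∀ w, cL f W y (n (y₁ ⊗ₜ w)) = c • w := by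
    intro y hy
    by_cases hyu : y ∈ F ∙ u
    · obtain ⟨a, rfl⟩ := Submodule.mem_span_singleton.1 hyu
      exact ⟨0, fun w => by simp [hn.perp hS hG]⟩
    obtain ⟨κ, hκ⟩ := hξ.rel hS hG hM hy₁ (hG.xiL_mk hS hy₁ hy)
    let s : End F W := cL f W y ∘ₗ n ∘ₗ TensorProduct.mk F U W y₁ - (κ / 2) • 1
    have h2 := hS.two
    have hs : ∀ w w', polar Q (s w) w' = -polar Q w (s w') := fun w w' => by
      have := hκ w w'
      simp only [LinearMap.comp_apply, mk_apply, tB_cL, polarBilin_apply_apply] at this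
      simp only [s, LinearMap.sub_apply, LinearMap.comp_apply, mk_apply, LinearMap.smul_apply,
        End.one_apply, polar_sub_left, polar_sub_right, polar_smul_left', polar_smul_right',
        polar_comm Q w (cL f W y _)]
      field_simp
      linear_combination 2 * this
    have h1 : XiL f X u y₁ (TensorProduct.mk F U W y ∘ₗ s) := by
      have h3 := hξ.left hG (α := 1 + ro f y y) (fun a b => by
        simp only [LinearMap.add_apply, End.one_apply, ro_apply, map_add, map_smul,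
          LinearMap.smul_apply, hS.alt.self_eq_zero, smul_eq_mul, ← hS.alt.neg_eq b y]
        ring) (by simp [hy])
      convert (h3.add hS hG (hξ.neg hS hG)).add hS hG
        (hG.xiL_mk hS hy₁ (y := -(κ / 2) • y) (by simp [hy])) using 1
      ext w
      simp [s, rTensor_ro, End.one_eq_id, sub_eq_add_neg, tmul_add, tmul_neg]
    obtain ⟨y', hy'u, hy'⟩ := exists_orth_ne_zero hS.nd hS.alt.isRefl _ hyu
    have hy'u' : f u y' = 0 := hy'u u (Submodule.mem_span_singleton_self u)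
    obtain ⟨α, hα, hαu, hαy⟩ := exists_isom_fix_apply hS.nd hS.alt (w := y') hyu (fun h => by
      obtain ⟨a, rfl⟩ := Submodule.mem_span_singleton.1 h
      exact hy' (by simp [hS.alt.isRefl _ _ hy])) (hy.trans hy'u'.symm)
    have hs0 : s = 0 := skew_eq_zero hS.qnd h2 hS.three s hs fun ρ => by
      obtain ⟨κ', hκ'⟩ := h1.rel hS hG hM hy₁ ((h1.left hG (α := α.toLinearMap) hα hαu).right hG ρ)
      refine ⟨(f y y')⁻¹ * κ', fun w w' => ?_⟩
      have := hκ' w w'
      simp only [LinearMap.comp_apply, mk_apply, LinearMap.rTensor_tmul, LinearEquiv.coe_coe, hαy,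
        LinearMap.lTensor_tmul, tB_tmul, polarBilin_apply_apply] at this
      field_simp
      linear_combination this
    exact ⟨κ / 2, fun w => sub_eq_zero.1 (LinearMap.congr_fun hs0 w)⟩
  obtain ⟨y₂, hy₂⟩ := exists_eq_tmul_of_cL hS.nd hS.qnd (n ∘ₗ TensorProduct.mk F U W y₁ +
    TensorProduct.mk F U W u ∘ₗ cL f W y₁ ∘ₗ n ∘ₗ TensorProduct.mk F U W y₁) fun y => by
      obtain ⟨c, hc⟩ := key (y + f u y • y₁) (by simp [hy₁'])
      exact ⟨c, fun w => by simpa using hc w⟩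
  simp only [LinearMap.add_apply, LinearMap.comp_apply, mk_apply] at hy₂
  have hy₂u : f u y₂ = 0 := by
    have := hS.nontrivial
    obtain ⟨w, hw⟩ := exists_ne (0 : W)
    have := congrArg (cL f W u) (hy₂ w)
    simp only [map_add, hn.perp hS hG, cL_tmul, hS.alt.self_eq_zero, zero_smul, add_zero] at this
    exact hS.alt.isRefl _ _ ((smul_eq_zero.1 this.symm).resolve_right hw)
  have hm := hG.ql_sym hS (u := u) (y := -y₂) (by simp [hy₂u])
  have hm' := hG.ql_sym hS hy₂u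
  set m := (ro f (-y₂) u + ro f u (-y₂)).rTensor W with hmdef
  set m' := (ro f y₂ u + ro f u y₂).rTensor W with hmdef'
  have hmm : m = -m' := by
    rw [hmdef, hmdef', ← LinearMap.rTensor_neg]
    congr 1
    ext x
    simp [add_comm]
  have hmm' : m' * m' = 0 := by
    ext x w
    simp [hmdef', hy₂u, hS.alt.isRefl _ _ hy₂u, hS.alt.self_eq_zero]
  have hn' := hn.add hS hm
  obtain ⟨c, hc⟩ := hM u hu _ hn'.mem fun p => mem_sL.1 (by
    have h1 := hn'.into (p - y₁ ⊗ₜ cL f W u p) (by simp [hy₁])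
    have h3 : (n + m + n * m) (y₁ ⊗ₜ cL f W u p) ∈ sL F W u := by
      refine Submodule.add_mem _ ?_ (hn.into _ (hm.perp hS hG _))
      have h4 := hy₂ (cL f W u p)
      rw [LinearMap.add_apply, eq_sub_of_add_eq h4]
      simp only [hmdef, LinearMap.rTensor_tmul, LinearMap.add_apply, ro_apply, hy₁, one_smul,
        add_tmul, neg_tmul, ← smul_tmul']
      convert Submodule.sub_mem _ (Submodule.smul_mem _ (f y₁ (-y₂)) (tmul_mem_sL u (cL f W u p)))
        (tmul_mem_sL u (cL f W y₁ (n (y₁ ⊗ₜ cL f W u p)))) using 1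
      abel
    have h5 := Submodule.add_mem _ h1 h3
    rwa [← map_add, sub_add_cancel] at h5)
  refine ⟨(ro f y₂ u + ro f u y₂) + c • ro f u u * (1 + (ro f y₂ u + ro f u y₂)), ?_⟩
  rw [LinearMap.rTensor_add, LinearMap.rTensor_mul, LinearMap.rTensor_add W 1,
    LinearMap.rTensor_smul, End.one_eq_id, LinearMap.rTensor_id, ← End.one_eq_id, ← hmdef']
  exact eq_of_add_mul (hmm ▸ hc) hmm'

omit [FiniteDimensional F U] in
theorem TS.exists_eq_rTensor_of_refl (hS : TS f Q) (x : End F (U ⊗[F] W))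
    (hx : ∀ w, Q w ≠ 0 → x * (reflLin Q w).lTensor U = (reflLin Q w).lTensor U * x) :
    ∃ α : End F U, x = α.rTensor W := by
  let C : Submodule F (End F W) :=
    { carrier := {γ | x * γ.lTensor U = γ.lTensor U * x}
      add_mem' := fun {a b} ha hb => by
        simp only [Set.mem_ofPred_eq, LinearMap.lTensor_add, mul_add, add_mul] at ha hb ⊢
        rw [ha, hb]
      zero_mem' := by simp
      smul_mem' := fun c a ha => by
        simp only [Set.mem_ofPred_eq, LinearMap.lTensor_smul, mul_smul_comm, smul_mul_assoc] at ha ⊢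
        rw [ha] }
  refine exists_eq_rTensor hS.qnd x (ro_mem_of_nonsingular hS.qnd hS.two hS.three C fun w hw => ?_)
  have h1 : (1 : End F W) ∈ C := by
    change x * _ = _ * x
    rw [End.one_eq_id, LinearMap.lTensor_id, ← End.one_eq_id, mul_one, one_mul]
  have := C.smul_mem (Q w) (C.sub_mem h1 (hx w hw))
  rwa [reflLin_eq_ro, sub_sub_cancel, smul_inv_smul₀ hw] at this

/-- The pointwise stabiliser of `u ⊗ W` in `X` lies in `Sp(U) ⊗ 1`. -/
theorem TG.exists_eq_rTensor (hS : TS f Q) (hG : TG f Q X) (hM : TM f X) (hu : u ≠ 0)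
    {x : End F (U ⊗[F] W)} (hx : InG X x) (hfix : ∀ w, x (u ⊗ₜ w) = u ⊗ₜ w) :
    ∃ α : End F U, x = α.rTensor W := by
  obtain ⟨y₁, hy₁, hy₁'⟩ := hS.exists_pair hu
  obtain ⟨x', hx', h1, h2⟩ := inG_exists_inv hx
  have e1 : ∀ p, x (x' p) = p := LinearMap.congr_fun h1
  have hfix' : ∀ w, x' (u ⊗ₜ w) = u ⊗ₜ w := fun w => by
    rw [← hfix, ← End.mul_apply, h2, End.one_apply, hfix]
  have hc' : ∀ p, cL f W u (x' p) = cL f W u p := fun p => by
    rw [← sub_eq_zero]
    refine hS.qnd.1 _ fun w => ?_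
    rw [map_sub, LinearMap.sub_apply, ← tB_cL, ← tB_cL, ← hG.iso _ hx, e1, hfix, sub_self]
  have hxS : ∀ p ∈ sL F W u, x p ∈ sL F W u := fun p hp => by
    obtain ⟨w, rfl⟩ := mem_sL.1 hp
    rw [hfix]
    exact hp
  have hphi : ∀ y, f u y = 0 → ∃ y', ∀ w, x (y ⊗ₜ w) - y' ⊗ₜ w ∈ sL F W u := fun y hy => by
    obtain ⟨γ, hγ⟩ := ((hG.ql_sym hS hy).conj hx h1 (fun w => hxS _ (tmul_mem_sL u w))
      (fun w => by rw [hfix']; exact tmul_mem_sL u w)
      (fun p hp => by rw [hc', hp])).exists_eq hS hG hM hu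
    refine ⟨γ y₁, fun w => ?_⟩
    have := LinearMap.congr_fun hγ (y₁ ⊗ₜ w)
    simp only [End.mul_apply, LinearMap.rTensor_add, LinearMap.add_apply, rTensor_ro, hc', cL_tmul,
      hy₁, one_smul, map_add, hfix, LinearMap.rTensor_tmul] at this
    rw [← this, sub_add_cancel_left]
    exact Submodule.neg_mem _ (tmul_mem_sL u _)
  refine hS.exists_eq_rTensor_of_refl x fun w₀ _ => ?_
  set r := (reflLin Q w₀).lTensor U with hr
  have hrX : InG X r := hG.right (refl Q w₀)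
  have hrr : r * r = 1 := by
    ext a b
    simp [hr, reflLin_reflLin]
  have hrS : ∀ p ∈ sL F W u, r p ∈ sL F W u := fun p hp => by
    obtain ⟨w, rfl⟩ := mem_sL.1 hp
    exact tmul_mem_sL u _
  have h3 : ∀ p, (x * r - r * x) (p - y₁ ⊗ₜ cL f W u p) ∈ sL F W u := fun p => by
    induction p using TensorProduct.induction_on with
    | zero => simp
    | add a b ha hb =>
      convert Submodule.add_mem _ ha hb using 1
      rw [← map_add, map_add (cL f W u), tmul_add]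
      congr 1
      abel
    | tmul a b =>
      obtain ⟨y', hy'⟩ := hphi (a - f a u • y₁) (by simp [hy₁', ← hS.alt.neg_eq a u])
      convert Submodule.sub_mem _ (hy' (reflLin Q w₀ b)) (hrS _ (hy' b)) using 1
      simp [hr, sub_tmul, smul_tmul]
  have h4 : QL f X u (x * r * x' * r - 1) := by
    refine ⟨by simpa using ((hx.mul hrX).mul hx').mul hrX, fun w => by
      simp [hr, hfix, hfix', reflLin_reflLin], fun p hp => ?_⟩
    have h5 : cL f W u (x' (r p)) = 0 := by rw [hc', hr, cL_lTensor, hp, map_zero]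
    have := h3 (x' (r p))
    rw [h5, tmul_zero, sub_zero, LinearMap.sub_apply, End.mul_apply, End.mul_apply, e1,
      ← End.mul_apply r r, hrr] at this
    exact this
  obtain ⟨γ, hγ⟩ := h4.exists_eq hS hG hM hu
  exact comm_of_unipotent hS.two h1 h2 hrr (h4.triple hS hG h4 h4)
    (by rw [hγ, hr, rTensor_mul_lTensor])

end Cfsg.Agent.H27
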