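import Cfsg.Agent.H27.TenP1
import Cfsg.Agent.H53.Stable

/-!
# Overgroups of `Sp(U) ⊗ O(W)` in `Sp(U ⊗ W)`: the conjugates of `t_u ⊗ 1`
-/

set_option autoImplicit false

namespace Cfsg.Agent.H27

open Module TensorProduct QuadraticMap H30 H36

section Ring

variable {R : Type*} [Ring R] {A B g g' : R}

/-- The normal form of an element of `⟨1 + A, 1 + B⟩` and of its inverse. -/
def PForm (A B g g' : R) : Prop := ∃ α β γ δ : R,
  (Commute α A ∧ Commute α B) ∧ (Commute β A ∧ Commute β B) ∧ (Commute γ A ∧ Commute γ B) ∧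
  (Commute δ A ∧ Commute δ B) ∧
  g = 1 + α * (A * B + B * A) + β * A + γ * B + δ * (A * B) ∧
  g' = 1 + (A * B + B * A) * α - A * β - B * γ + B * A * δ

theorem commute_theta {x : R} (h : Commute x A ∧ Commute x B) : Commute x (A * B + B * A) :=
  (h.1.mul_right h.2).add_right (h.2.mul_right h.1)

theorem theta_commute (hA : A * A = 0) (hB : B * B = 0) :
    Commute (A * B + B * A) A ∧ Commute (A * B + B * A) B :=
  ⟨by change _ * A = A * _; linear_combination (norm := noncomm_ring) B * hA - hA * B,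
    by change _ * B = B * _; linear_combination (norm := noncomm_ring) A * hB - hB * A⟩

theorem PForm.mul_left (hA : A * A = 0) (hB : B * B = 0) (h : PForm A B g g') :
    PForm A B (g * (1 + A)) ((1 - A) * g') ∧ PForm A B (g * (1 - A)) ((1 + A) * g') := by
  obtain ⟨α, β, γ, δ, hα, hβ, hγ, hδ, rfl, rfl⟩ := h
  have hΘ := theta_commute hA hB
  have h1 := (commute_theta hα).eq
  have h2 := (commute_theta hδ).eq
  have h3 : Commute (1 + α * (A * B + B * A) + δ * (A * B + B * A)) A ∧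
      Commute (1 + α * (A * B + B * A) + δ * (A * B + B * A)) B :=
    ⟨((Commute.one_left _).add_left (hα.1.mul_left hΘ.1)).add_left (hδ.1.mul_left hΘ.1),
      ((Commute.one_left _).add_left (hα.2.mul_left hΘ.2)).add_left (hδ.2.mul_left hΘ.2)⟩
  refine ⟨⟨α + γ, β + (1 + α * (A * B + B * A) + δ * (A * B + B * A)), γ, δ - γ,
    ⟨hα.1.add_left hγ.1, hα.2.add_left hγ.2⟩, ⟨hβ.1.add_left h3.1, hβ.2.add_left h3.2⟩, hγ,
    ⟨hδ.1.sub_left hγ.1, hδ.2.sub_left hγ.2⟩, ?_, ?_⟩,
    ⟨α - γ, β - (1 + α * (A * B + B * A) + δ * (A * B + B * A)), γ, δ + γ,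
    ⟨hα.1.sub_left hγ.1, hα.2.sub_left hγ.2⟩, ⟨hβ.1.sub_left h3.1, hβ.2.sub_left h3.2⟩, hγ,
    ⟨hδ.1.add_left hγ.1, hδ.2.add_left hγ.2⟩, ?_, ?_⟩⟩
  · linear_combination (norm := noncomm_ring) β * hA - δ * B * hA
  · linear_combination (norm := noncomm_ring) hA * β + A * h1 + A * h2 + hA * B * δ
  · linear_combination (norm := noncomm_ring) -β * hA + δ * B * hA
  · linear_combination (norm := noncomm_ring) -hA * β - A * h1 - A * h2 - hA * B * δ

theorem PForm.mul_right (hA : A * A = 0) (hB : B * B = 0) (h : PForm A B g g') :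
    PForm A B (g * (1 + B)) ((1 - B) * g') ∧ PForm A B (g * (1 - B)) ((1 + B) * g') := by
  obtain ⟨α, β, γ, δ, hα, hβ, hγ, hδ, rfl, rfl⟩ := h
  have hΘ := theta_commute hA hB
  have h1 := (commute_theta hα).eq
  have h3 : Commute (1 + α * (A * B + B * A)) A ∧ Commute (1 + α * (A * B + B * A)) B :=
    ⟨(Commute.one_left _).add_left (hα.1.mul_left hΘ.1),
      (Commute.one_left _).add_left (hα.2.mul_left hΘ.2)⟩
  refine ⟨⟨α, β, γ + (1 + α * (A * B + B * A)), δ + β, hα, hβ,
    ⟨hγ.1.add_left h3.1, hγ.2.add_left h3.2⟩, ⟨hδ.1.add_left hβ.1, hδ.2.add_left hβ.2⟩, ?_, ?_⟩,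
    ⟨α, β, γ - (1 + α * (A * B + B * A)), δ - β, hα, hβ,
    ⟨hγ.1.sub_left h3.1, hγ.2.sub_left h3.2⟩, ⟨hδ.1.sub_left hβ.1, hδ.2.sub_left hβ.2⟩, ?_, ?_⟩⟩
  · linear_combination (norm := noncomm_ring) γ * hB + δ * A * hB
  · linear_combination (norm := noncomm_ring) hB * γ + B * h1 - hB * A * δ
  · linear_combination (norm := noncomm_ring) -γ * hB - δ * A * hB
  · linear_combination (norm := noncomm_ring) -hB * γ - B * h1 + hB * A * δ

theorem pform_of_mem (hA : A * A = 0) (hB : B * B = 0) {g : Rˣ}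
    (hg : g ∈ Subgroup.closure {un A hA, un B hB}) : PForm A B g (g⁻¹ : Rˣ) := by
  induction hg using Subgroup.closure_induction_right with
  | one => exact ⟨0, 0, 0, 0, by simp⟩
  | mul_right x _ y hy ih =>
    rw [mul_inv_rev, Units.val_mul, Units.val_mul]
    rcases hy with rfl | rfl
    · exact (ih.mul_left hA hB).1
    · exact (ih.mul_right hA hB).1
  | mul_inv_cancel x _ y hy ih =>
    rw [mul_inv_rev, inv_inv, Units.val_mul, Units.val_mul]
    rcases hy with rfl | rfl
    · exact (ih.mul_left hA hB).2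
    · exact (ih.mul_right hA hB).2

theorem PForm.two_mul {z : R} (h : PForm A B z z) : ∃ q : R, (Commute q A ∧ Commute q B) ∧
    z + z = 1 + 1 + q * (A * B + B * A) := by
  obtain ⟨α, β, γ, δ, hα, hβ, hγ, hδ, h1, h2⟩ := h
  refine ⟨α + α + δ, ⟨(hα.1.add_left hα.1).add_left hδ.1, (hα.2.add_left hα.2).add_left hδ.2⟩, ?_⟩
  linear_combination (norm := noncomm_ring) h1 + h2 - (commute_theta hα).eq + hβ.1.eq + hγ.2.eq
    - (hδ.2.mul_right hδ.1).eq

theorem theta_eq (A B : R) : (1 + A) * (1 + B) + (1 - B) * (1 - A) - 1 - 1 = A * B + B * A := by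
  noncomm_ring

theorem theta_eq_mul (g : Rˣ) :
    (g : R) + (g⁻¹ : Rˣ) - 1 - 1 = (g⁻¹ : Rˣ) * (((g : R) - 1) * (g - 1)) := by
  linear_combination (norm := noncomm_ring) -g.inv_mul * (g : R) + g.inv_mul + g.inv_mul

theorem nil_lemma {F : Type*} [Field F] [Algebra F R] (h2 : (2 : F) ≠ 0) {X : Subgroup Rˣ}
    (S : R → Prop) (hqt : ∀ s, S s → QT F X s)
    (hconj : ∀ s, S s → ∀ g ∈ X, S (g * s * (g⁻¹ : Rˣ)))
    (hnil : ∀ s z (n : ℕ), S s → QT F X (z * s) → z * s = s * z → z ^ n * s = 0 → z * s = 0)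
    (n : ℕ) : ∀ s r : R, S s → S r → (s * r + r * s) ^ (n + 1) = 0 → s * r * s = 0 := by
  induction n with
  | zero =>
    intro s t hs _ h
    rw [← z_mul_left (hqt s hs).sq, ← pow_one (s * t + t * s), h, zero_mul]
  | succ n ih =>
    intro s r hs hr' hn
    have hr := hqt r hr'
    have hsq := hqt s hs
    have h1 : QT F X (s * r * s) := by
      have key : ∀ g ∈ X, ∀ r', r' * r' = 0 → (g : R) = 1 + r' → ((g⁻¹ : Rˣ) : R) = 1 - r' →
          (s * r' + r' * s) ^ 2 = (s * r + r * s) ^ 2 →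
          s * (g * s * (g⁻¹ : Rˣ)) * s = 0 ∧
          (g * s * (g⁻¹ : Rˣ)) * s * (g * s * (g⁻¹ : Rˣ)) = 0 := by
        intro g hg r' h1 h2 h3 h4
        have h5 := z_conj h1 hsq.sq h2 h3
        have h6 : (-(s * r' + r' * s) ^ 2) ^ (n + 1) = 0 := by
          rw [neg_pow, h4, ← pow_mul, show 2 * (n + 1) = n + 1 + 1 + n by ring,
            pow_add _ (n + 1 + 1), hn]
          simp
        have h7 := hconj s hs g hg
        exact ⟨ih _ _ hs h7 (h5 ▸ h6), ih _ _ h7 hs (by rw [add_comm, h5, h6])⟩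
      exact QT.triple' h2 hr hsq (key _ hr.un_mem r hr.sq rfl rfl rfl)
        (key _ (inv_mem hr.un_mem) (-r) (by simp [hr.sq]) (by rw [val_inv_un, sub_eq_add_neg])
          (by rw [inv_inv, val_un, sub_neg_eq_add]) (by noncomm_ring))
    rw [← z_mul_left hsq.sq] at h1 ⊢
    exact hnil _ _ (n + 1 + 1) hs h1 (by rw [z_mul_left hsq.sq, mul_z_left hsq.sq])
      (by rw [hn, zero_mul])

end Ring

section Involution

variable {F V : Type*} [Field F] [Finite F] [AddCommGroup V] [Module F V] [FiniteDimensional F V]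

/-- Two quadratic elements that do not generate a unipotent group generate a group containing an
involution, which is a polynomial in `A B + B A`. -/
theorem exists_involution (h2 : (2 : F) ≠ 0) {X : Subgroup (End F V)ˣ} {A B : End F V}
    (hA : QT F X A) (hB : QT F X B) (hn : ¬ IsNilpotent (A * B + B * A)) :
    ∃ z q : End F V, InG X z ∧ z * z = 1 ∧ z ≠ 1 ∧ (Commute q A ∧ Commute q B) ∧
      z = 1 + q * (A * B + B * A) := by
  obtain ⟨p, hp⟩ := CharP.exists F
  have : Fact p.Prime := ⟨CharP.char_is_prime F p⟩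
  have hp2 : p ≠ 2 := by
    rintro rfl
    exact h2 (by exact_mod_cast CharP.cast_eq_zero F 2)
  have : Finite V := Module.finite_of_finite F
  have : Finite (End F V) := Module.finite_of_finite F
  have : Nontrivial (End F V) := by
    by_contra h
    rw [not_nontrivial_iff_subsingleton] at h
    exact hn ⟨0, Subsingleton.elim _ _⟩
  have : CharP (End F V) p := charP_of_injective_algebraMap (algebraMap F (End F V)).injective p
  let E := Subgroup.closure ({un A hA.sq, un B hB.sq} : Set (End F V)ˣ)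
  let ψ : E →* MulAut (Multiplicative V) :=
    { toFun := fun g => AddEquiv.toMultiplicative
        (LinearMap.GeneralLinearGroup.toLinearEquiv g.1).toAddEquiv
      map_one' := MulEquiv.ext fun _ => rfl
      map_mul' := fun _ _ => MulEquiv.ext fun _ => rfl }
  have hq : ∀ (C : End F V) (hC : C * C = 0) (h : un C hC ∈ E), H53.QuadAct ψ ⟨un C hC, h⟩ := by
    intro C hC h v
    change Multiplicative.ofAdd ((1 + C) ((1 + C) v.toAdd + -v.toAdd)) =
      Multiplicative.ofAdd ((1 + C) v.toAdd + -v.toAdd)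
    simp [← End.mul_apply, hC]
  have hab := H53.not_abTwo_of_pair hp2 (V := Multiplicative V) (fun v => by
      change Multiplicative.ofAdd (p • v.toAdd) = Multiplicative.ofAdd 0
      rw [← Nat.cast_smul_eq_nsmul F, CharP.cast_eq_zero, zero_smul])
    ψ (H53.closure_pair_subtype (un A hA.sq) (un B hB.sq)) (hq _ _ _) (hq _ _ _)
    ⟨⟨un A hA.sq * un B hB.sq, E.mul_mem (Subgroup.subset_closure (by simp))
      (Subgroup.subset_closure (by simp))⟩, fun k hk => hn (by
        set g := un A hA.sq * un B hB.sq with hg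
        have h1 : (g : End F V) ^ p ^ k = 1 := LinearMap.ext fun v => by
          have := congrArg (fun φ : MulAut (Multiplicative V) =>
            (φ (Multiplicative.ofAdd v)).toAdd) hk
          rw [← Units.val_pow_eq_pow_val]
          exact this
        have h3 : IsNilpotent ((g : End F V) - 1) :=
          ⟨p ^ k, by rw [sub_pow_char_pow_of_commute _ _ (Commute.one_right _), h1, one_pow,
            sub_self]⟩
        have h4 : A * B + B * A = (g⁻¹ : (End F V)ˣ) * (((g : End F V) - 1) * (g - 1)) := by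
          rw [← theta_eq, ← val_un A hA.sq, ← val_un B hB.sq, ← val_inv_un A hA.sq,
            ← val_inv_un B hB.sq, ← Units.val_mul, ← Units.val_mul, ← mul_inv_rev, ← hg,
            theta_eq_mul]
        have h5 : Commute ((g⁻¹ : (End F V)ˣ) : End F V) ((g : End F V) - 1) :=
          (Commute.units_inv_left (Commute.refl _)).sub_right (Commute.one_right _)
        rw [h4]
        exact (h5.mul_right h5).isNilpotent_mul_left
          ((Commute.refl _).isNilpotent_mul_left h3))⟩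
  obtain ⟨z, hz1, hz2⟩ : ∃ z : E, z ≠ 1 ∧ z * z = 1 := by
    by_contra! H
    have key : ∀ (k : ℕ) (g : E), g ^ 2 ^ k = 1 → g = 1 := fun k => by
      induction k with
      | zero => simp
      | succ k ih =>
        intro g hg
        refine ih g (by_contra fun h => H _ h ?_)
        rw [← pow_two, ← pow_mul, ← pow_succ, hg]
    refine hab fun P hP => ⟨⟨fun a b => ?_⟩⟩
    obtain ⟨k, hk⟩ := hP a
    rw [show a = 1 from Subtype.ext (key k a (congrArg Subtype.val hk)), one_mul, mul_one]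
  have h1 := pform_of_mem hA.sq hB.sq z.2
  have h3 : (z.1⁻¹ : (End F V)ˣ) = z.1 := inv_eq_of_mul_eq_one_right (congrArg Subtype.val hz2)
  rw [h3] at h1
  obtain ⟨q, hq, h4⟩ := h1.two_mul
  refine ⟨z.1, (2 : F)⁻¹ • q, ⟨z.1, ?_, rfl⟩, congrArg (fun g : E => (g.1 : End F V)) hz2,
    fun h => hz1 (Subtype.ext (Units.ext h)), ⟨hq.1.smul_left _, hq.2.smul_left _⟩, ?_⟩
  · refine (Subgroup.closure_le X).2 ?_ z.2
    rintro _ (rfl | rfl)
    exacts [hA.un_mem, hB.un_mem]
  · rw [← two_smul F, ← two_smul F] at h4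
    rw [← inv_smul_smul₀ h2 (z.1 : End F V), h4, smul_add, inv_smul_smul₀ h2, smul_mul_assoc]

end Involution

variable {F U W : Type*} [Field F] [AddCommGroup U] [Module F U] [AddCommGroup W] [Module F W]

/-- The conjugates of the `t_u ⊗ 1 - 1` under `X`. -/
def Sig (f : LinearMap.BilinForm F U) (X : Subgroup (End F (U ⊗[F] W))ˣ)
    (B : End F (U ⊗[F] W)) : Prop :=
  ∃ (g g' : End F (U ⊗[F] W)) (u : U), InG X g ∧ g * g' = 1 ∧ g' * g = 1 ∧ u ≠ 0 ∧
    B = g * tN f W u * g'

variable {f : LinearMap.BilinForm F U} {Q : QuadraticForm F W} {X : Subgroup (End F (U ⊗[F] W))ˣ}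
  {u : U} {B : End F (U ⊗[F] W)}

theorem sig_tN (hu : u ≠ 0) : Sig f X (tN f W u) :=
  ⟨1, 1, u, inG_one X, mul_one 1, mul_one 1, hu, by simp⟩

theorem Sig.conj (hB : Sig f X B) {g g' : End F (U ⊗[F] W)} (hg : InG X g) (h1 : g * g' = 1)
    (h2 : g' * g = 1) : Sig f X (g * B * g') := by
  obtain ⟨k, k', u, hk, h3, h4, hu, rfl⟩ := hB
  exact ⟨g * k, k' * g', u, hg.mul hk, by rw [mul_assoc, ← mul_assoc k, h3, one_mul, h1],
    by rw [mul_assoc, ← mul_assoc g', h2, one_mul, h4], hu, by simp only [mul_assoc]⟩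

theorem Sig.qt (hS : TS f Q) (hG : TG f Q X) (hB : Sig f X B) : QT F X B := by
  obtain ⟨g, g', u, hg, h1, h2, -, rfl⟩ := hB
  refine ⟨?_, fun c => ?_⟩
  · rw [mul_assoc, mul_assoc, ← mul_assoc g', ← mul_assoc g', h2, one_mul, ← mul_assoc (tN f W u),
      hS.tN_sq, zero_mul, mul_zero]
  · simpa only [mul_smul_comm, smul_mul_assoc] using inG_conj hg h1 (hG.tN_mem hS u c)

theorem Sig.ne_zero (hS : TS f Q) (hB : Sig f X B) : B ≠ 0 := by
  obtain ⟨g, g', u, -, -, h2, hu, rfl⟩ := hB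
  intro h
  apply hS.tN_ne_zero hu
  calc tN f W u = g' * (g * tN f W u * g') * g := by
        rw [← mul_assoc, ← mul_assoc, h2, one_mul, mul_assoc, h2, mul_one]
    _ = 0 := by rw [h, mul_zero, zero_mul]

theorem Sig.eq_smul (hM : TM f X) (hB : Sig f X B) {n : End F (U ⊗[F] W)} (hn : InG X (1 + n))
    (hr : ∀ p, ∃ q, n p = B q) : ∃ c : F, n = c • B := by
  obtain ⟨g, g', u, hg, h1, h2, hu, rfl⟩ := hB
  obtain ⟨c, hc⟩ := hM u hu _ (inG_conj (inG_inv hg h1) h2 hn) fun p => by
    obtain ⟨q, hq⟩ := hr (g p)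
    refine ⟨cL f W u (g' q), ?_⟩
    rw [End.mul_apply, End.mul_apply, hq, End.mul_apply, End.mul_apply, ← End.mul_apply, h2,
      End.one_apply, tN_apply]
  refine ⟨c, ?_⟩
  rw [← smul_mul_assoc, ← mul_smul_comm, ← hc, ← mul_assoc, ← mul_assoc, h1, one_mul, mul_assoc, h1,
    mul_one]

theorem TG.qt_skew (hS : TS f Q) (hG : TG f Q X) (hB : QT F X B) (p q : U ⊗[F] W) :
    tB f (polarBilin Q) (B p) q = -tB f (polarBilin Q) p (B q) := by
  have h1 := hG.skew (by simpa using hB.mem 1) p q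
  have h2 := hG.skew (hB.mem (-1)) p q
  simp only [neg_smul, one_smul, LinearMap.neg_apply, map_neg, neg_neg] at h2
  exact mul_left_cancel₀ hS.two (by linear_combination h1 - h2)

theorem Sig.eq_zero_of_nil (hS : TS f Q) (hM : TM f X) {s z : End F (U ⊗[F] W)} (hs : Sig f X s)
    (h : QT F X (z * s)) (hzs : z * s = s * z) {n : ℕ} (hn : z ^ n * s = 0) : z * s = 0 := by
  obtain ⟨c, hc⟩ := hs.eq_smul hM (n := z * s) (by simpa using h.mem 1)
    fun p => ⟨z p, by rw [hzs, End.mul_apply]⟩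
  have h2 : ∀ n, z ^ n * s = c ^ n • s := fun n => by
    induction n with
    | zero => simp
    | succ n ih => rw [pow_succ', mul_assoc, ih, mul_smul_comm, hc, smul_smul, pow_succ]
  rw [h2] at hn
  rw [hc, pow_eq_zero_iff'.1 ((smul_eq_zero.1 hn).resolve_right (hs.ne_zero hS)) |>.1, zero_smul]

theorem Sig.triple_eq_zero (hS : TS f Q) (hG : TG f Q X) (hM : TM f X) {s r : End F (U ⊗[F] W)}
    (hs : Sig f X s) (hr : Sig f X r) (h : IsNilpotent (s * r + r * s)) : s * r * s = 0 := by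
  obtain ⟨n, hn⟩ := h
  exact nil_lemma hS.two (Sig f X) (fun s hs => hs.qt hS hG)
    (fun s hs g hg => hs.conj ⟨g, hg, rfl⟩ g.mul_inv g.inv_mul)
    (fun s z n hs h1 h2 h3 => hs.eq_zero_of_nil hS hM h1 h2 h3) n s r hs hr
    (by rw [pow_succ, hn, zero_mul])

theorem Sig.eq_smul_tN (hS : TS f Q) (hG : TG f Q X) (hM : TM f X) (hB : Sig f X B) {β : End F U}
    (h : B = β.rTensor W) : ∃ (y : U) (c : F), B = c • tN f W y := by
  obtain ⟨x, hx⟩ : ∃ x, β x ≠ 0 := by
    by_contra! H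
    exact hB.ne_zero hS (by rw [h, show β = 0 from LinearMap.ext H, LinearMap.rTensor_zero])
  obtain ⟨c, hc⟩ := hB.eq_smul hM (n := tN f W (β x)) (by simpa using hG.tN_mem hS (β x) 1)
    fun p => ⟨x ⊗ₜ cL f W (β x) p, by rw [h, tN_apply, LinearMap.rTensor_tmul]⟩
  have hc0 : c ≠ 0 := by
    rintro rfl
    exact hS.tN_ne_zero hx (by rw [hc, zero_smul])
  exact ⟨β x, c⁻¹, by rw [hc, inv_smul_smul₀ hc0]⟩

theorem TG.exists_eq_map (hS : TS f Q) (h : ∀ B, Sig f X B → ∃ (y : U) (c : F), B = c • tN f W y)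
    {g : End F (U ⊗[F] W)} (hg : InG X g) :
    ∃ (α : End F U) (β : End F W), g = TensorProduct.map α β := by
  have := hS.nt
  have := hS.nontrivial
  obtain ⟨g', -, h1, h2⟩ := inG_exists_inv hg
  refine H27.exists_eq_map hS.nd hS.qnd g
    (Function.LeftInverse.injective (g := g') (LinearMap.congr_fun h2)) fun u => ?_
  by_cases hu : u = 0
  · exact ⟨0, 0, by simp [hu, show ro f 0 0 = 0 from LinearMap.ext fun x => by simp]⟩
  obtain ⟨y, c, e⟩ := h _ ((sig_tN hu).conj hg h1 h2)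
  refine ⟨y, c, ?_⟩
  change g * tN f W u = c • tN f W y * g
  rw [← e, mul_assoc, h2, mul_one]

variable [FiniteDimensional F U] [FiniteDimensional F W]

omit [FiniteDimensional F W] in
theorem exists_orth_not_mem (f : LinearMap.BilinForm F U) (h3 : 3 ≤ finrank F U) (u : U) :
    ∃ y, f u y = 0 ∧ y ∉ F ∙ u := by
  by_contra! H
  have h1 := Submodule.finrank_mono (show LinearMap.ker (f u) ≤ F ∙ u from H)
  have h2 := LinearMap.finrank_range_add_finrank_ker (f u)
  have h4 := Submodule.finrank_le (LinearMap.range (f u))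
  have h5 := finrank_span_le_card (R := F) ({u} : Set U)
  simp only [Set.toFinset_singleton, Finset.card_singleton, finrank_self] at h4 h5
  omega

omit [FiniteDimensional F U] [FiniteDimensional F W] in
theorem Sig.finrank_range (hS : TS f Q) (hB : Sig f X B) :
    finrank F (LinearMap.range B) = finrank F W := by
  obtain ⟨g, g', u, -, h1, h2, hu, rfl⟩ := hB
  obtain ⟨y, hy, -⟩ := hS.exists_pair hu
  have : LinearMap.range (g * tN f W u * g') =
      LinearMap.range (g ∘ₗ TensorProduct.mk F U W u) := by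
    ext p
    constructor
    · rintro ⟨q, rfl⟩
      exact ⟨cL f W u (g' q), by simp [tN_apply]⟩
    · rintro ⟨w, rfl⟩
      refine ⟨g (y ⊗ₜ w), ?_⟩
      rw [End.mul_apply, ← End.mul_apply g', h2]
      simp [tN_apply, hy]
  rw [this, LinearMap.finrank_range_of_inj]
  exact (Function.LeftInverse.injective (g := g') (LinearMap.congr_fun h2)).comp
    fun w w' e => tmul_left_inj hS.nd hu e

/-- An involution centralising `t_u ⊗ 1` and acting trivially on `(u ⊗ W)^⊥ / u ⊗ W` up to the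
`-1` eigenspace. -/
theorem TG.invol_sign (hS : TS f Q) (hG : TG f Q X) (hM : TM f X) (h3 : 3 ≤ finrank F U)
    (hu : u ≠ 0) {z : End F (U ⊗[F] W)} (hz : InG X z) (hzz : z * z = 1)
    (hc : z * tN f W u = tN f W u * z) (hk : ∀ p, tN f W u p = 0 → ∃ q, p - z p = tN f W u q) :
    z * tN f W u = tN f W u ∨
      (z * tN f W u = -tN f W u ∧ ∃ x, x ≠ 0 ∧ ∀ w, z (x ⊗ₜ w) = x ⊗ₜ w) := by
  obtain ⟨y₁, hy₁, hy₁'⟩ := hS.exists_pair hu
  let ζ : End F W := cL f W u ∘ₗ z ∘ₗ TensorProduct.mk F U W y₁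
  have hζ : ∀ w, z (u ⊗ₜ w) = u ⊗ₜ ζ w := fun w => by
    simpa [tN_apply, hy₁, ζ] using LinearMap.congr_fun hc (y₁ ⊗ₜ w)
  have hζζ : ∀ w, ζ (ζ w) = w := fun w => tmul_left_inj hS.nd hu (by
    rw [← hζ, ← hζ, ← End.mul_apply, hzz, End.one_apply])
  have hζQ : ∀ w, Q (ζ w) = Q w := fun w => by
    have := hG.iso _ hz (y₁ ⊗ₜ w) (u ⊗ₜ w)
    rw [hζ, tB_cL, tB_tmul, hy₁, one_mul, polarBilin_apply_apply, polarBilin_apply_apply] at this
    exact mul_left_cancel₀ hS.two (by rw [← polar_self', ← polar_self']; exact this)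
  let ρ : O Q := ⟨LinearEquiv.ofInvolutive ζ hζζ, hζQ⟩
  obtain ⟨α, hα⟩ := hG.exists_eq_rTensor hS hM hu (hz.mul (hG.right ρ)) fun w => by
    change z (u ⊗ₜ ζ w) = _
    rw [hζ, hζζ]
  have hzα : ∀ x w, z (x ⊗ₜ w) = α x ⊗ₜ ζ w := fun x w => by
    have := LinearMap.congr_fun hα (x ⊗ₜ ζ w)
    change z (x ⊗ₜ ζ (ζ w)) = _ at this
    rwa [hζζ] at this
  obtain ⟨y, hy, hyu⟩ := exists_orth_not_mem f h3 u
  have hin : ∀ (a : U) (w : W), w ≠ 0 → (∃ q, a ⊗ₜ w = tN f W u q) → a ∈ F ∙ u := by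
    rintro a w hw ⟨q, hq⟩
    obtain ⟨w', hw'⟩ := exists_apply_eq_one hS.qnd hw
    have := congrArg (cR (polarBilin Q) U w') hq
    rw [tN_apply, cR_tmul, cR_tmul, hw', one_smul] at this
    exact this ▸ Submodule.smul_mem _ _ (Submodule.mem_span_singleton_self u)
  have hk' : ∀ w, ∃ q, y ⊗ₜ w - α y ⊗ₜ ζ w = tN f W u q := fun w => by
    rw [← hzα]
    exact hk _ (by simp [tN_apply, hS.alt.isRefl _ _ hy])
  have h2y : y + y ∉ F ∙ u := fun h => hyu (by
    rwa [← two_smul F, Submodule.smul_mem_iff _ hS.two] at h)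
  by_cases h1 : ∀ w, ζ w = w
  · left
    ext a w
    simp [tN_apply, hζ, h1]
  push Not at h1
  obtain ⟨w₁, hw₁⟩ := h1
  have hm : y + α y ∈ F ∙ u := hin _ (w₁ - ζ w₁) (sub_ne_zero.2 hw₁.symm) (by
    convert hk' (w₁ - ζ w₁) using 3
    rw [map_sub, hζζ, add_tmul, ← neg_sub w₁, tmul_neg, sub_neg_eq_add])
  have h4 : ∀ w, ζ w = -w := fun w => by
    by_contra h5
    have hp : y - α y ∈ F ∙ u := hin _ (w + ζ w) (fun h => h5 (eq_neg_of_add_eq_zero_right h)) (by
      convert hk' (w + ζ w) using 3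
      rw [map_add, hζζ, sub_tmul, add_comm (ζ w)])
    exact h2y (by simpa using Submodule.add_mem _ hm hp)
  refine Or.inr ⟨?_, y - α y, fun h => h2y (by rwa [← sub_eq_zero.1 h] at hm), fun w => ?_⟩
  · ext a w
    simp [tN_apply, hζ, h4, tmul_neg]
  · have := LinearMap.congr_fun hzz (y ⊗ₜ w)
    rw [End.mul_apply, hzα, h4, tmul_neg, map_neg, End.one_apply, neg_eq_iff_eq_neg] at this
    rw [sub_tmul, map_sub, this, hzα, h4, tmul_neg]
    abel

theorem Sig.invol_sign (hS : TS f Q) (hG : TG f Q X) (hM : TM f X) (h3 : 3 ≤ finrank F U)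
    (hB : Sig f X B) {z : End F (U ⊗[F] W)} (hz : InG X z) (hzz : z * z = 1)
    (hc : z * B = B * z) (hk : ∀ p, B p = 0 → ∃ q, p - z p = B q) : z * B = B ∨ z * B = -B := by
  obtain ⟨g, g', u, hg, h1, h2, hu, rfl⟩ := hB
  have e1 : ∀ p, g (g' p) = p := LinearMap.congr_fun h1
  have e2 : ∀ p, g' (g p) = p := LinearMap.congr_fun h2
  have := hG.invol_sign hS hM h3 hu (((inG_inv hg h1).mul hz).mul hg)
    (LinearMap.ext fun p => by
      simp only [End.mul_apply, e1, End.one_apply]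
      rw [← End.mul_apply z z, hzz, End.one_apply, e2])
    (LinearMap.ext fun p => by
      have := congrArg g' (LinearMap.congr_fun hc (g p))
      simpa only [End.mul_apply, e2] using this)
    (fun p hp => by
      obtain ⟨q, hq⟩ := hk (g p) (by simp [e2, hp])
      refine ⟨g' q, ?_⟩
      simpa only [End.mul_apply, e2, map_sub] using congrArg g' hq)
  refine this.imp (fun h => LinearMap.ext fun p => ?_) (fun h => LinearMap.ext fun p => ?_)
  · simpa only [End.mul_apply, e1] using congrArg g (LinearMap.congr_fun h (g' p))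
  · simpa only [End.mul_apply, e1, LinearMap.neg_apply, map_neg] using
      congrArg g (LinearMap.congr_fun h.1 (g' p))

theorem Sig.exists_rTensor_of_not_nil [Finite F] (hS : TS f Q) (hG : TG f Q X) (hM : TM f X)
    (h3 : 3 ≤ finrank F U) (hB : Sig f X B) (hu : u ≠ 0)
    (hn : ¬ IsNilpotent (tN f W u * B + B * tN f W u)) : ∃ β : End F U, B = β.rTensor W := by
  obtain ⟨z, q, hz, hzz, hz1, hq, hzq⟩ := exists_involution hS.two (hG.qt hS u) (hB.qt hS hG) hn
  have hΘ := theta_commute (hS.tN_sq u) (hB.qt hS hG).sq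
  set A := tN f W u with hA
  have hzA : Commute z A := hzq ▸ (Commute.one_left _).add_left (hq.1.mul_left hΘ.1)
  have hzB : Commute z B := hzq ▸ (Commute.one_left _).add_left (hq.2.mul_left hΘ.2)
  have e1 : ∀ p, q (A p) = A (q p) := LinearMap.congr_fun hq.1.eq
  have e2 : ∀ p, q (B p) = B (q p) := LinearMap.congr_fun hq.2.eq
  have hne : ¬ ∀ p, z ((A * B + B * A) p) = (A * B + B * A) p := fun h => hz1 (by
    refine LinearMap.ext fun p => ?_
    have h1 : ∀ p, z p = p + (A * B + B * A) (q p) := fun p => by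
      rw [hzq, (commute_theta hq).eq]; rfl
    have h4 := LinearMap.congr_fun hzz p
    rw [End.mul_apply, h1 p, map_add, h, h1 p, End.one_apply, add_assoc, add_eq_left,
      ← two_smul F] at h4
    rw [h1, (smul_eq_zero.1 h4).resolve_left hS.two, add_zero, End.one_apply])
  have eA : ∀ p, z (A p) = A (z p) := LinearMap.congr_fun hzA.eq
  have eB : ∀ p, z (B p) = B (z p) := LinearMap.congr_fun hzB.eq
  obtain h1 | ⟨-, x, hx, h1⟩ := hG.invol_sign hS hM h3 hu hz hzz hzA.eq fun p (hp : A p = 0) =>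
    ⟨-q (B p), by rw [hzq, ← hA]; simp [hp, e1]⟩
  · refine absurd (fun p => ?_) hne
    have : ∀ p, z (A p) = A p := LinearMap.congr_fun h1
    simp only [LinearMap.add_apply, End.mul_apply, map_add, eB (A p), this]
  obtain h4 | h4 := hB.invol_sign hS hG hM h3 hz hzz hzB.eq fun p hp =>
    ⟨-q (A p), by rw [hzq]; simp [hp, e2]⟩
  · refine absurd (fun p => ?_) hne
    have := LinearMap.congr_fun h4
    simp only [End.mul_apply] at this
    simp only [LinearMap.add_apply, End.mul_apply, map_add, eA (B p), this]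
  obtain ⟨α, hα⟩ := hG.exists_eq_rTensor hS hM hx (x := 1 + B)
    (by simpa using (hB.qt hS hG).mem 1) fun w => by
      have := LinearMap.congr_fun h4 (x ⊗ₜ w)
      rw [End.mul_apply, eB, h1, LinearMap.neg_apply, eq_neg_iff_add_eq_zero, ← two_smul F] at this
      simp [(smul_eq_zero.1 this).resolve_left hS.two]
  exact ⟨α - 1, by rw [LinearMap.rTensor_sub, ← hα, End.one_eq_id, End.one_eq_id,
    LinearMap.rTensor_id, add_sub_cancel_left]⟩

theorem Sig.exists_lTensor_of_nil (hS : TS f Q) (hG : TG f Q X) (hM : TM f X) (hB : Sig f X B)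
    (hn : ∀ u, u ≠ 0 → IsNilpotent (tN f W u * B + B * tN f W u)) :
    ∃ β : End F W, B = β.lTensor U := by
  have h1 : ∀ u w, cL f W u (B (u ⊗ₜ w)) = 0 := fun u w => by
    by_cases hu : u = 0
    · simp [hu]
    obtain ⟨y, hy, -⟩ := hS.exists_pair hu
    have := LinearMap.congr_fun ((sig_tN hu).triple_eq_zero hS hG hM hB (hn u hu)) (y ⊗ₜ w)
    refine tmul_left_inj hS.nd hu ?_
    simpa [tN_apply, hy] using this
  have h2 : ∀ x y w, cL f W x (B (y ⊗ₜ w)) = -cL f W y (B (x ⊗ₜ w)) := fun x y w => by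
    have := h1 (x + y) w
    simp only [map_add, add_tmul, LinearMap.add_apply, h1, zero_add, add_zero] at this
    exact eq_neg_of_add_eq_zero_right this
  have h4 : ∀ x y w, polar Q (cL f W x (B (y ⊗ₜ w))) w = 0 := fun x y w => by
    have := hG.qt_skew hS (hB.qt hS hG) (y ⊗ₜ w) (x ⊗ₜ w)
    rw [hS.flip (y ⊗ₜ w), neg_neg, tB_cL, tB_cL, h2 y x, map_neg, LinearMap.neg_apply,
      polarBilin_apply_apply] at this
    exact (mul_eq_zero.1 (by linear_combination this :
      2 * polar Q (cL f W x (B (y ⊗ₜ w))) w = 0)).resolve_left hS.two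
  refine exists_eq_lTensor hS.nd B fun u => ?_
  by_cases hu : u = 0
  · simp [hu, show ro f 0 0 = 0 from LinearMap.ext fun x => by simp]
  have h5 := (sig_tN hu).triple_eq_zero hS hG hM hB (hn u hu)
  have h6 := hB.triple_eq_zero hS hG hM (sig_tN hu) (by rw [add_comm]; exact hn u hu)
  obtain ⟨γ, hγ⟩ := hG.exists_eq_rTensor hS hM hu (((hG.qt hS u).comm (hB.qt hS hG) h5 h6).mem 1)
    fun w => by simp [tN_apply, h1, hS.alt.self_eq_zero]
  obtain ⟨w, hw⟩ := exists_nonsingular hS.qnd hS.three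
  have h7 : γ = 1 := LinearMap.ext fun y => by
    rw [← sub_eq_zero]
    refine hS.nd.1 _ fun x => ?_
    have := congrArg (fun p => polar Q (cL f W x p) w) (LinearMap.congr_fun hγ (y ⊗ₜ w))
    simp only [one_smul, LinearMap.add_apply, End.one_apply, LinearMap.sub_apply, End.mul_apply,
      tN_apply, cL_tmul, tmul_smul, map_smul, map_add, map_sub, polar_add_left, polar_sub_left,
      polar_smul_left', h4, LinearMap.rTensor_tmul, polar_self'] at this
    refine mul_right_cancel₀ (mul_ne_zero hS.two hw) ?_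
    simp only [map_sub, LinearMap.sub_apply, End.one_apply]
    linear_combination -this
  rw [h7, End.one_eq_id (M := U), LinearMap.rTensor_id, one_smul, ← End.one_eq_id, add_eq_left,
    sub_eq_zero] at hγ
  exact hγ.symm

omit [FiniteDimensional F U] in
theorem Sig.lTensor_facts (hS : TS f Q) (hG : TG f Q X) (hB : Sig f X B) {β : End F W}
    (h : B = β.lTensor U) : β ≠ 0 ∧ (∀ w w', polar Q (β w) w' = -polar Q w (β w')) ∧
      (∀ w, β (β w) = 0) ∧ finrank F U * finrank F (LinearMap.range β) = finrank F W := by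
  have := hS.nt
  obtain ⟨u, hu⟩ := exists_ne (0 : U)
  obtain ⟨y, hy, -⟩ := hS.exists_pair hu
  refine ⟨?_, fun w w' => ?_, fun w => tmul_left_inj hS.nd hu ?_, ?_⟩
  · rintro rfl
    exact hB.ne_zero hS (by rw [h, LinearMap.lTensor_zero])
  · simpa [h, hy] using hG.qt_skew hS (hB.qt hS hG) (y ⊗ₜ w) (u ⊗ₜ w')
  · simpa [h] using LinearMap.congr_fun (hB.qt hS hG).sq (u ⊗ₜ w)
  · rw [← finrank_range_lTensor, ← h, hB.finrank_range hS]

/-- If `dim U ≥ 3` all conjugates of `t_u ⊗ 1` have the form `t_y ⊗ 1`. -/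
theorem Sig.eq_of_three_le [Finite F] (hS : TS f Q) (hG : TG f Q X) (hM : TM f X)
    (h3 : 3 ≤ finrank F U) (hB : Sig f X B) : ∃ (y : U) (c : F), B = c • tN f W y := by
  have dich : ∀ C, Sig f X C → (∃ (y : U) (c : F), C = c • tN f W y) ∨
      ∃ β : End F W, C = β.lTensor U := fun C hC => by
    by_cases hn : ∀ u, u ≠ 0 → IsNilpotent (tN f W u * C + C * tN f W u)
    · exact Or.inr (hC.exists_lTensor_of_nil hS hG hM hn)
    · push Not at hn
      obtain ⟨u, hu, hn⟩ := hn
      obtain ⟨β, hβ⟩ := hC.exists_rTensor_of_not_nil hS hG hM h3 hu hn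
      exact Or.inl (hC.eq_smul_tN hS hG hM hβ)
  refine (dich B hB).resolve_right ?_
  rintro ⟨β, hβ⟩
  obtain ⟨-, h1, h2, h4⟩ := hB.lTensor_facts hS hG hβ
  obtain ⟨w₀, hw₀, hQ₀⟩ : ∃ w₀, β w₀ = 0 ∧ Q w₀ ≠ 0 := by
    by_contra! H
    have h5 : LinearMap.ker β ≤ perp Q (LinearMap.ker β) := fun a ha => mem_perp.2 fun b hb => by
      have := Q_add Q b a
      rwa [H _ ha, H _ hb, H _ (Submodule.add_mem _ hb ha), zero_add, zero_add, eq_comm] at this
    have h6 := Submodule.finrank_mono h5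
    have h7 := finrank_add_finrank_perp hS.qnd (LinearMap.ker β)
    have h8 := LinearMap.finrank_range_add_finrank_ker β
    have h9 := hS.three
    nlinarith
  obtain ⟨g, g', u, hg, e1, e2, hu, rfl⟩ := hB
  have e1' : ∀ p, g (g' p) = p := LinearMap.congr_fun e1
  have e2' : ∀ p, g' (g p) = p := LinearMap.congr_fun e2
  obtain ⟨y, hy, -⟩ := hS.exists_pair hu
  set r := (reflLin Q w₀).lTensor U with hr
  have hrβ : r * β.lTensor U = β.lTensor U := by
    ext a b
    simp [hr, reflLin_apply, h1, hw₀]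
  have hrr : ∀ p, r (r p) = p := LinearMap.congr_fun (show r * r = 1 by
    ext a b
    simp [hr, reflLin_reflLin])
  obtain ⟨α, hα⟩ := hG.exists_eq_rTensor hS hM hu
    (((inG_inv hg e1).mul (hG.right (refl Q w₀))).mul hg) fun w => by
      have := LinearMap.congr_fun hrβ (g (y ⊗ₜ w))
      rw [← hβ] at this
      simp only [End.mul_apply, e2', tN_apply, cL_tmul, hy, one_smul] at this
      change g' (r (g _)) = _
      rw [this, e2']
  have hα' : ∀ p, r (g p) = g (α.rTensor W p) := fun p => by rw [← hα]; exact (e1' _).symm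
  have hw0 := ne_zero_of_Q_ne_zero hQ₀
  obtain ⟨x, hx, hαx⟩ : ∃ x, x ≠ 0 ∧ α x = -x := by
    have h5 : ∀ a, α (α a) = a := fun a => tmul_right_inj hS.qnd hw0 (by
      have := hrr (g (a ⊗ₜ w₀))
      rw [hα', hα'] at this
      simpa [e2'] using congrArg g' this)
    by_contra! H
    have h6 : α = 1 := LinearMap.ext fun a => by
      by_contra h
      exact H (a - α a) (sub_ne_zero.2 (Ne.symm h)) (by rw [map_sub, h5, neg_sub])
    have := hα' (g' (u ⊗ₜ w₀))
    rw [h6, End.one_eq_id, LinearMap.rTensor_id, LinearMap.id_apply, e1', hr, LinearMap.lTensor_tmul,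
      show reflLin Q w₀ w₀ = -w₀ from refl_apply_self hQ₀, tmul_neg, neg_eq_iff_add_eq_zero,
      ← two_smul F] at this
    exact tmul_ne_zero hS.nd hu hw0 ((smul_eq_zero.1 this).resolve_left hS.two)
  have hC := (sig_tN (f := f) (X := X) hx).conj hg e1 e2
  have hrC : ∀ p, r ((g * tN f W x * g') p) = -(g * tN f W x * g') p := fun p => by
    simp only [End.mul_apply, tN_apply, hα', LinearMap.rTensor_tmul, hαx, neg_tmul, map_neg]
  obtain ⟨w₁, hw₁, hw₁'⟩ : ∃ w₁, w₁ ≠ 0 ∧ polar Q w₁ w₀ = 0 := by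
    obtain ⟨a, ha, ha'⟩ := exists_orth_not_mem (polarBilin Q) hS.three w₀
    exact ⟨a, fun h => ha' (h ▸ Submodule.zero_mem _), by rwa [polar_comm]⟩
  rcases dich _ hC with ⟨y', c, h5⟩ | ⟨β', h5⟩
  · refine hC.ne_zero hS ?_
    by_cases hy' : y' = 0
    · rw [h5, hy']
      simp [tN, show ro f 0 0 = 0 from LinearMap.ext fun x => by simp]
    obtain ⟨y'', hy'', -⟩ := hS.exists_pair hy'
    have := hrC (y'' ⊗ₜ w₁)
    rw [h5] at this
    simp only [LinearMap.smul_apply, tN_apply, cL_tmul, hy'', one_smul, map_smul, hr,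
      LinearMap.lTensor_tmul, reflLin_apply, hw₁', mul_zero, zero_smul, sub_zero] at this
    rw [eq_neg_iff_add_eq_zero, ← two_smul F, smul_smul] at this
    rw [h5, (mul_eq_zero.1 ((smul_eq_zero.1 this).resolve_right
      (tmul_ne_zero hS.nd hy' hw₁))).resolve_left hS.two, zero_smul]
  · obtain ⟨h6, h7, h8, -⟩ := hC.lTensor_facts hS hG h5
    refine h6 (LinearMap.ext fun w => ?_)
    have := hrC (u ⊗ₜ w)
    rw [h5, LinearMap.lTensor_tmul, hr, LinearMap.lTensor_tmul, ← tmul_neg] at this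
    have h9 := tmul_left_inj hS.nd hu this
    have h10 := h7 w (β' w)
    rw [h8, polar_zero_right, neg_zero, polar_self'] at h10
    rw [reflLin_apply, sub_eq_iff_eq_add, eq_neg_add_iff_add_eq, ← two_smul F] at h9
    have h11 := congrArg Q h9
    rw [Q_smul, Q_smul, (mul_eq_zero.1 h10).resolve_left hS.two, mul_zero] at h11
    rw [mul_self_eq_zero.1 ((mul_eq_zero.1 h11.symm).resolve_right hQ₀), zero_smul] at h9
    exact (smul_eq_zero.1 h9).resolve_left hS.two

end Cfsg.Agent.H27
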