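import Cfsg.Agent.H27.TenSig
import Cfsg.Agent.H36.Dickson

/-!
# Overgroups of `Sp(U) ⊗ O(W)` in `Sp(U ⊗ W)`: the case `dim U = 2`
-/

set_option autoImplicit false

namespace Cfsg.Agent.H27

open Module TensorProduct QuadraticMap H30 H36

variable {F U W : Type*} [Field F] [AddCommGroup U] [Module F U] [AddCommGroup W] [Module F W]
variable {f : LinearMap.BilinForm F U} {Q : QuadraticForm F W} {X : Subgroup (End F (U ⊗[F] W))ˣ}
  {u : U} {w z : W} {n n' : End F (U ⊗[F] W)}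

theorem TS.mem_span [FiniteDimensional F U] (hS : TS f Q) (h2 : finrank F U ≤ 2) (hu : u ≠ 0)
    {x : U} (hx : f x u = 0) : ∃ c : F, x = c • u := by
  obtain ⟨y, -, hy⟩ := hS.exists_pair hu
  have h1 := Module.Dual.finrank_ker_add_one_of_ne_zero (f := f u) fun h => by simp [h] at hy
  have h3 : F ∙ u = LinearMap.ker (f u) := Submodule.eq_of_le_of_finrank_le
    ((Submodule.span_singleton_le_iff_mem _ _).2 (hS.alt.self_eq_zero u))
    (by rw [finrank_span_singleton hu]; omega)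
  obtain ⟨c, hc⟩ := Submodule.mem_span_singleton.1 (h3 ▸ hS.alt.isRefl _ _ hx : x ∈ F ∙ u)
  exact ⟨c, hc.symm⟩

variable [FiniteDimensional F W]

theorem TM.eq_zero_of_range (hS : TS f Q) (hM : TM f X) (hu : u ≠ 0) (hn : InG X (1 + n))
    (h : ∀ p, n p ∈ F ∙ u ⊗ₜ[F] w) : n = 0 := by
  obtain ⟨c, hc⟩ := hM u hu n hn fun p => by
    obtain ⟨a, ha⟩ := Submodule.mem_span_singleton.1 (h p)
    exact ⟨a • w, by rw [← ha, tmul_smul]⟩
  obtain ⟨w', -, hw'⟩ := exists_orth_not_mem (polarBilin Q) hS.three w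
  obtain ⟨y, hy, -⟩ := hS.exists_pair hu
  obtain ⟨a, ha⟩ := Submodule.mem_span_singleton.1 (h (y ⊗ₜ w'))
  rw [hc, LinearMap.smul_apply, tN_apply, cL_tmul, hy, one_smul, ← tmul_smul, ← tmul_smul] at ha
  by_contra h0
  have hc0 : c ≠ 0 := by
    rintro rfl
    exact h0 (by rw [hc, zero_smul])
  exact hw' ((Submodule.smul_mem_iff _ hc0).1 (tmul_left_inj hS.nd hu ha ▸
    Submodule.smul_mem _ _ (Submodule.mem_span_singleton_self w)))

/-- `1 + n` lies in `X` and in the unipotent radical of the stabiliser of the subspace `S`. -/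
structure QS (B : LinearMap.BilinForm F (U ⊗[F] W)) (X : Subgroup (End F (U ⊗[F] W))ˣ)
    (S : Submodule F (U ⊗[F] W)) (n : End F (U ⊗[F] W)) : Prop where
  mem : InG X (1 + n)
  kill : ∀ p ∈ S, n p = 0
  into : ∀ p, (∀ s ∈ S, B p s = 0) → n p ∈ S

variable {S : Submodule F (U ⊗[F] W)}

omit [FiniteDimensional F W] in
theorem QS.perp (hG : TG f Q X) (h : QS (tB f (polarBilin Q)) X S n) (p : U ⊗[F] W) :
    ∀ s ∈ S, tB f (polarBilin Q) (n p) s = 0 := fun s hs => by
  simpa [h.kill s hs] using hG.skew h.mem p s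

omit [FiniteDimensional F W] in
theorem QS.triple (hG : TG f Q X) {n'' : End F (U ⊗[F] W)} (h : QS (tB f (polarBilin Q)) X S n)
    (h' : QS (tB f (polarBilin Q)) X S n') (h'' : QS (tB f (polarBilin Q)) X S n'') :
    n * n' * n'' = 0 :=
  LinearMap.ext fun p => h.kill _ (h'.into _ (h''.perp hG p))

omit [FiniteDimensional F W] in
theorem QS.conj (hG : TG f Q X) (h : QS (tB f (polarBilin Q)) X S n) {k k' : End F (U ⊗[F] W)}
    (hk : InG X k) (hkk' : k * k' = 1) (h1 : ∀ p ∈ S, k p ∈ S) (h2 : ∀ p ∈ S, k' p ∈ S) :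
    QS (tB f (polarBilin Q)) X S (k * n * k') := by
  refine ⟨inG_conj hk hkk' h.mem, fun p hp => by simp [h.kill _ (h2 p hp)], fun p hp => ?_⟩
  refine h1 _ (h.into _ fun s hs => ?_)
  rw [← hG.iso _ hk, ← End.mul_apply, hkk', End.one_apply, hp _ (h1 s hs)]

omit [FiniteDimensional F W] in
theorem QS.rel (hS : TS f Q) (hG : TG f Q X)
    (hZ : ∀ c, InG X (1 + c) → (∀ p, c p ∈ S) → c = 0) (hn : QS (tB f (polarBilin Q)) X S n)
    (hn' : QS (tB f (polarBilin Q)) X S n') (p q : U ⊗[F] W) :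
    tB f (polarBilin Q) (n p) (n' q) + tB f (polarBilin Q) (n q) (n' p) = 0 := by
  have hc := hZ _ (inG_comm hn.mem hn'.mem (hn.triple hG hn' hn)
    (hn.triple hG hn' hn') (hn'.triple hG hn hn) (hn'.triple hG hn hn')) fun p =>
      Submodule.sub_mem _ (hn.into _ (hn'.perp hG p)) (hn'.into _ (hn.perp hG p))
  have h1 := congrArg (fun m : End F (U ⊗[F] W) => tB f (polarBilin Q) (m p) q) hc
  have h2 := hG.skew hn.mem (n' p) q
  have h3 := hG.skew hn'.mem (n p) q
  rw [hS.flip (n (n' p)) (n q), hn.perp hG _ _ (hn.into _ (hn'.perp hG _))] at h2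
  rw [hS.flip (n' (n p)) (n' q), hn'.perp hG _ _ (hn'.into _ (hn.perp hG _))] at h3
  simp only [LinearMap.sub_apply, End.mul_apply, map_sub, LinearMap.zero_apply, map_zero] at h1
  rw [hS.flip (n q)]
  linear_combination h1 - h2 + h3

variable [FiniteDimensional F U]

/-- `X` meets the unipotent radical of the stabiliser of `u ⊗ w` trivially. -/
theorem QS.eq_zero_of_point (hS : TS f Q) (hG : TG f Q X) (hM : TM f X) (h2 : finrank F U ≤ 2)
    (hu : u ≠ 0) (hw : Q w ≠ 0) (hn : QS (tB f (polarBilin Q)) X (F ∙ u ⊗ₜ[F] w) n) : n = 0 := by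
  obtain ⟨y, hy, hy'⟩ := hS.exists_pair hu
  have hv := Submodule.mem_span_singleton_self (R := F) (u ⊗ₜ[F] w)
  have key : ∀ k k' : End F (U ⊗[F] W), InG X k → k * k' = 1 → k (u ⊗ₜ w) = u ⊗ₜ w →
      k' (u ⊗ₜ w) = u ⊗ₜ w → k' (y ⊗ₜ w) - y ⊗ₜ w ∈ F ∙ u ⊗ₜ[F] w →
      tB f (polarBilin Q) (n (y ⊗ₜ w)) (k (n (y ⊗ₜ w))) = 0 := fun k k' hk h1 h3 h4 h5 => by
    have := hn.rel hS hG (fun c hc hc' => hM.eq_zero_of_range hS hu hc hc') (hn.conj hG hk h1
      (fun p hp => by
        obtain ⟨a, rfl⟩ := Submodule.mem_span_singleton.1 hp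
        rwa [map_smul, h3])
      (fun p hp => by
        obtain ⟨a, rfl⟩ := Submodule.mem_span_singleton.1 hp
        rwa [map_smul, h4])) (y ⊗ₜ w) (y ⊗ₜ w)
    have h6 := hn.kill _ h5
    rw [map_sub, sub_eq_zero] at h6
    rw [End.mul_apply, End.mul_apply, h6, ← two_mul] at this
    exact (mul_eq_zero.1 this).resolve_left hS.two
  set b := cL f W u (n (y ⊗ₜ w)) with hb
  have hbw : polar Q b w = 0 := by simpa [tB_cL] using hn.perp hG (y ⊗ₜ w) _ hv
  have h3 : ∀ ρ : O Q, ρ.1 w = w → polar Q b (ρ.1 b) = 0 := fun ρ hρ => by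
    have hρ' : ρ.1.symm w = w := ρ.1.symm_apply_eq.2 hρ.symm
    have h4 := key _ ((ρ⁻¹).1.toLinearMap.lTensor U) (hG.right ρ) (by ext; simp) (by simp [hρ])
      (by simp [hρ']) (by simp [hρ'])
    have h5 := key _ ((ρ⁻¹).1.toLinearMap.lTensor U * (1 - tN f W u))
      ((hG.tN_mem hS u 1).mul (hG.right ρ)) (by
        ext
        simp [tN_apply, hS.alt.self_eq_zero]) (by simp [hρ, tN_apply, hS.alt.self_eq_zero])
      (by simp [hρ', tN_apply, hS.alt.self_eq_zero]) (by simp [hρ', tN_apply, hy])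
    rw [End.mul_apply, LinearMap.add_apply, End.one_apply, map_add, h4, zero_add, one_smul,
      tN_apply, tB_cL, cL_lTensor] at h5
    exact h5
  have hQb : Q b = 0 := by
    have := h3 1 rfl
    rw [O_one_apply, polar_self'] at this
    exact (mul_eq_zero.1 this).resolve_left hS.two
  have hb0 : b = 0 := eq_zero_of_orth_nonsingular hS.qnd hS.two hw hbw hQb fun x hx hQx => by
    have := h3 (refl Q x) (refl_apply_of_orth (by rwa [polar_comm]))
    rw [refl_apply, polar_sub_right, polar_self', hQb, polar_smul_right', mul_zero, zero_sub,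
      neg_eq_zero, mul_assoc] at this
    exact mul_self_eq_zero.1 ((mul_eq_zero.1 this).resolve_left (inv_ne_zero hQx))
  have h4 : n (y ⊗ₜ w) ∈ sL F W u := mem_sL.2 ⟨_, eq_tmul_cL hS.nd hS.qnd (y₀ := -y)
    (by simp [hy']) fun x hx => by
      obtain ⟨c, rfl⟩ := hS.mem_span h2 hu (hS.alt.isRefl _ _ hx)
      simp [← hb, hb0]⟩
  have hin : ∀ p, tB f (polarBilin Q) p (u ⊗ₜ w) = 0 → n p ∈ F ∙ u ⊗ₜ[F] w := fun p hp =>
    hn.into p fun s hs => by
      obtain ⟨a, rfl⟩ := Submodule.mem_span_singleton.1 hs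
      simp [hp]
  obtain ⟨c, hc⟩ := hM u hu n hn.mem fun p => mem_sL.1 (by
    have h5 := hin (p - ((2 * Q w)⁻¹ * tB f (polarBilin Q) p (u ⊗ₜ w)) • y ⊗ₜ w) (by
      have := hS.two
      simp only [map_sub, map_smul, LinearMap.sub_apply, LinearMap.smul_apply, tB_tmul, hy,
        polarBilin_apply_apply, polar_self', smul_eq_mul]
      field_simp
      ring)
    have h6 := Submodule.add_mem _ ((Submodule.span_singleton_le_iff_mem _ _).2
      (tmul_mem_sL u w) h5) (Submodule.smul_mem _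
        ((2 * Q w)⁻¹ * tB f (polarBilin Q) p (u ⊗ₜ w)) h4)
    rwa [← map_smul, ← map_add, sub_add_cancel] at h6)
  obtain ⟨w', hw', hw''⟩ := exists_orth_not_mem (polarBilin Q) hS.three w
  obtain ⟨a, ha⟩ := Submodule.mem_span_singleton.1 (hin (y ⊗ₜ w') (by
    rw [tB_tmul, polarBilin_apply_apply, polar_comm, ← polarBilin_apply_apply, hw', mul_zero]))
  rw [hc, LinearMap.smul_apply, tN_apply, cL_tmul, hy, one_smul, ← tmul_smul, ← tmul_smul] at ha
  by_contra h0
  have hc0 : c ≠ 0 := by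
    rintro rfl
    exact h0 (by rw [hc, zero_smul])
  exact hw'' ((Submodule.smul_mem_iff _ hc0).1 (tmul_left_inj hS.nd hu ha ▸
    Submodule.smul_mem _ _ (Submodule.mem_span_singleton_self w)))

omit [FiniteDimensional F W] [FiniteDimensional F U] in
theorem refl_lTensor_apply (w : W) (p : U ⊗[F] W) :
    (reflLin Q w).lTensor U p = p - (Q w)⁻¹ • cR (polarBilin Q) U w p ⊗ₜ w := by
  rw [reflLin_eq_ro, LinearMap.lTensor_sub, LinearMap.lTensor_smul, End.one_eq_id,
    LinearMap.lTensor_id]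
  simp [lTensor_ro]

omit [FiniteDimensional F W] [FiniteDimensional F U] in
theorem refl_lTensor_sq (w : W) : (reflLin Q w).lTensor U * (reflLin Q w).lTensor U = 1 := by
  ext
  simp [reflLin_reflLin]

/-- An element fixing `u ⊗ w` centralises `1 ⊗ r_w`. -/
theorem TG.comm_refl (hS : TS f Q) (hG : TG f Q X) (hM : TM f X) (h2 : finrank F U ≤ 2)
    (hu : u ≠ 0) (hw : Q w ≠ 0) {k : End F (U ⊗[F] W)} (hk : InG X k)
    (hfix : k (u ⊗ₜ w) = u ⊗ₜ w) : k * (reflLin Q w).lTensor U = (reflLin Q w).lTensor U * k := by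
  obtain ⟨k', hk', h1, h3⟩ := inG_exists_inv hk
  have hfix' : k' (u ⊗ₜ w) = u ⊗ₜ w := by rw [← hfix, ← End.mul_apply, h3, End.one_apply, hfix]
  set r := (reflLin Q w).lTensor U with hr
  have hrv : r (u ⊗ₜ w) = -(u ⊗ₜ w) := by
    rw [hr, LinearMap.lTensor_tmul, show reflLin Q w w = -w from refl_apply_self hw, tmul_neg]
  have hrp : ∀ p, tB f (polarBilin Q) p (u ⊗ₜ w) = 0 → ∃ a : F, r p = p + a • u ⊗ₜ w := by
    intro p hp
    rw [tB_cR] at hp
    obtain ⟨c, hc⟩ := hS.mem_span h2 hu hp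
    exact ⟨-((Q w)⁻¹ * c), by
      rw [hr, refl_lTensor_apply, hc, ← smul_tmul', smul_smul, neg_smul, sub_eq_add_neg]⟩
  have h4 : QS (tB f (polarBilin Q)) X (F ∙ u ⊗ₜ[F] w) (r * k * r * k' - 1) := by
    have hrX : InG X r := hG.right (refl Q w)
    refine ⟨by simpa using ((hrX.mul hk).mul hrX).mul hk', fun p hp => ?_, fun p hp => ?_⟩
    · obtain ⟨a, rfl⟩ := Submodule.mem_span_singleton.1 hp
      simp [hfix, hfix', hrv]
    · have hp' := hp _ (Submodule.mem_span_singleton_self _)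
      obtain ⟨a, ha⟩ := hrp (k' p) (by rw [← hfix', hG.iso _ hk', hp'])
      obtain ⟨b, hb⟩ := hrp p hp'
      simp only [LinearMap.sub_apply, End.mul_apply, End.one_apply, ha, map_add, map_smul, hfix,
        ← End.mul_apply k k', h1, hb, hrv]
      rw [add_assoc, add_sub_cancel_left, smul_neg, ← sub_eq_add_neg, ← sub_smul]
      exact Submodule.smul_mem _ _ (Submodule.mem_span_singleton_self _)
  have h5 := sub_eq_zero.1 (h4.eq_zero_of_point hS hG hM h2 hu hw)
  calc k * r = r * (r * k * r * k') * k := by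
        rw [← mul_assoc r, ← mul_assoc r, ← mul_assoc r, refl_lTensor_sq, one_mul, mul_assoc, h3,
          mul_one]
    _ = r * k := by rw [h5, mul_one]

/-- Conjugates of `1 ⊗ r_w` fix some `U ⊗ z` pointwise. -/
theorem TG.exists_fix [Finite F] (hS : TS f Q) (hG : TG f Q X) (hM : TM f X) (h2 : finrank F U ≤ 2)
    (h5 : 5 ≤ finrank F W) (hw : Q w ≠ 0) {g g' : End F (U ⊗[F] W)} (hg : InG X g)
    (h1 : g * g' = 1) (h3 : g' * g = 1) : ∃ z, z ≠ 0 ∧ Q z = 0 ∧
      ∀ x, (g * (reflLin Q w).lTensor U * g') (x ⊗ₜ z) = x ⊗ₜ z := by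
  have := hS.nt
  obtain ⟨u, hu⟩ := exists_ne (0 : U)
  obtain ⟨y, hy, hy'⟩ := hS.exists_pair hu
  have e1 : ∀ p, g (g' p) = p := LinearMap.congr_fun h1
  have e2 : ∀ p, g' (g p) = p := LinearMap.congr_fun h3
  have hw0 := ne_zero_of_Q_ne_zero hw
  let D : Submodule F W := LinearMap.ker ((cR (polarBilin Q) U).flip (g (u ⊗ₜ w)))
  let E : Submodule F W := LinearMap.ker ((cR (polarBilin Q) U).flip (g (y ⊗ₜ w)))
  have hD : finrank F W ≤ finrank F D + 2 := by
    have h4 : _ + finrank F D = _ :=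
      LinearMap.finrank_range_add_finrank_ker ((cR (polarBilin Q) U).flip (g (u ⊗ₜ w)))
    have h6 := Submodule.finrank_le (LinearMap.range ((cR (polarBilin Q) U).flip (g (u ⊗ₜ w))))
    omega
  obtain ⟨w₁, hw₁, hQ₁⟩ : ∃ w₁ ∈ D, Q w₁ ≠ 0 := by
    by_contra! H
    have h4 : D ≤ perp Q D := fun a ha => mem_perp.2 fun b hb => by
      have := Q_add Q b a
      rwa [H _ ha, H _ hb, H _ (Submodule.add_mem _ hb ha), zero_add, zero_add, eq_comm] at this
    have h6 := Submodule.finrank_mono h4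
    have h7 := finrank_add_finrank_perp hS.qnd D
    omega
  have hDE : D ≤ E := mem_of_nonsingular_mem hS.two D E hw₁ hQ₁ fun w' hw' hQ' => by
    have hw'' : cR (polarBilin Q) U w' (g (u ⊗ₜ w)) = 0 := hw'
    set j := g' * (reflLin Q w').lTensor U * g with hj
    have hjX : InG X j := ((inG_inv hg h1).mul (hG.right (refl Q w'))).mul hg
    have hjv : j (u ⊗ₜ w) = u ⊗ₜ w := by simp [hj, refl_lTensor_apply, hw'', e2]
    have hjj : ∀ p, j (j p) = p := fun p => by
      simp only [hj, End.mul_apply, e1]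
      rw [← End.mul_apply ((reflLin Q w').lTensor U), refl_lTensor_sq, End.one_apply, e2]
    have h4 := LinearMap.congr_fun (hG.comm_refl hS hM h2 hu hw hjX hjv) (y ⊗ₜ w)
    rw [End.mul_apply j, End.mul_apply _ j, LinearMap.lTensor_tmul,
      show reflLin Q w w = -w from refl_apply_self hw, tmul_neg, map_neg, refl_lTensor_apply,
      eq_sub_iff_add_eq, neg_add_eq_iff_eq_add, ← two_smul F] at h4
    obtain ⟨y', hy₁⟩ : ∃ y', j (y ⊗ₜ w) = y' ⊗ₜ w :=
      ⟨((2 : F)⁻¹ * (Q w)⁻¹) • cR (polarBilin Q) U w (j (y ⊗ₜ w)), by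
        rw [← smul_tmul', mul_smul, h4, inv_smul_smul₀ hS.two]⟩
    have h6 := hG.iso _ hjX (y ⊗ₜ w) (u ⊗ₜ w)
    rw [hjv, hy₁, tB_tmul, tB_tmul, polarBilin_apply_apply, polar_self'] at h6
    obtain ⟨c, hc⟩ := hS.mem_span h2 hu (x := y' - y) (by
      rw [map_sub, LinearMap.sub_apply, mul_right_cancel₀ (mul_ne_zero hS.two hw) h6, sub_self])
    rw [sub_eq_iff_eq_add'] at hc
    have h7 := hjj (y ⊗ₜ w)
    rw [hy₁, hc, add_tmul, ← smul_tmul', map_add, map_smul, hy₁, hjv, hc, add_tmul, ← smul_tmul',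
      add_assoc, add_eq_left, ← two_smul F, smul_smul] at h7
    rw [(mul_eq_zero.1 ((smul_eq_zero.1 h7).resolve_right (tmul_ne_zero hS.nd hu hw0))).resolve_left
      hS.two, zero_smul, add_zero] at hc
    have h8 := congrArg g hy₁
    rw [hc, hj, End.mul_apply, End.mul_apply, e1, refl_lTensor_apply, sub_eq_self] at h8
    exact tmul_right_inj hS.qnd (ne_zero_of_Q_ne_zero hQ') (by
      exact ((smul_eq_zero.1 h8).resolve_left (inv_ne_zero hQ')).trans (zero_tmul _ _).symm)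
  obtain ⟨z, hz, hz0, hQz⟩ := exists_singular_mem Q D (by omega)
  refine ⟨z, hz0, hQz, fun x => ?_⟩
  have h4 : cR (polarBilin Q) U w (g' (x ⊗ₜ z)) = 0 := hS.nd.1 _ fun a => by
    obtain ⟨c, hc⟩ := hS.mem_span h2 hu (x := a - f a u • y) (by simp [hy])
    have hz1 : cR (polarBilin Q) U z (g (u ⊗ₜ w)) = 0 := hz
    have hz2 : cR (polarBilin Q) U z (g (y ⊗ₜ w)) = 0 := hDE hz
    rw [← tB_cR, ← hG.iso _ hg, e1, hS.flip, tB_cR, sub_eq_iff_eq_add.1 hc]
    simp [add_tmul, ← smul_tmul', hz1, hz2]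
  simp [refl_lTensor_apply, h4, e1]

/-- The subspace `U ⊗ z`. -/
def sR (F U : Type*) {W : Type*} [Field F] [AddCommGroup U] [Module F U] [AddCommGroup W]
    [Module F W] (z : W) : Submodule F (U ⊗[F] W) :=
  LinearMap.range ((TensorProduct.mk F U W).flip z)

omit [FiniteDimensional F W] [FiniteDimensional F U] in
theorem mem_sR {p : U ⊗[F] W} : p ∈ sR F U z ↔ ∃ x, p = x ⊗ₜ z :=
  ⟨fun ⟨w, h⟩ => ⟨w, h.symm⟩, fun ⟨w, h⟩ => ⟨w, h.symm⟩⟩

omit [FiniteDimensional F W] [FiniteDimensional F U] in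
theorem tmul_mem_sR (x : U) (z : W) : x ⊗ₜ z ∈ sR F U z := ⟨x, rfl⟩

omit [FiniteDimensional F W] [FiniteDimensional F U] in
theorem TS.perp_sR (hS : TS f Q) {p : U ⊗[F] W} :
    (∀ s ∈ sR F U z, tB f (polarBilin Q) p s = 0) ↔ cR (polarBilin Q) U z p = 0 :=
  ⟨fun h => hS.nd.1 _ fun x => by rw [← tB_cR, h _ (tmul_mem_sR x z)], fun h s hs => by
    obtain ⟨x, rfl⟩ := mem_sR.1 hs
    simp [tB_cR, h]⟩

/-- `X` meets the centre of the unipotent radical of the stabiliser of `U ⊗ z` trivially. -/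
theorem TG.eq_zero_of_range_sR (hS : TS f Q) (hG : TG f Q X) (hM : TM f X) (hz0 : z ≠ 0)
    (hz : Q z = 0) (n : End F (U ⊗[F] W)) (hn : InG X (1 + n)) (hr : ∀ p, n p ∈ sR F U z) :
    n = 0 := by
  obtain ⟨z', h⟩ := exists_isHyp hS.qnd hz hz0
  have hzz : ∀ p ∈ sR F U z, cR (polarBilin Q) U z p = 0 := fun p hp => by
    obtain ⟨x, rfl⟩ := mem_sR.1 hp
    simp [h.polar_left]
  have hsk : ∀ p q, tB f (polarBilin Q) (n p) q = -tB f (polarBilin Q) p (n q) := fun p q => by
    have := hG.skew hn p q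
    rw [hS.perp_sR.2 (hzz _ (hr p)) _ (hr q)] at this
    linear_combination this
  have hk : ∀ p, cR (polarBilin Q) U z p = 0 → n p = 0 := fun p hp =>
    (tB_nondegenerate hS.nd hS.qnd).1 _ fun q => by rw [hsk, hS.perp_sR.2 hp _ (hr q), neg_zero]
  have hN : ∀ u, ∀ p ∈ sR F U z, tN f W u p ∈ sR F U z := fun u p hp => by
    obtain ⟨x, rfl⟩ := mem_sR.1 hp
    rw [tN_apply, cL_tmul, ← smul_tmul]
    exact tmul_mem_sR _ _
  have h1 : ∀ u, cL f W u (n (u ⊗ₜ z')) = 0 := fun u => by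
    by_cases hu : u = 0
    · simp [hu]
    have hNN : ∀ p, tN f W u (tN f W u p) = 0 := LinearMap.congr_fun (hS.tN_sq u)
    have a0 : ∀ p, n (n p) = 0 := fun p => hk _ (hzz _ (hr p))
    have a0' : ∀ p, n (tN f W u (n p)) = 0 := fun p => hk _ (hzz _ (hN u _ (hr p)))
    have a1 := inG_conj (hG.tN_mem hS u 1) (g' := 1 - tN f W u) (by ext; simp [hNN]) hn
    have a2 := inG_conj (hG.tN_mem hS u (-1)) (g' := 1 + tN f W u) (by ext; simp [hNN]) hn
    have a3 : InG X (1 - n) := inG_inv hn (by ext; simp [a0])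
    have a4 : InG X (1 + (-2 : F) • (tN f W u * n * tN f W u)) := by
      convert ((a1.mul a2).mul a3).mul a3 using 1
      refine LinearMap.ext fun p => ?_
      simp only [LinearMap.add_apply, End.one_apply, LinearMap.smul_apply, End.mul_apply,
        LinearMap.sub_apply, one_smul, neg_smul, map_add, map_sub, map_neg,
        a0, a0', hNN, map_zero]
      module
    have a5 := hM.eq_zero_of_range hS (w := z) hu a4 fun p => by
      obtain ⟨x, hx⟩ := mem_sR.1 (hr (tN f W u p))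
      simp only [LinearMap.smul_apply, End.mul_apply, hx, tN_apply (p := x ⊗ₜ z), cL_tmul,
        tmul_smul]
      exact Submodule.smul_mem _ _ (Submodule.smul_mem _ _ (Submodule.mem_span_singleton_self _))
    obtain ⟨y, hy, -⟩ := hS.exists_pair hu
    have a6 := LinearMap.congr_fun ((smul_eq_zero.1 a5).resolve_left (neg_ne_zero.2 hS.two))
      (y ⊗ₜ z')
    exact tmul_left_inj hS.nd hu (by simpa [tN_apply, hy] using a6)
  have h2 : ∀ x, n (x ⊗ₜ z') = 0 := fun x => by
    obtain ⟨x', hx'⟩ := mem_sR.1 (hr (x ⊗ₜ z'))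
    suffices x' = 0 by rw [hx', this, zero_tmul]
    refine hS.nd.1 _ fun y => ?_
    obtain ⟨y', hy'⟩ := mem_sR.1 (hr (y ⊗ₜ z'))
    have a1 := hsk (x ⊗ₜ z') (y ⊗ₜ z')
    have a2 := congrArg (fun v => polar Q v z') (h1 (x + y))
    simp only [map_add, add_tmul, LinearMap.add_apply, h1, zero_add, add_zero] at a2
    simp only [hx', hy', tB_tmul, cL_tmul, polarBilin_apply_apply, h.pol, h.pol', polar_add_left,
      polar_smul_left', polar_zero_left, ← hS.alt.neg_eq y' x] at a1 a2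
    exact (mul_eq_zero.1 (by linear_combination a1 + a2 : 2 * f x' y = 0)).resolve_left hS.two
  refine LinearMap.ext fun p => ?_
  have := hk (p - cR (polarBilin Q) U z p ⊗ₜ z') (by simp [h.pol'])
  rwa [map_sub, h2, sub_zero] at this

omit [FiniteDimensional F W] [FiniteDimensional F U] in
theorem TG.qs_eich (hS : TS f Q) (hG : TG f Q X) (hz : Q z = 0) {v : W} (hv : polar Q z v = 0) :
    QS (tB f (polarBilin Q)) X (sR F U z) ((eich Q z v).1.toLinearMap.lTensor U - 1) := by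
  refine ⟨by simpa using hG.right (eich Q z v), fun p hp => ?_, fun p hp => ?_⟩
  · obtain ⟨x, rfl⟩ := mem_sR.1 hp
    simp [eich_apply_self]
  · have : (eich Q z v).1.toLinearMap.lTensor U - 1 = (ro (polarBilin Q) v z).lTensor U -
        (ro (polarBilin Q) z v).lTensor U - Q v • (ro (polarBilin Q) z z).lTensor U := by
      ext a b
      simp only [AlgebraTensorModule.curry_apply, curry_apply, LinearMap.coe_restrictScalars,
        LinearMap.sub_apply, LinearMap.lTensor_tmul, LinearEquiv.coe_coe, eich_apply hz hv,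
        End.one_apply, ro_apply, polarBilin_apply_apply, LinearMap.smul_apply, tmul_sub, tmul_add,
        tmul_smul]
      module
    rw [this]
    simpa [lTensor_ro, hS.perp_sR.1 hp] using tmul_mem_sR _ z

/-- The unipotent radical of the stabiliser of `U ⊗ z` in `X` lies in `1 ⊗ O(W)`. -/
theorem QS.exists_eich (hS : TS f Q) (hG : TG f Q X) (hM : TM f X) (h2 : finrank F U ≤ 2)
    (hz0 : z ≠ 0) (hz : Q z = 0) (hn : QS (tB f (polarBilin Q)) X (sR F U z) n) :
    ∃ v, polar Q z v = 0 ∧ 1 + n = (eich Q z v).1.toLinearMap.lTensor U := by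
  obtain ⟨z', h⟩ := exists_isHyp hS.qnd hz hz0
  have hE : ∀ v, polar Q z v = 0 → ∀ x : U,
      ((eich Q z v).1.toLinearMap.lTensor U - 1) (x ⊗ₜ z') - x ⊗ₜ v ∈ sR F U z := fun v hv x => by
    refine mem_sR.2 ⟨-(polar Q z' v + Q v) • x, ?_⟩
    simp only [LinearMap.sub_apply, LinearMap.lTensor_tmul, LinearEquiv.coe_coe, eich_apply hz hv,
      End.one_apply, h.pol', tmul_sub, tmul_add, tmul_smul, ← smul_tmul']
    module
  have key : ∀ v, polar Q z v = 0 → ∃ c : F, ∀ x, cR (polarBilin Q) U v (n (x ⊗ₜ z')) = c • x := by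
    intro v hv
    refine exists_eq_smul_of_forall_mem_span
      (cR (polarBilin Q) U v ∘ₗ n ∘ₗ (TensorProduct.mk F U W).flip z') fun x => ?_
    by_cases hx : x = 0
    · simp [hx]
    have a1 := hn.rel hS hG (hG.eq_zero_of_range_sR hS hM hz0 hz) (hG.qs_eich hS hz hv)
      (x ⊗ₜ z') (x ⊗ₜ z')
    have a2 := hn.perp hG (x ⊗ₜ z') _ (hE v hv x)
    rw [map_sub, sub_eq_zero] at a2
    rw [a2, ← two_mul, tB_cR] at a1
    obtain ⟨c, hc⟩ := hS.mem_span h2 hx ((mul_eq_zero.1 a1).resolve_left hS.two)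
    exact Submodule.mem_span_singleton.2 ⟨c, hc.symm⟩
  obtain ⟨v, hv⟩ := exists_eq_tmul_of_cR hS.nd hS.qnd (n ∘ₗ (TensorProduct.mk F U W).flip z' -
    (TensorProduct.mk F U W).flip z ∘ₗ cR (polarBilin Q) U z' ∘ₗ n ∘ₗ
      (TensorProduct.mk F U W).flip z') fun w => by
      obtain ⟨c, hc⟩ := key (w - polar Q z w • z') (by simp [polar_sub_right, h.pol])
      exact ⟨c, fun x => by simpa using hc x⟩
  simp only [LinearMap.sub_apply, LinearMap.comp_apply, LinearMap.flip_apply, mk_apply] at hv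
  have hvz : polar Q z v = 0 := by
    have := hS.nt
    obtain ⟨x, hx⟩ := exists_ne (0 : U)
    have := congrArg (cR (polarBilin Q) U z) (hv x)
    simp only [map_sub, hS.perp_sR.1 (hn.perp hG _), cR_tmul, polarBilin_apply_apply, h.polar_left,
      zero_smul, sub_zero] at this
    rw [polar_comm]
    exact (smul_eq_zero.1 this.symm).resolve_right hx
  refine ⟨v, hvz, ?_⟩
  have hm := hG.qs_eich hS hz (v := -v) (by simp [hvz])
  set m := (eich Q z (-v)).1.toLinearMap.lTensor U - 1 with hmdef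
  have hzz : ∀ p ∈ sR F U z, ∀ s ∈ sR F U z, tB f (polarBilin Q) p s = 0 := fun p hp =>
    hS.perp_sR.2 (by
      obtain ⟨x, rfl⟩ := mem_sR.1 hp
      simp [h.polar_left])
  have h3 := hG.eq_zero_of_range_sR hS hM hz0 hz (n + m + n * m) (by
    convert hn.mem.mul hm.mem using 1
    rw [add_mul, mul_add, mul_add]
    simp only [mul_one, one_mul]
    abel) fun p => by
      have a1 := hS.perp_sR.2 (show cR (polarBilin Q) U z (p - cR (polarBilin Q) U z p ⊗ₜ z') = 0 by
        simp [h.pol'])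
      have a2 : (n + m + n * m) (p - cR (polarBilin Q) U z p ⊗ₜ z') ∈ sR F U z :=
        Submodule.add_mem _ (Submodule.add_mem _ (hn.into _ a1) (hm.into _ a1))
          (hn.into _ (hm.perp hG _))
      have a3 : (n + m + n * m) (cR (polarBilin Q) U z p ⊗ₜ z') ∈ sR F U z := by
        refine Submodule.add_mem _ ?_ (hn.into _ (hm.perp hG _))
        convert Submodule.add_mem _ (hE (-v) (by simp [hvz]) (cR (polarBilin Q) U z p))
          (tmul_mem_sR (cR (polarBilin Q) U z' (n (cR (polarBilin Q) U z p ⊗ₜ z'))) z) using 1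
        rw [tmul_neg, ← hv, LinearMap.add_apply, hmdef]
        abel
      have a4 := Submodule.add_mem _ a2 a3
      rwa [← map_add, sub_add_cancel] at a4
  have h4 : (1 + n) * (eich Q z (-v)).1.toLinearMap.lTensor U = 1 := by
    rw [← add_sub_cancel 1 ((eich Q z (-v)).1.toLinearMap.lTensor U), ← hmdef,
      add_mul, mul_add, mul_add]
    simp only [mul_one, one_mul]
    rw [add_assoc, add_eq_left, ← h3]
    abel
  have h5 : (eich Q z (-v)).1.toLinearMap.lTensor U * (eich Q z v).1.toLinearMap.lTensor U = 1 := by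
    rw [← eich_inv]
    ext
    simp
  exact left_inv_eq_right_inv h4 h5

/-- Elements fixing `U ⊗ z` pointwise centralise `Sp(U) ⊗ 1`. -/
theorem TG.comm_tN (hS : TS f Q) (hG : TG f Q X) (hM : TM f X) (h2 : finrank F U ≤ 2)
    (hz0 : z ≠ 0) (hz : Q z = 0) {d : End F (U ⊗[F] W)} (hd : InG X d)
    (hfix : ∀ x, d (x ⊗ₜ z) = x ⊗ₜ z) (hu : u ≠ 0) : d * tN f W u = tN f W u * d := by
  obtain ⟨z', h⟩ := exists_isHyp hS.qnd hz hz0
  obtain ⟨d', hd', h1, h3⟩ := inG_exists_inv hd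
  have e1 : ∀ p, d (d' p) = p := LinearMap.congr_fun h1
  have hfix' : ∀ x, d' (x ⊗ₜ z) = x ⊗ₜ z := fun x => by
    rw [← hfix, ← End.mul_apply, h3, End.one_apply, hfix]
  have hc' : ∀ p, cR (polarBilin Q) U z (d' p) = cR (polarBilin Q) U z p := fun p => by
    rw [← sub_eq_zero]
    refine hS.nd.1 _ fun x => ?_
    rw [map_sub, LinearMap.sub_apply, ← tB_cR, ← tB_cR, ← hG.iso _ hd, e1, hfix, sub_self]
  have hdS : ∀ p ∈ sR F U z, d p ∈ sR F U z := fun p hp => by
    obtain ⟨x, rfl⟩ := mem_sR.1 hp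
    rwa [hfix]
  have hdS' : ∀ p ∈ sR F U z, d' p ∈ sR F U z := fun p hp => by
    obtain ⟨x, rfl⟩ := mem_sR.1 hp
    rwa [hfix']
  have hE : ∀ v, polar Q z v = 0 → ∀ x : U,
      ((eich Q z v).1.toLinearMap.lTensor U - 1) (x ⊗ₜ z') - x ⊗ₜ v ∈ sR F U z := fun v hv x => by
    refine mem_sR.2 ⟨-(polar Q z' v + Q v) • x, ?_⟩
    simp only [LinearMap.sub_apply, LinearMap.lTensor_tmul, LinearEquiv.coe_coe, eich_apply hz hv,
      End.one_apply, h.pol', tmul_sub, tmul_add, tmul_smul, ← smul_tmul']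
    module
  have hphi : ∀ v, polar Q z v = 0 → ∃ v', ∀ x, d (x ⊗ₜ v) - x ⊗ₜ v' ∈ sR F U z := fun v hv => by
    have hq := hG.qs_eich hS hz hv
    obtain ⟨v', hv', e⟩ := (hq.conj hG hd h1 hdS hdS').exists_eich hS hG hM h2 hz0 hz
    refine ⟨v', fun x => ?_⟩
    have a1 := hE v' hv' x
    rw [← e, add_sub_cancel_left] at a1
    have a2 := hdS _ (hq.into (d' (x ⊗ₜ z') - x ⊗ₜ z') (hS.perp_sR.2 (by rw [map_sub, hc', sub_self])))
    convert Submodule.sub_mem _ (Submodule.sub_mem _ a1 a2) (hdS _ (hE v hv x)) using 1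
    simp only [End.mul_apply, map_sub]
    abel
  set N := tN f W u with hN
  have hNN : ∀ p, N (N p) = 0 := LinearMap.congr_fun (hS.tN_sq u)
  have hNS : ∀ p ∈ sR F U z, N p ∈ sR F U z := fun p hp => by
    obtain ⟨x, rfl⟩ := mem_sR.1 hp
    exact tmul_mem_sR _ _
  have h4 : ∀ p, (d * N - N * d) (p - cR (polarBilin Q) U z p ⊗ₜ z') ∈ sR F U z := fun p => by
    induction p using TensorProduct.induction_on with
    | zero => simp
    | add a b ha hb =>
      convert Submodule.add_mem _ ha hb using 1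
      rw [← map_add, map_add (cR (polarBilin Q) U z), add_tmul]
      congr 1
      abel
    | tmul a b =>
      obtain ⟨v', hv'⟩ := hphi (b - polar Q b z • z') (by
        simp [polar_sub_right, h.pol, polar_comm Q z b])
      have e : a ⊗ₜ[F] b - cR (polarBilin Q) U z (a ⊗ₜ b) ⊗ₜ z' = a ⊗ₜ (b - polar Q b z • z') := by
        simp [tmul_sub, smul_tmul]
      rw [e]
      convert Submodule.sub_mem _ (hv' (ro f u u a)) (hNS _ (hv' a)) using 1
      simp [hN, tN]
  have ht : InG X (1 + N) := by simpa using hG.tN_mem hS u 1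
  have ht' : InG X (1 - N) := inG_inv ht (by ext; simp [hNN])
  have h5 : QS (tB f (polarBilin Q)) X (sR F U z) (d * (1 + N) * d' * (1 - N) - 1) := by
    refine ⟨by simpa using ((hd.mul ht).mul hd').mul ht', fun p hp => ?_, fun p hp => ?_⟩
    · obtain ⟨x, rfl⟩ := mem_sR.1 hp
      obtain ⟨x', hx'⟩ := mem_sR.1 (hNS _ (tmul_mem_sR x z))
      have := hNN (x ⊗ₜ z)
      rw [hx'] at this
      simp [hx', hfix, hfix', this]
    · have a1 : cR (polarBilin Q) U z (d' ((1 - N) p)) = 0 := by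
        rw [hc', LinearMap.sub_apply, map_sub, End.one_apply, hN, tN, cR_rTensor, hS.perp_sR.1 hp]
        simp
      have := h4 (d' ((1 - N) p))
      rw [a1, zero_tmul, sub_zero] at this
      convert this using 1
      simp [e1, hNN]
      abel
  obtain ⟨v, hv, e⟩ := h5.exists_eich hS hG hM h2 hz0 hz
  rw [add_sub_cancel] at e
  set E := (eich Q z v).1 with hEdef
  have h6 : ∀ p, d (N (d' p)) = E.toLinearMap.lTensor U (p + N p) - p := fun p => by
    have := LinearMap.congr_fun e (p + N p)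
    rw [← this]
    simp [hNN, e1]
  have h7 : ∀ p, d (N (d' (d (N (d' p))))) = 0 := fun p => by
    rw [← End.mul_apply d' d, h3, End.one_apply, hNN, map_zero]
  obtain ⟨y, hy, hy'⟩ := hS.exists_pair hu
  have h8 : ∀ w, E w = w := fun w => by
    have := congrArg (cL f W y) (h7 (y ⊗ₜ w))
    rw [h6, h6] at this
    simp only [hN, tN_apply, cL_tmul, hy, one_smul, map_add, LinearMap.lTensor_tmul,
      LinearEquiv.coe_coe, map_sub, hS.alt.self_eq_zero, zero_smul, hy',
      map_zero, zero_add] at this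
    have h9 : E ((2 : F) • (E w - w)) = 0 := by
      rw [map_smul, map_sub]
      linear_combination (norm := module) -this
    exact sub_eq_zero.1 ((smul_eq_zero.1 (E.map_eq_zero_iff.1 h9)).resolve_left hS.two)
  have h9 : E.toLinearMap.lTensor U = 1 := by
    ext
    simp [h8]
  refine LinearMap.ext fun p => ?_
  have := h6 (d p)
  rwa [h9, End.one_apply, add_sub_cancel_left, ← End.mul_apply d' d, h3] at this

/-- If `dim U = 2` and `dim W ≥ 5` all conjugates of `t_u ⊗ 1` have the form `t_y ⊗ 1`. -/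
theorem Sig.eq_of_five_le [Finite F] (hS : TS f Q) (hG : TG f Q X) (hM : TM f X)
    (h2 : finrank F U ≤ 2) (h5 : 5 ≤ finrank F W) {B : End F (U ⊗[F] W)} (hB : Sig f X B) :
    ∃ (y : U) (c : F), B = c • tN f W y := by
  obtain ⟨β, hβ⟩ := hS.exists_eq_rTensor_of_refl B fun w hw => by
    obtain ⟨g, g', u, hg, h1, h3, hu, rfl⟩ := hB
    have hg' := inG_inv hg h1
    obtain ⟨z, hz0, hz, hfix⟩ := hG.exists_fix hS hM h2 h5 hw hg' h3 h1
    have := hG.comm_tN hS hM h2 hz0 hz ((hg'.mul (hG.right (refl Q w))).mul hg) hfix hu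
    refine LinearMap.ext fun p => ?_
    have h4 := congrArg g (LinearMap.congr_fun this (g' p))
    simp only [End.mul_apply, ← End.mul_apply g g', h1, End.one_apply] at h4
    exact h4.symm
  exact hB.eq_smul_tN hS hG hM hβ

omit [FiniteDimensional F U] in
theorem Sig.triple_eq_smul (hS : TS f Q) (hG : TG f Q X) (hM : TM f X) (h3 : Nat.card F ≠ 3)
    [FiniteDimensional F U] {A B : End F (U ⊗[F] W)} (hA : Sig f X A) (hB : Sig f X B) :
    ∃ c : F, A * B * A = c • A := by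
  obtain ⟨D⟩ := exists_pairData (k := F) ⟨hS.two, h3, fun R _ _ _ => dickson_all hS.two h3 R⟩
    (hA.qt hS hG) (hB.qt hS hG)
  have hAA := (hA.qt hS hG).sq
  obtain ⟨c, hc⟩ := hA.eq_smul hM (n := D.e * A) (by simpa using (D.qt_e_left hAA).mem 1)
    fun p => ⟨D.e p, by rw [← D.se, End.mul_apply]⟩
  by_cases hc0 : c = 0
  · exact ⟨0, by rw [zero_smul]; exact hA.triple_eq_zero hS hG hM hB (D.nil_of (Or.inl (by
      rw [hc, hc0, zero_smul])))⟩
  have h1 := D.qt_left hAA D.x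
  rw [D.ψ_x, mul_assoc, hc, mul_smul_comm, z_mul_left hAA] at h1
  obtain ⟨c', hc'⟩ := hA.eq_smul hM (n := c • (A * B * A)) (by simpa using h1.mem 1)
    fun p => ⟨c • B (A p), by simp⟩
  exact ⟨c⁻¹ * c', by rw [mul_smul, ← hc', inv_smul_smul₀ hc0]⟩

/-- If `dim U = 2`, `dim W` is odd and `q > 3` all conjugates of `t_u ⊗ 1` have the form
`t_y ⊗ 1`. -/
theorem Sig.eq_of_odd (hS : TS f Q) (hG : TG f Q X) (hM : TM f X) (h3 : Nat.card F ≠ 3)
    (h2 : finrank F U = 2) (hodd : Odd (finrank F W)) {B : End F (U ⊗[F] W)} (hB : Sig f X B) :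
    ∃ (y : U) (c : F), B = c • tN f W y := by
  have h1 : ∀ u, ∃ c : F, ∀ w, cL f W u (B (u ⊗ₜ w)) = c • w := fun u => by
    by_cases hu : u = 0
    · exact ⟨0, by simp [hu]⟩
    obtain ⟨y, hy, -⟩ := hS.exists_pair hu
    obtain ⟨c, hc⟩ := (sig_tN hu).triple_eq_smul hS hG hM h3 hB
    exact ⟨c, fun w => tmul_left_inj hS.nd hu (by
      simpa [tN_apply, hy] using LinearMap.congr_fun hc (y ⊗ₜ w))⟩
  have h4 : ∀ x y, ∃ c : F, ∀ w, cL f W x (B (y ⊗ₜ w)) + cL f W y (B (x ⊗ₜ w)) = c • w := by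
    intro x y
    obtain ⟨a, ha⟩ := h1 x
    obtain ⟨b, hb⟩ := h1 y
    obtain ⟨c, hc⟩ := h1 (x + y)
    refine ⟨c - a - b, fun w => ?_⟩
    have := hc w
    simp only [map_add, add_tmul, LinearMap.add_apply, ha, hb] at this
    linear_combination (norm := module) this
  have hsk := hG.qt_skew hS (hB.qt hS hG)
  obtain ⟨w₀, hw₀⟩ := exists_nonsingular hS.qnd hS.three
  have h2Q := mul_ne_zero hS.two hw₀
  let α : End F U := (2 * Q w₀)⁻¹ • cR (polarBilin Q) U w₀ ∘ₗ B ∘ₗ (TensorProduct.mk F U W).flip w₀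
  have hα : ∀ x y, f (α y) x = (2 * Q w₀)⁻¹ * polar Q (cL f W x (B (y ⊗ₜ w₀))) w₀ := fun x y => by
    simp [α, ← cL_cR]
  have hsym : ∀ x y, f (α y) x = f (α x) y := fun x y => by
    have := hsk (y ⊗ₜ w₀) (x ⊗ₜ w₀)
    rw [hS.flip (y ⊗ₜ w₀), neg_neg, tB_cL, tB_cL] at this
    rw [hα, hα]
    exact congrArg _ this
  have h5 : ∀ x y w, cL f W x (B (y ⊗ₜ w)) + cL f W y (B (x ⊗ₜ w)) = (2 * f (α y) x) • w := by
    intro x y w
    obtain ⟨c, hc⟩ := h4 x y
    have := congrArg (fun v => (2 * Q w₀)⁻¹ * polar Q v w₀) (hc w₀)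
    simp only [polar_add_left, mul_add, ← hα, polar_smul_left', polar_self', hsym y x] at this
    rw [hc, two_mul, this, mul_comm c, inv_mul_cancel_left₀ h2Q]
  have := hS.nt
  obtain ⟨u, hu⟩ := exists_ne (0 : U)
  obtain ⟨y, hy, hy'⟩ := hS.exists_pair hu
  let β : End F W := cL f W u ∘ₗ (B - α.rTensor W) ∘ₗ TensorProduct.mk F U W y
  have h6 : ∀ x w, cL f W x (B (x ⊗ₜ w)) = f (α x) x • w := fun x w => by
    have := h5 x x w
    rw [← two_smul F, mul_smul] at this
    exact smul_right_injective W hS.two this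
  have hdec : ∀ x, ∃ a b : F, x = a • u + b • y := fun x => by
    obtain ⟨c, hc⟩ := hS.mem_span h2.le hu (x := x - f x u • y) (by simp [hy])
    exact ⟨c, f x u, sub_eq_iff_eq_add.1 hc⟩
  have h7 : B = α.rTensor W + β.lTensor U := TensorProduct.ext' fun x w => by
    rw [← sub_eq_zero]
    refine eq_zero_of_cL hS.nd hS.qnd fun x' => ?_
    obtain ⟨a, b, rfl⟩ := hdec x
    obtain ⟨a', b', rfl⟩ := hdec x'
    have e1 := eq_sub_of_add_eq (h5 y u w)
    simp only [β, add_tmul, ← smul_tmul', map_add, map_smul, LinearMap.add_apply, map_sub,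
      LinearMap.smul_apply, LinearMap.rTensor_tmul, LinearMap.lTensor_tmul, cL_tmul, h6, e1,
      LinearMap.comp_apply, mk_apply, LinearMap.sub_apply, hy, hy', hS.alt.self_eq_zero, hsym y u]
    module
  by_cases hβ : β = 0
  · exact hB.eq_smul_tN hS hG hM (β := α) (by rw [h7, hβ, LinearMap.lTensor_zero, add_zero])
  obtain ⟨w, hw⟩ : ∃ w, β w ≠ 0 := by
    by_contra! H
    exact hβ (LinearMap.ext H)
  have h8 : ∀ x, f (α x) x = 0 := fun x => by
    have a1 := congrArg (cL f W x) (LinearMap.congr_fun (hB.qt hS hG).sq (x ⊗ₜ w))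
    have a2 : f (α (α x)) x = 0 := by rw [hsym, hS.alt.self_eq_zero]
    rw [h7] at a1
    simp only [End.mul_apply, LinearMap.add_apply, LinearMap.rTensor_tmul, LinearMap.lTensor_tmul,
      map_add, cL_tmul, a2, hS.alt.self_eq_zero, zero_smul, zero_add, add_zero,
      LinearMap.zero_apply, map_zero] at a1
    rw [← two_smul F, smul_smul] at a1
    exact (mul_eq_zero.1 ((smul_eq_zero.1 a1).resolve_right hw)).resolve_left hS.two
  have h9 : α = 0 := LinearMap.ext fun x => hS.nd.1 _ fun x' => by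
    have := h8 (x + x')
    simp only [map_add, LinearMap.add_apply, h8, hsym x x'] at this
    exact (mul_eq_zero.1 (by linear_combination this : 2 * f (α x) x' = 0)).resolve_left hS.two
  rw [h9, LinearMap.rTensor_zero, zero_add] at h7
  obtain ⟨-, -, -, h10⟩ := hB.lTensor_facts hS hG h7
  rw [← h10, h2] at hodd
  exact absurd hodd (by simp)

/-- Every proper overgroup of `Sp(U) ⊗ O(W)` in `Sp(U ⊗ W)` preserves the tensor
decomposition. -/
theorem TS.exists_eq_map [Finite F] (hS : TS f Q) (h3 : ¬ (Nat.card F = 3 ∧ finrank F W = 3))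
    (h24 : ¬ (finrank F U = 2 ∧ finrank F W = 4)) (M : Subgroup (isomGroup (tB f (polarBilin Q))))
    (hL : ∀ (g : isomGroup (tB f (polarBilin Q))) (α : End F U) (β : End F W),
      g.1.toLinearMap = TensorProduct.map α β → g ∈ M) (hM : M ≠ ⊤) :
    ∀ g ∈ M, ∃ (α : End F U) (β : End F W), g.1.toLinearMap = TensorProduct.map α β := by
  have hmem : ∀ (α : End F U) (β : End F W), (∀ p q, tB f (polarBilin Q) (TensorProduct.map α β p)
      (TensorProduct.map α β q) = tB f (polarBilin Q) p q) →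
      InG (M.map (isoU _)) (TensorProduct.map α β) := fun α β h => by
    have hinj : Function.Injective (TensorProduct.map α β) := by
      rw [← LinearMap.ker_eq_bot, eq_bot_iff]
      intro p hp
      exact (tB_nondegenerate hS.nd hS.qnd).1 p fun q => by
        rw [← h, LinearMap.mem_ker.1 hp]; simp
    exact ⟨_, ⟨⟨LinearEquiv.ofInjectiveEndo _ hinj, h⟩, hL _ α β rfl, rfl⟩, rfl⟩
  have hG : TG f Q (M.map (isoU _)) := ⟨by
      rintro _ ⟨_, ⟨g, -, rfl⟩, rfl⟩
      exact g.2,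
    fun α hα => hmem α LinearMap.id (tB_iso_rTensor hα),
    fun ρ => hmem LinearMap.id ρ.1.toLinearMap (tB_iso_lTensor (O_polar ρ))⟩
  have := Fintype.ofFinite F
  have hex : (∃ t : F, t ≠ 0 ∧ t ≠ -1 ∧ t ≠ -2) ∨
      (4 ≤ finrank F W ∧ ∀ t : F, t = 0 ∨ t = 1 ∨ t = -1) := by
    classical
    by_cases h : ∃ t : F, t ≠ 0 ∧ t ≠ -1 ∧ t ≠ -2
    · exact Or.inl h
    push Not at h
    have h1 : (1 : F) = -2 := h 1 one_ne_zero fun h1 => hS.two (by linear_combination h1)
    have h4 : ∀ t : F, t = 0 ∨ t = 1 ∨ t = -1 := fun t => by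
      by_contra! H
      exact H.2.1 (h1 ▸ h t H.1 H.2.2)
    refine Or.inr ⟨?_, h4⟩
    have h5 : Nat.card F = 3 := by
      rw [Nat.card_eq_fintype_card, ← Finset.card_univ, show (Finset.univ : Finset F) = {0, 1, -1}
        from Finset.ext fun t => by simpa using h4 t]
      exact Finset.card_eq_three.2 ⟨0, 1, -1, zero_ne_one, by simp,
        fun h => hS.two (by linear_combination h), rfl⟩
    have := hS.three
    omega
  have hTM := hG.tm hS hex (by rwa [Subgroup.comap_map_eq_self_of_injective (isoU_injective _)])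
  intro g hg
  refine TG.exists_eq_map hS (X := M.map (isoU _)) (fun B hB => ?_) ⟨_, ⟨g, hg, rfl⟩, rfl⟩
  by_cases h4 : 3 ≤ finrank F U
  · exact hB.eq_of_three_le hS hG hTM h4
  by_cases h5 : 5 ≤ finrank F W
  · exact hB.eq_of_five_le hS hG hTM (by omega) h5
  have h6 : finrank F U = 2 := by
    have := hS.nt
    have h7 := even_finrank_of_alt hS.nd hS.alt
    have h8 := Module.finrank_pos (R := F) (M := U)
    obtain ⟨k, hk⟩ := h7
    omega
  have h7 : finrank F W = 3 := by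
    have := hS.three
    omega
  exact hB.eq_of_odd hS hG hTM (fun h => h3 ⟨h, h7⟩) h6 (by rw [h7]; decide)

end Cfsg.Agent.H27
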